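import Cfsg.Agent.Lib.H22.Deg2pA

/-! # Sylow normalizers of order `2p`: the structure of a permutation character of degree `2p` -/

set_option autoImplicit false
set_option linter.unusedSectionVars false
set_option linter.style.haveILetI false
set_option linter.unusedSimpArgs false
set_option linter.unusedVariables false

namespace Cfsg.Agent.H22

open Cfsg Cfsg.Agent.H21 Cfsg.Agent.H06 Cfsg.Agent.H03
open scoped ComplexConjugate

section

variable {G : Type*} [Group G] [Fintype G]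

theorem char_sub_irr {T : G → ℂ} (hT : IsCharacter G T) (χ : IrrCharacter G)
    (h : classInner T (χ : G → ℂ) ≠ 0) : IsCharacter G (T - (χ : G → ℂ)) := by
  classical
  haveI : Fintype (IrrCharacter G) := Fintype.ofFinite _
  apply isCharacter_of_inner_nat
  · intro g k
    simp only [Pi.sub_apply, isCharacter_conj hT g k,
      isCharacter_conj (Cfsg.Agent.H21.isCharacter_of_irr χ.2) g k]
  · intro ν
    obtain ⟨n, hn⟩ := classInner_isNat hT ν
    rw [classInner_sub_leftH, classInner_irr, hn]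
    by_cases hν : χ = ν
    · subst hν
      rw [if_pos rfl]
      have hn0 : n ≠ 0 := by
        rintro rfl
        exact h (by simpa using hn)
      exact ⟨n - 1, by
        obtain ⟨m, rfl⟩ := Nat.exists_eq_succ_of_ne_zero hn0
        simp⟩
    · rw [if_neg hν, sub_zero]
      exact ⟨n, rfl⟩

theorem char_eq_zero_of_one {T : G → ℂ} (hT : IsCharacter G T) (h1 : T 1 = 0) : T = 0 := by
  funext g
  have h2 := isCharacter_norm_le hT g
  have h3 := one_eq_charDegree hT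
  rw [h1] at h3
  have h4 : charDegree T = 0 := by exact_mod_cast h3.symm
  rw [h4] at h2
  simpa using h2

theorem char_one_nat {T : G → ℂ} (hT : IsCharacter G T) : ∃ n : ℕ, T 1 = n :=
  ⟨charDegree T, one_eq_charDegree hT⟩

theorem irr_one_pos (χ : IrrCharacter G) : ∃ n : ℕ, 0 < n ∧ (χ : G → ℂ) 1 = n :=
  ⟨charDegree (χ : G → ℂ), irr_charDegree_pos χ.2, one_eq_charDegree (Cfsg.Agent.H21.isCharacter_of_irr χ.2)⟩

theorem rel_xor (D E D' E' : IrrCharacter G) (h : D ≠ E) (h' : D' ≠ E')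
    (hs : classInner ((D : G → ℂ) - (E : G → ℂ)) ((D' : G → ℂ) - (E' : G → ℂ)) = 1) :
    (D = D' ∧ E ≠ E') ∨ (D ≠ D' ∧ E = E') := by
  classical
  rw [classInner_sub_leftH, classInner_sub_rightH, classInner_sub_rightH, classInner_irr,
    classInner_irr, classInner_irr, classInner_irr] at hs
  by_cases h1 : D = D' <;> by_cases h2 : E = E' <;> by_cases h3 : D = E' <;> by_cases h4 : E = D' <;>
    simp_all <;> norm_num at hs

theorem rel_both (D E D' E' : IrrCharacter G) (h : D ≠ E) (h' : D' ≠ E')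
    (hs : classInner ((D : G → ℂ) - (E : G → ℂ)) ((D' : G → ℂ) - (E' : G → ℂ)) = 2) :
    D = D' ∧ E = E' := by
  classical
  rw [classInner_sub_leftH, classInner_sub_rightH, classInner_sub_rightH, classInner_irr,
    classInner_irr, classInner_irr, classInner_irr] at hs
  by_cases h1 : D = D' <;> by_cases h2 : E = E' <;> by_cases h3 : D = E' <;> by_cases h4 : E = D' <;>
    simp_all <;> norm_num at hs

end

section

variable {G : Type*} [Group G] [Fintype G] {p : ℕ} [Fact p.Prime] {P : Subgroup G} [Fintype P]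
variable (hx : Exc2 p P) (μ : P →* ℂˣ) (hμ : μ ≠ 1)

theorem F_inner_irr (k : ℤ) (χ : IrrCharacter G) (hχ : χ ≠ PC.oneI G) :
    classInner (FjH P μ k) (χ : G → ℂ) = classInner (VjH P μ k) (χ : G → ℂ) := by
  have h1 : classInner (fun _ => (1 : ℂ)) (χ : G → ℂ) = 0 := by
    have := classInner_irr (PC.oneI G) χ
    rw [if_neg (Ne.symm hχ)] at this
    exact this
  rw [VjH, classInner_add_left, h1, add_zero]

include hx hμ in
/-- The decompositions, chosen for all `j`, with the relations between them. -/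
theorem V_choice : ∃ D E : ℤ → IrrCharacter G, ∀ j : ℤ, ¬ (p : ℤ) ∣ j →
    VjH P μ j = (D j : G → ℂ) - (E j : G → ℂ) ∧ D j ≠ E j ∧
      D j ≠ PC.oneI G ∧ E j ≠ PC.oneI G ∧ (D j : G → ℂ) 1 = (E j : G → ℂ) 1 + 1 := by
  classical
  haveI : Nonempty (IrrCharacter G) := ⟨PC.oneI G⟩
  have hdec := VjH_decomp hx μ hμ
  choose! D E h using hdec
  exact ⟨D, E, h⟩

theorem p_not_dvd_of (hp5 : 5 ≤ p) {i j : ℤ} (hi : ¬ (p : ℤ) ∣ i) (h1 : (p : ℤ) ∣ i - j)
    (h2 : (p : ℤ) ∣ i + j) : False := by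
  have hpp : p.Prime := Fact.out
  have hpi : Prime (p : ℤ) := Nat.prime_iff_prime_int.mp hpp
  have h3 : (p : ℤ) ∣ 2 * i := by
    have : 2 * i = (i - j) + (i + j) := by ring
    rw [this]
    exact dvd_add h1 h2
  rcases hpi.dvd_or_dvd h3 with h4 | h4
  · have h5 : (p : ℤ) ≤ 2 := Int.le_of_dvd (by norm_num) h4
    omega
  · exact hi h4

include hx hμ in
theorem V_same (D E : ℤ → IrrCharacter G) (h : ∀ j : ℤ, ¬ (p : ℤ) ∣ j →
    VjH P μ j = (D j : G → ℂ) - (E j : G → ℂ) ∧ D j ≠ E j ∧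
      D j ≠ PC.oneI G ∧ E j ≠ PC.oneI G ∧ (D j : G → ℂ) 1 = (E j : G → ℂ) 1 + 1)
    (i j : ℤ) (hi : ¬ (p : ℤ) ∣ i) (hj : ¬ (p : ℤ) ∣ j)
    (hij : (p : ℤ) ∣ i - j ∨ (p : ℤ) ∣ i + j) : D i = D j ∧ E i = E j := by
  apply rel_both _ _ _ _ (h i hi).2.1 (h j hj).2.1
  rw [← (h i hi).1, ← (h j hj).1, VjH_inner_V hx μ hμ i j hi hj]
  rcases hij with h1 | h1
  · have h2 : ¬ (p : ℤ) ∣ i - -j := fun h3 => p_not_dvd_of hx.hp5 hi h1 (by simpa using h3)
    simp only [DH, if_pos h1, if_neg h2]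
    norm_num
  · have h2 : ¬ (p : ℤ) ∣ i - j := fun h3 => p_not_dvd_of hx.hp5 hi h3 h1
    have h3 : (p : ℤ) ∣ i - -j := by simpa using h1
    simp only [DH, if_pos h3, if_neg h2]
    norm_num

include hx hμ in
theorem V_xor (D E : ℤ → IrrCharacter G) (h : ∀ j : ℤ, ¬ (p : ℤ) ∣ j →
    VjH P μ j = (D j : G → ℂ) - (E j : G → ℂ) ∧ D j ≠ E j ∧
      D j ≠ PC.oneI G ∧ E j ≠ PC.oneI G ∧ (D j : G → ℂ) 1 = (E j : G → ℂ) 1 + 1)
    (i j : ℤ) (hi : ¬ (p : ℤ) ∣ i) (hj : ¬ (p : ℤ) ∣ j)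
    (h1 : ¬ (p : ℤ) ∣ i - j) (h2 : ¬ (p : ℤ) ∣ i + j) :
    (D i = D j ∧ E i ≠ E j) ∨ (D i ≠ D j ∧ E i = E j) := by
  apply rel_xor _ _ _ _ (h i hi).2.1 (h j hj).2.1
  rw [← (h i hi).1, ← (h j hj).1, VjH_inner_V hx μ hμ i j hi hj]
  have h3 : ¬ (p : ℤ) ∣ i - -j := by simpa using h2
  simp only [DH, if_neg h1, if_neg h3]
  norm_num

include hx hμ in
theorem V_dichotomy (D E : ℤ → IrrCharacter G) (h : ∀ j : ℤ, ¬ (p : ℤ) ∣ j →
    VjH P μ j = (D j : G → ℂ) - (E j : G → ℂ) ∧ D j ≠ E j ∧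
      D j ≠ PC.oneI G ∧ E j ≠ PC.oneI G ∧ (D j : G → ℂ) 1 = (E j : G → ℂ) 1 + 1) :
    (∀ j : ℤ, ¬ (p : ℤ) ∣ j → D j = D 1) ∨ (∀ j : ℤ, ¬ (p : ℤ) ∣ j → E j = E 1) := by
  have hp5 := hx.hp5
  have h1n : ¬ (p : ℤ) ∣ 1 := dvd_auxH (by omega) (by omega) (by omega)
  have h2n : ¬ (p : ℤ) ∣ 2 := dvd_auxH (by omega) (by omega) (by omega)
  have e1 : ¬ (p : ℤ) ∣ (1 : ℤ) - 2 := dvd_auxH (by omega) (by omega) (by omega)
  have e2 : ¬ (p : ℤ) ∣ (1 : ℤ) + 2 := dvd_auxH (by omega) (by omega) (by omega)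
  have hsame := V_same hx μ hμ D E h
  have hxor := V_xor hx μ hμ D E h
  have h12 := hxor 1 2 h1n h2n e1 e2
  have key : ∀ j : ℤ, ¬ (p : ℤ) ∣ j → (D j = D 1 ∨ E j = E 1) ∧ (D j = D 2 ∨ E j = E 2) ∧
      ((p : ℤ) ∣ j - 1 ∨ (p : ℤ) ∣ j + 1 → D j = D 1 ∧ E j = E 1) ∧
      ((p : ℤ) ∣ j - 2 ∨ (p : ℤ) ∣ j + 2 → D j = D 2 ∧ E j = E 2) := by
    intro j hj
    refine ⟨?_, ?_, hsame j 1 hj h1n, hsame j 2 hj h2n⟩
    · by_cases ha : (p : ℤ) ∣ j - 1 ∨ (p : ℤ) ∣ j + 1
      · exact Or.inl (hsame j 1 hj h1n ha).1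
      · push Not at ha
        rcases hxor j 1 hj h1n ha.1 ha.2 with h3 | h3
        · exact Or.inl h3.1
        · exact Or.inr h3.2
    · by_cases ha : (p : ℤ) ∣ j - 2 ∨ (p : ℤ) ∣ j + 2
      · exact Or.inl (hsame j 2 hj h2n ha).1
      · push Not at ha
        rcases hxor j 2 hj h2n ha.1 ha.2 with h3 | h3
        · exact Or.inl h3.1
        · exact Or.inr h3.2
  rcases h12 with ⟨ha, hb⟩ | ⟨ha, hb⟩
  · left
    intro j hj
    obtain ⟨k1, k2, -, -⟩ := key j hj
    by_contra hne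
    have h3 : E j = E 1 := k1.resolve_left hne
    have h4 : E j = E 2 := k2.resolve_left (fun h5 => hne (h5.trans ha.symm))
    exact hb (h3.symm.trans h4)
  · right
    intro j hj
    obtain ⟨k1, k2, -, -⟩ := key j hj
    by_contra hne
    have h3 : D j = D 1 := k1.resolve_right hne
    have h4 : D j = D 2 := k2.resolve_right (fun h5 => hne (h5.trans hb.symm))
    exact ha (h3.symm.trans h4)


theorem one_inner_irr (χ : IrrCharacter G) (hχ : χ ≠ PC.oneI G) :
    classInner (fun _ => (1 : ℂ)) (χ : G → ℂ) = 0 := by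
  have := classInner_irr (PC.oneI G) χ
  rw [if_neg (Ne.symm hχ)] at this
  exact this

include hx hμ in
theorem pi_inner_D {π : G → ℂ} (hπ : IsCharacter G π) (hπP : ∀ y : P, y ≠ 1 → π y = 0)
    (h1 : classInner π (fun _ => 1) = 1) (D E : IrrCharacter G) (j : ℤ) (hj : ¬ (p : ℤ) ∣ j)
    (hV : VjH P μ j = (D : G → ℂ) - (E : G → ℂ)) :
    classInner π (D : G → ℂ) = classInner π (E : G → ℂ) + 1 := by
  have h2 : classInner π (VjH P μ j) = 1 := by
    have h3 : classInner π (FjH P μ j) = 0 := by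
      rw [← classInner_comm_conj, hx.F_inner_pi μ hμ (fun g k => isCharacter_conj hπ g k) hπP j hj]
      simp
    rw [VjH, classInner_add_right, h3, h1, zero_add]
  rw [hV, classInner_sub_rightH] at h2
  linear_combination h2

include hx hμ in
theorem exc2_caseB {π : G → ℂ} (hπ : IsCharacter G π) (hπ1 : π 1 = 2 * p)
    (hπP : ∀ y : P, y ≠ 1 → π y = 0) (h1 : classInner π (fun _ => 1) = 1)
    (hK : ∀ K : Subgroup G, K.Normal → K ≠ ⊥ →
      (∃ z : P, z ≠ 1 ∧ (z : G) ∈ K) ∧ ∃ u ∈ K, orderOf u = 2)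
    (D E : ℤ → IrrCharacter G) (h : ∀ j : ℤ, ¬ (p : ℤ) ∣ j →
    VjH P μ j = (D j : G → ℂ) - (E j : G → ℂ) ∧ D j ≠ E j ∧
      D j ≠ PC.oneI G ∧ E j ≠ PC.oneI G ∧ (D j : G → ℂ) 1 = (E j : G → ℂ) 1 + 1)
    (hE : ∀ j : ℤ, ¬ (p : ℤ) ∣ j → E j = E 1) : False := by
  classical
  haveI : Fintype (IrrCharacter G) := Fintype.ofFinite _
  have hp5 := hx.hp5
  have hpp : p.Prime := Fact.out
  have hp0 : (p : ℂ) ≠ 0 := by exact_mod_cast hpp.ne_zero
  have h1n : ¬ (p : ℤ) ∣ 1 := dvd_auxH (by omega) (by omega) (by omega)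
  have h2n : ¬ (p : ℤ) ∣ 2 := dvd_auxH (by omega) (by omega) (by omega)
  have e1 : ¬ (p : ℤ) ∣ (1 : ℤ) - 2 := dvd_auxH (by omega) (by omega) (by omega)
  have e2 : ¬ (p : ℤ) ∣ (1 : ℤ) + 2 := dvd_auxH (by omega) (by omega) (by omega)
  have hsame := V_same hx μ hμ D E h
  have hxor := V_xor hx μ hμ D E h
  set E₀ := E 1 with hE₀
  have hE₀ne : E₀ ≠ PC.oneI G := (h 1 h1n).2.2.2.1
  have hE₀c : IsCharacter G (E₀ : G → ℂ) := Cfsg.Agent.H21.isCharacter_of_irr E₀.2
  have hFE : ∀ k : ℤ, ¬ (p : ℤ) ∣ k → classInner (FjH P μ k) (E₀ : G → ℂ) = -1 := by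
    intro k hk
    have hne : D k ≠ E₀ := by
      intro h3
      exact (h k hk).2.1 (h3.trans (hE k hk).symm)
    rw [F_inner_irr μ k E₀ hE₀ne, (h k hk).1, classInner_sub_leftH, classInner_irr, classInner_irr,
      if_neg hne, if_pos (hE k hk)]
    simp
  obtain ⟨hEz, hE1⟩ := restrict_of_F hx.hPc μ hμ (fun g k => isCharacter_conj hE₀c g k) (-1) hFE
  obtain ⟨a, ha⟩ := classInner_isNat (isCharacter_indFun P (kmH_isCharacter μ 0)) E₀
  rw [ha, map_natCast] at hE1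
  have hEz' : ∀ z : P, z ≠ 1 → (E₀ : G → ℂ) z = 1 := by
    intro z hz
    rw [hEz z hz]
    simp
  have hDj : ∀ j : ℤ, ¬ (p : ℤ) ∣ j → ∃ b : ℕ, (D j : G → ℂ) 1 = b * p + 2 ∧
      ∀ z : P, z ≠ 1 → (D j : G → ℂ) z - FjH P μ j z = 2 := by
    intro j hj
    have hDc : IsCharacter G (D j : G → ℂ) := Cfsg.Agent.H21.isCharacter_of_irr (D j).2
    have hcl : IsClassFunction G ((D j : G → ℂ) - FjH P μ j) := by
      intro g k
      simp only [Pi.sub_apply, isCharacter_conj hDc g k, FjH_isClass μ j g k]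
    have hF : ∀ k : ℤ, ¬ (p : ℤ) ∣ k →
        classInner (FjH P μ k) ((D j : G → ℂ) - FjH P μ j) = -2 := by
      intro k hk
      rw [classInner_sub_rightH, F_inner_irr μ k (D j) (h j hj).2.2.1, (h k hk).1,
        classInner_sub_leftH, classInner_irr, classInner_irr, hx.F_inner_F μ hμ k j hk hj]
      by_cases hc : (p : ℤ) ∣ k - j ∨ (p : ℤ) ∣ k + j
      · obtain ⟨h3, h4⟩ := hsame k j hk hj hc
        have h5 : E k ≠ D j := fun h6 => (h j hj).2.1 (h6.symm.trans h4)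
        rw [if_pos h3, if_neg h5]
        rcases hc with h6 | h6
        · have h7 : ¬ (p : ℤ) ∣ k - -j := fun h8 => p_not_dvd_of hx.hp5 hk h6 (by simpa using h8)
          simp only [DH, if_pos h6, if_neg h7]
          norm_num
        · have h7 : ¬ (p : ℤ) ∣ k - j := fun h8 => p_not_dvd_of hx.hp5 hk h8 h6
          have h8 : (p : ℤ) ∣ k - -j := by simpa using h6
          simp only [DH, if_pos h8, if_neg h7]
          norm_num
      · push Not at hc
        have h3 : D k ≠ D j := by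
          rcases hxor k j hk hj hc.1 hc.2 with h4 | h4
          · exact absurd ((hE k hk).trans (hE j hj).symm) h4.2
          · exact h4.1
        have h4 : E k ≠ D j := by
          intro h5
          apply (h j hj).2.1
          rw [← h5, hE k hk, hE j hj]
        have h5 : ¬ (p : ℤ) ∣ k - -j := by simpa using hc.2
        rw [if_neg h3, if_neg h4]
        simp only [DH, if_neg hc.1, if_neg h5]
        norm_num
    obtain ⟨hz, h11⟩ := restrict_of_F hx.hPc μ hμ hcl (-2) hF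
    obtain ⟨b, hb⟩ := classInner_isNat (isCharacter_indFun P (kmH_isCharacter μ 0)) (D j)
    rw [classInner_sub_rightH, hb, hx.ind_zero_inner_F μ hμ j hj] at h11
    simp only [Pi.sub_apply, FjH_at_one, sub_zero, map_sub, map_natCast, map_neg, Complex.conj_ofNat] at h11
    refine ⟨b, ?_, ?_⟩
    · rw [h11]
      ring
    · intro z hz1
      have := hz z hz1
      simp only [Pi.sub_apply, map_neg, Complex.conj_ofNat, neg_neg] at this
      exact this
  obtain ⟨b₁, hb₁, hz₁⟩ := hDj 1 h1n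
  obtain ⟨b₂, hb₂, -⟩ := hDj 2 h2n
  have hab : ∀ b : ℕ, ∀ j : ℤ, ¬ (p : ℤ) ∣ j → (D j : G → ℂ) 1 = b * p + 2 → a = b + 1 := by
    intro b j hj hb
    have h3 := (h j hj).2.2.2.2
    rw [hE j hj, hb, hE1] at h3
    have h4 : ((a : ℂ)) * p = ((b + 1 : ℕ) : ℂ) * p := by
      push_cast
      simp only [map_neg, map_one] at h3
      linear_combination -h3
    have h5 := mul_right_cancel₀ hp0 h4
    exact_mod_cast h5
  have hb12 : b₁ = b₂ := by
    have h3 := hab b₁ 1 h1n hb₁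
    have h4 := hab b₂ 2 h2n hb₂
    omega
  have hm : ∀ j : ℤ, ¬ (p : ℤ) ∣ j → classInner π (D j : G → ℂ) ≠ 0 := by
    intro j hj
    rw [pi_inner_D hx μ hμ hπ hπP h1 (D j) (E j) j hj (h j hj).1]
    obtain ⟨n, hn⟩ := classInner_isNat hπ (E j)
    rw [hn]
    exact_mod_cast Nat.succ_ne_zero n
  have hT₁ : IsCharacter G (π - (fun _ => (1 : ℂ))) :=
    char_sub_irr hπ (PC.oneI G) (by
      show classInner π (fun _ => (1 : ℂ)) ≠ 0
      rw [h1]
      exact one_ne_zero)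
  have hT₂ : IsCharacter G (π - (fun _ => (1 : ℂ)) - (D 1 : G → ℂ)) :=
    char_sub_irr hT₁ (D 1) (by
      rw [classInner_sub_leftH, one_inner_irr _ (h 1 h1n).2.2.1, sub_zero]
      exact hm 1 h1n)
  have hD12 : D 1 ≠ D 2 := by
    rcases hxor 1 2 h1n h2n e1 e2 with h3 | h3
    · exact absurd ((hE 2 h2n).symm) h3.2
    · exact h3.1
  have hT₃ : IsCharacter G (π - (fun _ => (1 : ℂ)) - (D 1 : G → ℂ) - (D 2 : G → ℂ)) :=
    char_sub_irr hT₂ (D 2) (by
      rw [classInner_sub_leftH, classInner_sub_leftH, one_inner_irr _ (h 2 h2n).2.2.1, sub_zero,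
        classInner_irr, if_neg hD12, sub_zero]
      exact hm 2 h2n)
  obtain ⟨n, hn⟩ := char_one_nat hT₃
  simp only [Pi.sub_apply, hπ1, hb₁, hb₂] at hn
  subst hb12
  have hnat : 2 * p = n + 1 + 2 * (b₁ * p + 2) := by
    have : ((2 * p : ℕ) : ℂ) = ((n + 1 + 2 * (b₁ * p + 2) : ℕ) : ℂ) := by
      push_cast
      linear_combination hn
    exact_mod_cast this
  have hb0 : b₁ = 0 := by
    by_contra hne
    have h3 : p ≤ b₁ * p := Nat.le_mul_of_pos_left p (Nat.pos_of_ne_zero hne)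
    omega
  subst hb0
  have hD₁1 : (D 1 : G → ℂ) 1 = 2 := by rw [hb₁]; simp
  have hE₀1 : (E₀ : G → ℂ) 1 = 1 := by
    have h3 := (h 1 h1n).2.2.2.2
    rw [hD₁1] at h3
    rw [← hE₀] at h3
    linear_combination -h3
  -- the kernel of the linear character contains `P`
  obtain ⟨z₀, hz₀⟩ : ∃ z : P, z ≠ 1 := by
    haveI : Nontrivial P := (Finite.one_lt_card_iff_nontrivial).mp (by rw [hx.hPc]; omega)
    exact exists_ne 1
  have hKne : charKer (E₀ : G → ℂ) hE₀c ≠ ⊥ := by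
    intro hb
    have h3 : (z₀ : G) ∈ charKer (E₀ : G → ℂ) hE₀c := by
      rw [mem_charKer, hEz' z₀ hz₀, hE₀1]
    rw [hb, Subgroup.mem_bot] at h3
    exact hz₀ (Subtype.ext h3)
  obtain ⟨-, u, hu, huo⟩ := hK _ (charKer_normal _ _) hKne
  have hu1 : u ≠ 1 := by
    rintro rfl
    simp at huo
  have hup : ¬ p ∣ orderOf u := by
    rw [huo]
    intro h3
    have := Nat.le_of_dvd (by norm_num) h3
    omega
  have hDc : IsCharacter G (D 1 : G → ℂ) := Cfsg.Agent.H21.isCharacter_of_irr (D 1).2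
  have hDu : (D 1 : G → ℂ) u = 2 := by
    have h3 := congrFun (h 1 h1n).1 u
    simp only [VjH, Pi.add_apply, hx.F_at_reg μ 1 u hu1 hup, Pi.sub_apply, zero_add] at h3
    have h4 : (E₀ : G → ℂ) u = 1 := by
      have := mem_charKer.mp hu
      rw [this, hE₀1]
    rw [← hE₀, h4] at h3
    linear_combination -h3
  have hK2 : charKer (D 1 : G → ℂ) hDc ≠ ⊥ := by
    intro hb
    have h3 : u ∈ charKer (D 1 : G → ℂ) hDc := by
      rw [mem_charKer, hDu, hD₁1]
    rw [hb, Subgroup.mem_bot] at h3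
    exact hu1 h3
  obtain ⟨⟨z, hz, hzK⟩, -⟩ := hK _ (charKer_normal _ _) hK2
  have h3 := hz₁ z hz
  rw [mem_charKer.mp hzK, hD₁1, hx.F_at_P μ 1 z hz] at h3
  have hx0 : ((μ z : ℂˣ) : ℂ) ≠ 0 := Units.ne_zero _
  have h4 : kmH μ 1 z = ((μ z : ℂˣ) : ℂ) := by simp [kmH]
  have h5 : kmH μ (-1) z = ((μ z : ℂˣ) : ℂ)⁻¹ := by simp [kmH]
  rw [h4, h5, kmH_zero] at h3
  have h6 : (((μ z : ℂˣ) : ℂ) - 1) ^ 2 = 0 := by
    field_simp at h3
    linear_combination -h3
  have h7 : ((μ z : ℂˣ) : ℂ) = 1 := by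
    have := pow_eq_zero_iff (two_ne_zero) |>.mp h6
    linear_combination this
  exact km_faithful hx.hPc μ hμ z hz (Units.ext h7)

include hx hμ in
theorem exc2_caseA {π : G → ℂ} (hπ : IsCharacter G π) (hπ1 : π 1 = 2 * p)
    (hπP : ∀ y : P, y ≠ 1 → π y = 0) (h1 : classInner π (fun _ => 1) = 1)
    (D E : ℤ → IrrCharacter G) (h : ∀ j : ℤ, ¬ (p : ℤ) ∣ j →
    VjH P μ j = (D j : G → ℂ) - (E j : G → ℂ) ∧ D j ≠ E j ∧
      D j ≠ PC.oneI G ∧ E j ≠ PC.oneI G ∧ (D j : G → ℂ) 1 = (E j : G → ℂ) 1 + 1)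
    (hD : ∀ j : ℤ, ¬ (p : ℤ) ∣ j → D j = D 1) :
    classInner π π = 2 ∨ ∃ D' R : IrrCharacter G,
      (π = fun g => 1 + (D' : G → ℂ) g + (R : G → ℂ) g) ∧ (D' : G → ℂ) 1 = (p : ℂ) - 1 ∧
      (R : G → ℂ) 1 = p ∧ ∀ y : P, y ≠ 1 → (D' : G → ℂ) y = -1 ∧ (R : G → ℂ) y = 0 := by
  classical
  haveI : Fintype (IrrCharacter G) := Fintype.ofFinite _
  have hp5 := hx.hp5
  have hpp : p.Prime := Fact.out
  have hp0 : (p : ℂ) ≠ 0 := by exact_mod_cast hpp.ne_zero
  have h1n : ¬ (p : ℤ) ∣ 1 := dvd_auxH (by omega) (by omega) (by omega)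
  set D₀ := D 1 with hD₀
  have hD₀ne : D₀ ≠ PC.oneI G := (h 1 h1n).2.2.1
  have hD₀c : IsCharacter G (D₀ : G → ℂ) := Cfsg.Agent.H21.isCharacter_of_irr D₀.2
  have hED : ∀ k : ℤ, ¬ (p : ℤ) ∣ k → E k ≠ D₀ := by
    intro k hk h3
    exact (h k hk).2.1 ((hD k hk).trans h3.symm)
  have hFD : ∀ k : ℤ, ¬ (p : ℤ) ∣ k → classInner (FjH P μ k) (D₀ : G → ℂ) = 1 := by
    intro k hk
    rw [F_inner_irr μ k D₀ hD₀ne, (h k hk).1, classInner_sub_leftH, classInner_irr, classInner_irr,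
      if_pos (hD k hk), if_neg (hED k hk)]
    simp
  obtain ⟨hDz, hD1⟩ := restrict_of_F hx.hPc μ hμ (fun g k => isCharacter_conj hD₀c g k) 1 hFD
  obtain ⟨a, ha⟩ := classInner_isNat (isCharacter_indFun P (kmH_isCharacter μ 0)) D₀
  rw [ha, map_natCast, map_one, one_mul] at hD1
  have hDz' : ∀ z : P, z ≠ 1 → (D₀ : G → ℂ) z = -1 := by
    intro z hz
    rw [hDz z hz]
    simp
  have hmul : ∀ k : ℤ, ¬ (p : ℤ) ∣ k → classInner π (D₀ : G → ℂ) = classInner π (E k : G → ℂ) + 1 := by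
    intro k hk
    have := pi_inner_D hx μ hμ hπ hπP h1 (D k) (E k) k hk (h k hk).1
    rwa [hD k hk] at this
  have hone_ne : classInner π (D₀ : G → ℂ) ≠ 0 := by
    rw [hmul 1 h1n]
    obtain ⟨n, hn⟩ := classInner_isNat hπ (E 1)
    rw [hn]
    exact_mod_cast Nat.succ_ne_zero n
  have hT₁ : IsCharacter G (π - (fun _ => (1 : ℂ))) :=
    char_sub_irr hπ (PC.oneI G) (by
      show classInner π (fun _ => (1 : ℂ)) ≠ 0
      rw [h1]
      exact one_ne_zero)
  have hT₁D : classInner (π - (fun _ => (1 : ℂ))) (D₀ : G → ℂ) = classInner π (D₀ : G → ℂ) := by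
    rw [classInner_sub_leftH, one_inner_irr _ hD₀ne, sub_zero]
  have hT₂ : IsCharacter G (π - (fun _ => (1 : ℂ)) - (D₀ : G → ℂ)) :=
    char_sub_irr hT₁ D₀ (by rw [hT₁D]; exact hone_ne)
  obtain ⟨n₂, hn₂⟩ := char_one_nat hT₂
  simp only [Pi.sub_apply, hπ1, hD1] at hn₂
  have hnat : p = n₂ + a * p := by
    have : ((p : ℕ) : ℂ) = ((n₂ + a * p : ℕ) : ℂ) := by
      push_cast
      linear_combination hn₂
    exact_mod_cast this
  have ha1 : a ≤ 1 := by
    by_contra hlt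
    have h3 : 2 * p ≤ a * p := Nat.mul_le_mul_right p (by omega)
    have := hpp.pos
    omega
  have hval : ∀ χ : IrrCharacter G, classInner (π - (fun _ => (1 : ℂ)) - (D₀ : G → ℂ)) (χ : G → ℂ) =
      classInner π (χ : G → ℂ) - classInner (fun _ => (1 : ℂ)) (χ : G → ℂ) - if D₀ = χ then 1 else 0 := by
    intro χ
    rw [classInner_sub_leftH, classInner_sub_leftH, classInner_irr]
  rcases Nat.le_one_iff_eq_zero_or_eq_one.mp ha1 with ha0 | ha0
  · -- `D₀` has degree `p - 1`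
    right
    subst ha0
    have hD1' : (D₀ : G → ℂ) 1 = (p : ℂ) - 1 := by
      rw [hD1]
      simp
    have hE1 : ∀ k : ℤ, ¬ (p : ℤ) ∣ k → (E k : G → ℂ) 1 = (p : ℂ) - 2 := by
      intro k hk
      have h3 := (h k hk).2.2.2.2
      rw [hD k hk, hD1'] at h3
      linear_combination -h3
    have hEzero : ∀ k : ℤ, ¬ (p : ℤ) ∣ k → classInner π (E k : G → ℂ) = 0 := by
      intro k hk
      by_contra hne
      have hT₃ : IsCharacter G (π - (fun _ => (1 : ℂ)) - (D₀ : G → ℂ) - (D₀ : G → ℂ)) :=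
        char_sub_irr hT₂ D₀ (by
          rw [hval, one_inner_irr _ hD₀ne, if_pos rfl, hmul k hk]
          simpa using hne)
      have hT₄ : IsCharacter G (π - (fun _ => (1 : ℂ)) - (D₀ : G → ℂ) - (D₀ : G → ℂ) - (E k : G → ℂ)) :=
        char_sub_irr hT₃ (E k) (by
          rw [classInner_sub_leftH, hval, one_inner_irr _ (h k hk).2.2.2.1, if_neg (Ne.symm (hED k hk)),
            classInner_irr, if_neg (Ne.symm (hED k hk))]
          simpa using hne)
      obtain ⟨n, hn⟩ := char_one_nat hT₄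
      simp only [Pi.sub_apply, hπ1, hD1', hE1 k hk] at hn
      have : ((n + p : ℕ) : ℂ) = ((3 : ℕ) : ℂ) := by
        push_cast
        linear_combination -hn
      have h3 : n + p = 3 := by exact_mod_cast this
      omega
    have hD₀one : classInner π (D₀ : G → ℂ) = 1 := by
      rw [hmul 1 h1n, hEzero 1 h1n, zero_add]
    have hT₂cl : IsClassFunction G (π - (fun _ => (1 : ℂ)) - (D₀ : G → ℂ)) :=
      fun g k => isCharacter_conj hT₂ g k
    obtain ⟨χ, hχ⟩ : ∃ χ : IrrCharacter G,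
        classInner (π - (fun _ => (1 : ℂ)) - (D₀ : G → ℂ)) (χ : G → ℂ) ≠ 0 := by
      by_contra hcon
      push Not at hcon
      have h3 := congrFun (classFunction_expansion _ hT₂cl) 1
      simp only [hcon, zero_smul, Finset.sum_const_zero, Pi.zero_apply, Pi.sub_apply, hπ1, hD1'] at h3
      apply hp0
      linear_combination h3
    have hχ1 : χ ≠ PC.oneI G := by
      rintro rfl
      apply hχ
      rw [hval, if_neg hD₀ne]
      have h3 : classInner π ((PC.oneI G : IrrCharacter G) : G → ℂ) = 1 := h1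
      have h4 : classInner (fun _ => (1 : ℂ)) ((PC.oneI G : IrrCharacter G) : G → ℂ) = 1 :=
        classInner_one_one
      rw [h3, h4]
      simp
    have hχD : D₀ ≠ χ := by
      rintro rfl
      apply hχ
      rw [hval, one_inner_irr _ hD₀ne, if_pos rfl, hD₀one]
      simp
    have hχπ : classInner π (χ : G → ℂ) ≠ 0 := by
      intro h3
      apply hχ
      rw [hval, one_inner_irr _ hχ1, if_neg hχD, h3]
      simp
    have hχE : ∀ k : ℤ, ¬ (p : ℤ) ∣ k → E k ≠ χ := by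
      intro k hk h3
      apply hχπ
      rw [← h3, hEzero k hk]
    have hFχ : ∀ k : ℤ, ¬ (p : ℤ) ∣ k → classInner (FjH P μ k) (χ : G → ℂ) = 0 := by
      intro k hk
      rw [F_inner_irr μ k χ hχ1, (h k hk).1, classInner_sub_leftH, classInner_irr, classInner_irr,
        if_neg (hχE k hk), hD k hk, if_neg hχD]
      simp
    have hχc : IsCharacter G (χ : G → ℂ) := Cfsg.Agent.H21.isCharacter_of_irr χ.2
    obtain ⟨hχz, hχ1v⟩ := restrict_of_F hx.hPc μ hμ (fun g k => isCharacter_conj hχc g k) 0 hFχ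
    obtain ⟨b, hb⟩ := classInner_isNat (isCharacter_indFun P (kmH_isCharacter μ 0)) χ
    rw [hb, map_natCast, map_zero, zero_mul, add_zero] at hχ1v
    have hT₃ : IsCharacter G (π - (fun _ => (1 : ℂ)) - (D₀ : G → ℂ) - (χ : G → ℂ)) :=
      char_sub_irr hT₂ χ hχ
    obtain ⟨n, hn⟩ := char_one_nat hT₃
    simp only [Pi.sub_apply, hπ1, hD1', hχ1v] at hn
    have hnat2 : p = n + b * p := by
      have : ((p : ℕ) : ℂ) = ((n + b * p : ℕ) : ℂ) := by
        push_cast
        linear_combination hn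
      exact_mod_cast this
    obtain ⟨d, hd, hd1⟩ := irr_one_pos χ
    have hb0 : b ≠ 0 := by
      rintro rfl
      rw [hd1] at hχ1v
      simp only [Nat.cast_zero, zero_mul] at hχ1v
      have : d = 0 := by exact_mod_cast hχ1v
      omega
    have hb1 : b = 1 := by
      by_contra hne
      have h3 : 2 * p ≤ b * p := Nat.mul_le_mul_right p (by omega)
      have := hpp.pos
      omega
    subst hb1
    have hn0 : n = 0 := by omega
    subst hn0
    have hzero := char_eq_zero_of_one hT₃ (by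
      simp only [Pi.sub_apply, hπ1, hD1', hχ1v]
      push_cast
      ring)
    refine ⟨D₀, χ, ?_, hD1', ?_, ?_⟩
    · funext g
      have := congrFun hzero g
      simp only [Pi.sub_apply, Pi.zero_apply] at this
      linear_combination this
    · rw [hχ1v]
      simp
    · intro y hy
      refine ⟨hDz' y hy, ?_⟩
      rw [hχz y hy]
      simp
  · -- `D₀` has degree `2p - 1`
    left
    subst ha0
    have hzero := char_eq_zero_of_one hT₂ (by
      simp only [Pi.sub_apply, hπ1, hD1]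
      push_cast
      ring)
    have hπeq : π = (fun _ => (1 : ℂ)) + (D₀ : G → ℂ) := by
      funext g
      have := congrFun hzero g
      simp only [Pi.sub_apply, Pi.zero_apply] at this
      rw [Pi.add_apply]
      linear_combination this
    have h3 : classInner (D₀ : G → ℂ) (fun _ => (1 : ℂ)) = 0 := by
      rw [← classInner_comm_conj, one_inner_irr _ hD₀ne]
      simp
    rw [hπeq, classInner_add_left, classInner_add_right, classInner_add_right,
      classInner_one_one, one_inner_irr _ hD₀ne, h3, classInner_self_irr]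
    norm_num

include hx in
/-- **Structure of a transitive permutation character of degree `2p` in which the non-trivial
elements of `P` are fixed-point-free.** -/
theorem exc2_main {π : G → ℂ} (hπ : IsCharacter G π) (hπ1 : π 1 = 2 * p)
    (hπP : ∀ y : P, y ≠ 1 → π y = 0) (h1 : classInner π (fun _ => 1) = 1)
    (hK : ∀ K : Subgroup G, K.Normal → K ≠ ⊥ →
      (∃ z : P, z ≠ 1 ∧ (z : G) ∈ K) ∧ ∃ u ∈ K, orderOf u = 2) :
    classInner π π = 2 ∨ ∃ D' R : IrrCharacter G,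
      (π = fun g => 1 + (D' : G → ℂ) g + (R : G → ℂ) g) ∧ (D' : G → ℂ) 1 = (p : ℂ) - 1 ∧
      (R : G → ℂ) 1 = p ∧ ∀ y : P, y ≠ 1 → (D' : G → ℂ) y = -1 ∧ (R : G → ℂ) y = 0 := by
  obtain ⟨μ, hμ⟩ := exists_nontrivial_char hx.hPc
  obtain ⟨D, E, h⟩ := V_choice hx μ hμ
  rcases V_dichotomy hx μ hμ D E h with hD | hE
  · exact exc2_caseA hx μ hμ hπ hπ1 hπP h1 D E h hD
  · exact (exc2_caseB hx μ hμ hπ hπ1 hπP h1 hK D E h hE).elim

end

end Cfsg.Agent.H22
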