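import Cfsg.Agent.Lib.H06.CharGalois
import Cfsg.Agent.Lib.H21.MinMax
import Cfsg.Agent.Lib.H22.Brauer2

/-! # Coefficients of block idempotents lie in the field of `p'`-roots of unity -/

set_option autoImplicit false
set_option linter.unusedSectionVars false
set_option linter.style.haveILetI false
set_option linter.unusedSimpArgs false
set_option linter.unusedVariables false

namespace Cfsg.Agent.H22

open Cfsg Cfsg.Agent.H21 Module
open scoped ComplexConjugate

universe u

variable {G : Type u} [Group G] [Finite G]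

theorem character_eq_sum_pow {χ : G → ℂ} (hχ : IsCharacter G χ) (g : G) {ζ : ℂ}
    (hζ : IsPrimitiveRoot ζ (Nat.card G)) :
    ∃ (ι : Type) (_ : Fintype ι) (e : ι → ℕ), ∀ k : ℕ, χ (g ^ k) = ∑ i, (ζ ^ k) ^ e i := by
  classical
  obtain ⟨d, ρ, rfl⟩ := hχ
  obtain ⟨ι, hι, b, μ, h1, h2, h3, _⟩ := Cfsg.Agent.H21.exists_eigenbasis ρ g
  have hμN : ∀ i, μ i ^ (Nat.card G) = 1 := by
    intro i
    obtain ⟨c, hc⟩ := orderOf_dvd_natCard g
    rw [hc, pow_mul, h2, one_pow]
  choose e he1 he2 using fun i => hζ.eq_pow_of_pow_eq_one (hμN i)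
  have hk : ∀ k : ℕ, ∀ i, ρ (g ^ k) (b i) = (μ i ^ k) • b i := by
    intro k i
    induction k with
    | zero => simp
    | succ k ih =>
      rw [pow_succ, map_mul, Module.End.mul_apply, h1, map_smul, ih, smul_smul, pow_succ, mul_comm]
  refine ⟨ι, hι, e, fun k => ?_⟩
  rw [Representation.character, Cfsg.Agent.H21.trace_of_eigenbasis _ b _ (hk k)]
  refine Finset.sum_congr rfl fun i _ => ?_
  rw [← he2 i, ← pow_mul, ← pow_mul, mul_comm]

theorem character_map {χ : G → ℂ} (hχ : IsCharacter G χ) (g : G) {ζ : ℂ}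
    (hζ : IsPrimitiveRoot ζ (Nat.card G)) {τ : ℂ →+* ℂ} {k : ℕ} (hk : τ ζ = ζ ^ k) :
    τ (χ g) = χ (g ^ k) := by
  obtain ⟨ι, _, e, he⟩ := character_eq_sum_pow hχ g hζ
  have h1 := he 1
  rw [pow_one, pow_one] at h1
  rw [h1, he k, map_sum]
  refine Finset.sum_congr rfl fun i _ => ?_
  rw [map_pow, hk]

/-- The Galois conjugate of an irreducible character. -/
noncomputable def powIrr {k : ℕ} (hk : k.Coprime (Nat.card G)) (χ : IrrCharacter G) : IrrCharacter G :=
  ⟨fun g => χ.1 (g ^ k), H06.isIrrCharacter_comp_pow hk χ.2⟩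

theorem powIrr_apply {k : ℕ} (hk : k.Coprime (Nat.card G)) (χ : IrrCharacter G) (g : G) :
    (powIrr hk χ).1 g = χ.1 (g ^ k) := rfl

theorem powIrr_bijective {k : ℕ} (hk : k.Coprime (Nat.card G)) :
    Function.Bijective (powIrr hk : IrrCharacter G → IrrCharacter G) := by
  refine Finite.injective_iff_bijective.1 ?_
  intro χ ψ h
  apply Subtype.ext
  funext g
  have h1 := powCoprime (G := G) (n := k) (Nat.coprime_comm.mp hk)
  obtain ⟨y, rfl⟩ := (powCoprime (G := G) (n := k) (Nat.coprime_comm.mp hk)).surjective g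
  have h2 := congrFun (congrArg Subtype.val h) y
  exact h2

variable {p : ℕ} [hp : Fact p.Prime] {M : Ideal AlgInt}

theorem blockCoeff_mem_adjoin (hM : IsPModular p M) {B : Set (IrrCharacter G)} (hB : IsPBlock M B)
    (g : G) : blockCoeff B g ∈ IntermediateField.adjoin ℚ ({Complex.exp (2 * Real.pi * Complex.I /
      ((Nat.card G / p ^ (Nat.card G).factorization p : ℕ) : ℂ))} : Set ℂ) := by
  classical
  haveI hMp : M.IsPrime := hM.2.1.isPrime
  set n := Nat.card G with hn
  have hn0 : n ≠ 0 := Nat.card_pos.ne'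
  set m := n / p ^ n.factorization p with hm
  have hmdvd : m ∣ n := Nat.div_dvd_of_dvd (Nat.ordProj_dvd n p)
  have hm0 : m ≠ 0 := fun h => hn0 (by rw [h, zero_dvd_iff] at hmdvd; exact hmdvd)
  set η := Complex.exp (2 * Real.pi * Complex.I / (m : ℂ)) with hηd
  have hη : IsPrimitiveRoot η m := Complex.isPrimitiveRoot_exp m hm0
  set ζ := Complex.exp (2 * Real.pi * Complex.I / (n : ℂ)) with hζd
  have hζ : IsPrimitiveRoot ζ n := Complex.isPrimitiveRoot_exp n hn0
  set F : IntermediateField ℚ ℂ := IntermediateField.adjoin ℚ {η} with hF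
  have hηF : η ∈ F := IntermediateField.mem_adjoin_simple_self ℚ η
  haveI : NeZero n := ⟨hn0⟩
  have halg : IsAlgebraic F ζ := by
    refine ⟨Polynomial.X ^ n - 1, Polynomial.X_pow_sub_C_ne_zero (Nat.pos_of_ne_zero hn0) (1 : F), ?_⟩
    simp [hζ.pow_eq_one]
  let E : IntermediateField F ℂ := IntermediateField.adjoin F {ζ}
  have hcyc : IsCyclotomicExtension {n} F E := by
    change IsCyclotomicExtension {n} F E.toSubalgebra
    simp only [E]
    rw [IntermediateField.adjoin_simple_toSubalgebra_of_isAlgebraic halg]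
    exact hζ.adjoin_isCyclotomicExtension F
  haveI : IsGalois F E := IsCyclotomicExtension.isGalois {n} F E
  haveI : FiniteDimensional F E := IsCyclotomicExtension.finiteDimensional {n} F E
  have hζE : ζ ∈ E := IntermediateField.mem_adjoin_simple_self F ζ
  -- characters have values in `E`
  have hcharE : ∀ (χ : IrrCharacter G) (y : G), χ.1 y ∈ E := by
    intro χ y
    obtain ⟨ι, _, e, he⟩ := character_eq_sum_pow (Cfsg.Agent.H21.isCharacter_of_irr χ.2) y hζ
    have h1 := he 1
    rw [pow_one, pow_one] at h1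
    rw [h1]
    exact sum_mem fun i _ => pow_mem hζE _
  have hxeq : blockCoeff B g = (n : ℂ)⁻¹ * ∑ χ : IrrCharacter G, eB B χ * (χ.1 1 * χ.1 g⁻¹) := by
    unfold blockCoeff
    rw [finsum_mem_irr]
    congr 2
    funext χ
    rw [irr_inv']
  have hxE : blockCoeff B g ∈ E := by
    rw [hxeq]
    refine mul_mem (inv_mem (natCast_mem E n)) (sum_mem fun χ _ => ?_)
    refine mul_mem ?_ (mul_mem (hcharE χ 1) (hcharE χ _))
    by_cases hχ : χ ∈ B
    · rw [eB_apply_mem hχ]
      exact one_mem _
    · rw [eB_apply_not_mem hχ]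
      exact zero_mem _
  set x' : E := ⟨blockCoeff B g, hxE⟩ with hx'
  have hfixed : ∀ σ : Gal(E/F), σ x' = x' := by
    intro σ
    obtain ⟨τ, hτ⟩ := H06.exists_ringHom_extend (K := E) σ.toRingEquiv
    have hτE : ∀ a : E, τ (a : ℂ) = ((σ a : E) : ℂ) := fun a => hτ a
    -- action on roots
    have hτζ : (τ ζ) ^ n = 1 := by
      rw [← map_pow, hζ.pow_eq_one, map_one]
    obtain ⟨k, -, hk⟩ := hζ.eq_pow_of_pow_eq_one hτζ
    have hprim : IsPrimitiveRoot (τ ζ) n := hζ.map_of_injective τ.injective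
    rw [← hk] at hprim
    have hcop : k.Coprime n := (hζ.pow_iff_coprime (Nat.pos_of_ne_zero hn0) k).mp hprim
    have hτη : τ η = η := by
      let y : F := ⟨η, hηF⟩
      have h1 := hτE (algebraMap F E y)
      have h2 : ((algebraMap F E y : E) : ℂ) = η := rfl
      rw [h2] at h1
      rw [h1]
      have h3 : σ (algebraMap F E y) = algebraMap F E y := σ.commutes y
      rw [h3]
      exact h2
    have hηn : η ^ n = 1 := by
      obtain ⟨c, hc⟩ := hmdvd
      rw [hc, pow_mul, hη.pow_eq_one, one_pow]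
    obtain ⟨s, -, hs⟩ := hζ.eq_pow_of_pow_eq_one hηn
    have hηk : η ^ k = η ^ 1 := by
      have h1 : τ η = η ^ k := by
        rw [← hs, map_pow, ← hk, ← pow_mul, ← pow_mul, mul_comm]
      rw [pow_one, ← h1, hτη]
    have hfin : IsOfFinOrder η := isOfFinOrder_iff_pow_eq_one.2 ⟨m, Nat.pos_of_ne_zero hm0, hη.pow_eq_one⟩
    have hmod : k ≡ 1 [MOD m] := by
      have := hfin.pow_eq_pow_iff_modEq.mp hηk
      rwa [← hη.eq_orderOf] at this
    -- regular elements
    have hreg : ∀ y : G, ¬ p ∣ orderOf y → y ^ k = y := by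
      intro y hy
      have h1 : orderOf y ∣ m := by
        have h2 : orderOf y ∣ n := orderOf_dvd_natCard y
        have h3 := (Nat.ordProj_mul_ordCompl_eq_self n p)
        have h4 : Nat.Coprime (orderOf y) (p ^ n.factorization p) :=
          Nat.Coprime.pow_right _ ((Nat.Prime.coprime_iff_not_dvd hp.out).2 hy).symm
        rw [← h3] at h2
        exact h4.dvd_of_dvd_mul_left h2
      have h5 : k ≡ 1 [MOD orderOf y] := hmod.of_dvd h1
      have := pow_eq_pow_iff_modEq.mpr h5
      rwa [pow_one] at this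
    -- the permutation of characters
    let π := powIrr (G := G) hcop
    have hπb : Function.Bijective π := powIrr_bijective hcop
    have hsame : ∀ χ : IrrCharacter G, SameBlock M χ.1 (π χ).1 := by
      intro χ
      apply sameBlock_of_regular hM
      intro y hy
      have h1 : cc y χ = cc y (π χ) := by
        show centralChar χ.1 y = centralChar (π χ).1 y
        unfold centralChar
        rw [powIrr_apply, powIrr_apply, hreg y hy, one_pow]
      rw [h1, sub_self]
      exact mli_zero
    have heB : ∀ χ : IrrCharacter G, eB B (π χ) = eB B χ := by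
      intro χ
      by_cases hχ : χ ∈ B
      · rw [eB_apply_mem hχ, eB_apply_mem (blockSat_of_isBlock hB _ _ (hsame χ) hχ)]
      · rw [eB_apply_not_mem hχ, eB_apply_not_mem]
        intro h
        exact hχ (blockSat_of_isBlock hB _ _ (sameBlock_symm (hsame χ)) h)
    -- the value
    have hτx : τ (blockCoeff B g) = blockCoeff B g := by
      rw [hxeq, map_mul, map_inv₀, map_natCast, map_sum]
      congr 1
      refine Eq.trans ?_ (Equiv.sum_comp (Equiv.ofBijective π hπb)
        (fun χ : IrrCharacter G => eB B χ * (χ.1 1 * χ.1 g⁻¹)))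
      refine Finset.sum_congr rfl fun χ _ => ?_
      simp only [Equiv.ofBijective_apply]
      rw [heB, powIrr_apply, powIrr_apply, one_pow, map_mul, map_mul]
      have h0 : τ (eB B χ) = eB B χ := by
        by_cases hχ : χ ∈ B
        · rw [eB_apply_mem hχ, map_one]
        · rw [eB_apply_not_mem hχ, map_zero]
      rw [h0, character_map (Cfsg.Agent.H21.isCharacter_of_irr χ.2) g⁻¹ hζ hk.symm]
      congr 2
      rw [Cfsg.Agent.H21.one_eq_charDegree (Cfsg.Agent.H21.isCharacter_of_irr χ.2), map_natCast]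
    apply Subtype.ext
    have h6 := hτE x'
    have h7 : (x' : ℂ) = blockCoeff B g := rfl
    rw [h7, hτx] at h6
    rw [← h6]
  have hbot := (IsGalois.mem_bot_iff_fixed x').mpr hfixed
  obtain ⟨y, hy⟩ := IntermediateField.mem_bot.mp hbot
  have h8 : ((y : F) : ℂ) = blockCoeff B g := congrArg Subtype.val hy
  rw [← h8]
  exact y.2

end Cfsg.Agent.H22
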