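import Cfsg.Agent.Lib.H23.FS
import Cfsg.Agent.Lib.H21.CharCore

/-! # The alternating square of a character is a character -/

set_option autoImplicit false
set_option linter.unusedSectionVars false
set_option linter.style.haveILetI false
set_option linter.unusedSimpArgs false
set_option linter.unusedVariables false

namespace Cfsg.Agent.H22

open Cfsg Cfsg.Agent.H21 Cfsg.Agent.H23 Module

universe u v

variable {G : Type u} [Group G]

/-- The trace of `F g` on the image of a commuting idempotent is a character. -/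
theorem isCharacter_of_commuting_idem {W : Type v} [AddCommGroup W] [Module ℂ W] [FiniteDimensional ℂ W]
    (F : G →* Module.End ℂ W) (Q : Module.End ℂ W) (hQ : Q * Q = Q) (hc : ∀ g, F g * Q = Q * F g) :
    IsCharacter G (fun g => LinearMap.trace ℂ W (F g * Q)) := by
  classical
  let R : Submodule ℂ W := LinearMap.range Q
  let inc : R →ₗ[ℂ] W := R.subtype
  let prj : W →ₗ[ℂ] R := Q.rangeRestrict
  have hpi : prj ∘ₗ inc = LinearMap.id := by
    ext ⟨x, y, rfl⟩
    show Q (Q y) = Q y
    have := LinearMap.congr_fun hQ y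
    exact this
  have hip : inc ∘ₗ prj = Q := rfl
  let ρ : Representation ℂ G R :=
    { toFun := fun g => prj ∘ₗ F g ∘ₗ inc
      map_one' := by
        rw [map_one]
        show prj ∘ₗ LinearMap.id ∘ₗ inc = 1
        rw [LinearMap.id_comp, hpi]
        rfl
      map_mul' := by
        intro a b
        rw [map_mul]
        have h1 : inc ∘ₗ prj ∘ₗ F b ∘ₗ inc = F b ∘ₗ inc := by
          rw [← LinearMap.comp_assoc, hip]
          have h2 : Q ∘ₗ (F b ∘ₗ inc) = (Q * F b) ∘ₗ inc := rfl
          rw [h2, ← hc b]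
          have h3 : (F b * Q) ∘ₗ inc = F b ∘ₗ (Q ∘ₗ inc) := rfl
          rw [h3]
          have h4 : Q ∘ₗ inc = inc := by
            rw [← hip, LinearMap.comp_assoc, hpi, LinearMap.comp_id]
          rw [h4]
        show prj ∘ₗ (F a * F b) ∘ₗ inc = (prj ∘ₗ F a ∘ₗ inc) ∘ₗ (prj ∘ₗ F b ∘ₗ inc)
        have h5 : (prj ∘ₗ F a ∘ₗ inc) ∘ₗ (prj ∘ₗ F b ∘ₗ inc) =
            prj ∘ₗ F a ∘ₗ (inc ∘ₗ prj ∘ₗ F b ∘ₗ inc) := rfl
        rw [h5, h1]
        rfl }
  have h := isCharacter_of_rep ρ
  convert h using 1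
  funext g
  show LinearMap.trace ℂ W (F g * Q) = LinearMap.trace ℂ R (prj ∘ₗ F g ∘ₗ inc)
  rw [LinearMap.trace_comp_comm']
  have h6 : (F g ∘ₗ inc) ∘ₗ prj = F g * Q := by
    rw [LinearMap.comp_assoc, hip]
    rfl
  rw [h6]

/-- **The alternating square.** -/
theorem isCharacter_altSquare [Fintype G] {χ : G → ℂ} (hχ : IsCharacter G χ) :
    IsCharacter G (fun g => (χ g ^ 2 - χ (g * g)) / 2) := by
  obtain ⟨n, ρ, rfl⟩ := hχ
  let A := repMat ρ
  have hA : ∀ g h, A (g * h) = A g * A h := repMat_mul ρ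
  have hA1 : A 1 = 1 := by simp [A, repMat]
  let τ : Module.End ℂ (Matrix (Fin n) (Fin n) ℂ) := transposeL
  let F : G →* Module.End ℂ (Matrix (Fin n) (Fin n) ℂ) :=
    { toFun := fun g => sandwichL (A g)
      map_one' := by
        rw [hA1]
        ext1 X
        show (1 : Matrix (Fin n) (Fin n) ℂ) * X * (1 : Matrix (Fin n) (Fin n) ℂ).transpose = X
        simp
      map_mul' := by
        intro a b
        rw [hA, ← sandwich_mul]
        rfl }
  have hτ : τ * τ = 1 := transpose_transpose_L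
  have hτF : ∀ g, τ * F g = F g * τ := fun g => transpose_sandwich_comm (A g)
  let Q : Module.End ℂ (Matrix (Fin n) (Fin n) ℂ) := (1 / 2 : ℂ) • (1 - τ)
  have hQ : Q * Q = Q := by
    simp only [Q, smul_mul_smul_comm]
    have h1 : (1 - τ) * (1 - τ) = (2 : ℂ) • (1 - τ) := by
      have h2 : (2 : ℂ) • (1 - τ) = (1 - τ) + (1 - τ) := two_smul ℂ _
      rw [h2, mul_sub, sub_mul, sub_mul, hτ, one_mul, mul_one, one_mul]
      abel
    rw [h1, smul_smul]
    norm_num
  have hc : ∀ g, F g * Q = Q * F g := by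
    intro g
    simp only [Q, mul_smul_comm, smul_mul_assoc, mul_sub, sub_mul, mul_one, one_mul, hτF]
  have h := isCharacter_of_commuting_idem F Q hQ hc
  convert h using 1
  funext g
  have h1 : F g * Q = (1 / 2 : ℂ) • (F g - τ * F g) := by
    simp only [Q, mul_smul_comm, mul_sub, mul_one, hτF]
  rw [h1, map_smul, map_sub, smul_eq_mul]
  have h2 : LinearMap.trace ℂ _ (F g) = (A g).trace ^ 2 := trace_sandwich (A g)
  have h3 : LinearMap.trace ℂ _ (τ * F g) = (A g * A g).trace := trace_transpose_sandwich (A g)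
  rw [h2, h3, ← hA, repMat_trace, repMat_trace]
  ring

end Cfsg.Agent.H22
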