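import Mathlib.Analysis.Matrix.PosDef
import Mathlib.LinearAlgebra.FreeModule.PID
import Mathlib.LinearAlgebra.Matrix.SchurComplement
import Mathlib.LinearAlgebra.Matrix.NonsingularInverse
import Mathlib.LinearAlgebra.Dimension.Free
import Mathlib.LinearAlgebra.FiniteDimensional.Lemmas
import Mathlib.RingTheory.Coprime.Lemmas
import Mathlib.Data.Nat.Prime.Int

/-!
# A lattice lemma: projections with integer multiples and rank one reduction

Let `P` be an integer symmetric matrix with `P ^ 2 = p P`, of rank one modulo `p` with nonzero diagonal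
modulo `p`.  Then the form `v ↦ vᵀ P v` on integer vectors vanishes or is at least the rank of `P`.
-/

set_option autoImplicit false
set_option linter.unusedSectionVars false
set_option linter.style.haveILetI false
set_option linter.unusedSimpArgs false

namespace Cfsg.Agent.H22

open Matrix

section DetRank

variable {r ι : Type*} [Fintype r] [DecidableEq r] [Fintype ι] [DecidableEq ι]

/-- The integer Gram matrix of a set of columns. -/
def gramU (M : Matrix r ι ℤ) (U : Finset ι) : Matrix r r ℤ :=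
  ∑ a ∈ U, vecMulVec (fun i => M i a) (fun i => M i a)

/-- The columns as real vectors. -/
def colR (M : Matrix r ι ℤ) (a : ι) : r → ℝ := fun i => (M i a : ℝ)

/-- The real Gram matrix of a set of columns. -/
def gramR (M : Matrix r ι ℤ) (U : Finset ι) : Matrix r r ℝ :=
  ∑ a ∈ U, vecMulVec (colR M a) (colR M a)

theorem gramR_eq_map (M : Matrix r ι ℤ) (U : Finset ι) :
    gramR M U = (gramU M U).map (Int.castRingHom ℝ) := by
  ext i j
  simp [gramR, gramU, colR, Matrix.sum_apply, vecMulVec_apply]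

theorem det_gramR (M : Matrix r ι ℤ) (U : Finset ι) :
    (gramR M U).det = (((gramU M U).det : ℤ) : ℝ) := by
  rw [gramR_eq_map]
  exact ((Int.castRingHom ℝ).map_det (gramU M U)).symm

/-- The columns in `U` span. -/
def SpanU (M : Matrix r ι ℤ) (U : Finset ι) : Prop :=
  ∀ x : r → ℝ, (∀ a ∈ U, colR M a ⬝ᵥ x = 0) → x = 0

theorem quad_gramR (M : Matrix r ι ℤ) (U : Finset ι) (x : r → ℝ) :
    x ⬝ᵥ (gramR M U *ᵥ x) = ∑ a ∈ U, (colR M a ⬝ᵥ x) ^ 2 := by
  unfold gramR
  rw [Matrix.sum_mulVec, dotProduct_sum]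
  refine Finset.sum_congr rfl fun a _ => ?_
  rw [vecMulVec_mulVec, dotProduct_smul, dotProduct_comm x, op_smul_eq_mul]
  ring

theorem gramR_posDef {M : Matrix r ι ℤ} {U : Finset ι} (h : SpanU M U) : (gramR M U).PosDef := by
  rw [posDef_iff_dotProduct_mulVec]
  constructor
  · ext i j
    simp [gramR, Matrix.sum_apply, vecMulVec_apply, conjTranspose_apply, mul_comm]
  · intro x hx
    have hq := quad_gramR M U x
    simp only [star_trivial]
    rw [hq]
    by_contra hle
    apply hx
    apply h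
    intro a ha
    have h0 : ∑ a ∈ U, (colR M a ⬝ᵥ x) ^ 2 = 0 :=
      le_antisymm (not_lt.mp hle) (Finset.sum_nonneg fun _ _ => sq_nonneg _)
    have h1 := (Finset.sum_eq_zero_iff_of_nonneg (fun _ _ => sq_nonneg _)).mp h0 a ha
    exact pow_eq_zero_iff (two_ne_zero) |>.mp h1

theorem gramU_det_pos {M : Matrix r ι ℤ} {U : Finset ι} (h : SpanU M U) : 0 < (gramU M U).det := by
  have h1 := (gramR_posDef h).det_pos
  rw [det_gramR] at h1
  exact_mod_cast h1

theorem spanU_mono {M : Matrix r ι ℤ} {U V : Finset ι} (h : SpanU M U) (hUV : U ⊆ V) : SpanU M V :=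
  fun x hx => h x fun a ha => hx a (hUV ha)

/-- Adding a nonzero column to a spanning set increases the determinant. -/
theorem gramU_det_insert {M : Matrix r ι ℤ} {U : Finset ι} (h : SpanU M U) {a : ι} (ha : a ∉ U)
    (h0 : colR M a ≠ 0) : (gramU M U).det + 1 ≤ (gramU M (insert a U)).det := by
  have hA := gramR_posDef h
  set A := gramR M U with hAdef
  have hunit : IsUnit A.det := isUnit_iff_ne_zero.mpr hA.det_pos.ne'
  have hins : gramR M (insert a U) =
      A + replicateCol Unit (colR M a) * replicateRow Unit (colR M a) := by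
    rw [hAdef]
    unfold gramR
    rw [Finset.sum_insert ha, add_comm, vecMulVec_eq Unit]
  have hdet := det_add_replicateCol_mul_replicateRow (ι := Unit) hunit (colR M a) (colR M a)
  rw [← hins] at hdet
  set x : r → ℝ := A⁻¹ *ᵥ colR M a with hx
  have hAx : A *ᵥ x = colR M a := by
    rw [hx, mulVec_mulVec, mul_nonsing_inv A hunit, one_mulVec]
  have hx0 : x ≠ 0 := by
    intro h2
    rw [h2, mulVec_zero] at hAx
    exact h0 hAx.symm
  have hq : 0 < colR M a ⬝ᵥ x := by
    have h3 : 0 < x ⬝ᵥ (A *ᵥ x) := by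
      have := hA.dotProduct_mulVec_pos hx0
      simpa using this
    rw [hAx, dotProduct_comm] at h3
    exact h3
  have hdet1 : (1 + replicateRow Unit (colR M a) * A⁻¹ * replicateCol Unit (colR M a)).det =
      1 + colR M a ⬝ᵥ x := by
    rw [det_unique, Matrix.add_apply, one_apply_eq]
    congr 1
    simp only [Matrix.mul_apply, replicateRow_apply, replicateCol_apply, Fintype.sum_unique, hx,
      dotProduct, mulVec, Finset.sum_mul, Finset.mul_sum]
    rw [Finset.sum_comm]
    refine Finset.sum_congr rfl fun i _ => Finset.sum_congr rfl fun j _ => ?_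
    ring
  rw [hdet1] at hdet
  have h6 : ((gramU M U).det : ℝ) < ((gramU M (insert a U)).det : ℝ) := by
    rw [← det_gramR, ← det_gramR, hdet, ← hAdef]
    have hpos := hA.det_pos
    nlinarith
  have h7 : (gramU M U).det < (gramU M (insert a U)).det := by exact_mod_cast h6
  omega

theorem spanU_reduce (M : Matrix r ι ℤ) (n : ℕ) : ∀ U : Finset ι, U.card = n → SpanU M U →
    ∃ S ⊆ U, SpanU M S ∧ S.card ≤ Fintype.card r := by
  induction n using Nat.strong_induction_on with
  | _ n ih =>
    intro U hU hS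
    by_cases hle : U.card ≤ Fintype.card r
    · exact ⟨U, subset_rfl, hS, hle⟩
    · have hnl : ¬ LinearIndependent ℝ (fun a : U => colR M a) := by
        intro hl
        have h1 := hl.fintype_card_le_finrank
        rw [Module.finrank_fintype_fun_eq_card, Fintype.card_coe] at h1
        exact hle h1
      rw [Fintype.not_linearIndependent_iff] at hnl
      obtain ⟨g, hg, ⟨a₀, ha₀U⟩, hg0⟩ := hnl
      have hS' : SpanU M (U.erase a₀) := by
        intro x hx
        apply hS
        have h2 : ∀ b ∈ U, b ≠ a₀ → colR M b ⬝ᵥ x = 0 := fun b hb hne =>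
          hx b (Finset.mem_erase.mpr ⟨hne, hb⟩)
        have h3 : (∑ b : U, g b • colR M b) ⬝ᵥ x = 0 := by
          rw [hg, zero_dotProduct]
        rw [sum_dotProduct] at h3
        have h4 : ∑ b : U, (g b • colR M b) ⬝ᵥ x = g ⟨a₀, ha₀U⟩ * (colR M a₀ ⬝ᵥ x) := by
          rw [Finset.sum_eq_single ⟨a₀, ha₀U⟩]
          · rw [smul_dotProduct, smul_eq_mul]
          · intro b _ hne
            rw [smul_dotProduct, h2 b b.2 (fun h => hne (Subtype.ext h)), smul_zero]
          · intro h
            exact absurd (Finset.mem_univ _) h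
        rw [h4] at h3
        have h5 : colR M a₀ ⬝ᵥ x = 0 := (mul_eq_zero.mp h3).resolve_left hg0
        intro b hb
        by_cases hba : b = a₀
        · rw [hba]
          exact h5
        · exact h2 b hb hba
      have hcard : (U.erase a₀).card < n := by
        rw [← hU]
        exact Finset.card_erase_lt_of_mem ha₀U
      obtain ⟨S, hSU, hS1, hS2⟩ := ih _ hcard _ rfl hS'
      exact ⟨S, hSU.trans (Finset.erase_subset _ _), hS1, hS2⟩

theorem gramU_univ (M : Matrix r ι ℤ) : gramU M Finset.univ = M * Mᵀ := by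
  ext i j
  simp [gramU, Matrix.sum_apply, vecMulVec_apply, Matrix.mul_apply]

/-- **The determinant of a Gram matrix without zero columns.** -/
theorem det_gram_ge (M : Matrix r ι ℤ) (h0 : ∀ a, (fun i => M i a) ≠ 0) (hdet : (M * Mᵀ).det ≠ 0) :
    0 < (M * Mᵀ).det ∧ (Fintype.card ι : ℤ) + 1 - Fintype.card r ≤ (M * Mᵀ).det := by
  classical
  have hspan : SpanU M Finset.univ := by
    intro x hx
    set MR : Matrix r ι ℝ := M.map (Int.castRingHom ℝ) with hMR
    have h1 : MRᵀ *ᵥ x = 0 := by
      funext a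
      have h2 := hx a (Finset.mem_univ a)
      simpa [colR, hMR, mulVec, dotProduct, transpose_apply] using h2
    have h3 : (MR * MRᵀ) *ᵥ x = 0 := by
      rw [← mulVec_mulVec, h1, mulVec_zero]
    have h4 : (MR * MRᵀ).det ≠ 0 := by
      have h5 : MR * MRᵀ = (M * Mᵀ).map (Int.castRingHom ℝ) := by
        rw [Matrix.map_mul]
        rfl
      rw [h5]
      have h6 := (Int.castRingHom ℝ).map_det (M * Mᵀ)
      have h7 : ((M * Mᵀ).map (Int.castRingHom ℝ)).det = (((M * Mᵀ).det : ℤ) : ℝ) := h6.symm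
      rw [h7]
      exact_mod_cast hdet
    exact Matrix.eq_zero_of_mulVec_eq_zero h4 h3
  obtain ⟨S, -, hS1, hS2⟩ := spanU_reduce M _ Finset.univ rfl hspan
  have hc : ∀ a, colR M a ≠ 0 := by
    intro a h
    apply h0 a
    funext i
    have := congrFun h i
    simpa [colR] using this
  have hind : ∀ T : Finset ι, Disjoint T S →
      (gramU M S).det + T.card ≤ (gramU M (T ∪ S)).det := by
    intro T
    induction T using Finset.induction_on with
    | empty =>
      intro _
      simp
    | insert a T ha ih =>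
      intro hd
      rw [Finset.disjoint_insert_left] at hd
      have h1 := ih hd.2
      have h2 : SpanU M (T ∪ S) := spanU_mono hS1 Finset.subset_union_right
      have h3 : a ∉ T ∪ S := by
        simp only [Finset.mem_union, not_or]
        exact ⟨ha, hd.1⟩
      have h4 := gramU_det_insert h2 h3 (hc a)
      rw [Finset.insert_union, Finset.card_insert_of_notMem ha]
      push_cast
      omega
  have h1 := hind (Finset.univ \ S) Finset.sdiff_disjoint
  rw [Finset.sdiff_union_of_subset (Finset.subset_univ S), gramU_univ] at h1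
  have h2 := gramU_det_pos hS1
  have h3 : ((Finset.univ \ S).card : ℤ) = Fintype.card ι - S.card := by
    rw [Finset.card_sdiff_of_subset (Finset.subset_univ S), Finset.card_univ]
    have : S.card ≤ Fintype.card ι := Finset.card_le_univ S
    omega
  have h4 : (S.card : ℤ) ≤ Fintype.card r := by exact_mod_cast hS2
  have hc0 : 0 ≤ ((Finset.univ \ S).card : ℤ) := by positivity
  constructor <;> omega

end DetRank


section RankOne

/-- A matrix of rank one modulo `p`: the determinant is divisible by `p ^ (t - 1)`. -/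
theorem det_rank_one_dvd {t : ℕ} (ht : 1 ≤ t) (p : ℤ) (hp : p ≠ 0) (u v : Fin t → ℤ)
    (K : Matrix (Fin t) (Fin t) ℤ) : p ^ (t - 1) ∣ (vecMulVec u v + p • K).det := by
  set B : Matrix Unit (Fin t) ℤ := -replicateRow Unit v with hB
  set C : Matrix (Fin t) Unit ℤ := replicateCol Unit u with hC
  have h0 : (fromBlocks (1 : Matrix Unit Unit ℤ) B C (p • K)).det = (vecMulVec u v + p • K).det := by
    rw [det_fromBlocks_one₁₁]
    congr 1
    rw [hB, hC, Matrix.mul_neg, sub_neg_eq_add, vecMulVec_eq Unit, add_comm]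
  set M₀ := fromBlocks (1 : Matrix Unit Unit ℤ) B C (p • K) with hM₀
  set M₂ := fromBlocks (p • (1 : Matrix Unit Unit ℤ)) B C K with hM₂
  set L := fromBlocks (p • (1 : Matrix Unit Unit ℤ)) (0 : Matrix Unit (Fin t) ℤ) (0 : Matrix (Fin t) Unit ℤ)
    (1 : Matrix (Fin t) (Fin t) ℤ) with hL
  set Rr := fromBlocks (1 : Matrix Unit Unit ℤ) (0 : Matrix Unit (Fin t) ℤ) (0 : Matrix (Fin t) Unit ℤ)
    (p • (1 : Matrix (Fin t) (Fin t) ℤ)) with hRr
  have hmul : L * M₀ = M₂ * Rr := by
    rw [hL, hM₀, hM₂, hRr, fromBlocks_multiply, fromBlocks_multiply]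
    simp only [Matrix.smul_mul, Matrix.mul_smul, Matrix.one_mul, Matrix.mul_one, Matrix.zero_mul,
      Matrix.mul_zero, add_zero, zero_add, smul_zero]
  have hdL : L.det = p := by
    rw [hL, det_fromBlocks_zero₂₁, det_one, mul_one, det_smul]
    simp
  have hdR : Rr.det = p ^ t := by
    rw [hRr, det_fromBlocks_zero₂₁, det_one, one_mul, det_smul]
    simp
  have h1 := congrArg Matrix.det hmul
  rw [det_mul, det_mul, hdL, hdR] at h1
  obtain ⟨s, rfl⟩ : ∃ s, t = s + 1 := ⟨t - 1, by omega⟩
  refine ⟨M₂.det, ?_⟩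
  rw [← h0]
  apply mul_left_cancel₀ hp
  rw [h1, Nat.add_sub_cancel, pow_succ]
  ring

end RankOne

section Main

variable {ι : Type*} [Fintype ι] [DecidableEq ι]

/-- **The lattice lemma.** -/
theorem lat_main (p : ℕ) [hp : Fact p.Prime] (P : Matrix ι ι ℤ) (hsym : Pᵀ = P)
    (hP : P * P = (p : ℤ) • P) (hdiag : ∀ i, ¬ (p : ℤ) ∣ P i i)
    (hminor : ∀ i j k l, (p : ℤ) ∣ P i j * P k l - P i l * P k j)
    (l : ℕ) (htr : P.trace = (p : ℤ) * l) (v : ι → ℤ) :
    v ⬝ᵥ (P *ᵥ v) = 0 ∨ (l : ℤ) ≤ v ⬝ᵥ (P *ᵥ v) := by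
  classical
  have hp0 : (p : ℤ) ≠ 0 := by exact_mod_cast hp.out.ne_zero
  have hppos : (0 : ℤ) < p := by exact_mod_cast hp.out.pos
  -- the lattice of the kernel
  obtain ⟨t, snf⟩ := Submodule.smithNormalForm (Pi.basisFun ℤ ι) (LinearMap.ker (Matrix.mulVecLin P))
  set g : Fin t → ι → ℤ := fun i => snf.bM (snf.f i) with hg
  have hkerG : ∀ i, P *ᵥ g i = 0 := by
    intro i
    have h1 := (snf.bN i).2
    rw [LinearMap.mem_ker, snf.snf i, mulVecLin_apply, mulVec_smul] at h1
    have h2 : (snf.bN i : ι → ℤ) ≠ 0 := by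
      intro h
      exact snf.bN.ne_zero i (Subtype.ext h)
    have h3 : snf.a i ≠ 0 := by
      intro h
      apply h2
      rw [snf.snf i, h, zero_smul]
    exact (smul_eq_zero.mp h1).resolve_left h3
  have hspan : ∀ w : ι → ℤ, P *ᵥ w = 0 → ∃ c : Fin t → ℤ, w = ∑ i, c i • g i := by
    intro w hw
    have hw' : w ∈ LinearMap.ker (Matrix.mulVecLin P) := by
      rw [LinearMap.mem_ker, mulVecLin_apply, hw]
    have h1 := snf.bN.sum_repr ⟨w, hw'⟩
    have h2 := congrArg Subtype.val h1
    refine ⟨fun i => snf.bN.repr ⟨w, hw'⟩ i * snf.a i, ?_⟩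
    have h3 : w = _ := h2.symm
    refine h3.trans ?_
    simp only [AddSubmonoidClass.coe_finsetSum, Submodule.coe_smul, snf.snf, mul_smul]
    rfl
  set G : Matrix (Fin t) ι ℤ := Matrix.of g with hG
  set X : Matrix ι (Fin t) ℤ := Matrix.of fun a i => snf.bM.repr (Pi.single a 1) (snf.f i) with hX
  have hGX : G * X = 1 := by
    ext i j
    have h1 : (G * X) i j = snf.bM.repr (g i) (snf.f j) := by
      have h2 : g i = ∑ a, g i a • (Pi.single a 1 : ι → ℤ) := by
        funext b
        simp [Finset.sum_apply, Pi.single_apply]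
      conv_rhs => rw [h2]
      rw [map_sum, Finsupp.coe_finsetSum, Finset.sum_apply, Matrix.mul_apply]
      refine Finset.sum_congr rfl fun a _ => ?_
      rw [map_smul]
      rfl
    rw [h1, Matrix.one_apply, hg]
    simp only [Module.Basis.repr_self]
    rw [Finsupp.single_apply]
    simp only [snf.f.injective.eq_iff]
  have hXG : Xᵀ * Gᵀ = 1 := by
    rw [← transpose_mul, hGX, transpose_one]
  have hPG : P * Gᵀ = 0 := by
    ext a i
    have h1 := congrFun (hkerG i) a
    simpa [mulVec, dotProduct, Matrix.mul_apply, hG, transpose_apply] using h1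
  set R : Matrix ι ι ℤ := (p : ℤ) • (1 : Matrix ι ι ℤ) - P with hR
  have hRsym : Rᵀ = R := by
    rw [hR, transpose_sub, transpose_smul, transpose_one, hsym]
  have hPR : P * R = 0 := by
    rw [hR, Matrix.mul_sub, Matrix.mul_smul, Matrix.mul_one, hP, sub_self]
  have hE : ∀ w : ι → ℤ, P *ᵥ w = 0 → (Gᵀ * Xᵀ) *ᵥ w = w := by
    intro w hw
    obtain ⟨c, hc⟩ := hspan w hw
    have h1 : w = Gᵀ *ᵥ c := by
      rw [hc]
      funext a
      simp [Finset.sum_apply, mulVec, dotProduct, hG, transpose_apply, mul_comm]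
    rw [h1, mulVec_mulVec, Matrix.mul_assoc, hXG, Matrix.mul_one]
  have hER : Gᵀ * Xᵀ * R = R := by
    ext a b
    have h1 : P *ᵥ (fun c => R c b) = 0 := by
      funext d
      have h2 := congrFun (congrFun hPR d) b
      simpa [mulVec, dotProduct, Matrix.mul_apply] using h2
    have h2 := congrFun (hE _ h1) a
    simpa [mulVec, dotProduct, Matrix.mul_apply] using h2
  set A : Matrix (Fin t) (Fin t) ℤ := Xᵀ * R * X with hA
  have hRA : Gᵀ * A * G = R := by
    have h1 : R * (X * G) = R := by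
      have h2 := congrArg Matrix.transpose hER
      rw [transpose_mul, transpose_mul, transpose_transpose, transpose_transpose, hRsym] at h2
      exact h2
    calc Gᵀ * A * G = (Gᵀ * Xᵀ * R) * (X * G) := by
          rw [hA]
          simp only [Matrix.mul_assoc]
      _ = R := by rw [hER, h1]
  have hRG : R * Gᵀ = (p : ℤ) • Gᵀ := by
    rw [hR, Matrix.sub_mul, hPG, sub_zero, Matrix.smul_mul, Matrix.one_mul]
  set H : Matrix (Fin t) (Fin t) ℤ := G * Gᵀ with hH
  have hAH : A * H = (p : ℤ) • (1 : Matrix (Fin t) (Fin t) ℤ) := by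
    calc A * H = (Xᵀ * Gᵀ) * A * (G * Gᵀ) := by rw [hXG, Matrix.one_mul]
      _ = Xᵀ * (Gᵀ * A * G) * Gᵀ := by simp only [Matrix.mul_assoc]
      _ = Xᵀ * (R * Gᵀ) := by rw [hRA, Matrix.mul_assoc]
      _ = (p : ℤ) • (1 : Matrix (Fin t) (Fin t) ℤ) := by
          rw [hRG, Matrix.mul_smul, hXG]
  -- the traces
  have htrR : R.trace = (p : ℤ) * t := by
    have h1 : R.trace = (A * H).trace := by
      rw [← hRA, Matrix.mul_assoc, Matrix.trace_mul_comm, Matrix.mul_assoc]
    rw [h1, hAH, trace_smul, trace_one]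
    simp
  have hcard : (Fintype.card ι : ℤ) = t + l := by
    have h1 : R.trace = (p : ℤ) * Fintype.card ι - P.trace := by
      rw [hR, trace_sub, trace_smul, trace_one]
      simp
    rw [h1, htr, ← mul_sub] at htrR
    have h2 := mul_left_cancel₀ hp0 htrR
    omega
  -- the columns are nonzero
  have hcol : ∀ a, (fun i => G i a) ≠ 0 := by
    intro a h0
    have h1 : ∀ i, G i a = 0 := fun i => congrFun h0 i
    have h2 : R a a = 0 := by
      rw [← hRA, Matrix.mul_apply]
      refine Finset.sum_eq_zero fun j _ => ?_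
      rw [Matrix.mul_apply, Finset.sum_eq_zero, zero_mul]
      intro i _
      rw [transpose_apply, h1, zero_mul]
    have h3 : P a a = (p : ℤ) := by
      have h4 : R a a = (p : ℤ) - P a a := by
        show ((p : ℤ) • (1 : Matrix ι ι ℤ) - P) a a = _
        rw [Matrix.sub_apply, Matrix.smul_apply, Matrix.one_apply_eq, smul_eq_mul, mul_one]
      rw [h4] at h2
      omega
    apply hdiag a
    rw [h3]
  -- the determinant of `H`
  have hdetAH : A.det * H.det = (p : ℤ) ^ t := by
    rw [← det_mul, hAH, det_smul, det_one, mul_one, Fintype.card_fin]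
  have hH0 : H.det ≠ 0 := by
    intro h
    rw [h, mul_zero] at hdetAH
    exact pow_ne_zero t hp0 hdetAH.symm
  have hDpos : 0 < H.det := (det_gram_ge G hcol hH0).1
  have hDle : H.det ≤ p := by
    by_cases ht0 : t = 0
    · subst ht0
      have : H.det = 1 := det_isEmpty
      rw [this]
      exact_mod_cast hp.out.pos
    · have ht1 : 1 ≤ t := Nat.pos_of_ne_zero ht0
      set i₀ : ι := snf.f ⟨0, ht1⟩ with hi₀
      have hcop : IsCoprime (p : ℤ) (P i₀ i₀) :=
        ((Nat.prime_iff_prime_int.mp hp.out).irreducible.coprime_iff_not_dvd).mpr (hdiag i₀)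
      obtain ⟨a', b', hab⟩ := hcop
      set f : ι → ℤ := fun a => P a i₀ with hf
      have hPsym : ∀ a b, P a b = P b a := fun a b => by
        have := congrFun (congrFun hsym b) a
        simpa [transpose_apply] using this
      have hex : ∀ a b, ∃ k, P a b - b' * f a * f b = (p : ℤ) * k := by
        intro a b
        obtain ⟨k, hk⟩ := hminor a b i₀ i₀
        refine ⟨a' * P a b + b' * k, ?_⟩
        have h1 : P i₀ b = f b := hPsym _ _
        have h2 : P a i₀ = f a := rfl
        rw [h1, h2] at hk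
        have h3 : P a b = P a b * (a' * (p : ℤ) + b' * P i₀ i₀) := by
          rw [hab, mul_one]
        calc P a b - b' * f a * f b
            = P a b * (a' * (p : ℤ) + b' * P i₀ i₀) - b' * f a * f b := by rw [← h3]
          _ = a' * (p : ℤ) * P a b + b' * (P a b * P i₀ i₀ - f a * f b) := by ring
          _ = _ := by rw [hk]; ring
      choose K₀ hK₀ using hex
      set K₀' : Matrix ι ι ℤ := Matrix.of K₀ with hK₀'
      have hPdec : P = vecMulVec (b' • f) f + (p : ℤ) • K₀' := by
        ext a b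
        have := hK₀ a b
        simp only [Matrix.add_apply, vecMulVec_apply, Pi.smul_apply, smul_eq_mul, Matrix.smul_apply, hK₀',
          Matrix.of_apply]
        linarith
      have hAdec : A = vecMulVec (-(Xᵀ *ᵥ (b' • f))) (f ᵥ* X) + (p : ℤ) • (Xᵀ * X - Xᵀ * K₀' * X) := by
        rw [hA, hR]
        nth_rewrite 1 [hPdec]
        simp only [Matrix.mul_sub, Matrix.sub_mul, Matrix.mul_add, Matrix.add_mul, Matrix.mul_smul,
          Matrix.smul_mul, Matrix.mul_one, Matrix.mul_vecMulVec, Matrix.vecMulVec_mul, neg_vecMulVec,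
          smul_sub]
        abel
      have hdvd := det_rank_one_dvd ht1 (p : ℤ) hp0 (-(Xᵀ *ᵥ (b' • f))) (f ᵥ* X) (Xᵀ * X - Xᵀ * K₀' * X)
      rw [← hAdec] at hdvd
      obtain ⟨q, hq⟩ := hdvd
      have h1 : (p : ℤ) ^ (t - 1) * (q * H.det) = (p : ℤ) ^ (t - 1) * (p : ℤ) := by
        rw [← pow_succ, Nat.sub_add_cancel ht1, ← hdetAH, hq]
        ring
      have h2 := mul_left_cancel₀ (pow_ne_zero _ hp0) h1
      have h3 : H.det ∣ (p : ℤ) := ⟨q, by rw [← h2]; ring⟩
      exact Int.le_of_dvd hppos h3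
  -- the Schur complement
  set b : Fin t → ℤ := G *ᵥ v with hb
  set T : ℤ := v ⬝ᵥ (P *ᵥ v) with hT
  have hTform : T = (p : ℤ) * (v ⬝ᵥ v) - b ⬝ᵥ (A *ᵥ b) := by
    have h1 : v ⬝ᵥ (R *ᵥ v) = b ⬝ᵥ (A *ᵥ b) := by
      rw [← hRA, hb, ← mulVec_mulVec, ← mulVec_mulVec, dotProduct_mulVec, vecMul_transpose]
    have h2 : P = (p : ℤ) • (1 : Matrix ι ι ℤ) - R := by
      rw [hR]
      abel
    rw [hT, h2, sub_mulVec, smul_mulVec, one_mulVec, dotProduct_sub, dotProduct_smul, h1, smul_eq_mul]
  set M : Matrix (Fin t ⊕ Unit) ι ℤ :=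
    Matrix.of (fun i a => Sum.elim (fun i' => G i' a) (fun _ => v a) i) with hM
  have hMM : M * Mᵀ = fromBlocks H (replicateCol Unit b) (replicateRow Unit b)
      (Matrix.of fun _ _ => v ⬝ᵥ v) := by
    ext (i | i) (j | j)
    · simp [hM, hH, Matrix.mul_apply, transpose_apply]
    · simp [hM, hb, Matrix.mul_apply, transpose_apply, mulVec, dotProduct]
    · simp [hM, hb, Matrix.mul_apply, transpose_apply, mulVec, dotProduct, mul_comm]
    · simp [hM, Matrix.mul_apply, transpose_apply, dotProduct]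
  have hSchur : (p : ℤ) * (M * Mᵀ).det = H.det * T := by
    have hq : ((p : ℚ)) ≠ 0 := by exact_mod_cast hp.out.ne_zero
    set c := Int.castRingHom ℚ with hc
    set HQ : Matrix (Fin t) (Fin t) ℚ := H.map c with hHQ
    set AQ : Matrix (Fin t) (Fin t) ℚ := A.map c with hAQ
    have hAHQ : ((p : ℚ)⁻¹ • AQ) * HQ = 1 := by
      have h1 : AQ * HQ = (A * H).map c := by
        rw [Matrix.map_mul]
      rw [Matrix.smul_mul, h1, hAH]
      ext i j
      simp only [Matrix.smul_apply, Matrix.map_apply, Matrix.one_apply, smul_eq_mul]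
      by_cases hij : i = j
      · simp [hij, hc, hq]
      · simp [hij, hc]
    have hHAQ : HQ * ((p : ℚ)⁻¹ • AQ) = 1 := mul_eq_one_comm.mp hAHQ
    letI : Invertible HQ := ⟨(p : ℚ)⁻¹ • AQ, hAHQ, hHAQ⟩
    have h1 : (M * Mᵀ).map c = fromBlocks HQ ((replicateCol Unit b).map c) ((replicateRow Unit b).map c)
        ((Matrix.of fun _ _ => v ⬝ᵥ v : Matrix Unit Unit ℤ).map c) := by
      rw [hMM, fromBlocks_map]
    have h2 : (((M * Mᵀ).det : ℤ) : ℚ) = HQ.det * (((v ⬝ᵥ v : ℤ) : ℚ) - (p : ℚ)⁻¹ * ((b ⬝ᵥ (A *ᵥ b) : ℤ) : ℚ)) := by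
      have h3 : (((M * Mᵀ).det : ℤ) : ℚ) = ((M * Mᵀ).map c).det := c.map_det (M * Mᵀ)
      rw [h3, h1, det_fromBlocks₁₁]
      congr 1
      rw [det_unique]
      have h4 : ⅟HQ = (p : ℚ)⁻¹ • AQ := rfl
      rw [h4]
      simp only [Matrix.sub_apply, Matrix.map_apply, Matrix.of_apply]
      congr 1
      simp only [Matrix.mul_apply, Matrix.map_apply, replicateRow_apply, replicateCol_apply,
        Matrix.smul_apply, Fintype.sum_unique, smul_eq_mul, hc, dotProduct, mulVec, hAQ]
      push_cast
      simp only [Finset.sum_mul, Finset.mul_sum]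
      rw [Finset.sum_comm]
      refine Finset.sum_congr rfl fun i _ => Finset.sum_congr rfl fun j _ => ?_
      simp only [eq_intCast]
      ring
    have h5 : (HQ.det : ℚ) = ((H.det : ℤ) : ℚ) := (c.map_det H).symm
    have h6 : (((p : ℤ) * (M * Mᵀ).det : ℤ) : ℚ) = ((H.det * T : ℤ) : ℚ) := by
      rw [Int.cast_mul, Int.cast_mul, h2, ← h5, hTform, Int.cast_sub, Int.cast_mul]
      simp only [Int.cast_natCast]
      field_simp
    exact Int.cast_injective h6
  by_cases hT0 : T = 0
  · exact Or.inl hT0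
  right
  have hMdet : (M * Mᵀ).det ≠ 0 := by
    intro h
    rw [h, mul_zero] at hSchur
    exact (mul_ne_zero hH0 hT0) hSchur.symm
  have hMcol : ∀ a, (fun i => M i a) ≠ 0 := by
    intro a h0
    apply hcol a
    funext i
    have := congrFun h0 (Sum.inl i)
    simpa [hM] using this
  obtain ⟨hn1, hn2⟩ := det_gram_ge M hMcol hMdet
  have hcr : (Fintype.card (Fin t ⊕ Unit) : ℤ) = t + 1 := by
    simp
  rw [hcr, hcard] at hn2
  have hle : (l : ℤ) ≤ (M * Mᵀ).det := by omega
  refine hle.trans ?_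
  have h8 : H.det * (M * Mᵀ).det ≤ H.det * T := by
    rw [← hSchur]
    exact mul_le_mul_of_nonneg_right hDle hn1.le
  exact le_of_mul_le_mul_left h8 hDpos

end Main

end Cfsg.Agent.H22
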