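import Cfsg.Agent.Lib.H22.KlB
import Cfsg.Agent.Lib.H22.AbelianPair
import Cfsg.Agent.Lib.H22.CycDefect
import Cfsg.Agent.Lib.H21.CanonicalBlock
import Cfsg.Agent.Lib.H21.KleinFour

/-!
# Subsections and Brauer pairs for an abelian maximal pair
-/

set_option autoImplicit false
set_option linter.unusedSectionVars false
set_option linter.style.haveILetI false
set_option linter.unusedSimpArgs false

namespace Cfsg.Agent.H22

open Cfsg Cfsg.Agent.H21 Module
open scoped ComplexConjugate Pointwise

universe u

section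

variable {G : Type u} [Group G] [Finite G] {M : Ideal AlgInt} [hM : M.IsPrime]
variable {p : ℕ} [hp : Fact p.Prime]

/-- Transport of a set of characters along an equality of subgroups. -/
def trB {H H' : Subgroup G} (h : H = H') (b : Set (IrrCharacter H)) : Set (IrrCharacter H') :=
  irrMap (MulEquiv.subgroupCongr h) '' b

omit hM hp in
theorem trB_rfl (H : Subgroup G) (b : Set (IrrCharacter H)) : trB (rfl : H = H) b = b := by
  subst_vars
  unfold trB
  ext ξ
  constructor
  · rintro ⟨ξ', hξ', rfl⟩
    have : irrMap (MulEquiv.subgroupCongr (rfl : H = H)) ξ' = ξ' := by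
      apply Subtype.ext
      funext h
      rw [irrMap_apply]
      rfl
    rwa [this]
  · intro hξ
    refine ⟨ξ, hξ, ?_⟩
    apply Subtype.ext
    funext h
    rw [irrMap_apply]
    rfl

omit hM hp in
theorem trB_trB {H H' : Subgroup G} (h : H = H') (b : Set (IrrCharacter H)) :
    trB h.symm (trB h b) = b := by
  subst h
  rw [trB_rfl, trB_rfl]

omit hM hp in
theorem trB_trB' {H H' : Subgroup G} (h : H = H') (b : Set (IrrCharacter H')) :
    trB h (trB h.symm b) = b := by
  subst h
  rw [trB_rfl, trB_rfl]

omit hM hp in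
theorem trB_rank {H H' : Subgroup G} (h : H = H') (b : Set (IrrCharacter H)) :
    blockRank p (trB h b) = blockRank p b := by
  subst h
  rw [trB_rfl]

omit hM hp in
theorem trB_defect {H H' : Subgroup G} (h : H = H') (b : Set (IrrCharacter H)) :
    blockDefect p (trB h b) = blockDefect p b := by
  subst h
  rw [trB_rfl]

omit hM hp in
theorem trB_induced {H H' : Subgroup G} (h : H = H') {b : Set (IrrCharacter H)}
    {B : Set (IrrCharacter G)} (hi : IsInducedBlock M H b B) :
    IsInducedBlock M H' (trB h b) B := by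
  subst h
  rwa [trB_rfl]

/-- The pair attached to a block of the centralizer of an element. -/
def pairOf (x : G) (b : Set (IrrCharacter (Subgroup.centralizer ({x} : Set G)))) : BrauerPairIdx G :=
  ⟨Subgroup.zpowers x, trB (centralizer_zpowers x).symm b⟩

omit hM hp in
theorem pairOf_inj {x : G} {b b' : Set (IrrCharacter (Subgroup.centralizer ({x} : Set G)))}
    (h : pairOf x b = pairOf x b') : b = b' := by
  have h1 := eq_of_heq (Sigma.mk.inj h).2
  have h2 := congrArg (trB (centralizer_zpowers x)) h1
  rwa [trB_trB', trB_trB'] at h2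

omit hM hp in
theorem exists_pairOf {x : G} {a : BrauerPairIdx G} (h : a.1 = Subgroup.zpowers x) :
    ∃ b, pairOf x b = a := by
  obtain ⟨Q, f⟩ := a
  have h' : Q = Subgroup.zpowers x := h
  subst h'
  refine ⟨trB (centralizer_zpowers x) f, ?_⟩
  unfold pairOf
  congr 1
  exact trB_trB _ f

omit hM hp in
theorem cp_pairOf_fst (g x : G) (b : Set (IrrCharacter (Subgroup.centralizer ({x} : Set G)))) :
    (cp g (pairOf x b)).1 = Subgroup.zpowers (g * x * g⁻¹) := by
  show (Subgroup.zpowers x).map (MulAut.conj g).toMonoidHom = _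
  rw [MonoidHom.map_zpowers]
  rfl

omit hM hp in
/-- Elements of the centralizer fix the pair. -/
theorem cp_pairOf_fixed {x h : G} (hh : h ∈ Subgroup.centralizer ({x} : Set G))
    (b : Set (IrrCharacter (Subgroup.centralizer ({x} : Set G)))) : cp h (pairOf x b) = pairOf x b := by
  have hh' : h ∈ Subgroup.centralizer (Subgroup.zpowers x : Set G) := by
    rw [centralizer_zpowers]
    exact hh
  exact cp_fixed (Subgroup.centralizer_le_normalizer _ hh') (stabilizes_of_mem _ hh')

theorem pairOf_isPairOf (hMp : IsPModular p M) {x : G} {k : ℕ} (hx : orderOf x = p ^ k)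
    {b : Set (IrrCharacter (Subgroup.centralizer ({x} : Set G)))} {B : Set (IrrCharacter G)}
    (hind : IsInducedBlock M (Subgroup.centralizer ({x} : Set G)) b B) :
    IsBrauerPairOf p M B (pairOf x b).1 (pairOf x b).2 :=
  pair_of_induced_centralizer hMp (isPGroup_zpowers_of_orderOf hx)
    (trB_induced (centralizer_zpowers x).symm hind)

theorem induced_of_pairOf (hMp : IsPModular p M) {x : G}
    {b : Set (IrrCharacter (Subgroup.centralizer ({x} : Set G)))} {B : Set (IrrCharacter G)}
    (h : IsBrauerPairOf p M B (pairOf x b).1 (pairOf x b).2) :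
    IsInducedBlock M (Subgroup.centralizer ({x} : Set G)) b B := by
  have h1 := trB_induced (centralizer_zpowers x) (induced_of_brauerPairOf hMp h)
  have h2 : trB (centralizer_zpowers x) (pairOf x b).2 = b := trB_trB' (centralizer_zpowers x) b
  rwa [h2] at h1

/-- The characterization of the elements fusing within a maximal pair with abelian subgroup. -/
theorem exists_T_of_conj (hMp : IsPModular p M) {B : Set (IrrCharacter G)} {P Q : Subgroup G}
    {e : Set (IrrCharacter (Subgroup.centralizer (P : Set G)))}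
    {f : Set (IrrCharacter (Subgroup.centralizer (Q : Set G)))}
    (hmax : IsMaximalBrauerPair p M B P e) (hab : ∀ x ∈ P, ∀ y ∈ P, x * y = y * x)
    (hle : SubpairLE p M Q f P e) {t : G}
    (hle' : Relation.ReflTransGen (NormalSubpairRel p M) (cp t ⟨Q, f⟩) ⟨P, e⟩) :
    ∃ c ∈ Subgroup.centralizer ((cq t Q : Subgroup G) : Set G),
      c * t ∈ Subgroup.normalizer (P : Set G) ∧
        StabilizesBlock (Subgroup.centralizer (P : Set G)) e (c * t) := by
  have hPb := isBrauerPairOf_iff.mp hmax.1
  have hPe := hPb.1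
  have hQP := subpairLE_le hle
  have hQ'P : cq t Q ≤ P := chain_le hle'
  have hPC : P ≤ Subgroup.centralizer ((cq t Q : Subgroup G) : Set G) := by
    intro a ha
    rw [Subgroup.mem_centralizer_iff]
    intro q hq
    exact hab q (hQ'P hq) a ha
  have hPC₀ : P ≤ Subgroup.centralizer (Q : Set G) := by
    intro a ha
    rw [Subgroup.mem_centralizer_iff]
    intro q hq
    exact hab q (hQP hq) a ha
  have hCN : Subgroup.centralizer ((cq t Q : Subgroup G) : Set G) ≤
      Subgroup.normalizer ((cq t Q : Subgroup G) : Set G) := Subgroup.centralizer_le_normalizer _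
  have hfb : IsPBlock M (conjBlock Q t f) := by
    have h1 := brauerPair_of_chain hle' hPe
    exact h1.2
  have hF : ∀ s : Subgroup.centralizer ((cq t Q : Subgroup G) : Set G),
      blockCoeff (conjBlock Q t f) s = subgroupBlockCoeff _ (conjBlock Q t f) (s : G) :=
    fun s => (sbc_of_coe _ _ s).symm
  have h₁ : IsNormalSubpair p M (cq t Q) (conjBlock Q t f) P e :=
    normalSubpair_of_subpairLE hMp hPe hQ'P (hPC.trans hCN) hle'
  have h₀ : IsNormalSubpair p M Q f P e :=
    normalSubpair_of_subpairLE hMp hPe hQP (hPC₀.trans (Subgroup.centralizer_le_normalizer _)) hle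
  have h₂ : IsNormalSubpair p M (cq t Q) (conjBlock Q t f) (cq t P) (conjBlock P t e) :=
    isNormalSubpair_conj t h₀
  have hR₂ : cq t P ≤ Subgroup.centralizer ((cq t Q : Subgroup G) : Set G) := by
    rintro _ ⟨u, hu, rfl⟩
    exact (mem_centralizer_cq t Q u).mp (hPC₀ hu)
  have hQ₂ : cq t Q ≤ cq t P := cq_le hQP
  have hz₁ := zComp_sub (le_refl (Subgroup.centralizer ((cq t Q : Subgroup G) : Set G))) hQ'P hPC
  have hz₂ := zComp_sub (le_refl (Subgroup.centralizer ((cq t Q : Subgroup G) : Set G))) hQ₂ hR₂
  have hmax₁ := maximal_in_H hMp le_rfl hF hfb hQ'P hPC hz₁ hmax h₁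
  obtain ⟨c, hc⟩ := exists_conj_in_H hMp le_rfl hCN hF hfb hPC hR₂ hQ'P hQ₂ h₁ h₂ hz₁ hz₂ hmax₁
  have h3 : cp (c : G) ⟨cq t P, conjBlock P t e⟩ = cp ((c : G) * t) ⟨P, e⟩ := cp_cp t c ⟨P, e⟩
  rw [h3] at hc
  have h4 : (cp ((c : G) * t) (⟨P, e⟩ : BrauerPairIdx G)).1 = P := by
    have h5 : cq ((c : G) * t) P ≤ P := chain_le hc
    apply Subgroup.eq_of_le_of_card_ge h5
    show Nat.card P ≤ Nat.card (cq ((c : G) * t) P)
    rw [Subgroup.card_map_of_injective (MulEquiv.injective _)]
  have h6 := chain_eq_of_fst_eq hc h4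
  exact ⟨c, c.2, fixed_of_cp h6⟩

/-- Pairs below a fixed pair are determined by their subgroup. -/
theorem chain_unique (hMp : IsPModular p M) {P : Subgroup G}
    {e : Set (IrrCharacter (Subgroup.centralizer (P : Set G)))} (hPe : IsBrauerPair p M P e)
    {a a' : BrauerPairIdx G} (ha : Relation.ReflTransGen (NormalSubpairRel p M) a ⟨P, e⟩)
    (ha' : Relation.ReflTransGen (NormalSubpairRel p M) a' ⟨P, e⟩) (h : a.1 = a'.1) : a = a' := by
  obtain ⟨Q, f⟩ := a
  obtain ⟨Q', f'⟩ := a'
  have h' : Q = Q' := h
  subst h'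
  have : f = f' := subpairLE_unique hMp hPe ha ha'
  rw [this]

theorem blockDefect_image {K L : Type*} [Group K] [Group L] [Finite K] [Finite L] (φ : K ≃* L)
    (S : Set (IrrCharacter K)) : blockDefect p (irrMap φ '' S) = blockDefect p S := by
  rw [blockDefect_eq, blockDefect_eq, minExp_image, Nat.card_congr φ.toEquiv]

/-- Pairs below an abelian maximal pair have full defect. -/
theorem chain_defect_eq (hMp : IsPModular p M) {B : Set (IrrCharacter G)} {P Q : Subgroup G}
    {e : Set (IrrCharacter (Subgroup.centralizer (P : Set G)))}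
    {f : Set (IrrCharacter (Subgroup.centralizer (Q : Set G)))}
    (hmax : IsMaximalBrauerPair p M B P e) (hab : ∀ x ∈ P, ∀ y ∈ P, x * y = y * x)
    (hle : SubpairLE p M Q f P e) : blockDefect p f = blockDefect p B := by
  have hPb := isBrauerPairOf_iff.mp hmax.1
  have hPe := hPb.1
  have hB := hPb.2.1
  have hf : IsPBlock M f := (brauerPair_of_chain hle hPe).2
  have hQP := subpairLE_le hle
  have hpair : IsBrauerPairOf p M B Q f := (isBrauerPairOf_iff_of_subpairLE hMp (brauerPair_of_chain hle hPe) hle).mp hmax.1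
  have hind := induced_of_brauerPairOf hMp hpair
  obtain ⟨D', hD', hle'⟩ := exists_defect_centralizer hMp hPe hle hf
  obtain ⟨E, hE, hEle⟩ := induced_defect_le hMp hind hD'
  have hPD := isDefectGroup_of_maximal hMp hmax
  have hcP : Nat.card P = Nat.card E := card_defect_eq hMp hB hPD hE
  have h1 : Nat.card D' ≤ Nat.card E := by
    have := Subgroup.card_le_of_le hEle
    rwa [Subgroup.card_map_of_injective (Subgroup.subtype_injective _)] at this
  have hPC : P ≤ Subgroup.centralizer (Q : Set G) := by
    intro a ha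
    rw [Subgroup.mem_centralizer_iff]
    intro q hq
    exact hab q (hQP hq) a ha
  have h2 : Nat.card P ≤ Nat.card D' := by
    have h3 : P.subgroupOf (Subgroup.centralizer (Q : Set G)) ≤ D' := by
      intro x hx
      apply hle'
      rw [Subgroup.mem_subgroupOf] at hx ⊢
      exact ⟨hx, x.2⟩
    have h4 := Subgroup.card_le_of_le h3
    have h5 : Nat.card (P.subgroupOf (Subgroup.centralizer (Q : Set G))) = Nat.card P :=
      Nat.card_congr (Subgroup.subgroupOfEquivOfLe hPC).toEquiv
    omega
  have h3 : Nat.card D' = Nat.card E := by omega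
  rw [card_defect hMp hf hD', card_defect hMp hB hE] at h3
  exact Nat.pow_right_injective hp.out.two_le h3

end

section Top

variable {G : Type u} [Group G] [Finite G] {M : Ideal AlgInt} [hM : M.IsPrime]
variable {p : ℕ} [hp : Fact p.Prime]

omit hM hp in
theorem centralizer_one_eq : Subgroup.centralizer ({1} : Set G) = ⊤ := by
  ext x
  simp [Subgroup.mem_centralizer_singleton_iff]

/-- The isomorphism from the centralizer of the identity. -/
noncomputable def cOne (G : Type u) [Group G] [Finite G] : Subgroup.centralizer ({1} : Set G) ≃* G :=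
  (MulEquiv.subgroupCongr centralizer_one_eq).trans Subgroup.topEquiv

omit hM hp in
theorem cOne_apply (h : Subgroup.centralizer ({1} : Set G)) : cOne G h = (h : G) := rfl

omit hM hp in
theorem cOne_symm_coe (g : G) : (((cOne G).symm g : Subgroup.centralizer ({1} : Set G)) : G) = g := by
  rw [← cOne_apply, MulEquiv.apply_symm_apply]

omit hM hp in
/-- The induced central character from the centralizer of the identity. -/
theorem inducedCentralChar_cOne (ξ : IrrCharacter (Subgroup.centralizer ({1} : Set G))) (g : G) :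
    inducedCentralChar (Subgroup.centralizer ({1} : Set G)) ξ.1 g =
      centralChar (irrMap (cOne G) ξ).1 g := by
  classical
  have h1 : centralChar (irrMap (cOne G) ξ).1 g = om (irrMap (cOne G) ξ) (classIndicator g) :=
    (om_classIndicator g _).symm
  rw [h1, inducedCentralChar_eq_sum]
  unfold om
  rw [Finset.mul_sum, ← Equiv.sum_comp (cOne G).toEquiv]
  refine Finset.sum_congr rfl fun h _ => ?_
  simp only [MulEquiv.toEquiv_eq_coe, EquivLike.coe_coe]
  have h2 : (irrMap (cOne G) ξ).1 1 = ξ.1 1 := by
    rw [irrMap_apply, map_one]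
  have h3 : (irrMap (cOne G) ξ).1 (cOne G h) = ξ.1 h := by
    rw [irrMap_apply, MulEquiv.symm_apply_apply]
  rw [h2, h3]
  unfold classIndicator
  rw [cOne_apply]
  by_cases hc : IsConj g (h : G)
  · rw [if_pos hc, if_pos hc.symm]
    ring
  · rw [if_neg hc, if_neg (fun h' => hc h'.symm)]
    ring

omit hp in
/-- The blocks of the centralizer of the identity inducing `B`. -/
theorem induced_cOne_iff {B : Set (IrrCharacter G)} (hB : IsPBlock M B)
    {b : Set (IrrCharacter (Subgroup.centralizer ({1} : Set G)))} (hb : IsPBlock M b) :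
    IsInducedBlock M (Subgroup.centralizer ({1} : Set G)) b B ↔ b = irrMap (cOne G).symm '' B := by
  constructor
  · rintro ⟨-, -, h⟩
    obtain ⟨ξ, hξ⟩ := block_nonempty hb
    obtain ⟨χ, hχ⟩ := block_nonempty hB
    have hsame : SameBlock M χ.1 (irrMap (cOne G) ξ).1 := by
      intro g
      have h1 := h ξ hξ χ hχ g
      rw [inducedCentralChar_cOne] at h1
      have h2 := mli_neg h1
      convert h2 using 1
      ring
    have hmem : irrMap (cOne G) ξ ∈ B := by
      rw [block_eq_of_mem hB hχ]
      exact hsame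
    have h3 : irrMap (cOne G).symm (irrMap (cOne G) ξ) = ξ := by
      have := irrMap_symm_irrMap (cOne G) ξ
      exact this
    have himg : IsPBlock M (irrMap (cOne G).symm '' B) := isPBlock_image _ hB
    exact block_eq_of_inter hb himg hξ ⟨_, hmem, h3⟩
  · rintro rfl
    refine ⟨hb, hB, ?_⟩
    rintro _ ⟨χ', hχ', rfl⟩ χ hχ g
    rw [inducedCentralChar_cOne]
    have h3 : irrMap (cOne G) (irrMap (cOne G).symm χ') = χ' := by
      have := irrMap_irrMap_symm (cOne G) χ'
      exact this
    rw [h3]
    have hsame : SameBlock M χ.1 χ'.1 := block_sameBlock hB hχ hχ'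
    have h2 := mli_neg (hsame g)
    convert h2 using 1
    ring

omit hp in
theorem indBlocks_one {B : Set (IrrCharacter G)} (hB : IsPBlock M B) :
    indBlocks M (1 : G) B = {irrMap (cOne G).symm '' B} := by
  classical
  ext b
  unfold indBlocks
  simp only [Finset.mem_filter, Finset.mem_singleton, mem_blocksF]
  constructor
  · rintro ⟨h1, h2⟩
    exact (induced_cOne_iff hB h1).mp h2
  · rintro rfl
    have h1 : IsPBlock M (irrMap (cOne G).symm '' B) := isPBlock_image _ hB
    exact ⟨h1, (induced_cOne_iff hB h1).mpr rfl⟩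

/-- The identity term of the formula for the number of characters. -/
theorem sum_indBlocks_one {B : Set (IrrCharacter G)} (hB : IsPBlock M B) :
    ∑ b ∈ indBlocks M (1 : G) B, blockRank p b = blockRank p B := by
  rw [indBlocks_one hB, Finset.sum_singleton, blockRank_image]

end Top

section Reps

variable {G : Type u} [Group G] [Finite G]

/-- A set of representatives for the classes of `p`-elements. -/
theorem exists_reps (p : ℕ) : ∃ X : Finset G, (∀ x ∈ X, ∃ k : ℕ, orderOf x = p ^ k) ∧
    ∀ g : G, (∃ k : ℕ, orderOf g = p ^ k) → ∃! x, x ∈ X ∧ IsConj g x := by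
  classical
  let S : Finset (ConjClasses G) := Finset.univ.filter (fun C => ∃ k : ℕ, orderOf (Quotient.out C) = p ^ k)
  refine ⟨S.image Quotient.out, ?_, ?_⟩
  · intro x hx
    obtain ⟨C, hC, rfl⟩ := Finset.mem_image.mp hx
    exact (Finset.mem_filter.mp hC).2
  · rintro g ⟨k, hk⟩
    have hcon : ∀ C : ConjClasses G, ConjClasses.mk (Quotient.out C) = C := fun C => Quotient.out_eq C
    have hg : IsConj g (Quotient.out (ConjClasses.mk g)) :=
      ConjClasses.mk_eq_mk_iff_isConj.mp (hcon _).symm
    refine ⟨Quotient.out (ConjClasses.mk g), ⟨?_, hg⟩, ?_⟩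
    · refine Finset.mem_image.mpr ⟨ConjClasses.mk g, Finset.mem_filter.mpr ⟨Finset.mem_univ _, k, ?_⟩, rfl⟩
      rw [← hk]
      obtain ⟨c, hc⟩ := isConj_iff.mp hg
      rw [← hc]
      exact orderOf_conj _ _
    · rintro y ⟨hy, hgy⟩
      obtain ⟨C, -, rfl⟩ := Finset.mem_image.mp hy
      have h1 : ConjClasses.mk g = C :=
        (ConjClasses.mk_eq_mk_iff_isConj.mpr hgy).trans (hcon C)
      rw [h1]

end Reps

end Cfsg.Agent.H22
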