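import Cfsg.Agent.Lib.H22.BFTwo
import Cfsg.Agent.Lib.H22.KlC
import Cfsg.Agent.Lib.H22.CentralRank
import Cfsg.Agent.Lib.H21.InflateBlocks
import Cfsg.Agent.Lib.H21.PairDefect

/-!
# The Brauer–Feit bound for the number of characters in a block
-/

set_option autoImplicit false
set_option linter.unusedSectionVars false
set_option linter.style.haveILetI false
set_option linter.unusedSimpArgs false

namespace Cfsg.Agent.H22

open Cfsg Cfsg.Agent.H21 Module
open scoped ComplexConjugate ComplexOrder

universe u

section Major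

variable {G : Type u} [Group G] [Finite G] {p : ℕ} [hp : Fact p.Prime] {M : Ideal AlgInt}
  [hMp : M.IsPrime]

omit hMp in
theorem exists_central_order_p {D : Subgroup G} (hD : IsPGroup p D) (hne : D ≠ ⊥) :
    ∃ y ∈ D, orderOf y = p ∧ ∀ x ∈ D, x * y = y * x := by
  classical
  haveI : Nontrivial D := (Subgroup.nontrivial_iff_ne_bot D).mpr hne
  haveI : Nontrivial (Subgroup.center D) := hD.center_nontrivial
  have hcp : IsPGroup p (Subgroup.center D) := hD.to_subgroup _
  obtain ⟨n, hn⟩ := IsPGroup.iff_card.mp hcp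
  have hn0 : n ≠ 0 := by
    rintro rfl
    rw [pow_zero] at hn
    have := Finite.one_lt_card (α := Subgroup.center D)
    omega
  have hdvd : p ∣ Nat.card (Subgroup.center D) := by
    rw [hn]
    exact dvd_pow_self p hn0
  obtain ⟨x, hx⟩ := exists_prime_orderOf_dvd_card' p hdvd
  refine ⟨(x : D), (x : D).2, ?_, ?_⟩
  · rw [Subgroup.orderOf_coe, Subgroup.orderOf_coe]
    exact hx
  · intro a ha
    have h1 := (Subgroup.mem_center_iff.mp x.2) ⟨a, ha⟩
    exact (congrArg Subtype.val h1)

/-- **Major subsections of order `p`.** -/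
theorem exists_major (hM : IsPModular p M) {B : Set (IrrCharacter G)} (hB : IsPBlock M B)
    (hd : blockDefect p B ≠ 0) :
    ∃ (y : G) (b : Set (IrrCharacter (Subgroup.centralizer ({y} : Set G)))), orderOf y = p ∧
      IsInducedBlock M (Subgroup.centralizer ({y} : Set G)) b B ∧ blockDefect p b = blockDefect p B := by
  classical
  obtain ⟨D, hD⟩ := isDefectGroup_exists (p := p) hB
  have hcard := card_defect hM hB hD
  obtain ⟨e, hmax⟩ := exists_maximal_on_defect hM hD hB
  have hPe := (isBrauerPairOf_iff.mp hmax.1).1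
  have hDp : IsPGroup p D := hPe.1
  have hne : D ≠ ⊥ := by
    intro h
    rw [h, Subgroup.card_bot] at hcard
    have h2 : 1 < p ^ blockDefect p B := Nat.one_lt_pow hd hp.out.one_lt
    omega
  obtain ⟨y, hyD, hyo, hyc⟩ := exists_central_order_p hDp hne
  obtain ⟨f, hf, hle⟩ := exists_subpairLE hM hPe (Subgroup.zpowers y) (Subgroup.zpowers_le.mpr hyD)
  have hBf : IsBrauerPairOf p M B (Subgroup.zpowers y) f :=
    (isBrauerPairOf_iff_of_subpairLE hM hf hle).mp hmax.1
  obtain ⟨D', hD', hleD⟩ := exists_defect_centralizer hM hPe hle hf.2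
  have hind := induced_of_brauerPairOf hM hBf
  obtain ⟨E, hE, hDE⟩ := induced_defect_le hM hind hD'
  have hcardE := card_defect hM hB hE
  have hcardD' := card_defect hM hf.2 hD'
  have h1 : Nat.card D' ≤ Nat.card E := by
    have h2 : Nat.card D' = Nat.card (D'.map (Subgroup.centralizer ((Subgroup.zpowers y : Subgroup G) : Set G)).subtype) :=
      (Subgroup.card_map_of_injective (Subgroup.subtype_injective _)).symm
    rw [h2]
    exact Subgroup.card_le_of_le hDE
  have hDC : D ≤ Subgroup.centralizer ((Subgroup.zpowers y : Subgroup G) : Set G) := by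
    intro a ha
    rw [Subgroup.mem_centralizer_iff]
    intro z hz
    obtain ⟨i, rfl⟩ := Subgroup.mem_zpowers_iff.mp hz
    have h3 : Commute a y := hyc a ha
    exact (h3.zpow_right i).eq.symm
  have h2 : Nat.card D ≤ Nat.card D' := by
    have h3 : Nat.card ((D ⊓ Subgroup.centralizer ((Subgroup.zpowers y : Subgroup G) : Set G)).subgroupOf
        (Subgroup.centralizer ((Subgroup.zpowers y : Subgroup G) : Set G))) = Nat.card D := by
      rw [inf_eq_left.mpr hDC]
      exact Nat.card_congr (Subgroup.subgroupOfEquivOfLe hDC).toEquiv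
    rw [← h3]
    exact Subgroup.card_le_of_le hleD
  have hdefect : blockDefect p f = blockDefect p B := by
    rw [hcardD', hcardE] at h1
    rw [hcard, hcardD'] at h2
    have h3 : p ^ blockDefect p f = p ^ blockDefect p B := le_antisymm h1 h2
    exact Nat.pow_right_injective hp.out.two_le h3
  obtain ⟨b, hb⟩ := exists_pairOf (x := y) (a := ⟨Subgroup.zpowers y, f⟩) rfl
  refine ⟨y, b, hyo, ?_, ?_⟩
  · apply induced_of_pairOf hM
    rw [hb]
    exact hBf
  · have h3 := congrArg (fun a : BrauerPairIdx G => blockDefect p a.2) hb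
    simp only at h3
    have h4 : blockDefect p (pairOf y b).2 = blockDefect p b := trB_defect _ b
    rw [← hdefect, ← h3, h4]

end Major

section Rank

variable {K : Type u} [Group K] [Finite K] {p : ℕ} [hp : Fact p.Prime] {M : Ideal AlgInt}
  [hMp : M.IsPrime]

omit hMp in
theorem blockRank_le_card (b : Set (IrrCharacter K)) : blockRank p b ≤ Nat.card b := by
  classical
  unfold blockRank
  set f : IrrCharacter K → (K → ℂ) := fun χ => pRegularPart p (χ : K → ℂ) with hf
  haveI : Fintype (f '' b) := Fintype.ofFinite _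
  have h1 := finrank_span_le_card (R := ℂ) (f '' b)
  refine h1.trans ?_
  rw [Set.toFinset_card, ← Nat.card_eq_fintype_card, Nat.card_coe_set_eq, Nat.card_coe_set_eq]
  exact Set.ncard_image_le (Set.toFinite b)

/-- The rank of a block, from the blocks of the quotient by a central subgroup of order `p`. -/
theorem rank_le_of_central (hM : IsPModular p M) (Z : Subgroup K) [hZn : Z.Normal]
    (hZc : ∀ z ∈ Z, ∀ g, z * g = g * z) (hZp : IsPGroup p Z) (hZ : Nat.card Z = p)
    {b : Set (IrrCharacter K)} (hb : IsPBlock M b) (F : ℕ → ℕ) (hF : Monotone F)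
    (IH : ∀ B' : Set (IrrCharacter (K ⧸ Z)), IsPBlock M B' → Nat.card B' ≤ F (blockDefect p B')) :
    blockRank p b ≤ F (blockDefect p b - 1) := by
  classical
  have hidx := central_idx (p := p) Z hZc
  obtain ⟨t, θ, hθ, hθt⟩ := exists_inflation_in_block hM hZp hidx hb
  have hinfl : inflIrr Z t = θ := Subtype.ext hθt.symm
  have hbeq : b = blockOf M (inflIrr Z t).1 := by
    rw [hinfl]
    exact block_eq_of_mem hb hθ
  have hb' : IsPBlock M (blockOf M t.1) := ⟨t, rfl⟩
  have hrank := blockRank_infl_eq hM Z hZc hZp t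
  rw [← hbeq] at hrank
  rw [← hrank]
  refine (blockRank_le_card _).trans ((IH _ hb').trans (hF ?_))
  -- the defects
  obtain ⟨ψ, hψ, hψe⟩ := exists_min_height (p := p) hb'
  have hψb : inflIrr Z ψ ∈ b := by
    rw [hbeq]
    exact sameBlock_inflate (M := M) Z hψ
  have hdeg : charDegree (inflIrr Z ψ).1 = charDegree ψ.1 := by
    unfold charDegree
    show ⌊((ψ.1 ∘ QuotientGroup.mk' Z) 1).re⌋₊ = _
    simp
  have h1 := minExp_le (p := p) hψb
  rw [hdeg, hψe] at h1
  have hcard : Nat.card K = Nat.card (K ⧸ Z) * Nat.card Z :=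
    Subgroup.card_eq_card_quotient_mul_card_subgroup Z
  have hfac : (Nat.card K).factorization p = (Nat.card (K ⧸ Z)).factorization p + 1 := by
    rw [hcard, Nat.factorization_mul Nat.card_pos.ne' Nat.card_pos.ne', hZ]
    simp [hp.out.factorization_self]
  rw [blockDefect_eq, blockDefect_eq]
  omega

end Rank

section Main

variable {p : ℕ} [hp : Fact p.Prime] {M : Ideal AlgInt} [hMp : M.IsPrime]

/-- The bound of Brauer and Feit. -/
def FF (p : ℕ) (n : ℕ) : ℕ := if n ≤ 1 then p ^ n else p ^ (2 * n - 2)

theorem FF_mono : Monotone (FF p) := by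
  apply monotone_nat_of_le_succ
  intro n
  have hp1 : 1 ≤ p := hp.out.one_lt.le
  unfold FF
  rcases n with _ | _ | n
  · simp only [zero_add, pow_zero, pow_one, le_refl, if_true, zero_le]
    simpa using hp1
  · simp only [zero_add]
    rw [if_pos le_rfl, if_neg (by omega)]
    rw [pow_one]
    calc p = p ^ 1 := (pow_one p).symm
      _ ≤ p ^ (2 * (1 + 1) - 2) := Nat.pow_le_pow_right hp1 (by omega)
  · rw [if_neg (by omega), if_neg (by omega)]
    exact Nat.pow_le_pow_right hp1 (by omega)

/-- **The Brauer–Feit bound.** -/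
theorem bf_bound (hM : IsPModular p M) : ∀ (n : ℕ) (G : Type u) [Group G] [Finite G]
    (B : Set (IrrCharacter G)), IsPBlock M B → Nat.card G = n → Nat.card B ≤ FF p (blockDefect p B) := by
  intro n
  induction n using Nat.strong_induction_on with
  | _ n ih =>
    intro G _ _ B hB hn
    classical
    have hp1 : 1 ≤ p := hp.out.one_lt.le
    by_cases hpos : ∃ χ ∈ B, (charDegree χ.1).factorization p ≠ minExp p B
    · obtain ⟨χ, hχ, hne⟩ := hpos
      obtain ⟨-, h3, h2⟩ := positive_height_bounds hM hB hχ hne
      unfold FF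
      rw [if_neg (by omega)]
      omega
    push Not at hpos
    by_cases hd0 : blockDefect p B = 0
    · rw [hd0]
      unfold FF
      rw [if_pos (by omega), pow_zero]
      obtain ⟨χ, hχ⟩ := block_nonempty hB
      have hsing : ∀ ψ ∈ B, ψ = χ := by
        intro ψ hψ
        have hnd : ¬ p ∣ Nat.card G / charDegree χ.1 := by
          rw [not_dvd_codegree_iff]
          have h1 := hpos χ hχ
          have h2 := minExp_le_card (p := p) hB
          rw [blockDefect_eq] at hd0
          omega
        refine eq_of_mem_block_of_defect_zero hM χ hnd ?_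
        have h2 := hψ
        rw [block_eq_of_mem hB hχ] at h2
        exact h2
      have h1 : B ⊆ {χ} := fun ψ hψ => hsing ψ hψ
      have h2 := Set.ncard_le_ncard h1 (Set.toFinite _)
      rw [Set.ncard_singleton] at h2
      rw [Nat.card_coe_set_eq]
      exact h2
    obtain ⟨y, b, hy, hind, hdef⟩ := exists_major hM hB hd0
    by_cases hd2 : blockDefect p B = 2
    · rw [hd2]
      unfold FF
      rw [if_neg (by omega)]
      exact defect_two_bound hM hy hind hdef hd2
    have hmaj := major_bound (k := 1) hM (by rw [pow_one]; exact hy) hind hdef hpos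
    set z := yC y with hz
    set Z : Subgroup (Subgroup.centralizer ({y} : Set G)) := Subgroup.zpowers z with hZdef
    have hZcent : Z ≤ Subgroup.center (Subgroup.centralizer ({y} : Set G)) :=
      Subgroup.zpowers_le.mpr (yC_center y)
    have hZc : ∀ a ∈ Z, ∀ g, a * g = g * a := fun a ha g =>
      ((Subgroup.mem_center_iff.mp (hZcent ha)) g).symm
    haveI hZn : Z.Normal := by
      constructor
      intro a ha g
      rw [← hZc a ha g, mul_inv_cancel_right]
      exact ha
    have hzo : orderOf z = p := by
      rw [hz, ← Subgroup.orderOf_coe]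
      exact hy
    have hZcard : Nat.card Z = p := by
      rw [hZdef, Nat.card_zpowers, hzo]
    have hZp : IsPGroup p Z := IsPGroup.of_card (n := 1) (by rw [hZcard, pow_one])
    have hlt : Nat.card ((Subgroup.centralizer ({y} : Set G)) ⧸ Z) < n := by
      have h1 : Nat.card (Subgroup.centralizer ({y} : Set G)) =
          Nat.card ((Subgroup.centralizer ({y} : Set G)) ⧸ Z) * Nat.card Z :=
        Subgroup.card_eq_card_quotient_mul_card_subgroup Z
      have h2 : Nat.card (Subgroup.centralizer ({y} : Set G)) ≤ Nat.card G :=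
        Subgroup.card_le_card_group _
      have h3 : 0 < Nat.card ((Subgroup.centralizer ({y} : Set G)) ⧸ Z) := Nat.card_pos
      rw [hZcard] at h1
      have h4 := hp.out.two_le
      nlinarith
    have IH : ∀ B' : Set (IrrCharacter ((Subgroup.centralizer ({y} : Set G)) ⧸ Z)), IsPBlock M B' →
        Nat.card B' ≤ FF p (blockDefect p B') := fun B' hB' =>
      ih _ hlt _ B' hB' rfl
    have hrank := rank_le_of_central hM Z hZc hZp hZcard hind.1 (FF p) FF_mono IH
    rw [hdef] at hrank hmaj
    set d := blockDefect p B with hd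
    have hfin : Nat.card B ^ 2 ≤ (p ^ d) ^ 2 * FF p (d - 1) :=
      hmaj.trans (Nat.mul_le_mul_left _ hrank)
    have hne1 : d = 1 ∨ 3 ≤ d := by omega
    rcases hne1 with h1 | h3
    · rw [h1] at hfin ⊢
      unfold FF at hfin ⊢
      rw [if_pos (by omega)] at hfin ⊢
      have h4 : Nat.card B ^ 2 ≤ (p ^ 1) ^ 2 := by
        simpa using hfin
      exact (Nat.pow_le_pow_iff_left (by norm_num)).mp h4
    · unfold FF at hfin ⊢
      rw [if_neg (by omega)] at hfin ⊢
      have h4 : (p ^ d) ^ 2 * p ^ (2 * (d - 1) - 2) = (p ^ (2 * d - 2)) ^ 2 := by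
        rw [← pow_mul, ← pow_add, ← pow_mul]
        congr 1
        omega
      rw [h4] at hfin
      exact (Nat.pow_le_pow_iff_left (by norm_num)).mp hfin

end Main

end Cfsg.Agent.H22
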