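import Cfsg.Agent.Lib.H21.RegProj
import Cfsg.Agent.Lib.H21.CentralDefect

/-! # Height bounds of Brauer and Feit -/

set_option autoImplicit false
set_option linter.unusedSectionVars false
set_option linter.style.haveILetI false
set_option linter.unusedSimpArgs false

namespace Cfsg.Agent.H22

open Cfsg Cfsg.Agent.H21 Module
open scoped ComplexConjugate

universe u

section

variable {G : Type u} [Group G] [Fintype G] [Fintype (IrrCharacter G)]
  {p : ℕ} [hp : Fact p.Prime] {M : Ideal AlgInt} [hMp : M.IsPrime]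

/-- The exponent of `p` in the degree. -/
noncomputable abbrev edeg (p : ℕ) (χ : IrrCharacter G) : ℕ := (charDegree χ.1).factorization p

/-- The integer row of a character and its arithmetic. -/
theorem row_data (hM : IsPModular p M) {B : Set (IrrCharacter G)} (hB : IsPBlock M B)
    {χ : IrrCharacter G} (hχ : χ ∈ B) :
    ∃ y : IrrCharacter G → ℤ,
      ∑ ξ, y ξ ^ 2 = (p : ℤ) ^ ((Nat.card G).factorization p - edeg p χ) * y χ ∧
      (∀ ξ, edeg p χ ≤ edeg p ξ → (p : ℤ) ^ (edeg p ξ - edeg p χ) ∣ y ξ) ∧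
      (∀ ξ ∈ B, edeg p ξ = minExp p B → ¬ (p : ℤ) ∣ y ξ) ∧
      (edeg p χ ≠ minExp p B → (p : ℤ) ∣ y χ) ∧
      (edeg p χ = minExp p B → ∀ ξ ∈ B, y ξ ≠ 0) := by
  obtain ⟨y, hy, hsum⟩ := row_int hM χ
  refine ⟨y, hsum, ?_, ?_, ?_, ?_⟩
  all_goals
    have hp0 : (p : ℂ) ≠ 0 := by exact_mod_cast hp.out.ne_zero
    have hpI : (p : ℤ) ≠ 0 := by exact_mod_cast hp.out.ne_zero
    have hn : ∀ ξ, ((p ^ (Nat.card G).factorization p : ℕ) : ℂ) * crt p χ ξ =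
        (((p : ℤ) ^ edeg p χ * y ξ : ℤ) : ℂ) := by
      intro ξ
      rw [hy ξ]
      push_cast
      rfl
  · intro ξ hle
    have h1 := tilde_dvd hM χ ξ (hn ξ)
    have h2 : edeg p ξ = edeg p χ + (edeg p ξ - edeg p χ) := by omega
    have h3 : (p : ℤ) ^ edeg p χ * (p : ℤ) ^ (edeg p ξ - edeg p χ) ∣ (p : ℤ) ^ edeg p χ * y ξ := by
      rw [← pow_add, ← h2]
      exact h1
    exact (mul_dvd_mul_iff_left (pow_ne_zero _ hpI)).1 h3
  · intro ξ hξ h0 hdvd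
    have h1 := (tilde_exact hM hB hξ hχ (n := (p : ℤ) ^ edeg p χ * y ξ)
      (by rw [crt_symm]; exact hn ξ)).1 h0
    apply h1
    rw [pow_succ]
    exact mul_dvd_mul_left _ hdvd
  · intro hne
    have h1 := (tilde_exact hM hB hχ hχ (n := (p : ℤ) ^ edeg p χ * y χ) (hn χ))
    have h2 : (p : ℤ) ^ (edeg p χ + 1) ∣ (p : ℤ) ^ edeg p χ * y χ := by
      by_contra h3
      exact hne (h1.2 h3)
    rw [pow_succ] at h2
    exact (mul_dvd_mul_iff_left (pow_ne_zero _ hpI)).1 h2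
  · intro h0 ξ hξ hy0
    have h1 := (tilde_exact hM hB hχ hξ (n := (p : ℤ) ^ edeg p χ * y ξ) (hn ξ)).1 h0
    apply h1
    rw [hy0, mul_zero]
    exact dvd_zero _

/-- The basic square bound. -/
theorem pow_two_mul_le_sq {y : ℤ} {q : ℤ} (hq : 0 < q) (hd : q ∣ y) (hy : y ≠ 0) : q ^ 2 ≤ y ^ 2 := by
  obtain ⟨c, rfl⟩ := hd
  have hc : c ≠ 0 := by
    rintro rfl
    simp at hy
  have h1 : 1 ≤ c ^ 2 := by
    have := sq_nonneg c
    have h2 : 0 < c ^ 2 := by positivity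
    omega
  nlinarith [sq_nonneg q]

/-- The weighted Brauer--Feit bound, in integers. -/
theorem weighted_bound (hM : IsPModular p M) {B : Set (IrrCharacter G)} (hB : IsPBlock M B) :
    ∃ χ₀ ∈ B, edeg p χ₀ = minExp p B ∧
      ∃ (t : ℤ) (y : IrrCharacter G → ℤ),
      (∑ ξ ∈ Finset.univ.erase χ₀, y ξ ^ 2 = (p : ℤ) ^ blockDefect p B * t - t ^ 2) ∧
      (∀ ξ ∈ B, (p : ℤ) ^ (edeg p ξ - minExp p B) ∣ y ξ) ∧ (∀ ξ ∈ B, y ξ ≠ 0) := by
  classical
  obtain ⟨χ₀, hχ₀, h₀⟩ := exists_min_height (p := p) hB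
  replace h₀ : edeg p χ₀ = minExp p B := h₀
  obtain ⟨y, h1, h2, h3, h4, h5⟩ := row_data hM hB hχ₀
  refine ⟨χ₀, hχ₀, h₀, y χ₀, y, ?_, ?_, h5 h₀⟩
  · have hsplit : ∑ ξ, y ξ ^ 2 = y χ₀ ^ 2 + ∑ ξ ∈ Finset.univ.erase χ₀, y ξ ^ 2 :=
      (Finset.add_sum_erase _ _ (Finset.mem_univ χ₀)).symm
    have h6 : (Nat.card G).factorization p - edeg p χ₀ = blockDefect p B := by
      rw [blockDefect_eq, h₀]
    rw [h6] at h1
    rw [h1] at hsplit
    linarith
  · intro ξ hξ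
    have := h2 ξ (by rw [h₀]; exact minExp_le hξ)
    rwa [h₀] at this

/-- **Weighted Brauer--Feit.** -/
theorem sum_height_bound (hM : IsPModular p M) {B : Set (IrrCharacter G)} (hB : IsPBlock M B) :
    4 * ∑ ξ ∈ (Set.toFinite B).toFinset, p ^ (2 * (edeg p ξ - minExp p B)) ≤
      (p ^ blockDefect p B) ^ 2 + 4 := by
  classical
  obtain ⟨χ₀, hχ₀, h₀, t, y, h1, h2, h3⟩ := weighted_bound hM hB
  set S := (Set.toFinite B).toFinset with hS
  have hS0 : χ₀ ∈ S := (Set.Finite.mem_toFinset _).2 hχ₀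
  have hsplit : ∑ ξ ∈ S, p ^ (2 * (edeg p ξ - minExp p B)) =
      p ^ (2 * (edeg p χ₀ - minExp p B)) + ∑ ξ ∈ S.erase χ₀, p ^ (2 * (edeg p ξ - minExp p B)) :=
    (Finset.add_sum_erase _ _ hS0).symm
  rw [hsplit, h₀, Nat.sub_self, mul_zero, pow_zero]
  have hle : ((∑ ξ ∈ S.erase χ₀, p ^ (2 * (edeg p ξ - minExp p B)) : ℕ) : ℤ) ≤
      ∑ ξ ∈ Finset.univ.erase χ₀, y ξ ^ 2 := by
    push_cast
    calc ∑ ξ ∈ S.erase χ₀, (p : ℤ) ^ (2 * (edeg p ξ - minExp p B))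
        ≤ ∑ ξ ∈ S.erase χ₀, y ξ ^ 2 := by
          refine Finset.sum_le_sum fun ξ hξ => ?_
          have hξ' : ξ ∈ B := (Set.Finite.mem_toFinset _).1 (Finset.mem_erase.1 hξ).2
          have hpos : (0 : ℤ) < (p : ℤ) ^ (edeg p ξ - minExp p B) := by
            have : (0 : ℤ) < p := by exact_mod_cast hp.out.pos
            positivity
          have := pow_two_mul_le_sq hpos (h2 ξ hξ') (h3 ξ hξ')
          rw [mul_comm, pow_mul]
          exact this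
      _ ≤ ∑ ξ ∈ Finset.univ.erase χ₀, y ξ ^ 2 := by
          refine Finset.sum_le_sum_of_subset_of_nonneg ?_ (fun _ _ _ => by positivity)
          intro ξ hξ
          exact Finset.mem_erase.2 ⟨(Finset.mem_erase.1 hξ).1, Finset.mem_univ _⟩
  have hmain : 4 * ((∑ ξ ∈ S.erase χ₀, p ^ (2 * (edeg p ξ - minExp p B)) : ℕ) : ℤ) ≤
      ((p : ℤ) ^ blockDefect p B) ^ 2 := by
    rw [h1] at hle
    nlinarith [sq_nonneg ((p : ℤ) ^ blockDefect p B - 2 * t)]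
  have hgoal : ((4 * (1 + ∑ ξ ∈ S.erase χ₀, p ^ (2 * (edeg p ξ - minExp p B))) : ℕ) : ℤ) ≤
      (((p ^ blockDefect p B) ^ 2 + 4 : ℕ) : ℤ) := by
    push_cast at hmain ⊢
    linarith
  exact_mod_cast hgoal

/-- Arithmetic of the last step. -/
theorem final_arith {P Q z w : ℤ} (hP : 4 ≤ P) (hQ : 16 ≤ Q) (h1 : 4 * z ≤ Q)
    (h2 : 4 * (z - 1) + 4 * P * w ≤ P * Q) : 2 * (z + w) ≤ Q := by
  by_contra hcon
  push Not at hcon
  have h3 : Q + 1 ≤ 2 * (z + w) := by omega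
  have h4 : 2 * P * (Q + 1) ≤ 2 * P * (2 * (z + w)) :=
    mul_le_mul_of_nonneg_left h3 (by omega)
  have h5 : (P - 1) * (4 * z) ≤ (P - 1) * Q := mul_le_mul_of_nonneg_left h1 (by omega)
  nlinarith

/-- The height-zero characters in `B`. -/
noncomputable def hz0 (p : ℕ) (B : Set (IrrCharacter G)) : Finset (IrrCharacter G) :=
  by classical exact ((Set.toFinite B).toFinset).filter (fun ξ => edeg p ξ = minExp p B)

/-- The characters of positive height in `B`. -/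
noncomputable def hzp (p : ℕ) (B : Set (IrrCharacter G)) : Finset (IrrCharacter G) :=
  by classical exact ((Set.toFinite B).toFinset).filter (fun ξ => ¬ edeg p ξ = minExp p B)

theorem mem_hz0 {B : Set (IrrCharacter G)} {ξ : IrrCharacter G} :
    ξ ∈ hz0 p B ↔ ξ ∈ B ∧ edeg p ξ = minExp p B := by
  classical
  simp [hz0]

theorem mem_hzp {B : Set (IrrCharacter G)} {ξ : IrrCharacter G} :
    ξ ∈ hzp p B ↔ ξ ∈ B ∧ ¬ edeg p ξ = minExp p B := by
  classical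
  simp [hzp]

theorem card_hz (B : Set (IrrCharacter G)) : Nat.card B = (hz0 p B).card + (hzp p B).card := by
  classical
  have h1 := Finset.card_filter_add_card_filter_not (s := (Set.toFinite B).toFinset)
    (fun ξ => edeg p ξ = minExp p B)
  have h2 : hz0 p B = ((Set.toFinite B).toFinset).filter (fun ξ => edeg p ξ = minExp p B) := by
    ext ξ; simp [mem_hz0]
  have h3 : hzp p B = ((Set.toFinite B).toFinset).filter (fun ξ => ¬ edeg p ξ = minExp p B) := by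
    ext ξ; simp [mem_hzp]
  rw [h2, h3, h1, Nat.card_eq_card_finite_toFinset]

/-- The row of a character of positive height. -/
theorem row_positive (hM : IsPModular p M) {B : Set (IrrCharacter G)} (hB : IsPBlock M B)
    {χ₁ : IrrCharacter G} (hχ₁ : χ₁ ∈ B) (hpos : edeg p χ₁ ≠ minExp p B) :
    2 ≤ (Nat.card G).factorization p - edeg p χ₁ ∧
      4 * ((hz0 p B).card : ℤ) ≤ ((p : ℤ) ^ ((Nat.card G).factorization p - edeg p χ₁)) ^ 2 := by
  classical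
  have hpI : (2 : ℤ) ≤ p := by exact_mod_cast hp.out.two_le
  have hpI0 : (0 : ℤ) < p := by omega
  obtain ⟨y₁, hs1, -, h13, h14, -⟩ := row_data hM hB hχ₁
  generalize hf : (Nat.card G).factorization p - edeg p χ₁ = f at hs1 ⊢
  obtain ⟨χ₀, hχ₀, h₀⟩ := exists_min_height (p := p) hB
  replace h₀ : edeg p χ₀ = minExp p B := h₀
  have hsplit1 : ∑ ξ, y₁ ξ ^ 2 = y₁ χ₁ ^ 2 + ∑ ξ ∈ Finset.univ.erase χ₁, y₁ ξ ^ 2 :=
    (Finset.add_sum_erase _ _ (Finset.mem_univ χ₁)).symm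
  have hrest1 : ∑ ξ ∈ Finset.univ.erase χ₁, y₁ ξ ^ 2 = (p : ℤ) ^ f * y₁ χ₁ - y₁ χ₁ ^ 2 := by
    rw [hs1] at hsplit1
    linarith
  have hy10 : ∀ ξ ∈ B, edeg p ξ = minExp p B → y₁ ξ ≠ 0 := by
    intro ξ hξ hξ0 h0
    apply h13 ξ hξ hξ0
    rw [h0]
    exact dvd_zero _
  have hZ1 : ((hz0 p B).card : ℤ) ≤ ∑ ξ ∈ Finset.univ.erase χ₁, y₁ ξ ^ 2 := by
    calc ((hz0 p B).card : ℤ) = ∑ ξ ∈ hz0 p B, (1 : ℤ) := by simp
      _ ≤ ∑ ξ ∈ hz0 p B, y₁ ξ ^ 2 := by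
          refine Finset.sum_le_sum fun ξ hξ => ?_
          obtain ⟨hb, hz⟩ := mem_hz0.1 hξ
          have := hy10 ξ hb hz
          have h3 : 0 < y₁ ξ ^ 2 := by positivity
          omega
      _ ≤ ∑ ξ ∈ Finset.univ.erase χ₁, y₁ ξ ^ 2 := by
          refine Finset.sum_le_sum_of_subset_of_nonneg ?_ (fun _ _ _ => by positivity)
          intro ξ hξ
          refine Finset.mem_erase.2 ⟨?_, Finset.mem_univ _⟩
          rintro rfl
          exact hpos (mem_hz0.1 hξ).2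
  have hZpos : (1 : ℤ) ≤ (hz0 p B).card := by
    have : χ₀ ∈ hz0 p B := mem_hz0.2 ⟨hχ₀, h₀⟩
    exact_mod_cast Finset.card_pos.2 ⟨χ₀, this⟩
  have hpf : (0 : ℤ) < (p : ℤ) ^ f := by positivity
  have hrestpos : 1 ≤ (p : ℤ) ^ f * y₁ χ₁ - y₁ χ₁ ^ 2 := by
    rw [← hrest1]
    linarith
  have hn1pos : 0 < y₁ χ₁ := by
    by_contra hcon
    push Not at hcon
    nlinarith [sq_nonneg (y₁ χ₁)]
  have hn1lt : y₁ χ₁ < (p : ℤ) ^ f := by
    by_contra hcon
    push Not at hcon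
    nlinarith
  have hpn : (p : ℤ) ∣ y₁ χ₁ := h14 hpos
  have hpn' : (p : ℤ) ≤ y₁ χ₁ := Int.le_of_dvd hn1pos hpn
  have hf2 : 2 ≤ f := by
    by_contra hcon
    have hf1 : f ≤ 1 := by omega
    have : (p : ℤ) ^ f ≤ (p : ℤ) := by
      calc (p : ℤ) ^ f ≤ (p : ℤ) ^ 1 := pow_le_pow_right₀ (by omega) hf1
        _ = p := pow_one _
    omega
  refine ⟨hf2, ?_⟩
  have h1 : 4 * ((hz0 p B).card : ℤ) ≤ 4 * ((p : ℤ) ^ f * y₁ χ₁ - y₁ χ₁ ^ 2) := by
    rw [← hrest1]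
    linarith
  nlinarith [sq_nonneg ((p : ℤ) ^ f - 2 * y₁ χ₁)]

/-- The row of a character of height zero. -/
theorem row_zero (hM : IsPModular p M) {B : Set (IrrCharacter G)} (hB : IsPBlock M B) :
    4 * (((hz0 p B).card : ℤ) - 1) + 4 * (p : ℤ) ^ 2 * ((hzp p B).card : ℤ) ≤
      ((p : ℤ) ^ blockDefect p B) ^ 2 := by
  classical
  have hpI : (2 : ℤ) ≤ p := by exact_mod_cast hp.out.two_le
  have hpI0 : (0 : ℤ) < p := by omega
  obtain ⟨χ₂, hχ₂, h₂, t, y, h1, h2, h3⟩ := weighted_bound hM hB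
  have hsum : ((hz0 p B).erase χ₂).card + (p : ℤ) ^ 2 * ((hzp p B).card : ℤ) ≤
      ∑ ξ ∈ Finset.univ.erase χ₂, y ξ ^ 2 := by
    have hdisj : Disjoint ((hz0 p B).erase χ₂) (hzp p B) := by
      rw [Finset.disjoint_left]
      intro ξ hξ hξ'
      exact (mem_hzp.1 hξ').2 (mem_hz0.1 (Finset.mem_erase.1 hξ).2).2
    have h4 : ∑ ξ ∈ ((hz0 p B).erase χ₂) ∪ (hzp p B), y ξ ^ 2 =
        ∑ ξ ∈ (hz0 p B).erase χ₂, y ξ ^ 2 + ∑ ξ ∈ hzp p B, y ξ ^ 2 := Finset.sum_union hdisj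
    have h5 : (((hz0 p B).erase χ₂).card : ℤ) ≤ ∑ ξ ∈ (hz0 p B).erase χ₂, y ξ ^ 2 := by
      calc (((hz0 p B).erase χ₂).card : ℤ) = ∑ ξ ∈ (hz0 p B).erase χ₂, (1 : ℤ) := by simp
        _ ≤ ∑ ξ ∈ (hz0 p B).erase χ₂, y ξ ^ 2 := by
            refine Finset.sum_le_sum fun ξ hξ => ?_
            have hb := (mem_hz0.1 (Finset.mem_erase.1 hξ).2).1
            have := h3 ξ hb
            have h3' : 0 < y ξ ^ 2 := by positivity
            omega
    have h6 : (p : ℤ) ^ 2 * ((hzp p B).card : ℤ) ≤ ∑ ξ ∈ hzp p B, y ξ ^ 2 := by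
      calc (p : ℤ) ^ 2 * ((hzp p B).card : ℤ) = ∑ ξ ∈ hzp p B, (p : ℤ) ^ 2 := by simp [mul_comm]
        _ ≤ ∑ ξ ∈ hzp p B, y ξ ^ 2 := by
            refine Finset.sum_le_sum fun ξ hξ => ?_
            obtain ⟨hb, hnz⟩ := mem_hzp.1 hξ
            have hdv : (p : ℤ) ∣ y ξ := by
              have h7 := h2 ξ hb
              have h8 : 1 ≤ edeg p ξ - minExp p B := by
                have : minExp p B ≤ edeg p ξ := minExp_le hb
                omega
              exact dvd_trans (dvd_pow_self _ (by omega)) h7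
            exact pow_two_mul_le_sq hpI0 hdv (h3 ξ hb)
    have h9 : ∑ ξ ∈ ((hz0 p B).erase χ₂) ∪ (hzp p B), y ξ ^ 2 ≤
        ∑ ξ ∈ Finset.univ.erase χ₂, y ξ ^ 2 := by
      refine Finset.sum_le_sum_of_subset_of_nonneg ?_ (fun _ _ _ => by positivity)
      intro ξ hξ
      refine Finset.mem_erase.2 ⟨?_, Finset.mem_univ _⟩
      rcases Finset.mem_union.1 hξ with hξ1 | hξ2
      · exact (Finset.mem_erase.1 hξ1).1
      · intro hξe
        rw [hξe] at hξ2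
        exact (mem_hzp.1 hξ2).2 h₂
    linarith
  rw [h1] at hsum
  have h10 : (((hz0 p B).erase χ₂).card : ℤ) = ((hz0 p B).card : ℤ) - 1 := by
    have hmem : χ₂ ∈ hz0 p B := mem_hz0.2 ⟨hχ₂, h₂⟩
    rw [Finset.card_erase_of_mem hmem]
    have : 1 ≤ (hz0 p B).card := Finset.card_pos.2 ⟨χ₂, hmem⟩
    push_cast [Nat.cast_sub this]
    rfl
  rw [h10] at hsum
  nlinarith [sq_nonneg ((p : ℤ) ^ blockDefect p B - 2 * t)]

/-- **Height bounds.** -/
theorem positive_height_bounds (hM : IsPModular p M) {B : Set (IrrCharacter G)} (hB : IsPBlock M B)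
    {χ₁ : IrrCharacter G} (hχ₁ : χ₁ ∈ B) (hpos : edeg p χ₁ ≠ minExp p B) :
    edeg p χ₁ - minExp p B + 2 ≤ blockDefect p B ∧ 3 ≤ blockDefect p B ∧
      2 * Nat.card B ≤ p ^ (2 * blockDefect p B - 2) := by
  classical
  obtain ⟨hf2, hb1⟩ := row_positive hM hB hχ₁ hpos
  have hb2 := row_zero hM hB
  have hle₀ : minExp p B ≤ edeg p χ₁ := minExp_le hχ₁
  have hlea : edeg p χ₁ ≤ (Nat.card G).factorization p := factorization_degree_le χ₁
  have hdef : blockDefect p B = (Nat.card G).factorization p - minExp p B := rfl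
  have hd3 : 3 ≤ blockDefect p B := by omega
  refine ⟨by omega, hd3, ?_⟩
  have hpI : (2 : ℤ) ≤ p := by exact_mod_cast hp.out.two_le
  generalize hd : blockDefect p B = d at *
  have hQ16 : 16 ≤ (p : ℤ) ^ (2 * d - 2) := by
    have h1 : (p : ℤ) ^ 4 ≤ (p : ℤ) ^ (2 * d - 2) := pow_le_pow_right₀ (by omega) (by omega)
    have h2 : (2 : ℤ) ^ 4 ≤ (p : ℤ) ^ 4 := pow_le_pow_left₀ (by omega) hpI 4
    norm_num at h2
    omega
  have hfQ : ((p : ℤ) ^ ((Nat.card G).factorization p - edeg p χ₁)) ^ 2 ≤ (p : ℤ) ^ (2 * d - 2) := by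
    rw [← pow_mul]
    exact pow_le_pow_right₀ (by omega) (by omega)
  have hq2 : ((p : ℤ) ^ d) ^ 2 = (p : ℤ) ^ 2 * (p : ℤ) ^ (2 * d - 2) := by
    rw [← pow_mul, ← pow_add]
    congr 1
    omega
  rw [hq2] at hb2
  have hP : (4 : ℤ) ≤ (p : ℤ) ^ 2 := by nlinarith
  have hfinal := final_arith hP hQ16 (hb1.trans hfQ) hb2
  rw [card_hz (p := p) B]
  have hgoal : ((2 * ((hz0 p B).card + (hzp p B).card) : ℕ) : ℤ) ≤ ((p ^ (2 * d - 2) : ℕ) : ℤ) := by
    push_cast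
    exact hfinal
  exact_mod_cast hgoal

end

end Cfsg.Agent.H22
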