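import Cfsg.Agent.Lib.H22.MajC
import Cfsg.Agent.Lib.H22.HeightBound
import Cfsg.Agent.Lib.H21.DefectOne

/-!
# Blocks of defect two with a central involution
-/

set_option autoImplicit false
set_option linter.unusedSectionVars false
set_option linter.style.haveILetI false
set_option linter.unusedSimpArgs false

namespace Cfsg.Agent.H22

open Cfsg Cfsg.Agent.H21 Module
open scoped ComplexConjugate

universe u

section Combi

/-- The arithmetic of the rows of a block of defect two with a central involution. -/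
theorem klein_combi {α : Type*} [DecidableEq α] (F : Finset α) (σ y : α → ℤ)
    (hσ : ∀ a ∈ F, σ a = 1 ∨ σ a = -1) (hodd : ∀ a ∈ F, Odd (y a)) {t : ℤ}
    (h1 : ∑ a ∈ F, y a ^ 2 = 4 * t) (h2 : ∑ a ∈ F, σ a * y a ^ 2 = 0) {a₀ : α} (ha₀ : a₀ ∈ F)
    (ht : y a₀ = t) : t = 1 ∧ F.card = 4 ∧ ∀ a ∈ F, y a ^ 2 = 1 := by
  classical
  set Fp := F.filter (fun a => σ a = 1) with hFp
  set Fm := F.filter (fun a => ¬ σ a = 1) with hFm
  have hsplit : ∀ f : α → ℤ, ∑ a ∈ F, f a = ∑ a ∈ Fp, f a + ∑ a ∈ Fm, f a := fun f =>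
    (Finset.sum_filter_add_sum_filter_not F _ f).symm
  have hp : ∑ a ∈ Fp, σ a * y a ^ 2 = ∑ a ∈ Fp, y a ^ 2 := by
    refine Finset.sum_congr rfl fun a ha => ?_
    rw [(Finset.mem_filter.mp ha).2, one_mul]
  have hm : ∑ a ∈ Fm, σ a * y a ^ 2 = -∑ a ∈ Fm, y a ^ 2 := by
    rw [← Finset.sum_neg_distrib]
    refine Finset.sum_congr rfl fun a ha => ?_
    obtain ⟨ha1, ha2⟩ := Finset.mem_filter.mp ha
    rcases hσ a ha1 with h | h
    · exact absurd h ha2
    · rw [h]
      ring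
  have h1' := hsplit (fun a => y a ^ 2)
  have h2' := hsplit (fun a => σ a * y a ^ 2)
  rw [hp, hm, h2] at h2'
  rw [h1] at h1'
  have hSp : ∑ a ∈ Fp, y a ^ 2 = 2 * t := by linarith
  have hSm : ∑ a ∈ Fm, y a ^ 2 = 2 * t := by linarith
  have hle : t ^ 2 ≤ 2 * t := by
    by_cases hs : σ a₀ = 1
    · have hmem : a₀ ∈ Fp := Finset.mem_filter.mpr ⟨ha₀, hs⟩
      have : y a₀ ^ 2 ≤ ∑ a ∈ Fp, y a ^ 2 :=
        Finset.single_le_sum (f := fun a => y a ^ 2) (fun a _ => sq_nonneg (y a)) hmem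
      rw [ht, hSp] at this
      exact this
    · have hmem : a₀ ∈ Fm := Finset.mem_filter.mpr ⟨ha₀, hs⟩
      have : y a₀ ^ 2 ≤ ∑ a ∈ Fm, y a ^ 2 :=
        Finset.single_le_sum (f := fun a => y a ^ 2) (fun a _ => sq_nonneg (y a)) hmem
      rw [ht, hSm] at this
      exact this
  have htodd : Odd t := ht ▸ hodd a₀ ha₀
  have ht1 : t = 1 := by
    have h3 : 0 ≤ t := by nlinarith [sq_nonneg t]
    have h4 : t ≤ 2 := by
      by_contra hcon
      push Not at hcon
      nlinarith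
    obtain ⟨k, hk⟩ := htodd
    omega
  subst ht1
  have hone : ∀ S : Finset α, S ⊆ F → ∑ a ∈ S, y a ^ 2 = 2 → (S.card = 2 ∧ ∀ a ∈ S, y a ^ 2 = 1) := by
    intro S hS hsum
    have hall : ∀ a ∈ S, y a ^ 2 = 1 := by
      intro a ha
      have h3 : y a ^ 2 ≤ ∑ a ∈ S, y a ^ 2 :=
        Finset.single_le_sum (f := fun a => y a ^ 2) (fun a _ => sq_nonneg (y a)) ha
      rw [hsum] at h3
      obtain ⟨k, hk⟩ := hodd a (hS ha)
      have h4 : k = 0 ∨ k = -1 := by
        have h5 : (2 * k + 1) ^ 2 ≤ 2 := by rw [← hk]; exact h3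
        have h6 : -1 ≤ k := by nlinarith [sq_nonneg k]
        have h7 : k ≤ 0 := by nlinarith [sq_nonneg k]
        omega
      rcases h4 with rfl | rfl <;> rw [hk] <;> norm_num
    refine ⟨?_, hall⟩
    rw [Finset.sum_congr rfl hall] at hsum
    simp at hsum
    exact_mod_cast hsum
  obtain ⟨hc1, ha1⟩ := hone Fp (Finset.filter_subset _ _) (by rw [hSp]; norm_num)
  obtain ⟨hc2, ha2⟩ := hone Fm (Finset.filter_subset _ _) (by rw [hSm]; norm_num)
  refine ⟨rfl, ?_, ?_⟩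
  · have := Finset.card_filter_add_card_filter_not (s := F) (fun a => σ a = 1)
    rw [← hFp, ← hFm, hc1, hc2] at this
    omega
  · intro a ha
    by_cases hs : σ a = 1
    · exact ha1 a (Finset.mem_filter.mpr ⟨ha, hs⟩)
    · exact ha2 a (Finset.mem_filter.mpr ⟨ha, hs⟩)

/-- The arithmetic for the column of a block: a sum of odd squares equal to four. -/
theorem card_of_sum_odd_sq {α : Type*} (F : Finset α) (d : α → ℤ) (hodd : ∀ a ∈ F, Odd (d a))
    (h : ∑ a ∈ F, d a ^ 2 = 4) : F.card = 4 := by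
  have h1 : ∀ a ∈ F, (0 : ℤ) ≤ d a ^ 2 - 1 ∧ (8 : ℤ) ∣ d a ^ 2 - 1 := by
    intro a ha
    obtain ⟨k, hk⟩ := hodd a ha
    rw [hk]
    constructor
    · have h2 : (2 * k + 1) ^ 2 - 1 = 4 * (k * (k + 1)) := by ring
      rw [h2]
      have h3 : 0 ≤ k * (k + 1) := by
        rcases le_or_gt 0 k with h | h
        · positivity
        · nlinarith
      omega
    · have h2 : (2 * k + 1) ^ 2 - 1 = 4 * (k * (k + 1)) := by ring
      rw [h2]
      obtain ⟨m, hm⟩ := Int.even_mul_succ_self k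
      rw [hm]
      exact ⟨m, by ring⟩
  have h2 : ∑ a ∈ F, (d a ^ 2 - 1) = 4 - (F.card : ℤ) := by
    rw [Finset.sum_sub_distrib, h]
    simp
  have h3 : (0 : ℤ) ≤ 4 - (F.card : ℤ) := by
    rw [← h2]
    exact Finset.sum_nonneg fun a ha => (h1 a ha).1
  have h4 : (8 : ℤ) ∣ 4 - (F.card : ℤ) := by
    rw [← h2]
    exact Finset.dvd_sum fun a ha => (h1 a ha).2
  omega

end Combi

section Central

variable {K : Type u} [Group K] [Finite K] {M : Ideal AlgInt} [hMp : M.IsPrime]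

/-- The central sign. -/
noncomputable def csg (z : K) (ξ : IrrCharacter K) : ℂ := ξ.1 z * (ξ.1 1)⁻¹

theorem csg_cases {z : K} (hz : z ∈ Subgroup.center K) (hzz : z * z = 1) (ξ : IrrCharacter K) :
    (csg z ξ = 1 ∧ ∀ c, ξ.1 (z * c) = ξ.1 c) ∨ (csg z ξ = -1 ∧ ∀ c, ξ.1 (z * c) = -ξ.1 c) := by
  have h1 := irr_one_ne_zero' ξ
  rcases central_sign ξ hz hzz with ⟨h2, h3⟩ | ⟨h2, h3⟩
  · left
    refine ⟨?_, h3⟩
    unfold csg
    rw [h2, mul_inv_cancel₀ h1]
  · right
    refine ⟨?_, h3⟩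
    unfold csg
    rw [h2, neg_mul, mul_inv_cancel₀ h1]

theorem csg_mul {z : K} (hz : z ∈ Subgroup.center K) (hzz : z * z = 1) (ξ : IrrCharacter K) (c : K) :
    ξ.1 (z * c) = csg z ξ * ξ.1 c := by
  rcases csg_cases hz hzz ξ with ⟨h1, h2⟩ | ⟨h1, h2⟩
  · rw [h1, h2, one_mul]
  · rw [h1, h2, neg_one_mul]

theorem sum_csg_reg (hM : IsPModular 2 M) {z : K} (hz : z ∈ Subgroup.center K) (hzz : z * z = 1)
    (hz1 : z ≠ 1) {b : Set (IrrCharacter K)} (hb : IsPBlock M b) {s s' : K} (hs : ¬ 2 ∣ orderOf s)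
    (hs' : ¬ 2 ∣ orderOf s') :
    ∑ ξ : IrrCharacter K, eB b ξ * (csg z ξ * (ξ.1 s' * conj (ξ.1 s))) = 0 := by
  haveI : Fact (Nat.Prime 2) := ⟨Nat.prime_two⟩
  have hzord : orderOf z = 2 ^ 1 := by
    rw [pow_one]
    apply orderOf_eq_prime _ hz1
    rw [sq]
    exact hzz
  have hg : IsPPart 2 s 1 := ⟨s, one_mul s, Commute.one_left s, ⟨0, by simp⟩, hs⟩
  have hh : IsPPart 2 (z * s') z := by
    refine ⟨s', rfl, ?_, ⟨1, hzord⟩, hs'⟩
    exact (Subgroup.mem_center_iff.mp hz s').symm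
  have hne : ¬ IsConj (1 : K) z := by
    intro h
    exact hz1 (isConj_one_right.mp h)
  have h1 := block_orth_sections hM hg hh hne hb
  rw [← h1]
  refine Finset.sum_congr rfl fun ξ _ => ?_
  rw [csg_mul hz hzz]
  ring

theorem crt_mul_crt_sum (ζ η : IrrCharacter K) :
    crt 2 ζ η * crt 2 η ζ = ((Nat.card K : ℂ)⁻¹ * (Nat.card K : ℂ)⁻¹) *
      ∑ s, ∑ s', (rp 2 ζ.1 s * conj (ζ.1 s')) * (rp 2 η.1 s' * conj (η.1 s)) := by
  rw [crt_eq_sum, crt_eq_sum]
  rw [mul_mul_mul_comm, Finset.sum_mul_sum]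
  congr 1
  refine Finset.sum_congr rfl fun s _ => Finset.sum_congr rfl fun s' _ => ?_
  ring

/-- The signed sum of the squares of the row of `crt` vanishes. -/
theorem sum_csg_crt (hM : IsPModular 2 M) {z : K} (hz : z ∈ Subgroup.center K) (hzz : z * z = 1)
    (hz1 : z ≠ 1) {b : Set (IrrCharacter K)} (hb : IsPBlock M b) (ζ : IrrCharacter K) :
    ∑ η : IrrCharacter K, eB b η * (csg z η * (crt 2 ζ η * crt 2 η ζ)) = 0 := by
  classical
  simp only [crt_mul_crt_sum]
  have h1 : ∀ η : IrrCharacter K, eB b η * (csg z η * (((Nat.card K : ℂ)⁻¹ * (Nat.card K : ℂ)⁻¹) *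
      ∑ s, ∑ s', (rp 2 ζ.1 s * conj (ζ.1 s')) * (rp 2 η.1 s' * conj (η.1 s)))) =
      ((Nat.card K : ℂ)⁻¹ * (Nat.card K : ℂ)⁻¹) * ∑ s, ∑ s', (rp 2 ζ.1 s * conj (ζ.1 s')) *
        (eB b η * (csg z η * (rp 2 η.1 s' * conj (η.1 s)))) := by
    intro η
    simp only [Finset.mul_sum]
    refine Finset.sum_congr rfl fun s _ => Finset.sum_congr rfl fun s' _ => ?_
    ring
  simp only [h1]
  rw [← Finset.mul_sum]
  rw [Finset.sum_comm]
  refine mul_eq_zero_of_right _ (Finset.sum_eq_zero fun s _ => ?_)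
  rw [Finset.sum_comm]
  refine Finset.sum_eq_zero fun s' _ => ?_
  rw [← Finset.mul_sum]
  by_cases hs : 2 ∣ orderOf s
  · rw [rp_of_sing _ hs, zero_mul, zero_mul]
  by_cases hs' : 2 ∣ orderOf s'
  · simp only [rp_of_sing _ hs', zero_mul, mul_zero, Finset.sum_const_zero]
  · simp only [rp_of_reg _ hs']
    rw [sum_csg_reg hM hz hzz hz1 hb hs hs', mul_zero]

/-- The row of `crt` is a projection: the sum over the block. -/
theorem sum_crt_block (hM : IsPModular 2 M) {b : Set (IrrCharacter K)} (hb : IsPBlock M b)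
    {ζ : IrrCharacter K} (hζ : ζ ∈ b) :
    ∑ η : IrrCharacter K, eB b η * (crt 2 ζ η * crt 2 η ζ) = crt 2 ζ ζ := by
  classical
  haveI : Fact (Nat.Prime 2) := ⟨Nat.prime_two⟩
  rw [← crt_row 2 ζ]
  refine Finset.sum_congr rfl fun η _ => ?_
  rw [crt_conj]
  by_cases hη : η ∈ b
  · rw [eB_apply_mem hη, one_mul]
  · rw [eB_apply_not_mem hη, zero_mul]
    have h0 : crt 2 ζ η = 0 := by
      rw [crt_symm]
      apply crt_eq_zero hM
      intro hs
      apply hη
      rw [block_eq_of_mem hb hζ]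
      exact hs
    rw [h0, zero_mul]

/-- The integers `p ^ d [ξ, ξ']` at height zero are prime to `p`. -/
theorem crt_not_dvd {p : ℕ} [hp : Fact p.Prime] (hM : IsPModular p M) {S : Set (IrrCharacter K)}
    (hS : IsPBlock M S) {ξ ξ' : IrrCharacter K} (hξ : ξ ∈ S) (hξ' : ξ' ∈ S)
    (hz : (charDegree ξ.1).factorization p = minExp p S)
    (hz' : (charDegree ξ'.1).factorization p = minExp p S) {n : ℤ}
    (hn : ((p ^ blockDefect p S : ℕ) : ℂ) * crt p ξ ξ' = (n : ℂ)) : ¬ (p : ℤ) ∣ n := by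
  have h4 := minExp_le_card (p := p) hS
  have h3 : (Nat.card K).factorization p = minExp p S + blockDefect p S := by
    rw [blockDefect_eq]
    omega
  have hn' : ((p ^ (Nat.card K).factorization p : ℕ) : ℂ) * crt p ξ ξ' =
      (((p : ℤ) ^ minExp p S * n : ℤ) : ℂ) := by
    rw [h3, pow_add]
    push_cast at hn ⊢
    rw [← hn]
    ring
  have h5 := (tilde_exact hM hS hξ hξ' hn').mp hz
  rw [hz', pow_succ] at h5
  intro hd
  exact h5 (mul_dvd_mul_left _ hd)

/-- The inner product of truncated characters. -/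
theorem rp_inner (χ ξ : IrrCharacter K) :
    (Nat.card K : ℂ)⁻¹ * ∑ s, rp 2 χ.1 s * conj (rp 2 ξ.1 s) = crt 2 χ ξ := by
  rw [crt_eq_sum]
  congr 1
  refine Finset.sum_congr rfl fun s _ => ?_
  by_cases hs : 2 ∣ orderOf s
  · rw [rp_of_sing _ hs, rp_of_sing _ hs]
    simp
  · rw [rp_of_reg _ hs, rp_of_reg _ hs]

/-- Vanishing from a sum of norm squares. -/
theorem eq_zero_of_sum_mul_conj {α : Type*} [Fintype α] (f : α → ℂ)
    (h : ∑ a, f a * conj (f a) = 0) (a : α) : f a = 0 := by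
  have h1 : ∀ a, f a * conj (f a) = ((Complex.normSq (f a) : ℝ) : ℂ) := fun a => Complex.mul_conj _
  simp only [h1] at h
  have h2 : ∑ a, Complex.normSq (f a) = 0 := by exact_mod_cast h
  have h3 := (Finset.sum_eq_zero_iff_of_nonneg (fun a _ => Complex.normSq_nonneg (f a))).mp h2 a (Finset.mem_univ a)
  exact Complex.normSq_eq_zero.mp h3

/-- **Blocks of defect two with a central involution.** -/
theorem klein_central (hM : IsPModular 2 M) {z : K} (hz : z ∈ Subgroup.center K) (hzz : z * z = 1)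
    (hz1 : z ≠ 1) {b : Set (IrrCharacter K)} (hb : IsPBlock M b) (hd : blockDefect 2 b = 2) :
    Nat.card b = 4 ∧ blockRank 2 b = 1 ∧
      ∀ ξ ∈ b, ∀ η ∈ b, crt 2 ξ η = 1 / 4 ∧ rp 2 ξ.1 = rp 2 η.1 := by
  classical
  haveI : Fact (Nat.Prime 2) := ⟨Nat.prime_two⟩
  have hz0 : ∀ χ ∈ b, (charDegree χ.1).factorization 2 = minExp 2 b := by
    intro χ hχ
    by_contra hne
    have h1 := (positive_height_bounds hM hb hχ hne).2.1
    omega
  set F : Finset (IrrCharacter K) := (Set.toFinite b).toFinset with hF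
  have hFm : ∀ χ, χ ∈ F ↔ χ ∈ b := fun χ => Set.Finite.mem_toFinset _
  have hsum : ∀ f : IrrCharacter K → ℂ, ∑ η : IrrCharacter K, eB b η * f η = ∑ η ∈ F, f η := by
    intro f
    rw [← Finset.sum_filter_add_sum_filter_not Finset.univ (fun η => η ∈ b)]
    have h1 : Finset.univ.filter (fun η => η ∈ b) = F := by
      ext η
      simp [hFm]
    rw [h1]
    have h2 : ∑ η ∈ Finset.univ.filter (fun η => ¬ η ∈ b), eB b η * f η = 0 :=
      Finset.sum_eq_zero fun η hη => by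
        rw [eB_apply_not_mem (Finset.mem_filter.mp hη).2, zero_mul]
    rw [h2, add_zero]
    refine Finset.sum_congr rfl fun η hη => ?_
    rw [eB_apply_mem ((hFm η).mp hη), one_mul]
  -- the sign as an integer
  have hsg : ∀ η : IrrCharacter K, ∃ s : ℤ, (s = 1 ∨ s = -1) ∧ csg z η = (s : ℂ) := by
    intro η
    rcases csg_cases hz hzz η with ⟨h, -⟩ | ⟨h, -⟩
    · exact ⟨1, Or.inl rfl, by rw [h]; simp⟩
    · exact ⟨-1, Or.inr rfl, by rw [h]; simp⟩
  choose σ hσ1 hσ2 using hsg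
  -- the rows
  have hrow : ∀ ζ ∈ b, (4 : ℂ) * crt 2 ζ ζ = 1 ∧ F.card = 4 ∧
      ∀ η ∈ b, crt 2 ζ η = 1 / 4 ∨ crt 2 ζ η = -1 / 4 := by
    intro ζ hζ
    have hy : ∀ η, ∃ n : ℤ, (4 : ℂ) * crt 2 ζ η = (n : ℂ) := by
      intro η
      obtain ⟨n, hn⟩ := crt_defect_int (ξ' := η) hM hb hζ
      refine ⟨n, ?_⟩
      rw [← hn, hd]
      norm_num
    choose y hy using hy
    have hodd : ∀ η ∈ F, Odd (y η) := by
      intro η hη
      have h1 : ((2 ^ blockDefect 2 b : ℕ) : ℂ) * crt 2 ζ η = (y η : ℂ) := by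
        rw [← hy η, hd]
        norm_num
      have h2 := crt_not_dvd hM hb hζ ((hFm η).mp hη) (hz0 ζ hζ) (hz0 η ((hFm η).mp hη)) h1
      rw [← Int.not_even_iff_odd, even_iff_two_dvd]
      exact h2
    have hcs : ∀ η, crt 2 ζ η * crt 2 η ζ = ((y η : ℂ) ^ 2) / 16 := by
      intro η
      rw [← crt_symm ζ η, ← hy η]
      ring
    have h1 : ∑ η ∈ F, y η ^ 2 = 4 * y ζ := by
      have h2 := sum_crt_block hM hb hζ
      rw [hsum] at h2
      simp only [hcs] at h2
      have h3 : ((∑ η ∈ F, y η ^ 2 : ℤ) : ℂ) = ((4 * y ζ : ℤ) : ℂ) := by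
        push_cast
        rw [← hy ζ, ← h2, ← Finset.sum_div]
        ring
      exact_mod_cast h3
    have h2 : ∑ η ∈ F, σ η * y η ^ 2 = 0 := by
      have h3 := sum_csg_crt hM hz hzz hz1 hb ζ
      rw [hsum] at h3
      simp only [hcs, hσ2] at h3
      have h4 : ((∑ η ∈ F, σ η * y η ^ 2 : ℤ) : ℂ) = ((0 : ℤ) : ℂ) := by
        push_cast
        have h5 : ∑ η ∈ F, (σ η : ℂ) * (y η : ℂ) ^ 2 =
            16 * ∑ η ∈ F, (σ η : ℂ) * ((y η : ℂ) ^ 2 / 16) := by
          rw [Finset.mul_sum]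
          refine Finset.sum_congr rfl fun η _ => ?_
          ring
        rw [h5, h3, mul_zero]
      exact_mod_cast h4
    obtain ⟨ht, hcard, hsq⟩ := klein_combi F σ y (fun a _ => hσ1 a) hodd h1 h2
      ((hFm ζ).mpr hζ) rfl
    refine ⟨?_, hcard, fun η hη => ?_⟩
    · rw [hy ζ, ht]
      simp
    · have h3 := hsq η ((hFm η).mpr hη)
      have h4 : y η = 1 ∨ y η = -1 := by
        have : (y η - 1) * (y η + 1) = 0 := by linear_combination h3
        rcases mul_eq_zero.mp this with h | h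
        · left; omega
        · right; omega
      rcases h4 with h | h
      · left
        have h5 := hy η
        rw [h] at h5
        push_cast at h5
        linear_combination h5 / 4
      · right
        have h5 := hy η
        rw [h] at h5
        push_cast at h5
        linear_combination h5 / 4
  obtain ⟨ξ₀, hξ₀⟩ := block_nonempty hb
  have hFcard : F.card = 4 := (hrow ξ₀ hξ₀).2.1
  have hcrt : ∀ ξ ∈ b, ∀ η ∈ b, crt 2 ξ η = 1 / 4 ∧ rp 2 ξ.1 = rp 2 η.1 := by
    intro ξ hξ η hη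
    have hξξ : crt 2 ξ ξ = 1 / 4 := by
      have := (hrow ξ hξ).1
      linear_combination this / 4
    have hηη : crt 2 η η = 1 / 4 := by
      have := (hrow η hη).1
      linear_combination this / 4
    have hηξ : crt 2 η ξ = crt 2 ξ η := crt_symm η ξ
    have hK : (Nat.card K : ℂ) ≠ 0 := card_ne_zero_C
    have hgen : ∀ c : ℂ, conj c = c → c * c = 1 → crt 2 ξ η = c / 4 → rp 2 ξ.1 = c • rp 2 η.1 := by
      intro c hcc hc hval
      have h1 : ∑ s, (rp 2 ξ.1 s - c * rp 2 η.1 s) * conj (rp 2 ξ.1 s - c * rp 2 η.1 s) = 0 := by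
        have h2 : ∀ s, (rp 2 ξ.1 s - c * rp 2 η.1 s) * conj (rp 2 ξ.1 s - c * rp 2 η.1 s) =
            rp 2 ξ.1 s * conj (rp 2 ξ.1 s) - c * (rp 2 ξ.1 s * conj (rp 2 η.1 s)) -
              c * (rp 2 η.1 s * conj (rp 2 ξ.1 s)) + (c * c) * (rp 2 η.1 s * conj (rp 2 η.1 s)) := by
          intro s
          rw [map_sub, map_mul, hcc]
          ring
        simp only [h2]
        rw [Finset.sum_add_distrib, Finset.sum_sub_distrib, Finset.sum_sub_distrib,
          ← Finset.mul_sum, ← Finset.mul_sum, ← Finset.mul_sum]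
        have h3 : ∀ χ ξ' : IrrCharacter K, ∑ s, rp 2 χ.1 s * conj (rp 2 ξ'.1 s) =
            (Nat.card K : ℂ) * crt 2 χ ξ' := by
          intro χ ξ'
          rw [← rp_inner, mul_inv_cancel_left₀ hK]
        rw [h3, h3, h3, h3, hξξ, hηη, hηξ, hval, hc]
        linear_combination (-(Nat.card K : ℂ) / 2) * hc
      funext s
      have h4 := eq_zero_of_sum_mul_conj _ h1 s
      rw [Pi.smul_apply, smul_eq_mul]
      linear_combination h4
    have h1ord : ¬ 2 ∣ orderOf (1 : K) := by simp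
    have hpos : ∀ χ : IrrCharacter K, rp 2 χ.1 1 = (charDegree χ.1 : ℂ) := by
      intro χ
      rw [rp_of_reg _ h1ord, one_eq_charDegree (isCharacter_of_irr χ)]
    rcases (hrow ξ hξ).2.2 η hη with h | h
    · refine ⟨h, ?_⟩
      have := hgen 1 (by simp) (by simp) (by rw [h])
      rw [this, one_smul]
    · exfalso
      have h5 := hgen (-1) (by simp) (by simp) (by rw [h])
      have h6 := congrFun h5 1
      rw [Pi.smul_apply, smul_eq_mul, hpos, hpos] at h6
      have h7 : ((charDegree ξ.1 + charDegree η.1 : ℕ) : ℂ) = 0 := by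
        push_cast
        linear_combination h6
      have h8 : charDegree ξ.1 + charDegree η.1 = 0 := by exact_mod_cast h7
      have h9 := irr_charDegree_pos ξ.2
      omega
  refine ⟨?_, ?_, hcrt⟩
  · rw [Nat.card_eq_card_finite_toFinset]
    exact hFcard
  · -- the rank
    have hK : (Nat.card K : ℂ) ≠ 0 := card_ne_zero_C
    have h1 := card_mul_blockRank hM hb
    rw [Finset.sum_comm] at h1
    have h2 : ∀ χ : IrrCharacter K, ∑ x : K, eB b χ * (pRegularPart 2 χ.1 x * conj (pRegularPart 2 χ.1 x)) =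
        eB b χ * ((Nat.card K : ℂ) * crt 2 χ χ) := by
      intro χ
      rw [← rp_inner, mul_inv_cancel_left₀ hK, ← Finset.mul_sum, rp_eq_pRegularPart]
    simp only [h2] at h1
    rw [hsum] at h1
    rw [Finset.sum_congr rfl (fun χ hχ => by rw [(hcrt χ ((hFm χ).mp hχ) χ ((hFm χ).mp hχ)).1])] at h1
    simp only [Finset.sum_const, hFcard, nsmul_eq_mul] at h1
    have h3 : (blockRank 2 b : ℂ) = 1 := by
      apply mul_left_cancel₀ hK
      rw [h1]
      push_cast
      ring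
    exact_mod_cast h3

end Central

end Cfsg.Agent.H22
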