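import Cfsg.Prelude.Def_BrauerPairs
import Cfsg.Prelude.Def_BlockRank
import Cfsg.Agent.Lib.H22.BlockRank
import Cfsg.Agent.Lib.H21.Subsec2
import Cfsg.Agent.Lib.H21.Subsec3
import Cfsg.Agent.Lib.H21.HeightInd

/-! # Contribution matrices of subsections -/

set_option autoImplicit false
set_option linter.unusedSectionVars false
set_option linter.style.haveILetI false
set_option linter.unusedSimpArgs false

namespace Cfsg.Agent.H22

open Cfsg Cfsg.Agent.H21 Module
open scoped ComplexConjugate Pointwise

universe u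

section

variable {G : Type u} [Group G] [Finite G] {p : ℕ} [hp : Fact p.Prime] {M : Ideal AlgInt}
  [hMp : M.IsPrime]

/-- A Brauer pair of `B` induces `B`. -/
theorem induced_of_brauerPairOf (hM : IsPModular p M) {Q : Subgroup G}
    {e : Set (IrrCharacter (Subgroup.centralizer (Q : Set G)))} {B : Set (IrrCharacter G)}
    (h : IsBrauerPairOf p M B Q e) : IsInducedBlock M (Subgroup.centralizer (Q : Set G)) e B := by
  classical
  obtain ⟨⟨hQ, he⟩, hB, hsub⟩ := isBrauerPairOf_iff.1 h
  obtain ⟨B', hB'⟩ := exists_induced_centralizer hM hQ he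
  obtain ⟨ξ, hξ⟩ := block_nonempty he
  have h1 := mem_brSet_of_induced hB' hξ
  have h2 := hsub hξ
  obtain ⟨⟨B₀, hB₀⟩, -, hu⟩ := existsUnique_block_of_char hM hQ ξ
  have hBF : B ∈ blocksF M G := mem_blocksF.mpr hB
  have hBF' : B' ∈ blocksF M G := mem_blocksF.mpr hB'.2.1
  have h3 := hu ⟨B, hBF⟩ h2
  have h4 := hu ⟨B', hBF'⟩ h1
  have h5 : B = B' := congrArg Subtype.val (h3.trans h4.symm)
  rw [h5]
  exact hB'

variable {z : G}

theorem conj_inner_section (χ : IrrCharacter G) (ψ : IrrCharacter (Subgroup.centralizer ({z} : Set G))) :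
    conj (classInner (fun c : Subgroup.centralizer ({z} : Set G) => χ.1 (z * (c : G))) ψ.1) =
      classInner (fun c : Subgroup.centralizer ({z} : Set G) => χ.1 (z⁻¹ * (c : G))) ψ.1 := by
  classical
  unfold classInner
  rw [map_mul, map_inv₀, map_natCast, map_sum]
  congr 1
  rw [← Equiv.sum_comp (Equiv.inv (Subgroup.centralizer ({z} : Set G)))]
  refine Finset.sum_congr rfl fun c _ => ?_
  simp only [Equiv.inv_apply, map_mul, Complex.conj_conj]
  have hc : (c : G) * z = z * (c : G) := Subgroup.mem_centralizer_singleton_iff.mp c.2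
  have hc' : z⁻¹ * (c : G) = (c : G) * z⁻¹ := by
    calc z⁻¹ * (c : G) = z⁻¹ * ((c : G) * z) * z⁻¹ := by group
      _ = (c : G) * z⁻¹ := by rw [hc]; group
  have h1 : conj (χ.1 (z * ((c⁻¹ : Subgroup.centralizer ({z} : Set G)) : G))) = χ.1 (z⁻¹ * (c : G)) := by
    rw [← irr_inv']
    congr 1
    rw [Subgroup.coe_inv, mul_inv_rev, inv_inv, hc']
  rw [h1, irr_inv']

theorem conj_blockPart_section (e : Set (IrrCharacter (Subgroup.centralizer ({z} : Set G))))
    (χ : IrrCharacter G) (s : Subgroup.centralizer ({z} : Set G)) :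
    conj (blockPart e (fun c : Subgroup.centralizer ({z} : Set G) => χ.1 (z * (c : G))) s) =
      blockPart e (fun c : Subgroup.centralizer ({z} : Set G) => χ.1 (z⁻¹ * (c : G))) s⁻¹ := by
  classical
  rw [blockPart_eq, blockPart_eq, map_sum]
  refine Finset.sum_congr rfl fun ψ _ => ?_
  rw [map_mul, map_mul, conj_inner_section, ← irr_inv' ψ s]
  congr 1
  by_cases h : ψ ∈ e
  · rw [eB_apply_mem h, map_one]
  · rw [eB_apply_not_mem h, map_zero]

/-- The contribution of a subsection: `Σ_ζ Σ_{s reg} |ζ_u(s)|² = |C| l(e)`. -/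
theorem sum_section_eq_rank (hM : IsPModular p M) {k : ℕ} (hz : orderOf z = p ^ k)
    {e : Set (IrrCharacter (Subgroup.centralizer ({z} : Set G)))} (he : IsPBlock M e) :
    ∑ ζ : IrrCharacter G, ∑ s : Subgroup.centralizer ({z} : Set G),
      pRegularPart p (blockPart e (fun c : Subgroup.centralizer ({z} : Set G) => ζ.1 (z * (c : G)))) s *
        conj (pRegularPart p (blockPart e (fun c : Subgroup.centralizer ({z} : Set G) => ζ.1 (z * (c : G)))) s) =
      (Nat.card (Subgroup.centralizer ({z} : Set G)) : ℂ) * (blockRank p e : ℂ) := by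
  classical
  rw [card_mul_blockRank hM he, Finset.sum_comm]
  refine Finset.sum_congr rfl fun s _ => ?_
  by_cases hs : p ∣ orderOf s
  · simp only [pRegularPart_of_singular p _ hs, zero_mul, mul_zero, Finset.sum_const_zero]
  · simp only [pRegularPart_of_regular p _ hs]
    rw [subsection_orth hM hz he he hs hs]
    refine Finset.sum_congr rfl fun ψ _ => ?_
    by_cases h : ψ ∈ e
    · rw [eB_apply_mem h, one_mul]
    · rw [eB_apply_not_mem h, zero_mul, zero_mul]

/-- The sum of the squares of the `p`-regular columns of a subsection of `B`. -/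
theorem block_section_eq_rank (hM : IsPModular p M) {B : Set (IrrCharacter G)} {k : ℕ}
    (hz : orderOf z = p ^ k) (H : Subgroup G) (hH : H = Subgroup.centralizer ({z} : Set G))
    {e : Set (IrrCharacter H)} (he : IsPBlock M e) (hB : IsPBlock M B)
    (hind : IsInducedBlock M H e B) :
    ∑ᶠ χ ∈ B, ∑ᶠ s : H, pRegularPart p (blockPart e (fun c : H => (χ : G → ℂ) (z * (c : G)))) s *
        blockPart e (fun c : H => (χ : G → ℂ) (z⁻¹ * (c : G))) s⁻¹ =
      (Nat.card H : ℂ) * (blockRank p e : ℂ) := by
  classical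
  subst hH
  rw [← sum_section_eq_rank hM hz he, finsum_mem_irr]
  refine Finset.sum_congr rfl fun χ _ => ?_
  rw [finsum_eq_sum_of_fintype]
  by_cases hχ : χ ∈ B
  · rw [eB_apply_mem hχ, one_mul]
    refine Finset.sum_congr rfl fun s _ => ?_
    by_cases hs : p ∣ orderOf s
    · simp only [pRegularPart_of_singular p _ hs, zero_mul]
    · simp only [pRegularPart_of_regular p _ hs]
      rw [conj_blockPart_section]
  · rw [eB_apply_not_mem hχ, zero_mul]
    symm
    refine Finset.sum_eq_zero fun s _ => ?_
    by_cases hs : p ∣ orderOf s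
    · simp only [pRegularPart_of_singular p _ hs, zero_mul]
    · simp only [pRegularPart_of_regular p _ hs]
      have hnot : ¬ IsInducedBlock M (Subgroup.centralizer ({z} : Set G)) e (blockOf M χ.1) := by
        intro h
        have h2 := induced_unique hind h
        apply hχ
        rw [h2]
        exact self_mem_blockOf χ
      rw [second_main hM hz (isBlock_blockOf χ) (self_mem_blockOf χ) he hnot s hs, zero_mul]

end

end Cfsg.Agent.H22
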