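import Cfsg.Agent.Lib.H21.GaloisProd
import Cfsg.Agent.Lib.H22.Brauer2

/-!
# Algebraic integers in cyclotomic subfields of `ℂ`: the average of `|σ x|²` is at least one
-/

set_option autoImplicit false
set_option linter.unusedSectionVars false
set_option linter.style.haveILetI false
set_option linter.unusedSimpArgs false

namespace Cfsg.Agent.H22

open Cfsg Cfsg.Agent.H21 Module
open scoped ComplexConjugate

universe u

/-- A primitive root of unity of order `N` in `ℂ`. -/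
noncomputable def zetaN (N : ℕ) : ℂ := Complex.exp (2 * Real.pi * Complex.I / N)

theorem zetaN_prim (N : ℕ) [hN : NeZero N] : IsPrimitiveRoot (zetaN N) N :=
  Complex.isPrimitiveRoot_exp N hN.out

/-- The cyclotomic subfield of `ℂ`. -/
noncomputable def cycF (N : ℕ) : IntermediateField ℚ ℂ := IntermediateField.adjoin ℚ {zetaN N}

theorem zetaN_mem (N : ℕ) : zetaN N ∈ cycF N := IntermediateField.mem_adjoin_simple_self ℚ _

section

variable {N : ℕ} [hN : NeZero N]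

theorem conj_zetaN : conj (zetaN N) = (zetaN N)⁻¹ := by
  have h := (zetaN_prim N).pow_eq_one
  have h1 : ‖zetaN N‖ = 1 := Complex.norm_eq_one_of_pow_eq_one h hN.out
  exact (Complex.inv_eq_conj h1).symm

theorem conj_mem_cycF {x : ℂ} (hx : x ∈ cycF N) : conj x ∈ cycF N := by
  unfold cycF at hx ⊢
  induction hx using IntermediateField.adjoin_induction with
  | mem x hx =>
    rw [Set.mem_singleton_iff.mp hx, conj_zetaN]
    exact inv_mem (IntermediateField.mem_adjoin_simple_self ℚ _)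
  | algebraMap r =>
    have : conj (algebraMap ℚ ℂ r) = algebraMap ℚ ℂ r := by simp
    rw [this]
    exact IntermediateField.algebraMap_mem _ r
  | add x y _ _ hx hy =>
    rw [map_add]
    exact add_mem hx hy
  | inv x _ hx =>
    rw [map_inv₀]
    exact inv_mem hx
  | mul x y _ _ hx hy =>
    rw [map_mul]
    exact mul_mem hx hy

instance cycF_finiteDimensional : FiniteDimensional ℚ (cycF N) := by
  have hint : IsIntegral ℚ (zetaN N) :=
    IsIntegral.of_pow (NeZero.pos N) (by rw [(zetaN_prim N).pow_eq_one]; exact isIntegral_one)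
  exact IntermediateField.adjoin.finiteDimensional hint

theorem conj_embed (τ : cycF N →ₐ[ℚ] ℂ) {x : ℂ} (hx : x ∈ cycF N) :
    conj (τ ⟨x, hx⟩) = τ ⟨conj x, conj_mem_cycF hx⟩ := by
  refine IntermediateField.adjoin_induction (F := ℚ) (s := ({zetaN N} : Set ℂ))
    (p := fun x hx => conj (τ ⟨x, hx⟩) = τ ⟨conj x, conj_mem_cycF hx⟩) ?_ ?_ ?_ ?_ ?_ hx
  · intro x hx'
    obtain rfl := Set.mem_singleton_iff.mp hx'
    set w := τ ⟨zetaN N, IntermediateField.subset_adjoin ℚ _ hx'⟩ with hw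
    have hwN : w ^ N = 1 := by
      rw [hw, ← map_pow]
      have : (⟨zetaN N, IntermediateField.subset_adjoin ℚ _ hx'⟩ : cycF N) ^ N = 1 :=
        Subtype.ext (by simpa using (zetaN_prim N).pow_eq_one)
      rw [this, map_one]
    have h1 : ‖w‖ = 1 := Complex.norm_eq_one_of_pow_eq_one hwN hN.out
    rw [← Complex.inv_eq_conj h1]
    have h2 : (⟨conj (zetaN N), conj_mem_cycF (IntermediateField.subset_adjoin ℚ _ hx')⟩ : cycF N) =
        (⟨zetaN N, IntermediateField.subset_adjoin ℚ _ hx'⟩ : cycF N)⁻¹ :=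
      Subtype.ext (by simp [conj_zetaN])
    rw [h2, map_inv₀]
  · intro r
    have h1 : (⟨algebraMap ℚ ℂ r, IntermediateField.algebraMap_mem _ r⟩ : cycF N) = algebraMap ℚ (cycF N) r := rfl
    have h2 : (⟨conj (algebraMap ℚ ℂ r), conj_mem_cycF (IntermediateField.algebraMap_mem _ r)⟩ : cycF N) =
        algebraMap ℚ (cycF N) r := Subtype.ext (by simp)
    rw [h1, h2, τ.commutes]
    simp
  · intro x y hx hy ih1 ih2
    have h1 : (⟨x + y, add_mem hx hy⟩ : cycF N) = ⟨x, hx⟩ + ⟨y, hy⟩ := rfl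
    have h2 : (⟨conj (x + y), conj_mem_cycF (add_mem hx hy)⟩ : cycF N) =
        ⟨conj x, conj_mem_cycF hx⟩ + ⟨conj y, conj_mem_cycF hy⟩ := Subtype.ext (by simp)
    rw [h1, h2, map_add, map_add, map_add, ih1, ih2]
  · intro x hx ih
    have h1 : (⟨x⁻¹, inv_mem hx⟩ : cycF N) = (⟨x, hx⟩ : cycF N)⁻¹ := rfl
    have h2 : (⟨conj (x⁻¹), conj_mem_cycF (inv_mem hx)⟩ : cycF N) =
        (⟨conj x, conj_mem_cycF hx⟩ : cycF N)⁻¹ := Subtype.ext (by simp)
    rw [h1, h2, map_inv₀, map_inv₀, map_inv₀, ih]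
  · intro x y hx hy ih1 ih2
    have h1 : (⟨x * y, mul_mem hx hy⟩ : cycF N) = ⟨x, hx⟩ * ⟨y, hy⟩ := rfl
    have h2 : (⟨conj (x * y), conj_mem_cycF (mul_mem hx hy)⟩ : cycF N) =
        ⟨conj x, conj_mem_cycF hx⟩ * ⟨conj y, conj_mem_cycF hy⟩ := Subtype.ext (by simp)
    rw [h1, h2, map_mul, map_mul, map_mul, ih1, ih2]

/-- The conjugates of a nonzero algebraic integer have mean square at least one. -/
theorem sum_embed_ge (x : cycF N) (hint : IsIntegral ℤ (x : ℂ)) (h0 : x ≠ 0) :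
    (Fintype.card (cycF N →ₐ[ℚ] ℂ) : ℝ) ≤ ∑ τ : cycF N →ₐ[ℚ] ℂ, ‖τ x‖ ^ 2 := by
  classical
  have hxint : IsIntegral ℤ x := by
    have h1 : Function.Injective (algebraMap (cycF N) ℂ) := (algebraMap (cycF N) ℂ).injective
    exact (isIntegral_algebraMap_iff h1).mp hint
  have hnint : IsIntegral ℤ (Algebra.norm ℚ x) := Algebra.isIntegral_norm ℚ hxint
  obtain ⟨n, hn⟩ := IsIntegrallyClosed.isIntegral_iff.1 hnint
  have hn' : Algebra.norm ℚ x = (n : ℚ) := by simpa using hn.symm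
  have hnorm0 : Algebra.norm ℚ x ≠ 0 := Algebra.norm_ne_zero_iff.2 h0
  have hn0 : n ≠ 0 := by
    rintro rfl
    apply hnorm0
    rw [hn']
    simp
  have hprod : (n : ℂ) = ∏ τ : cycF N →ₐ[ℚ] ℂ, τ x := by
    have h1 := Algebra.norm_eq_prod_embeddings ℚ ℂ x
    rw [hn'] at h1
    rw [show (n : ℂ) = algebraMap ℚ ℂ (n : ℚ) by simp, h1]
    exact Finset.prod_congr (by ext; simp) (fun _ _ => rfl)
  have hτ0 : ∀ τ : cycF N →ₐ[ℚ] ℂ, τ x ≠ 0 := fun τ => (map_ne_zero_iff _ τ.toRingHom.injective).2 h0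
  have hlog : ∀ τ : cycF N →ₐ[ℚ] ℂ, Real.log (‖τ x‖ ^ 2) ≤ ‖τ x‖ ^ 2 - 1 := fun τ =>
    Real.log_le_sub_one_of_pos (by have := norm_pos_iff.2 (hτ0 τ); positivity)
  have hsumlog : Real.log (∏ τ : cycF N →ₐ[ℚ] ℂ, ‖τ x‖ ^ 2) = ∑ τ : cycF N →ₐ[ℚ] ℂ, Real.log (‖τ x‖ ^ 2) :=
    Real.log_prod (fun τ _ => pow_ne_zero _ (norm_ne_zero_iff.2 (hτ0 τ)))
  have hprod1 : (1 : ℝ) ≤ ∏ τ : cycF N →ₐ[ℚ] ℂ, ‖τ x‖ ^ 2 := by
    rw [Finset.prod_pow, ← norm_prod, ← hprod, Complex.norm_intCast]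
    have h5 : (1 : ℝ) ≤ |(n : ℝ)| := by
      have h6 : 1 ≤ |n| := Int.one_le_abs hn0
      exact_mod_cast h6
    nlinarith
  have hlog0 : 0 ≤ Real.log (∏ τ : cycF N →ₐ[ℚ] ℂ, ‖τ x‖ ^ 2) := Real.log_nonneg hprod1
  rw [hsumlog] at hlog0
  have h7 : ∑ τ : cycF N →ₐ[ℚ] ℂ, Real.log (‖τ x‖ ^ 2) ≤ ∑ τ : cycF N →ₐ[ℚ] ℂ, (‖τ x‖ ^ 2 - 1) :=
    Finset.sum_le_sum fun τ _ => hlog τ
  rw [Finset.sum_sub_distrib, Finset.sum_const, Finset.card_univ, nsmul_eq_mul, mul_one] at h7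
  linarith

/-- **The number of nonzero cyclotomic integers in a family with integral total square norm.** -/
theorem card_nonzero_le {ι : Type*} [Fintype ι] (x : ι → ℂ) (hx : ∀ i, x i ∈ cycF N)
    (hint : ∀ i, IsIntegral ℤ (x i)) (r : ℕ) (hr : ∑ i, x i * conj (x i) = (r : ℂ))
    (S : Finset ι) (hS : ∀ i ∈ S, x i ≠ 0) : S.card ≤ r := by
  classical
  let x' : ι → cycF N := fun i => ⟨x i, hx i⟩
  have h1 : ∑ i, x' i * ⟨conj (x i), conj_mem_cycF (hx i)⟩ = (r : cycF N) :=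
    Subtype.ext (by
      push_cast
      simpa [x'] using hr)
  have h2 : ∀ τ : cycF N →ₐ[ℚ] ℂ, ∑ i, ‖τ (x' i)‖ ^ 2 = (r : ℝ) := by
    intro τ
    have h3 := congrArg τ h1
    rw [map_sum, map_natCast] at h3
    have h4 : ∀ i, τ (x' i * ⟨conj (x i), conj_mem_cycF (hx i)⟩) = ((‖τ (x' i)‖ ^ 2 : ℝ) : ℂ) := by
      intro i
      rw [map_mul, ← conj_embed τ (hx i), Complex.mul_conj']
      push_cast
      rfl
    simp only [h4] at h3
    exact_mod_cast h3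
  have hcardpos : 0 < Fintype.card (cycF N →ₐ[ℚ] ℂ) := by
    haveI : Nonempty (cycF N →ₐ[ℚ] ℂ) := ⟨(cycF N).val⟩
    exact Fintype.card_pos
  have h5 : ∑ τ : cycF N →ₐ[ℚ] ℂ, ∑ i, ‖τ (x' i)‖ ^ 2 =
      (Fintype.card (cycF N →ₐ[ℚ] ℂ) : ℝ) * (r : ℝ) := by
    simp only [h2]
    rw [Finset.sum_const, Finset.card_univ, nsmul_eq_mul]
  rw [Finset.sum_comm] at h5
  have h6 : (S.card : ℝ) * (Fintype.card (cycF N →ₐ[ℚ] ℂ) : ℝ) ≤
      ∑ i, ∑ τ : cycF N →ₐ[ℚ] ℂ, ‖τ (x' i)‖ ^ 2 := by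
    calc (S.card : ℝ) * (Fintype.card (cycF N →ₐ[ℚ] ℂ) : ℝ)
        = ∑ i ∈ S, (Fintype.card (cycF N →ₐ[ℚ] ℂ) : ℝ) := by
          rw [Finset.sum_const, nsmul_eq_mul]
      _ ≤ ∑ i ∈ S, ∑ τ : cycF N →ₐ[ℚ] ℂ, ‖τ (x' i)‖ ^ 2 := by
          refine Finset.sum_le_sum fun i hi => ?_
          refine sum_embed_ge (x' i) (hint i) ?_
          intro h
          exact hS i hi (congrArg Subtype.val h)
      _ ≤ ∑ i, ∑ τ : cycF N →ₐ[ℚ] ℂ, ‖τ (x' i)‖ ^ 2 :=
          Finset.sum_le_sum_of_subset_of_nonneg (Finset.subset_univ _)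
            (fun i _ _ => Finset.sum_nonneg fun τ _ => by positivity)
  rw [h5] at h6
  have h7 : (0 : ℝ) < Fintype.card (cycF N →ₐ[ℚ] ℂ) := by exact_mod_cast hcardpos
  have h8 : (S.card : ℝ) ≤ r := by
    rw [mul_comm] at h6
    exact le_of_mul_le_mul_left h6 h7
  exact_mod_cast h8

/-- Values of characters lie in the cyclotomic subfield. -/
theorem char_mem_cycF {K : Type u} [Group K] [Finite K] {χ : K → ℂ} (hχ : IsCharacter K χ) (g : K)
    (hg : orderOf g ∣ N) : χ g ∈ cycF N := by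
  classical
  obtain ⟨d, ρ, rfl⟩ := hχ
  obtain ⟨ι, _, b, μ, h1, h2, h3, _⟩ := exists_eigenbasis ρ g
  have h4 : ρ.character g = ∑ i, μ i := h3
  rw [h4]
  refine sum_mem fun i _ => ?_
  have h5 : μ i ^ N = 1 := by
    obtain ⟨c, hc⟩ := hg
    rw [hc, pow_mul, h2, one_pow]
  obtain ⟨e, -, he⟩ := (zetaN_prim N).eq_pow_of_pow_eq_one h5
  rw [← he]
  exact pow_mem (zetaN_mem N) e

end

end Cfsg.Agent.H22
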