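import Cfsg.Agent.Lib.H22.MajA
import Cfsg.Agent.Lib.H22.MajB
import Cfsg.Agent.Lib.H22.Contribution
import Cfsg.Agent.Lib.H21.RegProj

/-!
# The contribution matrix of a major subsection
-/

set_option autoImplicit false
set_option linter.unusedSectionVars false
set_option linter.style.haveILetI false
set_option linter.unusedSimpArgs false

namespace Cfsg.Agent.H22

open Cfsg Cfsg.Agent.H21 Module
open scoped ComplexConjugate

universe u

section Arith

variable {K : Type u} [Group K] [Finite K] {p : ℕ} [hp : Fact p.Prime] {M : Ideal AlgInt}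
  [hMp : M.IsPrime]

/-- `p ^ d χ(1) / |K| = v / m`, for `χ` in a block of defect `d`, with `v = χ(1) / p ^ s`. -/
theorem defect_degree_ratio (hM : IsPModular p M) {S : Set (IrrCharacter K)} (hS : IsPBlock M S)
    {χ : IrrCharacter K} (hχ : χ ∈ S) :
    ((p ^ blockDefect p S : ℕ) : ℂ) * χ.1 1 * (Nat.card K : ℂ)⁻¹ =
      ((charDegree χ.1 / p ^ minExp p S : ℕ) : ℂ) * ((pco p K : ℕ) : ℂ)⁻¹ := by
  classical
  have hdvd := pow_minExp_dvd hp.out hχ
  have h1 : ((charDegree χ.1 : ℕ) : ℂ) = ((p ^ minExp p S : ℕ) : ℂ) * ((charDegree χ.1 / p ^ minExp p S : ℕ) : ℂ) := by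
    exact_mod_cast (Nat.mul_div_cancel' hdvd).symm
  have h2 : (Nat.card K : ℂ) = ((p ^ (Nat.card K).factorization p : ℕ) : ℂ) * ((pco p K : ℕ) : ℂ) := by
    exact_mod_cast (pow_mul_pco (G := K) p).symm
  have h3 : ((p ^ blockDefect p S : ℕ) : ℂ) * ((p ^ minExp p S : ℕ) : ℂ) = ((p ^ (Nat.card K).factorization p : ℕ) : ℂ) := by
    have h4 := minExp_le_card (p := p) hS
    rw [blockDefect_eq]
    norm_cast
    rw [← pow_add]
    congr 1
    omega
  have hp0 : ((p ^ (Nat.card K).factorization p : ℕ) : ℂ) ≠ 0 := by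
    exact_mod_cast (pow_pos hp.out.pos _).ne'
  have hm0 : ((pco p K : ℕ) : ℂ) ≠ 0 := Nat.cast_ne_zero.mpr (pco_ne_zero p)
  rw [one_eq_charDegree (isCharacter_of_irr χ), h1, h2, ← h3]
  have hp1 : ((p ^ blockDefect p S : ℕ) : ℂ) ≠ 0 := by
    exact_mod_cast (pow_pos hp.out.pos _).ne'
  have hp2 : ((p ^ minExp p S : ℕ) : ℂ) ≠ 0 := by
    exact_mod_cast (pow_pos hp.out.pos _).ne'
  field_simp

/-- The ratio of `defect_degree_ratio` is in the local ring. -/
theorem defect_degree_mlr (hM : IsPModular p M) {S : Set (IrrCharacter K)} (hS : IsPBlock M S)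
    {χ : IrrCharacter K} (hχ : χ ∈ S) :
    MemLocalRing M (((p ^ blockDefect p S : ℕ) : ℂ) * χ.1 1 * (Nat.card K : ℂ)⁻¹) := by
  rw [defect_degree_ratio hM hS hχ]
  exact mlr_mul (mlr_natCast _) (mlr_inv (mlr_natCast _) (not_mli_natCast_of_odd hM pco_not_dvd)).2

/-- The ratio of `defect_degree_ratio` is a unit at height zero. -/
theorem defect_degree_unit (hM : IsPModular p M) {S : Set (IrrCharacter K)} (hS : IsPBlock M S)
    {χ : IrrCharacter K} (hχ : χ ∈ S) (hz : (charDegree χ.1).factorization p = minExp p S) :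
    ¬ MemLocalIdeal M (((p ^ blockDefect p S : ℕ) : ℂ) * χ.1 1 * (Nat.card K : ℂ)⁻¹) := by
  rw [defect_degree_ratio hM hS hχ]
  have hnot : ¬ p ∣ charDegree χ.1 / p ^ minExp p S := by
    intro hdv
    have hdvd := pow_minExp_dvd hp.out hχ
    have h1 : p ^ minExp p S * p ∣ charDegree χ.1 := (Nat.dvd_div_iff_mul_dvd hdvd).mp hdv
    rw [← pow_succ] at h1
    have hd : charDegree χ.1 ≠ 0 := (irr_charDegree_pos χ.2).ne'
    have := (hp.out.pow_dvd_iff_le_factorization hd).mp h1
    omega
  have hm := (mlr_inv (M := M) (mlr_natCast (pco p K)) (not_mli_natCast_of_odd hM pco_not_dvd))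
  intro h
  rcases (mli_mul_iff (mlr_natCast _) hm.2).mp h with h1 | h1
  · exact not_mli_natCast_of_odd hM hnot h1
  · have h2 := mli_mul_left h1 (mlr_natCast (M := M) (pco p K))
    rw [mul_inv_cancel₀ hm.1] at h2
    exact not_mli_one h2

/-- `p ^ d [ξ, ξ']` is an integer for `ξ, ξ'` in a block of defect `d`. -/
theorem crt_defect_int (hM : IsPModular p M) {S : Set (IrrCharacter K)} (hS : IsPBlock M S)
    {ξ ξ' : IrrCharacter K} (hξ : ξ ∈ S) : ∃ n : ℤ,
      ((p ^ blockDefect p S : ℕ) : ℂ) * crt p ξ ξ' = (n : ℂ) := by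
  classical
  obtain ⟨y, hy, -⟩ := row_int hM ξ
  have h4 := minExp_le_card (p := p) hS
  have h5 := minExp_le (p := p) hξ
  refine ⟨(p : ℤ) ^ ((charDegree ξ.1).factorization p - minExp p S) * y ξ', ?_⟩
  have h3 : ((p ^ blockDefect p S : ℕ) : ℂ) * ((p ^ minExp p S : ℕ) : ℂ) = ((p ^ (Nat.card K).factorization p : ℕ) : ℂ) := by
    rw [blockDefect_eq]
    norm_cast
    rw [← pow_add]
    congr 1
    omega
  have h6 : ((p ^ (charDegree ξ.1).factorization p : ℕ) : ℂ) = ((p ^ minExp p S : ℕ) : ℂ) *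
      ((p ^ ((charDegree ξ.1).factorization p - minExp p S) : ℕ) : ℂ) := by
    norm_cast
    rw [← pow_add]
    congr 1
    omega
  have hp2 : ((p ^ minExp p S : ℕ) : ℂ) ≠ 0 := by
    exact_mod_cast (pow_pos hp.out.pos _).ne'
  apply mul_left_cancel₀ hp2
  have h7 := hy ξ'
  rw [← h3, h6] at h7
  push_cast at h7 ⊢
  linear_combination h7

/-- Roots of unity of `p`-power order. -/
theorem root_of_unity_mli (hM : IsPModular p M) {w : ℂ} {k : ℕ} (hw : w ^ (p ^ k) = 1) :
    IsIntegral ℤ w ∧ MemLocalIdeal M (w - 1) := by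
  have hint : IsIntegral ℤ w :=
    IsIntegral.of_pow (pow_pos hp.out.pos k) (by rw [hw]; exact isIntegral_one)
  refine ⟨hint, mli_sub_of_pow_congr hM (mlr_of_isIntegral hint) mlr_one k ?_⟩
  rw [hw, one_pow, sub_self]
  exact mli_zero

end Arith

section Mat

variable {G : Type u} [Group G] [Finite G] {p : ℕ} [hp : Fact p.Prime] {M : Ideal AlgInt}
  [hMp : M.IsPrime] {y : G}

/-- The function `c ↦ χ(y c)` on the centralizer of `y`. -/
abbrev secF (y : G) (χ : IrrCharacter G) : Subgroup.centralizer ({y} : Set G) → ℂ :=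
  fun c => χ.1 (y * (c : G))

/-- The restriction of `χ` to the centralizer of `y`. -/
abbrev resF (y : G) (χ : IrrCharacter G) : Subgroup.centralizer ({y} : Set G) → ℂ :=
  fun c => χ.1 (c : G)

/-- The `b`-part of `secF`, truncated to the regular elements. -/
noncomputable def secR (p : ℕ) (y : G) (b : Set (IrrCharacter (Subgroup.centralizer ({y} : Set G))))
    (χ : IrrCharacter G) : Subgroup.centralizer ({y} : Set G) → ℂ :=
  rp p (blockPart b (secF y χ))

/-- The contribution matrix. -/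
noncomputable def mE (p q : ℕ) (y : G) (b : Set (IrrCharacter (Subgroup.centralizer ({y} : Set G))))
    (χ ψ : IrrCharacter G) : ℂ :=
  (q : ℂ) * ((Nat.card (Subgroup.centralizer ({y} : Set G)) : ℂ)⁻¹ *
    ∑ s, secR p y b χ s * conj (secR p y b ψ s))

/-- The central element as an element of the centralizer. -/
def yC (y : G) : Subgroup.centralizer ({y} : Set G) :=
  ⟨y, Subgroup.mem_centralizer_singleton_iff.mpr rfl⟩

theorem yC_center (y : G) : yC y ∈ Subgroup.center (Subgroup.centralizer ({y} : Set G)) := by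
  rw [Subgroup.mem_center_iff]
  intro c
  apply Subtype.ext
  exact (Subgroup.mem_centralizer_singleton_iff.mp c.2)

/-- The central value `ξ(y) / ξ(1)`. -/
noncomputable def muC (y : G) (ξ : IrrCharacter (Subgroup.centralizer ({y} : Set G))) : ℂ :=
  ξ.1 (yC y) * (ξ.1 1)⁻¹

theorem irr_yC_mul (ξ : IrrCharacter (Subgroup.centralizer ({y} : Set G)))
    (c : Subgroup.centralizer ({y} : Set G)) : ξ.1 (yC y * c) = muC y ξ * ξ.1 c := by
  have h1 := irr_central_mul ξ.2 (yC_center y) c
  have h2 : (charDegree ξ.1 : ℂ) = ξ.1 1 := (one_eq_charDegree (isCharacter_of_irr ξ)).symm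
  rw [h2] at h1
  unfold muC
  have h3 := irr_one_ne_zero' ξ
  field_simp
  rw [h1]

theorem muC_pow {k : ℕ} (hy : orderOf y = p ^ k) (ξ : IrrCharacter (Subgroup.centralizer ({y} : Set G))) :
    muC y ξ ^ (p ^ k) = 1 := by
  have h1 : ∀ n : ℕ, ξ.1 (yC y ^ n) = muC y ξ ^ n * ξ.1 1 := by
    intro n
    induction n with
    | zero => simp
    | succ n ih =>
      rw [pow_succ', irr_yC_mul, ih, pow_succ']
      ring
  have h2 : yC y ^ (p ^ k) = 1 := by
    apply Subtype.ext
    show y ^ (p ^ k) = 1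
    rw [← hy, pow_orderOf_eq_one]
  have h3 := h1 (p ^ k)
  rw [h2] at h3
  have h4 := irr_one_ne_zero' ξ
  have h5 : (muC y ξ ^ (p ^ k) - 1) * ξ.1 1 = 0 := by
    linear_combination -h3
  rcases mul_eq_zero.mp h5 with h6 | h6
  · linear_combination h6
  · exact absurd h6 h4

/-- The section multiplicities. -/
theorem inner_secF (χ : IrrCharacter G) (ξ : IrrCharacter (Subgroup.centralizer ({y} : Set G))) :
    classInner (secF y χ) ξ.1 = muC y ξ * classInner (resF y χ) ξ.1 := by
  classical
  unfold classInner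
  rw [mul_left_comm]
  congr 1
  rw [Finset.mul_sum, ← Equiv.sum_comp (Equiv.mulLeft (yC y)⁻¹)]
  refine Finset.sum_congr rfl fun c _ => ?_
  simp only [Equiv.coe_mulLeft]
  have h1 : y * (((yC y)⁻¹ * c : Subgroup.centralizer ({y} : Set G)) : G) = (c : G) := by
    show y * (y⁻¹ * (c : G)) = c
    group
  have h1' : secF y χ ((yC y)⁻¹ * c) = resF y χ c := congrArg χ.1 h1
  rw [h1']
  have h2 : conj (ξ.1 ((yC y)⁻¹ * c)) = muC y ξ * conj (ξ.1 c) := by
    rw [← irr_inv', mul_inv_rev, inv_inv, ← irr_inv']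
    have h3 : c⁻¹ * yC y = yC y * c⁻¹ := by
      have := (Subgroup.mem_center_iff.mp (yC_center y)) c⁻¹
      exact this
    rw [h3, irr_yC_mul]
  rw [h2]
  ring

theorem blockPart_fun (b : Set (IrrCharacter (Subgroup.centralizer ({y} : Set G))))
    (φ : Subgroup.centralizer ({y} : Set G) → ℂ) :
    blockPart b φ = ∑ ξ : IrrCharacter (Subgroup.centralizer ({y} : Set G)),
      (eB b ξ * classInner φ ξ.1) • ξ.1 := by
  funext s
  rw [blockPart_eq, Finset.sum_apply]
  refine Finset.sum_congr rfl fun ξ _ => ?_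
  simp only [Pi.smul_apply, smul_eq_mul]
  ring

/-- The regular inner product of the truncated `b`-part. -/
theorem inner_rp_blockPart (b : Set (IrrCharacter (Subgroup.centralizer ({y} : Set G))))
    (φ : Subgroup.centralizer ({y} : Set G) → ℂ)
    (ξ' : IrrCharacter (Subgroup.centralizer ({y} : Set G))) :
    classInner (rp p (blockPart b φ)) ξ'.1 =
      ∑ ξ : IrrCharacter (Subgroup.centralizer ({y} : Set G)), eB b ξ * (classInner φ ξ.1 * crt p ξ ξ') := by
  rw [blockPart_fun, rp_sum, classInner_sum_left]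
  refine Finset.sum_congr rfl fun ξ _ => ?_
  rw [rp_smul, classInner_smul_left]
  show _ * crt p ξ ξ' = _
  ring

theorem secR_of_sing (b : Set (IrrCharacter (Subgroup.centralizer ({y} : Set G))))
    (χ : IrrCharacter G) {s : Subgroup.centralizer ({y} : Set G)} (hs : p ∣ orderOf s) :
    secR p y b χ s = 0 := rp_of_sing _ hs

theorem secR_of_reg (b : Set (IrrCharacter (Subgroup.centralizer ({y} : Set G))))
    (χ : IrrCharacter G) {s : Subgroup.centralizer ({y} : Set G)} (hs : ¬ p ∣ orderOf s) :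
    secR p y b χ s = blockPart b (secF y χ) s := rp_of_reg _ hs

/-- Expansion of the contribution along the characters of the block of the centralizer. -/
theorem mE_expand (q : ℕ) (b : Set (IrrCharacter (Subgroup.centralizer ({y} : Set G))))
    (χ ψ : IrrCharacter G) :
    mE p q y b χ ψ = ∑ ξ' : IrrCharacter (Subgroup.centralizer ({y} : Set G)),
      eB b ξ' * (conj (classInner (secF y ψ) ξ'.1) * ((q : ℂ) * classInner (secR p y b χ) ξ'.1)) := by
  classical
  have hC : (Nat.card (Subgroup.centralizer ({y} : Set G)) : ℂ) ≠ 0 := card_ne_zero_C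
  have h1 : ∀ s : Subgroup.centralizer ({y} : Set G), secR p y b χ s * conj (secR p y b ψ s) =
      ∑ ξ' : IrrCharacter (Subgroup.centralizer ({y} : Set G)),
        eB b ξ' * conj (classInner (secF y ψ) ξ'.1) * (secR p y b χ s * conj (ξ'.1 s)) := by
    intro s
    by_cases hs : p ∣ orderOf s
    · rw [secR_of_sing b χ hs]
      simp
    · rw [secR_of_reg b ψ hs, blockPart_eq, map_sum, Finset.mul_sum]
      refine Finset.sum_congr rfl fun ξ' _ => ?_
      rw [map_mul, map_mul]
      have h2 : conj (eB b ξ') = eB b ξ' := by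
        by_cases h : ξ' ∈ b
        · rw [eB_apply_mem h, map_one]
        · rw [eB_apply_not_mem h, map_zero]
      rw [h2]
      ring
  unfold mE
  simp only [h1]
  rw [Finset.sum_comm, Finset.mul_sum, Finset.mul_sum]
  refine Finset.sum_congr rfl fun ξ' _ => ?_
  rw [← Finset.mul_sum]
  unfold classInner
  ring

theorem inner_secF_int {k : ℕ} (hM : IsPModular p M) (hy : orderOf y = p ^ k) (χ : IrrCharacter G)
    (ξ : IrrCharacter (Subgroup.centralizer ({y} : Set G))) :
    IsIntegral ℤ (classInner (secF y χ) ξ.1) ∧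
      MemLocalIdeal M (classInner (secF y χ) ξ.1 - classInner (resF y χ) ξ.1) ∧
      IsIntegral ℤ (conj (classInner (secF y χ) ξ.1)) ∧
      MemLocalIdeal M (conj (classInner (secF y χ) ξ.1) - classInner (resF y χ) ξ.1) := by
  classical
  obtain ⟨a, ha⟩ := classInner_isCharacter_nat (isCharacter_restrict (Subgroup.centralizer ({y} : Set G))
    (isCharacter_of_irr χ)) (isCharacter_of_irr ξ)
  have ha' : classInner (resF y χ) ξ.1 = (a : ℂ) := ha
  have haint : IsIntegral ℤ (a : ℂ) := isIntegral_natCast a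
  have h1 := root_of_unity_mli (M := M) hM (muC_pow hy ξ)
  have h2 : conj (muC y ξ) ^ (p ^ k) = 1 := by
    rw [← map_pow, muC_pow hy ξ, map_one]
  have h3 := root_of_unity_mli (M := M) hM h2
  rw [inner_secF, ha', map_mul, map_natCast]
  refine ⟨h1.1.mul haint, ?_, h3.1.mul haint, ?_⟩
  · have := mli_mul_left h1.2 (mlr_natCast (M := M) a)
    convert this using 1
    ring
  · have := mli_mul_left h3.2 (mlr_natCast (M := M) a)
    convert this using 1
    ring

/-- Integrality of the contribution. -/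
theorem mE_integral {k : ℕ} (hM : IsPModular p M) (hy : orderOf y = p ^ k)
    {b : Set (IrrCharacter (Subgroup.centralizer ({y} : Set G)))} (hb : IsPBlock M b)
    (χ ψ : IrrCharacter G) : IsIntegral ℤ (mE p (p ^ blockDefect p b) y b χ ψ) := by
  classical
  rw [mE_expand]
  refine IsIntegral.sum _ fun ξ' _ => ?_
  by_cases hξ' : ξ' ∈ b
  swap
  · rw [eB_apply_not_mem hξ', zero_mul]
    exact isIntegral_zero
  rw [eB_apply_mem hξ', one_mul]
  refine (inner_secF_int (M := M) hM hy ψ ξ').2.2.1.mul ?_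
  unfold secR
  rw [inner_rp_blockPart, Finset.mul_sum]
  refine IsIntegral.sum _ fun ξ _ => ?_
  by_cases hξ : ξ ∈ b
  swap
  · rw [eB_apply_not_mem hξ, zero_mul, mul_zero]
    exact isIntegral_zero
  rw [eB_apply_mem hξ, one_mul]
  obtain ⟨n, hn⟩ := crt_defect_int (ξ' := ξ') hM hb hξ
  have e : ((p ^ blockDefect p b : ℕ) : ℂ) * (classInner (secF y χ) ξ.1 * crt p ξ ξ') =
      classInner (secF y χ) ξ.1 * (n : ℂ) := by
    rw [← hn]
    ring
  rw [e]
  refine (inner_secF_int (M := M) hM hy χ ξ).1.mul ?_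
  have hn' : IsIntegral ℤ (algebraMap ℤ ℂ n) := isIntegral_algebraMap
  simpa using hn'

/-- The values lie in a cyclotomic subfield. -/
theorem mE_mem_cycF {N : ℕ} [hN : NeZero N] (hGN : Nat.card G ∣ N) (q : ℕ)
    (b : Set (IrrCharacter (Subgroup.centralizer ({y} : Set G)))) (χ ψ : IrrCharacter G) :
    mE p q y b χ ψ ∈ cycF N := by
  classical
  have hval : ∀ (ζ : IrrCharacter G) (g : G), ζ.1 g ∈ cycF N := fun ζ g =>
    char_mem_cycF (isCharacter_of_irr ζ) g ((orderOf_dvd_natCard g).trans hGN)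
  have hvalC : ∀ (ξ : IrrCharacter (Subgroup.centralizer ({y} : Set G)))
      (s : Subgroup.centralizer ({y} : Set G)), ξ.1 s ∈ cycF N := fun ξ s =>
    char_mem_cycF (isCharacter_of_irr ξ) s (by
      rw [← Subgroup.orderOf_coe]
      exact (orderOf_dvd_natCard (s : G)).trans hGN)
  have hnat : ∀ n : ℕ, (n : ℂ) ∈ cycF N := fun n => natCast_mem _ n
  have hinner : ∀ ξ : IrrCharacter (Subgroup.centralizer ({y} : Set G)),
      classInner (secF y χ) ξ.1 ∈ cycF N ∧ classInner (secF y ψ) ξ.1 ∈ cycF N := by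
    intro ξ
    constructor
    all_goals
      unfold classInner
      exact mul_mem (inv_mem (hnat _)) (sum_mem fun c _ =>
        mul_mem (hval _ _) (conj_mem_cycF (hvalC _ _)))
  have hsec : ∀ (ζ : IrrCharacter G),
      (∀ ξ : IrrCharacter (Subgroup.centralizer ({y} : Set G)), classInner (secF y ζ) ξ.1 ∈ cycF N) →
      ∀ s, secR p y b ζ s ∈ cycF N := by
    intro ζ hζ s
    by_cases hs : p ∣ orderOf s
    · rw [secR_of_sing b ζ hs]
      exact zero_mem _
    · rw [secR_of_reg b ζ hs, blockPart_eq]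
      refine sum_mem fun ξ _ => ?_
      refine mul_mem ?_ (mul_mem (hζ ξ) (hvalC _ _))
      by_cases h : ξ ∈ b
      · rw [eB_apply_mem h]
        exact one_mem _
      · rw [eB_apply_not_mem h]
        exact zero_mem _
  unfold mE
  refine mul_mem (hnat _) (mul_mem (inv_mem (hnat _)) (sum_mem fun s _ => mul_mem ?_ (conj_mem_cycF ?_)))
  · exact hsec χ (fun ξ => (hinner ξ).1) s
  · exact hsec ψ (fun ξ => (hinner ξ).2) s

/-- The reproducing formula for regular elements. -/
theorem sum_secR_mul {k : ℕ} (hM : IsPModular p M) (hy : orderOf y = p ^ k)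
    {b : Set (IrrCharacter (Subgroup.centralizer ({y} : Set G)))} (hb : IsPBlock M b)
    (s s' : Subgroup.centralizer ({y} : Set G)) :
    ∑ ζ : IrrCharacter G, secR p y b ζ s * conj (secR p y b ζ s') =
      if p ∣ orderOf s ∨ p ∣ orderOf s' then 0 else kerK b s s' := by
  classical
  by_cases hs : p ∣ orderOf s
  · rw [if_pos (Or.inl hs)]
    simp only [secR_of_sing b _ hs, zero_mul, Finset.sum_const_zero]
  by_cases hs' : p ∣ orderOf s'
  · rw [if_pos (Or.inr hs')]
    simp only [secR_of_sing b _ hs', map_zero, mul_zero, Finset.sum_const_zero]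
  rw [if_neg (by push Not; exact ⟨hs, hs'⟩)]
  simp only [secR_of_reg b _ hs, secR_of_reg b _ hs']
  rw [subsection_orth hM hy hb hb hs hs']
  unfold kerK
  refine Finset.sum_congr rfl fun ξ _ => ?_
  by_cases h : ξ ∈ b
  · rw [eB_apply_mem h]
    ring
  · rw [eB_apply_not_mem h]
    ring

/-- Rearrangement of a fourfold sum. -/
theorem sum4_rearrange {X Y S T : Type*} [Fintype X] [Fintype Y] [Fintype S] [Fintype T]
    (A : X → S → T → ℂ) (B : Y → S → T → ℂ) :
    ∑ x, ∑ y, ∑ s, ∑ t, A x s t * B y s t = ∑ s, ∑ t, (∑ x, A x s t) * ∑ y, B y s t := by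
  simp only [Finset.sum_mul_sum]
  calc ∑ x, ∑ y, ∑ s, ∑ t, A x s t * B y s t = ∑ x, ∑ s, ∑ y, ∑ t, A x s t * B y s t :=
        Finset.sum_congr rfl fun x _ => Finset.sum_comm
    _ = ∑ s, ∑ x, ∑ y, ∑ t, A x s t * B y s t := Finset.sum_comm
    _ = ∑ s, ∑ x, ∑ t, ∑ y, A x s t * B y s t :=
        Finset.sum_congr rfl fun s _ => Finset.sum_congr rfl fun x _ => Finset.sum_comm
    _ = ∑ s, ∑ t, ∑ x, ∑ y, A x s t * B y s t :=
        Finset.sum_congr rfl fun s _ => Finset.sum_comm

/-- **The squares of the contributions.** -/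
theorem sum_mE_normSq {k : ℕ} (hM : IsPModular p M) (hy : orderOf y = p ^ k) (q : ℕ)
    {b : Set (IrrCharacter (Subgroup.centralizer ({y} : Set G)))} (hb : IsPBlock M b) :
    ∑ χ : IrrCharacter G, ∑ ψ : IrrCharacter G, mE p q y b χ ψ * conj (mE p q y b χ ψ) =
      ((q ^ 2 * blockRank p b : ℕ) : ℂ) := by
  classical
  have hC : (Nat.card (Subgroup.centralizer ({y} : Set G)) : ℂ) ≠ 0 := card_ne_zero_C
  set c : ℂ := (q : ℂ) * (Nat.card (Subgroup.centralizer ({y} : Set G)) : ℂ)⁻¹ with hc
  have hcc : conj c = c := by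
    rw [hc, map_mul, map_inv₀, map_natCast, map_natCast]
  have h1 : ∀ χ ψ : IrrCharacter G, mE p q y b χ ψ * conj (mE p q y b χ ψ) =
      c * c * ∑ s, ∑ s', (secR p y b χ s * conj (secR p y b χ s')) * (secR p y b ψ s' * conj (secR p y b ψ s)) := by
    intro χ ψ
    have h2 : mE p q y b χ ψ = c * ∑ s, secR p y b χ s * conj (secR p y b ψ s) := by
      unfold mE
      rw [hc]
      ring
    rw [h2, map_mul, hcc, map_sum]
    have h3 : (∑ s, secR p y b χ s * conj (secR p y b ψ s)) *
        (∑ s', conj (secR p y b χ s' * conj (secR p y b ψ s'))) =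
        ∑ s, ∑ s', (secR p y b χ s * conj (secR p y b χ s')) * (secR p y b ψ s' * conj (secR p y b ψ s)) := by
      rw [Finset.sum_mul_sum]
      refine Finset.sum_congr rfl fun s _ => Finset.sum_congr rfl fun s' _ => ?_
      rw [map_mul, Complex.conj_conj]
      ring
    rw [← h3]
    ring
  simp only [h1]
  simp only [← Finset.mul_sum]
  rw [sum4_rearrange (fun χ s s' => secR p y b χ s * conj (secR p y b χ s'))
    (fun ψ s s' => secR p y b ψ s' * conj (secR p y b ψ s))]
  simp only [sum_secR_mul hM hy hb]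
  have h4 : ∀ s s' : Subgroup.centralizer ({y} : Set G),
      (if p ∣ orderOf s ∨ p ∣ orderOf s' then (0 : ℂ) else kerK b s s') *
        (if p ∣ orderOf s' ∨ p ∣ orderOf s then (0 : ℂ) else kerK b s' s) =
      if p ∣ orderOf s then 0 else kerK b s s' * conj (kerK b s s') := by
    intro s s'
    by_cases hs : p ∣ orderOf s
    · simp [hs]
    by_cases hs' : p ∣ orderOf s'
    · rw [if_neg hs, kerK_singular hM hb hs hs']
      simp [hs']
    · simp only [hs, hs', or_self, if_false]
      congr 1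
      unfold kerK
      rw [map_sum]
      refine Finset.sum_congr rfl fun ξ _ => ?_
      rw [map_mul, map_mul, Complex.conj_conj]
      have h2 : conj (eB b ξ) = eB b ξ := by
        by_cases h : ξ ∈ b
        · rw [eB_apply_mem h, map_one]
        · rw [eB_apply_not_mem h, map_zero]
      rw [h2]
      ring
  simp only [h4]
  have h5 : ∀ s : Subgroup.centralizer ({y} : Set G),
      (∑ s', if p ∣ orderOf s then (0 : ℂ) else kerK b s s' * conj (kerK b s s')) =
        (Nat.card (Subgroup.centralizer ({y} : Set G)) : ℂ) *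
          ∑ ξ : IrrCharacter (Subgroup.centralizer ({y} : Set G)),
            eB b ξ * (pRegularPart p ξ.1 s * conj (pRegularPart p ξ.1 s)) := by
    intro s
    by_cases hs : p ∣ orderOf s
    · simp only [if_pos hs, Finset.sum_const_zero]
      simp only [pRegularPart_of_singular p _ hs]
      simp
    · simp only [if_neg hs]
      simp only [pRegularPart_of_regular p _ hs]
      have h6 := sum_kerK_mul b b s s
      have h7 : ∑ c, kerK b s c * conj (kerK b s c) =
          (Nat.card (Subgroup.centralizer ({y} : Set G)) : ℂ) *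
            ∑ ψ : IrrCharacter (Subgroup.centralizer ({y} : Set G)), eB b ψ * eB b ψ * (ψ.1 s * conj (ψ.1 s)) := by
        rw [← h6, mul_inv_cancel_left₀ hC]
      rw [h7]
      congr 1
      refine Finset.sum_congr rfl fun ξ _ => ?_
      by_cases h : ξ ∈ b
      · rw [eB_apply_mem h]
        ring
      · rw [eB_apply_not_mem h]
        ring
  simp only [h5]
  rw [← Finset.mul_sum, ← card_mul_blockRank hM hb, hc]
  push_cast
  field_simp

theorem blockPart_isClass {H : Type u} [Group H] [Finite H] (b : Set (IrrCharacter H)) (φ : H → ℂ) :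
    IsClassFunction H (blockPart b φ) := by
  intro g k
  rw [blockPart_eq, blockPart_eq]
  refine Finset.sum_congr rfl fun ξ _ => ?_
  rw [irr_conj']

theorem rev_isClass {H : Type u} [Group H] {f : H → ℂ} (hf : IsClassFunction H f) :
    IsClassFunction H (fun s => f s⁻¹) := by
  intro g k
  show f (k * g * k⁻¹)⁻¹ = f g⁻¹
  rw [← hf g⁻¹ k]
  congr 1
  group

/-- The central character at a reversed function. -/
theorem om_rev {H : Type u} [Group H] [Finite H] (f : H → ℂ) (ξ : IrrCharacter H) :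
    ξ.1 1 * om ξ (fun s => f s⁻¹) = (Nat.card H : ℂ) * classInner f ξ.1 := by
  classical
  have hC : (Nat.card H : ℂ) ≠ 0 := card_ne_zero_C
  unfold om classInner
  rw [mul_inv_cancel_left₀ (irr_one_ne_zero' ξ), mul_inv_cancel_left₀ hC,
    ← Equiv.sum_comp (Equiv.inv H)]
  refine Finset.sum_congr rfl fun s _ => ?_
  simp only [Equiv.inv_apply, inv_inv]
  rw [irr_inv']

theorem resF_isClass (χ : IrrCharacter G) : IsClassFunction (Subgroup.centralizer ({y} : Set G)) (resF y χ) := by
  intro c k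
  exact irr_conj' χ _ _

/-- The `p`-element `y` can be removed modulo `M`. -/
theorem V_congr {k : ℕ} (hM : IsPModular p M) (hy : orderOf y = p ^ k)
    {b : Set (IrrCharacter (Subgroup.centralizer ({y} : Set G)))} (hb : IsPBlock M b)
    (χ : IrrCharacter G) (s : Subgroup.centralizer ({y} : Set G)) :
    MemLocalIdeal M (secR p y b χ s⁻¹ - rp p (blockPart b (resF y χ)) s⁻¹) := by
  classical
  by_cases hs : p ∣ orderOf s⁻¹
  · rw [secR_of_sing b χ hs, rp_of_sing _ hs, sub_zero]
    exact mli_zero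
  rw [secR_of_reg b χ hs, rp_of_reg _ hs, blockPart_eq_sum b (section_isClass χ y),
    blockPart_eq_sum b (resF_isClass χ), ← Finset.sum_sub_distrib]
  refine mli_sum _ _ fun c _ => ?_
  rw [← mul_sub]
  refine mli_mul_left ?_ (blockCoeff_mlr hb c)
  have hc : Commute y ((c * s⁻¹ : Subgroup.centralizer ({y} : Set G)) : G) :=
    (Subgroup.mem_centralizer_singleton_iff.mp (c * s⁻¹).2).symm
  exact char_mul_pElement_congr hM (isCharacter_of_irr χ) hc hy

/-- Taking the `b`-part does not change regular inner products with members of `b`. -/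
theorem inner_rp_eq (hM : IsPModular p M)
    {b : Set (IrrCharacter (Subgroup.centralizer ({y} : Set G)))} (hb : IsPBlock M b)
    {φ : Subgroup.centralizer ({y} : Set G) → ℂ} (hφ : IsClassFunction _ φ)
    {ξ' : IrrCharacter (Subgroup.centralizer ({y} : Set G))} (hξ' : ξ' ∈ b) :
    classInner (rp p (blockPart b φ)) ξ'.1 = classInner (rp p φ) ξ'.1 := by
  classical
  rw [inner_rp_blockPart]
  conv_rhs => rw [classFunction_expansion φ hφ]
  rw [rp_sum, classInner_sum_left]
  refine Finset.sum_congr rfl fun ξ _ => ?_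
  rw [rp_smul, classInner_smul_left]
  show _ = _ * crt p ξ ξ'
  by_cases h : ξ ∈ b
  · rw [eB_apply_mem h, one_mul]
  · rw [eB_apply_not_mem h, zero_mul]
    have : crt p ξ ξ' = 0 := by
      apply crt_eq_zero hM
      intro hs
      apply h
      rw [block_eq_of_mem hb hξ']
      exact hs
    rw [this, mul_zero]

/-- The reversed truncation of a character. -/
noncomputable def Ug (p : ℕ) (χ : IrrCharacter G) : G → ℂ := fun g => rp p χ.1 g⁻¹

theorem Ug_isClass (χ : IrrCharacter G) : IsClassFunction G (Ug p χ) :=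
  rev_isClass (rp_isClass (fun g k => irr_conj' χ g k))

theorem Ug_mlr (χ : IrrCharacter G) (g : G) : MemLocalRing M (Ug p χ g) := by
  unfold Ug rp
  split_ifs
  · exact mlr_zero
  · exact mlr_of_isIntegral (irr_isIntegral' χ _)

theorem om_Ug_eq (θ χ : IrrCharacter G) : om θ (Ug p χ) = (pco p G : ℂ) * om θ (bz p χ) := by
  classical
  have hm : (pco p G : ℂ) ≠ 0 := Nat.cast_ne_zero.mpr (pco_ne_zero p)
  unfold om
  rw [mul_left_comm (pco p G : ℂ)]
  congr 1
  rw [Finset.mul_sum]
  refine Finset.sum_congr rfl fun g _ => ?_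
  unfold Ug bz rp
  rw [orderOf_inv]
  split_ifs
  · simp
  · rw [irr_inv', ← mul_assoc, ← mul_assoc, mul_inv_cancel₀ hm, one_mul]

/-- Height zero: the central character at `Ug` is a unit. -/
theorem om_Ug_unit (hM : IsPModular p M) {B : Set (IrrCharacter G)} (hB : IsPBlock M B)
    {χ θ : IrrCharacter G} (hχ : χ ∈ B) (hθ : θ ∈ B)
    (hz : (charDegree χ.1).factorization p = minExp p B) : ¬ MemLocalIdeal M (om θ (Ug p χ)) := by
  classical
  rw [om_Ug_eq]
  intro h
  rcases (mli_mul_iff (mlr_natCast _) (om_bz_mlr hM χ θ)).mp h with h1 | h1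
  · exact not_mli_natCast_of_odd hM pco_not_dvd h1
  · exact (unit_iff hM hB hχ hθ).mpr hz h1

/-- The central character of a member of `b` at the reversed section. -/
theorem om_V_congr {k : ℕ} (hM : IsPModular p M) (hy : orderOf y = p ^ k)
    {b : Set (IrrCharacter (Subgroup.centralizer ({y} : Set G)))} {B : Set (IrrCharacter G)}
    (hind : IsInducedBlock M (Subgroup.centralizer ({y} : Set G)) b B)
    {ξ' : IrrCharacter (Subgroup.centralizer ({y} : Set G))} (hξ' : ξ' ∈ b)
    {χ₀ : IrrCharacter G} (hχ₀ : χ₀ ∈ B) (χ : IrrCharacter G) :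
    MemLocalIdeal M (om ξ' (fun s => secR p y b χ s⁻¹) - om χ₀ (Ug p χ)) := by
  classical
  have hb := hind.1
  have hξ1 := irr_one_ne_zero' ξ'
  -- step 1
  have hcl1 : IsClassFunction (Subgroup.centralizer ({y} : Set G)) (fun s => secR p y b χ s⁻¹) :=
    rev_isClass (rp_isClass (blockPart_isClass b _))
  have hcl2 : IsClassFunction (Subgroup.centralizer ({y} : Set G))
      (fun s => rp p (blockPart b (resF y χ)) s⁻¹) :=
    rev_isClass (rp_isClass (blockPart_isClass b _))
  have h1 := om_congr (M := M) ξ' hcl1 hcl2 (V_congr hM hy hb χ)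
  -- step 2
  have h2 : om ξ' (fun s => rp p (blockPart b (resF y χ)) s⁻¹) =
      om ξ' (fun s => rp p (resF y χ) s⁻¹) := by
    apply mul_left_cancel₀ hξ1
    rw [om_rev (rp p (blockPart b (resF y χ))) ξ', om_rev (rp p (resF y χ)) ξ',
      inner_rp_eq hM hb (resF_isClass χ) hξ']
  -- step 3
  have h3 := induced_congr hind hξ' hχ₀ (Ug_isClass (p := p) χ) (Ug_mlr (M := M) χ)
  have h4 : om ξ' (fun s => rp p (resF y χ) s⁻¹) =
      ∑ h : Subgroup.centralizer ({y} : Set G), Ug p χ h * (ξ'.1 h / ξ'.1 1) := by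
    unfold om
    rw [Finset.mul_sum]
    refine Finset.sum_congr rfl fun s _ => ?_
    have h5 : rp p (resF y χ) s⁻¹ = Ug p χ s := by
      unfold Ug rp
      have h6 : orderOf (s⁻¹ : Subgroup.centralizer ({y} : Set G)) = orderOf ((s : G)⁻¹) := by
        rw [orderOf_inv, orderOf_inv, Subgroup.orderOf_coe]
      rw [h6]
      rfl
    show (ξ'.1 1)⁻¹ * (rp p (resF y χ) s⁻¹ * ξ'.1 s) = _
    rw [h5]
    field_simp
  rw [h2, h4] at h1
  have := mli_add h1 h3
  convert this using 1
  ring

/-- The congruence for the contribution. -/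
theorem mE_congr {k : ℕ} (hM : IsPModular p M) (hy : orderOf y = p ^ k) (q : ℕ)
    {b : Set (IrrCharacter (Subgroup.centralizer ({y} : Set G)))} {B : Set (IrrCharacter G)}
    (hind : IsInducedBlock M (Subgroup.centralizer ({y} : Set G)) b B)
    (hq : ∀ ξ ∈ b, MemLocalRing M ((q : ℂ) * ξ.1 1 * (Nat.card (Subgroup.centralizer ({y} : Set G)) : ℂ)⁻¹))
    {χ₀ : IrrCharacter G} (hχ₀ : χ₀ ∈ B) (χ ψ : IrrCharacter G) :
    MemLocalIdeal M (mE p q y b χ ψ - om χ₀ (Ug p χ) *
      ∑ ξ' : IrrCharacter (Subgroup.centralizer ({y} : Set G)), eB b ξ' *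
        (classInner (resF y ψ) ξ'.1 *
          ((q : ℂ) * ξ'.1 1 * (Nat.card (Subgroup.centralizer ({y} : Set G)) : ℂ)⁻¹))) := by
  classical
  have hC : (Nat.card (Subgroup.centralizer ({y} : Set G)) : ℂ) ≠ 0 := card_ne_zero_C
  rw [mE_expand, Finset.mul_sum, ← Finset.sum_sub_distrib]
  refine mli_sum _ _ fun ξ' _ => ?_
  by_cases hξ' : ξ' ∈ b
  swap
  · rw [eB_apply_not_mem hξ']
    simpa using mli_zero
  rw [eB_apply_mem hξ', one_mul, one_mul]
  set w := (q : ℂ) * ξ'.1 1 * (Nat.card (Subgroup.centralizer ({y} : Set G)) : ℂ)⁻¹ with hw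
  set V := om ξ' (fun s => secR p y b χ s⁻¹) with hV
  set ρ := om χ₀ (Ug p χ) with hρ
  set a := classInner (resF y ψ) ξ'.1 with ha
  set N := classInner (secF y ψ) ξ'.1 with hN
  have h1 : (q : ℂ) * classInner (secR p y b χ) ξ'.1 = w * V := by
    have h2 := om_rev (secR p y b χ) ξ'
    rw [hw, hV]
    have h3 : classInner (secR p y b χ) ξ'.1 = (Nat.card (Subgroup.centralizer ({y} : Set G)) : ℂ)⁻¹ *
        (ξ'.1 1 * om ξ' (fun s => secR p y b χ s⁻¹)) := by
      rw [h2, inv_mul_cancel_left₀ hC]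
    rw [h3]
    ring
  rw [h1]
  have h4 := inner_secF_int (M := M) hM hy ψ ξ'
  have h5 : MemLocalIdeal M (V - ρ) := om_V_congr hM hy hind hξ' hχ₀ χ
  have hρR : MemLocalRing M ρ := om_mlr (Ug_isClass χ) (Ug_mlr χ) χ₀
  have hVR : MemLocalRing M V := by
    have := mlr_add (mli_mlr h5) hρR
    rwa [sub_add_cancel] at this
  have h6 : conj N * (w * V) - ρ * (a * w) = w * ((conj N - a) * V + a * (V - ρ)) := by ring
  rw [h6]
  obtain ⟨m, hm⟩ := classInner_isCharacter_nat (isCharacter_restrict (Subgroup.centralizer ({y} : Set G))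
    (isCharacter_of_irr ψ)) (isCharacter_of_irr ξ')
  have ham : a = (m : ℂ) := hm
  refine mli_mul_left (mli_add (mli_mul_right h4.2.2.2 hVR) (mli_mul_left h5 ?_)) (hq ξ' hξ')
  rw [ham]
  exact mlr_natCast m

/-- The weighted sum as a central character at the relative trace. -/
theorem D_eq (q : ℕ) (b : Set (IrrCharacter (Subgroup.centralizer ({y} : Set G)))) (ψ : IrrCharacter G) :
    ∑ ξ' : IrrCharacter (Subgroup.centralizer ({y} : Set G)), eB b ξ' *
        (classInner (resF y ψ) ξ'.1 *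
          ((q : ℂ) * ξ'.1 1 * (Nat.card (Subgroup.centralizer ({y} : Set G)) : ℂ)⁻¹)) =
      ((q : ℂ) * ψ.1 1 * (Nat.card G : ℂ)⁻¹) *
        om ψ (trF (Subgroup.centralizer ({y} : Set G))
          (subgroupBlockCoeff (Subgroup.centralizer ({y} : Set G)) b)) := by
  classical
  have hC : (Nat.card (Subgroup.centralizer ({y} : Set G)) : ℂ) ≠ 0 := card_ne_zero_C
  have hG : (Nat.card G : ℂ) ≠ 0 := card_ne_zero_C
  have hψ := irr_one_ne_zero' ψ
  have hcard : (Nat.card G : ℂ) = (Nat.card (Subgroup.centralizer ({y} : Set G)) : ℂ) *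
      ((Subgroup.centralizer ({y} : Set G)).index : ℂ) := by
    exact_mod_cast (Subgroup.centralizer ({y} : Set G)).card_mul_index.symm
  have hi : ((Subgroup.centralizer ({y} : Set G)).index : ℂ) ≠ 0 := by
    intro h
    rw [h, mul_zero] at hcard
    exact hG hcard
  rw [om_trF]
  have h1 : om ψ (subgroupBlockCoeff (Subgroup.centralizer ({y} : Set G)) b) =
      (ψ.1 1)⁻¹ * ∑ ξ' : IrrCharacter (Subgroup.centralizer ({y} : Set G)),
        classInner (resF y ψ) ξ'.1 * (ξ'.1 1 * eB b ξ') := by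
    unfold om
    congr 1
    rw [sum_eq_sum_subgroup (Subgroup.centralizer ({y} : Set G))]
    · have h2 := sum_mul_class_eq (blockCoeff b) (resF y ψ) (resF_isClass ψ)
      have h3 : ∀ ξ' : IrrCharacter (Subgroup.centralizer ({y} : Set G)), om ξ' (blockCoeff b) = eB b ξ' := by
        intro ξ'
        rw [funext (blockCoeff_eq_ofOm b), om_ofOm]
      simp only [h3] at h2
      rw [← h2]
      refine Finset.sum_congr rfl fun c _ => ?_
      rw [sbc_of_coe]
    · intro g hg
      rw [subgroupBlockCoeff_eq_extK, extK_of_not_mem _ _ hg, zero_mul]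
  rw [h1, hcard, Finset.mul_sum, Finset.mul_sum, Finset.mul_sum]
  refine Finset.sum_congr rfl fun ξ' _ => ?_
  field_simp

/-- Major subsections: the relative trace, in the language of the centralizer of an element. -/
theorem trF_unit_elem {k : ℕ} (hM : IsPModular p M) (hy : orderOf y = p ^ k)
    {b : Set (IrrCharacter (Subgroup.centralizer ({y} : Set G)))} {B : Set (IrrCharacter G)}
    (hind : IsInducedBlock M (Subgroup.centralizer ({y} : Set G)) b B)
    (hdef : blockDefect p b = blockDefect p B) {χ : IrrCharacter G} (hχ : χ ∈ B) :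
    ¬ MemLocalIdeal M (om χ (trF (Subgroup.centralizer ({y} : Set G))
      (subgroupBlockCoeff (Subgroup.centralizer ({y} : Set G)) b))) := by
  have key : ∀ (H : Subgroup G) (hH : H = Subgroup.centralizer (Subgroup.zpowers y : Set G))
      (b : Set (IrrCharacter H)) (hind : IsInducedBlock M H b B)
      (hdef : blockDefect p b = blockDefect p B),
      ¬ MemLocalIdeal M (om χ (trF H (subgroupBlockCoeff H b))) := by
    intro H hH b hind hdef
    subst hH
    refine trF_unit hM (isPGroup_zpowers_of_orderOf hy) ?_ hind hdef hχ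
    intro x hx
    rw [Subgroup.mem_centralizer_iff]
    intro z hz
    obtain ⟨i, rfl⟩ := Subgroup.mem_zpowers_iff.mp hx
    obtain ⟨j, rfl⟩ := Subgroup.mem_zpowers_iff.mp hz
    exact ((Commute.refl y).zpow_zpow j i).eq
  exact key _ (centralizer_zpowers y).symm b hind hdef

/-- **Brauer's theorem on major subsections.** The entries of the contribution matrix at
characters of height zero are units. -/
theorem mE_not_mli {k : ℕ} (hM : IsPModular p M) (hy : orderOf y = p ^ k)
    {b : Set (IrrCharacter (Subgroup.centralizer ({y} : Set G)))} {B : Set (IrrCharacter G)}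
    (hind : IsInducedBlock M (Subgroup.centralizer ({y} : Set G)) b B)
    (hdef : blockDefect p b = blockDefect p B) {χ ψ : IrrCharacter G} (hχ : χ ∈ B) (hψ : ψ ∈ B)
    (hzχ : (charDegree χ.1).factorization p = minExp p B)
    (hzψ : (charDegree ψ.1).factorization p = minExp p B) :
    ¬ MemLocalIdeal M (mE p (p ^ blockDefect p b) y b χ ψ) := by
  classical
  have hb := hind.1
  have hB := hind.2.1
  have hq : ∀ ξ ∈ b, MemLocalRing M (((p ^ blockDefect p b : ℕ) : ℂ) * ξ.1 1 *
      (Nat.card (Subgroup.centralizer ({y} : Set G)) : ℂ)⁻¹) :=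
    fun ξ hξ => defect_degree_mlr hM hb hξ
  have h1 := mE_congr hM hy (p ^ blockDefect p b) hind hq hχ χ ψ
  rw [D_eq] at h1
  have h2 : ¬ MemLocalIdeal M (om χ (Ug p χ)) := om_Ug_unit hM hB hχ hχ hzχ
  have h3 : ¬ MemLocalIdeal M (((p ^ blockDefect p b : ℕ) : ℂ) * ψ.1 1 * (Nat.card G : ℂ)⁻¹) := by
    rw [hdef]
    exact defect_degree_unit hM hB hψ hzψ
  have h4 := trF_unit_elem hM hy hind hdef hψ
  have hU1 : MemLocalRing M (((p ^ blockDefect p b : ℕ) : ℂ) * ψ.1 1 * (Nat.card G : ℂ)⁻¹) := by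
    rw [hdef]
    exact defect_degree_mlr hM hB hψ
  have hU2 : MemLocalRing M (om ψ (trF (Subgroup.centralizer ({y} : Set G))
      (subgroupBlockCoeff (Subgroup.centralizer ({y} : Set G)) b))) :=
    om_mlr (trF_isClass (sbc_Ad _ b)) (trF_mlr (sbc_mlr _ (blockSat_of_isBlock hb))) ψ
  have hU3 : MemLocalRing M (om χ (Ug p χ)) := om_mlr (Ug_isClass χ) (Ug_mlr χ) χ
  intro hcon
  have h5 := mli_sub hcon h1
  rw [sub_sub_cancel] at h5
  rcases (mli_mul_iff hU3 (mlr_mul hU1 hU2)).mp h5 with h6 | h6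
  · exact h2 h6
  · rcases (mli_mul_iff hU1 hU2).mp h6 with h7 | h7
    · exact h3 h7
    · exact h4 h7

/-- **The bound for major subsections.** -/
theorem major_bound {k : ℕ} (hM : IsPModular p M) (hy : orderOf y = p ^ k)
    {b : Set (IrrCharacter (Subgroup.centralizer ({y} : Set G)))} {B : Set (IrrCharacter G)}
    (hind : IsInducedBlock M (Subgroup.centralizer ({y} : Set G)) b B)
    (hdef : blockDefect p b = blockDefect p B)
    (hz : ∀ χ ∈ B, (charDegree χ.1).factorization p = minExp p B) :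
    Nat.card B ^ 2 ≤ (p ^ blockDefect p b) ^ 2 * blockRank p b := by
  classical
  have hb := hind.1
  haveI : NeZero (Nat.card G) := ⟨Nat.card_pos.ne'⟩
  set S : Finset (IrrCharacter G × IrrCharacter G) :=
    (Set.toFinite B).toFinset ×ˢ (Set.toFinite B).toFinset with hS
  have hcard : S.card = Nat.card B ^ 2 := by
    rw [hS, Finset.card_product, sq, Nat.card_eq_card_finite_toFinset]
  rw [← hcard]
  refine card_nonzero_le (N := Nat.card G)
    (fun i : IrrCharacter G × IrrCharacter G => mE p (p ^ blockDefect p b) y b i.1 i.2)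
    (fun i => mE_mem_cycF dvd_rfl _ b _ _) (fun i => mE_integral hM hy hb _ _) _ ?_ S ?_
  · have h1 := sum_mE_normSq hM hy (p ^ blockDefect p b) hb
    refine Eq.trans ?_ ((Fintype.sum_prod_type (fun i : IrrCharacter G × IrrCharacter G =>
      mE p (p ^ blockDefect p b) y b i.1 i.2 * conj (mE p (p ^ blockDefect p b) y b i.1 i.2))).trans h1)
    exact Finset.sum_congr (by ext; simp) (fun _ _ => rfl)
  · intro i hi h0
    rw [hS, Finset.mem_product, Set.Finite.mem_toFinset, Set.Finite.mem_toFinset] at hi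
    apply mE_not_mli hM hy hind hdef hi.1 hi.2 (hz _ hi.1) (hz _ hi.2)
    show MemLocalIdeal M (mE p (p ^ blockDefect p b) y b i.1 i.2)
    have h2 : mE p (p ^ blockDefect p b) y b i.1 i.2 = 0 := h0
    rw [h2]
    exact mli_zero

end Mat

end Cfsg.Agent.H22
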