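import Cfsg.Agent.Lib.H22.BFLat
import Cfsg.Agent.Lib.H22.MajC
import Cfsg.Agent.Lib.H22.KlA
import Cfsg.Agent.Lib.H22.HeightBound
import Cfsg.Agent.Lib.H21.Adams
import Cfsg.Agent.Lib.H06.CharVirtual

/-!
# Contributions of a central element of order `p`
-/

set_option autoImplicit false
set_option linter.unusedSectionVars false
set_option linter.style.haveILetI false
set_option linter.unusedSimpArgs false

namespace Cfsg.Agent.H22

open Cfsg Cfsg.Agent.H21 Module
open scoped ComplexConjugate ComplexOrder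

universe u

section Adams

variable {K : Type u} [Group K] [Finite K]

/-- Adams operations are generalized characters. -/
theorem gen_pow (n : ℕ) : ∀ {χ : K → ℂ}, IsCharacter K χ →
    IsGeneralizedCharacter K (fun g => χ (g ^ n)) := by
  classical
  induction n using Nat.recOnMul with
  | zero =>
    intro χ hχ
    have h1 : (fun g : K => χ (g ^ 0)) = ((charDegree χ : ℕ) : ℤ) • (fun _ : K => (1 : ℂ)) := by
      funext g
      simp only [pow_zero, Pi.smul_apply]
      rw [one_eq_charDegree hχ]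
      simp
    rw [h1]
    exact H06.gen_zsmul (H06.gen_of_char (isCharacter_of_irr (oneIrr K))) _
  | one =>
    intro χ hχ
    simpa using H06.gen_of_char hχ
  | prime q hq =>
    intro χ hχ
    exact isGeneralized_pow_prime hq hχ
  | mul a b ha hb =>
    intro χ hχ
    obtain ⟨c, d, hc, hd, hcd⟩ := hb hχ
    have h1 : (fun g : K => χ (g ^ (a * b))) = (fun g => c (g ^ a)) - (fun g => d (g ^ a)) := by
      funext g
      have := congrFun hcd (g ^ a)
      simp only [Pi.sub_apply] at this ⊢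
      rw [← this, pow_mul]
    rw [h1]
    exact H06.gen_sub (ha hc) (ha hd)

end Adams

section Central

variable {K : Type u} [Group K] [Finite K] {p : ℕ} [hp : Fact p.Prime] {M : Ideal AlgInt}
  [hMp : M.IsPrime] {z : K}

theorem csg_mul' (hz : z ∈ Subgroup.center K) (ξ : IrrCharacter K) (c : K) :
    ξ.1 (z * c) = csg z ξ * ξ.1 c := by
  have h1 := irr_central_mul ξ.2 hz c
  have h2 : (charDegree ξ.1 : ℂ) = ξ.1 1 := (one_eq_charDegree (isCharacter_of_irr ξ)).symm
  rw [h2] at h1
  unfold csg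
  have h3 := irr_one_ne_zero' ξ
  field_simp
  rw [h1]

theorem csg_pow_mul (hz : z ∈ Subgroup.center K) (ξ : IrrCharacter K) (n : ℕ) (c : K) :
    ξ.1 (z ^ n * c) = csg z ξ ^ n * ξ.1 c := by
  induction n generalizing c with
  | zero => simp
  | succ n ih =>
    rw [pow_succ', mul_assoc, csg_mul' hz, ih, pow_succ']
    ring

theorem csg_pow_eq_one (hz : z ∈ Subgroup.center K) (hzo : orderOf z = p) (ξ : IrrCharacter K) :
    csg z ξ ^ p = 1 := by
  have h1 := csg_pow_mul hz ξ p 1
  have h2 : z ^ p = 1 := by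
    rw [← hzo]
    exact pow_orderOf_eq_one z
  rw [h2, one_mul] at h1
  have h3 := irr_one_ne_zero' ξ
  have h4 : (csg z ξ ^ p - 1) * ξ.1 1 = 0 := by
    linear_combination -h1
  rcases mul_eq_zero.mp h4 with h6 | h6
  · linear_combination h6
  · exact absurd h6 h3

theorem sum_csg_pow_reg (hM : IsPModular p M) (hz : z ∈ Subgroup.center K) (hzo : orderOf z = p)
    {j : ℕ} (hj : ¬ p ∣ j) {b : Set (IrrCharacter K)} (hb : IsPBlock M b) {s s' : K}
    (hs : ¬ p ∣ orderOf s) (hs' : ¬ p ∣ orderOf s') :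
    ∑ ξ : IrrCharacter K, eB b ξ * (csg z ξ ^ j * (ξ.1 s' * conj (ξ.1 s))) = 0 := by
  have hzj1 : z ^ j ≠ 1 := by
    intro h
    apply hj
    rw [← hzo]
    exact orderOf_dvd_of_pow_eq_one h
  have hzord : orderOf (z ^ j) = p ^ 1 := by
    rw [pow_one]
    apply orderOf_eq_prime _ hzj1
    rw [← pow_mul, mul_comm, pow_mul, ← hzo, pow_orderOf_eq_one, one_pow]
  have hg : IsPPart p s 1 := ⟨s, one_mul s, Commute.one_left s, ⟨0, by simp⟩, hs⟩
  have hh : IsPPart p (z ^ j * s') (z ^ j) := by
    refine ⟨s', rfl, ?_, ⟨1, hzord⟩, hs'⟩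
    have h1 : z * s' = s' * z := (Subgroup.mem_center_iff.mp hz s').symm
    exact (Commute.pow_left h1 j)
  have hne : ¬ IsConj (1 : K) (z ^ j) := by
    intro h
    exact hzj1 (isConj_one_right.mp h)
  have h1 := block_orth_sections hM hg hh hne hb
  rw [← h1]
  refine Finset.sum_congr rfl fun ξ _ => ?_
  rw [csg_pow_mul hz]
  ring

theorem crt_mul_crt' (p : ℕ) (ζ ζ' η : IrrCharacter K) :
    crt p ζ η * crt p η ζ' = ((Nat.card K : ℂ)⁻¹ * (Nat.card K : ℂ)⁻¹) *
      ∑ s, ∑ s', (rp p ζ.1 s * conj (ζ'.1 s')) * (rp p η.1 s' * conj (η.1 s)) := by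
  rw [crt_eq_sum, crt_eq_sum]
  rw [mul_mul_mul_comm, Finset.sum_mul_sum]
  congr 1
  refine Finset.sum_congr rfl fun s _ => Finset.sum_congr rfl fun s' _ => ?_
  ring

theorem sum_csg_pow_crt (hM : IsPModular p M) (hz : z ∈ Subgroup.center K) (hzo : orderOf z = p)
    {j : ℕ} (hj : ¬ p ∣ j) {b : Set (IrrCharacter K)} (hb : IsPBlock M b) (ζ ζ' : IrrCharacter K) :
    ∑ η : IrrCharacter K, eB b η * (csg z η ^ j * (crt p ζ η * crt p η ζ')) = 0 := by
  classical
  simp only [crt_mul_crt']
  have h1 : ∀ η : IrrCharacter K, eB b η * (csg z η ^ j * (((Nat.card K : ℂ)⁻¹ * (Nat.card K : ℂ)⁻¹) *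
      ∑ s, ∑ s', (rp p ζ.1 s * conj (ζ'.1 s')) * (rp p η.1 s' * conj (η.1 s)))) =
      ((Nat.card K : ℂ)⁻¹ * (Nat.card K : ℂ)⁻¹) * ∑ s, ∑ s', (rp p ζ.1 s * conj (ζ'.1 s')) *
        (eB b η * (csg z η ^ j * (rp p η.1 s' * conj (η.1 s)))) := by
    intro η
    simp only [Finset.mul_sum]
    refine Finset.sum_congr rfl fun s _ => Finset.sum_congr rfl fun s' _ => ?_
    ring
  simp only [h1]
  rw [← Finset.mul_sum]
  rw [Finset.sum_comm]
  refine mul_eq_zero_of_right _ (Finset.sum_eq_zero fun s _ => ?_)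
  rw [Finset.sum_comm]
  refine Finset.sum_eq_zero fun s' _ => ?_
  rw [← Finset.mul_sum]
  by_cases hs : p ∣ orderOf s
  · rw [rp_of_sing _ hs, zero_mul, zero_mul]
  by_cases hs' : p ∣ orderOf s'
  · simp only [rp_of_sing _ hs', zero_mul, mul_zero, Finset.sum_const_zero]
  · simp only [rp_of_reg _ hs']
    rw [sum_csg_pow_reg hM hz hzo hj hb hs hs', mul_zero]

theorem inner_rp_rp (p : ℕ) (ζ ζ' : IrrCharacter K) : classInner (rp p ζ.1) (rp p ζ'.1) = crt p ζ ζ' := by
  unfold crt classInner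
  congr 1
  refine Finset.sum_congr rfl fun g _ => ?_
  unfold rp
  split_ifs <;> simp

theorem crt_row2 (p : ℕ) (ζ ζ' : IrrCharacter K) :
    ∑ η : IrrCharacter K, crt p ζ η * crt p η ζ' = crt p ζ ζ' := by
  have hcl : ∀ ζ : IrrCharacter K, IsClassFunction K (rp p ζ.1) := fun ζ =>
    rp_isClass (isClassFunction_of_isCharacter (isCharacter_of_irr ζ))
  have h := H06.classInner_parseval (hcl ζ) (hcl ζ')
  rw [inner_rp_rp] at h
  rw [h]
  refine Finset.sum_congr rfl fun η _ => ?_
  have : classInner (rp p ζ'.1) η.1 = crt p ζ' η := rfl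
  rw [this, crt_conj]
  rfl

theorem sum_crt_block' (hM : IsPModular p M) {b : Set (IrrCharacter K)} (hb : IsPBlock M b)
    {ζ : IrrCharacter K} (hζ : ζ ∈ b) (ζ' : IrrCharacter K) :
    ∑ η : IrrCharacter K, eB b η * (crt p ζ η * crt p η ζ') = crt p ζ ζ' := by
  classical
  rw [← crt_row2 p ζ ζ']
  refine Finset.sum_congr rfl fun η _ => ?_
  by_cases hη : η ∈ b
  · rw [eB_apply_mem hη, one_mul]
  · rw [eB_apply_not_mem hη, zero_mul]
    have h0 : crt p ζ η = 0 := by
      rw [crt_symm]
      apply crt_eq_zero hM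
      intro hs
      apply hη
      rw [block_eq_of_mem hb hζ]
      exact hs
    rw [h0, zero_mul]

theorem sum_geom_csg (hz : z ∈ Subgroup.center K) (hzo : orderOf z = p) (η : IrrCharacter K) :
    ∑ j ∈ Finset.range p, csg z η ^ j = if csg z η = 1 then (p : ℂ) else 0 := by
  split_ifs with h
  · simp [h]
  · have h1 := csg_pow_eq_one hz hzo η
    have h2 := geom_sum_mul (csg z η) p
    rw [h1, sub_self] at h2
    exact (mul_eq_zero.mp h2).resolve_right (sub_ne_zero.mpr h)

/-- The projection onto the characters with `z` in the kernel. -/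
theorem sum_b0_crt (hM : IsPModular p M) (hz : z ∈ Subgroup.center K) (hzo : orderOf z = p)
    {b : Set (IrrCharacter K)} (hb : IsPBlock M b) {ζ : IrrCharacter K} (hζ : ζ ∈ b) (ζ' : IrrCharacter K) :
    (p : ℂ) * ∑ η : IrrCharacter K, eB b η * ((if csg z η = 1 then 1 else 0) * (crt p ζ η * crt p η ζ')) =
      crt p ζ ζ' := by
  classical
  have hp1 : 0 < p := hp.out.pos
  have h1 : ∑ j ∈ Finset.range p, ∑ η : IrrCharacter K, eB b η * (csg z η ^ j * (crt p ζ η * crt p η ζ')) =
      crt p ζ ζ' := by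
    rw [Finset.sum_eq_single 0]
    · simp only [pow_zero, one_mul]
      exact sum_crt_block' hM hb hζ ζ'
    · intro j hj hj0
      refine sum_csg_pow_crt hM hz hzo ?_ hb ζ ζ'
      intro hd
      exact hj0 (Nat.eq_zero_of_dvd_of_lt hd (Finset.mem_range.mp hj))
    · intro h
      exact absurd (Finset.mem_range.mpr hp1) h
  rw [← h1, Finset.sum_comm, Finset.mul_sum]
  refine Finset.sum_congr rfl fun η _ => ?_
  have h2 := sum_geom_csg hz hzo η
  simp only [← Finset.mul_sum, ← Finset.sum_mul, h2]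
  split_ifs <;> ring

theorem rank_eq_sum_crt' (hM : IsPModular p M) {S : Set (IrrCharacter K)} (hS : IsPBlock M S) :
    (blockRank p S : ℂ) = ∑ χ : IrrCharacter K, eB S χ * crt p χ χ := by
  classical
  have hK : (Nat.card K : ℂ) ≠ 0 := card_ne_zero_C
  have h1 := card_mul_blockRank hM hS
  rw [Finset.sum_comm] at h1
  have h2 : ∀ χ : IrrCharacter K, ∑ x : K, eB S χ * (pRegularPart p χ.1 x * conj (pRegularPart p χ.1 x)) =
      (Nat.card K : ℂ) * (eB S χ * crt p χ χ) := by
    intro χ
    have h3 : crt p χ χ = (Nat.card K : ℂ)⁻¹ * ∑ s, rp p χ.1 s * conj (rp p χ.1 s) := by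
      rw [← inner_rp_rp]
      rfl
    rw [h3, mul_left_comm, mul_inv_cancel_left₀ hK, ← Finset.mul_sum, rp_eq_pRegularPart]
  simp only [h2] at h1
  rw [← Finset.mul_sum] at h1
  exact mul_left_cancel₀ hK h1

/-- The trace of the projection. -/
theorem sum_b0_trace (hM : IsPModular p M) (hz : z ∈ Subgroup.center K) (hzo : orderOf z = p)
    {b : Set (IrrCharacter K)} (hb : IsPBlock M b) :
    (p : ℂ) * ∑ η : IrrCharacter K, eB b η * ((if csg z η = 1 then 1 else 0) * crt p η η) =
      (blockRank p b : ℂ) := by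
  classical
  have hp1 : 0 < p := hp.out.pos
  have hK : (Nat.card K : ℂ) ≠ 0 := card_ne_zero_C
  have h0 : ∀ j, ¬ p ∣ j → ∑ η : IrrCharacter K, eB b η * (csg z η ^ j * crt p η η) = 0 := by
    intro j hj
    have h2 : ∀ η : IrrCharacter K, eB b η * (csg z η ^ j * crt p η η) =
        (Nat.card K : ℂ)⁻¹ * ∑ s, rp p (fun _ => (1 : ℂ)) s * (eB b η * (csg z η ^ j * (η.1 s * conj (η.1 s)))) := by
      intro η
      rw [crt_eq_sum, ← mul_assoc, ← mul_assoc, mul_comm _ (Nat.card K : ℂ)⁻¹, mul_assoc, mul_assoc,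
        Finset.mul_sum, Finset.mul_sum]
      congr 1
      refine Finset.sum_congr rfl fun s _ => ?_
      unfold rp
      split_ifs <;> ring
    simp only [h2]
    rw [← Finset.mul_sum, Finset.sum_comm]
    refine mul_eq_zero_of_right _ (Finset.sum_eq_zero fun s _ => ?_)
    rw [← Finset.mul_sum]
    by_cases hs : p ∣ orderOf s
    · rw [rp_of_sing _ hs, zero_mul]
    · rw [sum_csg_pow_reg hM hz hzo hj hb hs hs, mul_zero]
  have h1 : ∑ j ∈ Finset.range p, ∑ η : IrrCharacter K, eB b η * (csg z η ^ j * crt p η η) =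
      (blockRank p b : ℂ) := by
    rw [Finset.sum_eq_single 0]
    · simp only [pow_zero, one_mul]
      exact (rank_eq_sum_crt' hM hb).symm
    · intro j hj hj0
      refine h0 j ?_
      intro hd
      exact hj0 (Nat.eq_zero_of_dvd_of_lt hd (Finset.mem_range.mp hj))
    · intro h
      exact absurd (Finset.mem_range.mpr hp1) h
  rw [← h1, Finset.sum_comm, Finset.mul_sum]
  refine Finset.sum_congr rfl fun η _ => ?_
  have h2 := sum_geom_csg hz hzo η
  simp only [← Finset.mul_sum, ← Finset.sum_mul, h2]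
  split_ifs <;> ring

/-- The regular part of a character is a combination of characters with `z` in the kernel. -/
theorem exists_nat_part (hz : z ∈ Subgroup.center K) (hzo : orderOf z = p) (θ : IrrCharacter K) :
    ∃ a : IrrCharacter K → ℤ, (∀ η, csg z η ≠ 1 → a η = 0) ∧
      ∀ s : K, ¬ p ∣ orderOf s → θ.1 s = ∑ η : IrrCharacter K, (a η : ℂ) * η.1 s := by
  classical
  have hK : (Nat.card K : ℂ) ≠ 0 := card_ne_zero_C
  set m := pco p K with hm
  have hco : Nat.Coprime p m := (Nat.Prime.coprime_iff_not_dvd hp.out).mpr pco_not_dvd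
  obtain ⟨N, hN1, hN2⟩ := Nat.chineseRemainder hco 0 1
  have hNp : p ∣ N := (Nat.modEq_zero_iff_dvd).mp hN1
  set f : K → ℂ := fun g => θ.1 (g ^ N) with hf
  have hfgen : IsGeneralizedCharacter K f := gen_pow N (isCharacter_of_irr θ)
  have hfcl : IsClassFunction K f := by
    intro g k
    show θ.1 ((k * g * k⁻¹) ^ N) = θ.1 (g ^ N)
    rw [conj_pow]
    exact irr_conj' θ _ _
  have hint := fun η : IrrCharacter K => H06.gen_inner_int hfgen (H06.gen_of_char (isCharacter_of_irr η))
  choose a ha using hint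
  have hz1 : z ^ N = 1 := by
    rw [← orderOf_dvd_iff_pow_eq_one, hzo]
    exact hNp
  have hfz : ∀ c, f (z * c) = f c := by
    intro c
    have h1 : z * c = c * z := (Subgroup.mem_center_iff.mp hz c).symm
    show θ.1 ((z * c) ^ N) = θ.1 (c ^ N)
    have h2 : Commute z c := h1
    rw [h2.mul_pow, hz1, one_mul]
  refine ⟨a, ?_, ?_⟩
  · intro η hη
    have h1 : classInner f η.1 = conj (csg z η) * classInner f η.1 := by
      unfold classInner
      rw [mul_left_comm]
      congr 1
      rw [Finset.mul_sum, ← Equiv.sum_comp (Equiv.mulLeft z)]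
      refine Finset.sum_congr rfl fun c _ => ?_
      simp only [Equiv.coe_mulLeft]
      rw [hfz, csg_mul' hz, map_mul]
      ring
    have h2 : (1 - conj (csg z η)) * classInner f η.1 = 0 := by
      linear_combination h1
    have h3 : (1 - conj (csg z η)) ≠ 0 := by
      intro h
      apply hη
      have h4 : conj (csg z η) = 1 := by
        linear_combination -h
      have h5 := congrArg conj h4
      simpa using h5
    have h4 := (mul_eq_zero.mp h2).resolve_left h3
    rw [ha η] at h4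
    exact_mod_cast h4
  · intro s hs
    have h1 : s ^ N = s := by
      have h2 : orderOf s ∣ m := by
        have h3 : orderOf s ∣ Nat.card K := orderOf_dvd_natCard s
        rw [← pow_mul_pco p] at h3
        exact (Nat.Coprime.dvd_of_dvd_mul_left
          (Nat.Coprime.pow_right _ ((Nat.Prime.coprime_iff_not_dvd hp.out).mpr hs).symm) h3)
      have h3 : N ≡ 1 [MOD orderOf s] := hN2.of_dvd h2
      have h4 : s ^ N = s ^ 1 := by
        rw [← pow_mod_orderOf s N, ← pow_mod_orderOf s 1, h3]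
      rwa [pow_one] at h4
    have h2 := congrFun (classFunction_expansion f hfcl) s
    rw [Finset.sum_apply] at h2
    have h3 : f s = θ.1 s := by
      show θ.1 (s ^ N) = θ.1 s
      rw [h1]
    rw [← h3, h2]
    refine Finset.sum_congr rfl fun η _ => ?_
    rw [Pi.smul_apply, smul_eq_mul, ha]

end Central

end Cfsg.Agent.H22
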