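import Cfsg.Agent.Lib.H22.BFSec

/-!
# Integer combinations of truncated characters in a block of defect two with a central element
-/

set_option autoImplicit false
set_option linter.unusedSectionVars false
set_option linter.style.haveILetI false
set_option linter.unusedSimpArgs false

namespace Cfsg.Agent.H22

open Cfsg Cfsg.Agent.H21 Module Matrix
open scoped ComplexConjugate ComplexOrder

universe u

section Combo

variable {K : Type u} [Group K] [Finite K] {p : ℕ} [hp : Fact p.Prime] {M : Ideal AlgInt}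
  [hMp : M.IsPrime] {z : K}

theorem sum_rp_rp (p : ℕ) (ζ η : IrrCharacter K) :
    ∑ s, rp p ζ.1 s * conj (rp p η.1 s) = (Nat.card K : ℂ) * crt p ζ η := by
  have hK : (Nat.card K : ℂ) ≠ 0 := card_ne_zero_C
  rw [← inner_rp_rp]
  unfold classInner
  rw [mul_inv_cancel_left₀ hK]

theorem rp_block_combo (hM : IsPModular p M) (hz : z ∈ Subgroup.center K) (hzo : orderOf z = p)
    {b : Set (IrrCharacter K)} (hb : IsPBlock M b) {θ : IrrCharacter K} (hθ : θ ∈ b) :
    ∃ a : IrrCharacter K → ℤ, (∀ η, a η ≠ 0 → η ∈ b ∧ csg z η = 1) ∧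
      ∀ s, rp p θ.1 s = ∑ η : IrrCharacter K, (a η : ℂ) * rp p η.1 s := by
  classical
  obtain ⟨a, ha0, ha⟩ := exists_nat_part hz hzo θ
  set a' : IrrCharacter K → ℤ := fun η => if η ∈ b then a η else 0 with ha'
  refine ⟨a', ?_, ?_⟩
  · intro η hη
    by_cases h : η ∈ b
    · refine ⟨h, ?_⟩
      by_contra h1
      apply hη
      simp [ha', h, ha0 η h1]
    · simp [ha', h] at hη
  have hrpa : ∀ s, rp p θ.1 s = ∑ η : IrrCharacter K, (a η : ℂ) * rp p η.1 s := by
    intro s
    by_cases hs : p ∣ orderOf s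
    · simp only [rp_of_sing _ hs, mul_zero, Finset.sum_const_zero]
    · simp only [rp_of_reg _ hs]
      exact ha s hs
  set u : K → ℂ := fun s => rp p θ.1 s - ∑ η : IrrCharacter K, (a' η : ℂ) * rp p η.1 s with hu
  have hu2 : ∀ s, u s = ∑ η : IrrCharacter K, ((a η - a' η : ℤ) : ℂ) * rp p η.1 s := by
    intro s
    rw [hu]
    simp only
    rw [hrpa s, ← Finset.sum_sub_distrib]
    refine Finset.sum_congr rfl fun η _ => ?_
    push_cast
    ring
  have horth : ∀ ζ ∈ b, ∀ η, η ∉ b → ∑ s, rp p ζ.1 s * conj (rp p η.1 s) = 0 := by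
    intro ζ hζ η hη
    rw [sum_rp_rp, crt_symm, crt_eq_zero hM ?_, mul_zero]
    intro hs
    apply hη
    rw [block_eq_of_mem hb hζ]
    exact hs
  have hzero : ∑ s, u s * conj (u s) = 0 := by
    have h1 : ∀ s, u s * conj (u s) = ∑ η : IrrCharacter K, ((a η - a' η : ℤ) : ℂ) * (u s * conj (rp p η.1 s)) := by
      intro s
      have h2 : conj (u s) = ∑ η : IrrCharacter K, ((a η - a' η : ℤ) : ℂ) * conj (rp p η.1 s) := by
        rw [hu2 s, map_sum]
        refine Finset.sum_congr rfl fun η _ => ?_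
        rw [map_mul, map_intCast]
      rw [h2, Finset.mul_sum]
      refine Finset.sum_congr rfl fun η _ => ?_
      ring
    simp only [h1]
    rw [Finset.sum_comm]
    refine Finset.sum_eq_zero fun η _ => ?_
    rw [← Finset.mul_sum]
    by_cases hη : η ∈ b
    · have h5 : a' η = a η := by simp [ha', hη]
      rw [h5, sub_self]
      simp
    · have h2 : ∑ s, u s * conj (rp p η.1 s) = 0 := by
        have h3 : ∀ s, u s * conj (rp p η.1 s) = rp p θ.1 s * conj (rp p η.1 s) -
            ∑ ζ : IrrCharacter K, (a' ζ : ℂ) * (rp p ζ.1 s * conj (rp p η.1 s)) := by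
          intro s
          rw [hu]
          simp only
          rw [sub_mul, Finset.sum_mul]
          congr 1
          refine Finset.sum_congr rfl fun ζ _ => ?_
          ring
        simp only [h3]
        rw [Finset.sum_sub_distrib, horth θ hθ η hη, zero_sub, Finset.sum_comm, neg_eq_zero]
        refine Finset.sum_eq_zero fun ζ _ => ?_
        rw [← Finset.mul_sum]
        by_cases hζ : ζ ∈ b
        · rw [horth ζ hζ η hη, mul_zero]
        · have h5 : a' ζ = 0 := by simp [ha', hζ]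
          rw [h5]
          simp
      rw [h2, mul_zero]
  intro s
  have h6 := eq_zero_of_sum_mul_conj u hzero s
  rw [hu] at h6
  exact sub_eq_zero.mp h6

/-- The members of `b` with `z` in the kernel. -/
abbrev b0 (z : K) (b : Set (IrrCharacter K)) : Type u := {η : IrrCharacter K // η ∈ b ∧ csg z η = 1}

theorem sum_b0_all (z : K) (b : Set (IrrCharacter K)) (g : IrrCharacter K → ℂ)
    (hg : ∀ η, ¬ (η ∈ b ∧ csg z η = 1) → g η = 0) :
    ∑ i : b0 z b, g i.1 = ∑ η, g η := by
  classical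
  have h1 := @Finset.sum_subtype (IrrCharacter K) ℂ _ (fun η => η ∈ b ∧ csg z η = 1) inferInstance
    (Finset.univ.filter (fun η : IrrCharacter K => η ∈ b ∧ csg z η = 1)) (by simp) g
  refine Eq.trans ?_ (h1.symm.trans ?_)
  · refine Finset.sum_congr ?_ (fun _ _ => rfl)
    ext x
    simp
  · apply Finset.sum_filter_of_ne
    intro η _ h2
    by_contra h3
    exact h2 (hg η h3)

theorem sum_b0 (z : K) (b : Set (IrrCharacter K)) (g : IrrCharacter K → ℂ) :
    ∑ i : b0 z b, g i.1 = ∑ η, eB b η * ((if csg z η = 1 then 1 else 0) * g η) := by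
  classical
  have h1 : ∀ i : b0 z b, g i.1 = eB b i.1 * ((if csg z i.1 = 1 then 1 else 0) * g i.1) := by
    intro i
    rw [eB_apply_mem i.2.1, if_pos i.2.2, one_mul, one_mul]
  rw [Finset.sum_congr rfl (fun i _ => h1 i)]
  apply sum_b0_all z b (fun η => eB b η * ((if csg z η = 1 then 1 else 0) * g η))
  intro η hη
  by_cases h2 : η ∈ b
  · have h3 : csg z η ≠ 1 := fun h => hη ⟨h2, h⟩
    rw [if_neg h3]
    simp
  · rw [eB_apply_not_mem h2, zero_mul]

/-- The integer matrix of regular inner products. -/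
theorem exists_P (hM : IsPModular p M) (hz : z ∈ Subgroup.center K) (hzo : orderOf z = p)
    {b : Set (IrrCharacter K)} (hb : IsPBlock M b) (hd : blockDefect p b = 2)
    (hh : ∀ ξ ∈ b, (charDegree ξ.1).factorization p = minExp p b) :
    ∃ P : Matrix (b0 z b) (b0 z b) ℤ, (∀ i j, (P i j : ℂ) = (p : ℂ) ^ 2 * crt p i.1 j.1) ∧ Pᵀ = P ∧
      P * P = (p : ℤ) • P ∧ (∀ i, ¬ (p : ℤ) ∣ P i i) ∧
      (∀ i j k l, (p : ℤ) ∣ P i j * P k l - P i l * P k j) ∧
      P.trace = (p : ℤ) * (blockRank p b : ℕ) := by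
  classical
  have hp0 : (p : ℂ) ≠ 0 := by exact_mod_cast hp.out.ne_zero
  have hex : ∀ i j : b0 z b, ∃ n : ℤ, (n : ℂ) = (p : ℂ) ^ 2 * crt p i.1 j.1 := by
    intro i j
    obtain ⟨n, hn⟩ := crt_defect_int (ξ' := j.1) hM hb i.2.1
    refine ⟨n, ?_⟩
    rw [← hn, hd]
    push_cast
    rfl
  choose P hP using hex
  refine ⟨Matrix.of P, hP, ?_, ?_, ?_, ?_, ?_⟩
  · ext i j
    apply Int.cast_injective (α := ℂ)
    rw [Matrix.transpose_apply]
    show (P j i : ℂ) = (P i j : ℂ)
    rw [hP, hP, crt_symm]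
  · ext i j
    apply Int.cast_injective (α := ℂ)
    rw [Matrix.mul_apply, Matrix.smul_apply, smul_eq_mul]
    push_cast
    simp only [Matrix.of_apply]
    rw [hP i j]
    have h1 := sum_b0_crt hM hz hzo hb i.2.1 j.1
    have h2 := sum_b0 z b (fun η => crt p i.1 η * crt p η j.1)
    have h3 : ∀ k : b0 z b, (P i k : ℂ) * (P k j : ℂ) = (p : ℂ) ^ 4 * (crt p i.1 k.1 * crt p k.1 j.1) := by
      intro k
      rw [hP, hP]
      ring
    rw [Finset.sum_congr rfl (fun k _ => h3 k), ← Finset.mul_sum, h2, ← h1]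
    ring
  · intro i hdvd
    obtain ⟨n, hn⟩ := crt_defect_int (ξ' := i.1) hM hb i.2.1
    refine crt_not_dvd hM hb i.2.1 i.2.1 (hh _ i.2.1) (hh _ i.2.1) hn ?_
    have h1 : n = P i i := by
      apply Int.cast_injective (α := ℂ)
      rw [hP, ← hn, hd]
      push_cast
      rfl
    rw [h1]
    exact hdvd
  · intro i j k l
    -- the factorization through the central characters
    set f : b0 z b → ℕ := fun i => charDegree i.1.1 / p ^ minExp p b with hf
    have hcard : ∀ i : b0 z b, ((p ^ (Nat.card K).factorization p : ℕ) : ℂ) =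
        ((p ^ minExp p b : ℕ) : ℂ) * (p : ℂ) ^ 2 := by
      intro i
      have h4 := minExp_le_card (p := p) hb
      have h5 : (Nat.card K).factorization p = minExp p b + 2 := by
        have := blockDefect_eq (p := p) (B := b)
        omega
      rw [h5]
      push_cast
      rw [pow_add]
    have hw : ∀ i j : b0 z b, (P i j : ℂ) = H22.om i.1 (bz p j.1) * (f i : ℂ) := by
      intro i j
      have h1 := om_bz (p := p) j.1 i.1
      have hdvd := pow_minExp_dvd hp.out i.2.1
      have h2 : ((charDegree i.1.1 : ℕ) : ℂ) = ((p ^ minExp p b : ℕ) : ℂ) * (f i : ℂ) := by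
        exact_mod_cast (Nat.mul_div_cancel' hdvd).symm
      rw [one_eq_charDegree (isCharacter_of_irr i.1), h2, hcard i] at h1
      have hp2 : ((p ^ minExp p b : ℕ) : ℂ) ≠ 0 := by
        exact_mod_cast (pow_pos hp.out.pos _).ne'
      rw [hP]
      apply mul_left_cancel₀ hp2
      linear_combination -h1
    have hsame : ∀ i k : b0 z b, SameBlock M i.1.1 k.1.1 := by
      intro i k
      have h2 : ∀ x : IrrCharacter K, x ∈ b → SameBlock M i.1.1 x.1 := by
        intro x hx
        rw [block_eq_of_mem hb i.2.1] at hx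
        exact hx
      exact h2 _ k.2.1
    have hmem : MemLocalIdeal M (((P i j * P k l - P i l * P k j : ℤ)) : ℂ) := by
      have h1 : (((P i j * P k l - P i l * P k j : ℤ)) : ℂ) = (f i : ℂ) * (f k : ℂ) *
          (H22.om i.1 (bz p l.1) * (H22.om i.1 (bz p j.1) - H22.om k.1 (bz p j.1)) -
            H22.om i.1 (bz p j.1) * (H22.om i.1 (bz p l.1) - H22.om k.1 (bz p l.1))) := by
        push_cast
        rw [hw i j, hw k l, hw i l, hw k j]
        ring
      rw [h1]
      refine mli_mul_left (mli_sub ?_ ?_) (mlr_mul (mlr_natCast _) (mlr_natCast _))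
      · exact mli_mul_left (om_bz_congr hM j.1 (hsame i k)) (om_bz_mlr hM l.1 i.1)
      · exact mli_mul_left (om_bz_congr hM l.1 (hsame i k)) (om_bz_mlr hM j.1 i.1)
    exact (mli_intCast_iff hM _).mp hmem
  · apply Int.cast_injective (α := ℂ)
    unfold Matrix.trace
    push_cast
    have h1 := sum_b0_trace hM hz hzo hb
    have h2 := sum_b0 z b (fun η => crt p η η)
    have h3 : ∀ i : b0 z b, ((Matrix.of P).diag i : ℂ) = (p : ℂ) ^ 2 * crt p i.1 i.1 := fun i => hP i i
    rw [Finset.sum_congr rfl (fun i _ => h3 i), ← Finset.mul_sum, h2, ← h1]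
    ring

/-- The normalized squared norm. -/
noncomputable def QF (p : ℕ) (f : K → ℂ) : ℝ :=
  (p : ℝ) ^ 2 * ((Nat.card K : ℝ)⁻¹ * ∑ s, Complex.normSq (f s))

theorem QF_nonneg (f : K → ℂ) : 0 ≤ QF p f := by
  unfold QF
  have h1 : 0 ≤ ∑ s, Complex.normSq (f s) := Finset.sum_nonneg fun s _ => Complex.normSq_nonneg _
  positivity

theorem QF_eq_zero (f : K → ℂ) (h : QF p f = 0) (s : K) : f s = 0 := by
  have hp0 : (p : ℝ) ^ 2 ≠ 0 := pow_ne_zero _ (by exact_mod_cast hp.out.ne_zero)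
  have hK : (Nat.card K : ℝ)⁻¹ ≠ 0 := inv_ne_zero (by exact_mod_cast Nat.card_pos.ne')
  unfold QF at h
  have h1 := (mul_eq_zero.mp ((mul_eq_zero.mp h).resolve_left hp0)).resolve_left hK
  have h2 := (Finset.sum_eq_zero_iff_of_nonneg (fun s _ => Complex.normSq_nonneg (f s))).mp h1 s
    (Finset.mem_univ s)
  exact Complex.normSq_eq_zero.mp h2

theorem QF_cast (f : K → ℂ) :
    ((QF p f : ℝ) : ℂ) = (p : ℂ) ^ 2 * ((Nat.card K : ℂ)⁻¹ * ∑ s, f s * conj (f s)) := by
  unfold QF
  push_cast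
  simp only [Complex.mul_conj]

/-- **The gap.** -/
theorem gap (hM : IsPModular p M) (hz : z ∈ Subgroup.center K) (hzo : orderOf z = p)
    {b : Set (IrrCharacter K)} (hb : IsPBlock M b) (hd : blockDefect p b = 2)
    (hh : ∀ ξ ∈ b, (charDegree ξ.1).factorization p = minExp p b) (u : IrrCharacter K → ℤ) :
    QF p (fun s => ∑ ξ : IrrCharacter K, eB b ξ * ((u ξ : ℂ) * rp p ξ.1 s)) = 0 ∨
      (blockRank p b : ℝ) ≤ QF p (fun s => ∑ ξ : IrrCharacter K, eB b ξ * ((u ξ : ℂ) * rp p ξ.1 s)) := by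
  classical
  have hK : (Nat.card K : ℂ) ≠ 0 := card_ne_zero_C
  obtain ⟨P, hP, hsym, hPP, hdiag, hminor, htr⟩ := exists_P hM hz hzo hb hd hh
  have hco : ∀ ξ : IrrCharacter K, ∃ a : IrrCharacter K → ℤ, ξ ∈ b →
      (∀ η, a η ≠ 0 → η ∈ b ∧ csg z η = 1) ∧ ∀ s, rp p ξ.1 s = ∑ η : IrrCharacter K, (a η : ℂ) * rp p η.1 s := by
    intro ξ
    by_cases h : ξ ∈ b
    · obtain ⟨a, h1, h2⟩ := rp_block_combo hM hz hzo hb h
      exact ⟨a, fun _ => ⟨h1, h2⟩⟩
    · exact ⟨0, fun h' => absurd h' h⟩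
  choose a ha using hco
  set v : b0 z b → ℤ := fun η => ∑ ξ : IrrCharacter K, if ξ ∈ b then u ξ * a ξ η.1 else 0 with hv
  have hf : ∀ s, (∑ ξ : IrrCharacter K, eB b ξ * ((u ξ : ℂ) * rp p ξ.1 s)) =
      ∑ η : b0 z b, (v η : ℂ) * rp p η.1.1 s := by
    intro s
    simp only [hv]
    push_cast
    simp only [Finset.sum_mul]
    rw [Finset.sum_comm]
    refine Finset.sum_congr rfl fun ξ _ => ?_
    by_cases hξ : ξ ∈ b
    · rw [eB_apply_mem hξ, one_mul, (ha ξ hξ).2 s, Finset.mul_sum]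
      simp only [if_pos hξ]
      symm
      have h1 := sum_b0_all z b (fun η => (u ξ : ℂ) * ((a ξ η : ℂ) * rp p η.1 s)) (by
        intro η hη
        have h2 : a ξ η = 0 := by
          by_contra h3
          exact hη ((ha ξ hξ).1 η h3)
        rw [h2]
        simp)
      rw [← h1]
      refine Finset.sum_congr rfl fun η _ => ?_
      push_cast
      ring
    · rw [eB_apply_not_mem hξ, zero_mul]
      simp only [if_neg hξ]
      simp
  have hQ : QF p (fun s => ∑ ξ : IrrCharacter K, eB b ξ * ((u ξ : ℂ) * rp p ξ.1 s)) =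
      ((v ⬝ᵥ (P *ᵥ v) : ℤ) : ℝ) := by
    apply Complex.ofReal_injective
    rw [QF_cast]
    simp only [hf]
    have h1 : ∀ s, (∑ η : b0 z b, (v η : ℂ) * rp p η.1.1 s) * conj (∑ η : b0 z b, (v η : ℂ) * rp p η.1.1 s) =
        ∑ η : b0 z b, ∑ η' : b0 z b, (v η : ℂ) * (v η' : ℂ) * (rp p η.1.1 s * conj (rp p η'.1.1 s)) := by
      intro s
      rw [map_sum, Finset.sum_mul_sum]
      refine Finset.sum_congr rfl fun η _ => Finset.sum_congr rfl fun η' _ => ?_
      rw [map_mul, map_intCast]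
      ring
    simp only [h1]
    have h2 : ∀ η η' : b0 z b, ∑ s, (v η : ℂ) * (v η' : ℂ) * (rp p η.1.1 s * conj (rp p η'.1.1 s)) =
        (v η : ℂ) * (v η' : ℂ) * ((Nat.card K : ℂ) * crt p η.1 η'.1) := by
      intro η η'
      rw [← Finset.mul_sum, sum_rp_rp]
    have h3 : ∑ s, ∑ η : b0 z b, ∑ η' : b0 z b, (v η : ℂ) * (v η' : ℂ) * (rp p η.1.1 s * conj (rp p η'.1.1 s)) =
        ∑ η : b0 z b, ∑ η' : b0 z b, (v η : ℂ) * (v η' : ℂ) * ((Nat.card K : ℂ) * crt p η.1 η'.1) := by
      rw [Finset.sum_comm]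
      refine Finset.sum_congr rfl fun η _ => ?_
      rw [Finset.sum_comm]
      exact Finset.sum_congr rfl fun η' _ => h2 η η'
    rw [h3]
    simp only [dotProduct, Matrix.mulVec]
    push_cast
    rw [Finset.mul_sum, Finset.mul_sum]
    refine Finset.sum_congr rfl fun η _ => ?_
    rw [Finset.mul_sum, Finset.mul_sum, Finset.mul_sum]
    refine Finset.sum_congr rfl fun η' _ => ?_
    rw [hP]
    field_simp
  have hlat := lat_main p P hsym hPP hdiag hminor (blockRank p b) htr v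
  rw [hQ]
  rcases hlat with h | h
  · left
    rw [h]
    simp
  · right
    exact_mod_cast h

end Combo

section DFT

variable {p : ℕ} [hp : Fact p.Prime]

/-- The `p`-th roots of unity. -/
noncomputable def TT (p : ℕ) : Finset ℂ := Polynomial.nthRootsFinset p (1 : ℂ)

theorem mem_TT {w : ℂ} : w ∈ TT p ↔ w ^ p = 1 :=
  Polynomial.mem_nthRootsFinset hp.out.pos _

theorem card_TT : (TT p).card = p :=
  (Complex.isPrimitiveRoot_exp p hp.out.ne_zero).card_nthRootsFinset

theorem TT_mul_conj {w : ℂ} (hw : w ∈ TT p) : w * conj w = 1 := by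
  have h1 : w ^ p = 1 := mem_TT.mp hw
  have h2 : ‖w‖ = 1 := Complex.norm_eq_one_of_pow_eq_one h1 hp.out.ne_zero
  rw [Complex.mul_conj, Complex.normSq_eq_norm_sq, h2]
  simp

theorem sum_pow_TT {w w' : ℂ} (hw : w ∈ TT p) (hw' : w' ∈ TT p) :
    ∑ j ∈ Finset.range p, (w * conj w') ^ j = if w = w' then (p : ℂ) else 0 := by
  split_ifs with h
  · rw [← h, TT_mul_conj hw]
    simp
  · have h1 : (w * conj w') ^ p = 1 := by
      rw [mul_pow, ← map_pow, mem_TT.mp hw, mem_TT.mp hw', map_one, one_mul]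
    have h2 : w * conj w' ≠ 1 := by
      intro h3
      apply h
      have h4 := TT_mul_conj hw'
      calc w = w * (w' * conj w') := by rw [h4, mul_one]
        _ = (w * conj w') * w' := by ring
        _ = w' := by rw [h3, one_mul]
    have h3 := geom_sum_mul (w * conj w') p
    rw [h1, sub_self] at h3
    exact (mul_eq_zero.mp h3).resolve_right (sub_ne_zero.mpr h2)

/-- **Discrete Fourier transform.** -/
theorem dft_identity (r : ℂ → ℂ) :
    ∑ j ∈ Finset.Ico 1 p, Complex.normSq (∑ w ∈ TT p, w ^ j * r w) =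
      (1 / 2 : ℝ) * ∑ w ∈ TT p, ∑ w' ∈ TT p, Complex.normSq (r w - r w') := by
  classical
  apply Complex.ofReal_injective
  push_cast
  simp only [← Complex.mul_conj]
  set S : ℂ := ∑ w ∈ TT p, r w with hS
  set A : ℂ := ∑ w ∈ TT p, r w * conj (r w) with hA
  have h1 : ∑ j ∈ Finset.range p, (∑ w ∈ TT p, w ^ j * r w) * conj (∑ w ∈ TT p, w ^ j * r w) = (p : ℂ) * A := by
    have h2 : ∀ j, (∑ w ∈ TT p, w ^ j * r w) * conj (∑ w ∈ TT p, w ^ j * r w) =
        ∑ w ∈ TT p, ∑ w' ∈ TT p, (r w * conj (r w')) * (w * conj w') ^ j := by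
      intro j
      rw [map_sum, Finset.sum_mul_sum]
      refine Finset.sum_congr rfl fun w _ => Finset.sum_congr rfl fun w' _ => ?_
      rw [map_mul, map_pow, mul_pow]
      ring
    simp only [h2]
    rw [Finset.sum_comm]
    have h3 : ∀ w ∈ TT p, ∑ j ∈ Finset.range p, ∑ w' ∈ TT p, (r w * conj (r w')) * (w * conj w') ^ j =
        (p : ℂ) * (r w * conj (r w)) := by
      intro w hw
      rw [Finset.sum_comm]
      have h4 : ∀ w' ∈ TT p, ∑ j ∈ Finset.range p, (r w * conj (r w')) * (w * conj w') ^ j =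
          if w' = w then (p : ℂ) * (r w * conj (r w')) else 0 := by
        intro w' hw'
        rw [← Finset.mul_sum, sum_pow_TT hw hw']
        by_cases h5 : w' = w
        · rw [if_pos h5, if_pos h5.symm]
          ring
        · rw [if_neg h5, if_neg (Ne.symm h5), mul_zero]
      rw [Finset.sum_congr rfl h4, Finset.sum_ite_eq' (TT p) w, if_pos hw]
    rw [Finset.sum_congr rfl h3, ← Finset.mul_sum]
  have h0 : ∑ j ∈ Finset.range p, (∑ w ∈ TT p, w ^ j * r w) * conj (∑ w ∈ TT p, w ^ j * r w) =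
      S * conj S + ∑ j ∈ Finset.Ico 1 p, (∑ w ∈ TT p, w ^ j * r w) * conj (∑ w ∈ TT p, w ^ j * r w) := by
    rw [Finset.range_eq_Ico, Finset.sum_eq_sum_Ico_succ_bot hp.out.pos]
    simp [hS]
  have h3 : ∑ w ∈ TT p, ∑ w' ∈ TT p, (r w - r w') * conj (r w - r w') = 2 * (p : ℂ) * A - 2 * (S * conj S) := by
    have h4 : ∀ w w', (r w - r w') * conj (r w - r w') = r w * conj (r w) - r w * conj (r w') -
        r w' * conj (r w) + r w' * conj (r w') := by
      intro w w'
      rw [map_sub]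
      ring
    simp only [h4]
    simp only [Finset.sum_add_distrib, Finset.sum_sub_distrib, Finset.sum_const, card_TT, nsmul_eq_mul]
    have h5 : ∑ w ∈ TT p, ∑ w' ∈ TT p, r w * conj (r w') = S * conj S := by
      rw [hS, map_sum, Finset.sum_mul_sum]
    have h6 : ∑ w ∈ TT p, ∑ w' ∈ TT p, r w' * conj (r w) = S * conj S := by
      rw [Finset.sum_comm, h5]
    rw [h5, h6, ← Finset.mul_sum]
    ring
  rw [h3]
  have h7 := h0.symm.trans h1
  linear_combination h7

end DFT

section Lower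

variable {K : Type u} [Group K] [Finite K] {p : ℕ} [hp : Fact p.Prime] {M : Ideal AlgInt}
  [hMp : M.IsPrime] {z : K}

/-- **The lower bound.** -/
theorem sec_lower (hM : IsPModular p M) (hz : z ∈ Subgroup.center K) (hzo : orderOf z = p)
    {b : Set (IrrCharacter K)} (hb : IsPBlock M b) (hd : blockDefect p b = 2)
    (hh : ∀ ξ ∈ b, (charDegree ξ.1).factorization p = minExp p b) (m : IrrCharacter K → ℤ) :
    (∀ s, ∑ ξ : IrrCharacter K, eB b ξ * ((csg z ξ ^ 1 * (m ξ : ℂ)) * rp p ξ.1 s) = 0) ∨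
    ((p : ℝ) - 1) * (blockRank p b : ℝ) ≤ ∑ j ∈ Finset.Ico 1 p,
      QF p (fun s => ∑ ξ : IrrCharacter K, eB b ξ * ((csg z ξ ^ j * (m ξ : ℂ)) * rp p ξ.1 s)) := by
  classical
  set x : ℕ → K → ℂ := fun j s => ∑ ξ : IrrCharacter K, eB b ξ * ((csg z ξ ^ j * (m ξ : ℂ)) * rp p ξ.1 s) with hx
  set r : ℂ → K → ℂ := fun w s => ∑ ξ : IrrCharacter K, eB b ξ *
    (((if csg z ξ = w then m ξ else 0 : ℤ) : ℂ) * rp p ξ.1 s) with hr
  have hxr : ∀ j s, x j s = ∑ w ∈ TT p, w ^ j * r w s := by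
    intro j s
    simp only [hx, hr, Finset.mul_sum]
    rw [Finset.sum_comm]
    refine Finset.sum_congr rfl fun ξ _ => ?_
    have h1 : csg z ξ ∈ TT p := mem_TT.mpr (csg_pow_eq_one hz hzo ξ)
    have h2 : ∀ w ∈ TT p, w ^ j * (eB b ξ * (((if csg z ξ = w then m ξ else 0 : ℤ) : ℂ) * rp p ξ.1 s)) =
        if csg z ξ = w then eB b ξ * ((csg z ξ ^ j * (m ξ : ℂ)) * rp p ξ.1 s) else 0 := by
      intro w _
      by_cases h3 : csg z ξ = w
      · rw [if_pos h3, if_pos h3, h3]
        ring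
      · rw [if_neg h3, if_neg h3]
        simp
    rw [Finset.sum_congr rfl h2, Finset.sum_ite_eq (TT p) (csg z ξ), if_pos h1]
  set g : ℂ → ℂ → ℝ := fun w w' => QF p (fun s => r w s - r w' s) with hg
  have hsum : ∑ j ∈ Finset.Ico 1 p, QF p (x j) = (1 / 2 : ℝ) * ∑ w ∈ TT p, ∑ w' ∈ TT p, g w w' := by
    simp only [hg]
    unfold QF
    simp only [← Finset.mul_sum]
    have h1 : ∑ j ∈ Finset.Ico 1 p, ∑ s, Complex.normSq (x j s) =
        (1 / 2 : ℝ) * ∑ w ∈ TT p, ∑ w' ∈ TT p, ∑ s, Complex.normSq (r w s - r w' s) := by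
      rw [Finset.sum_comm]
      simp only [hxr]
      simp only [dft_identity]
      rw [← Finset.mul_sum]
      congr 1
      rw [Finset.sum_comm]
      refine Finset.sum_congr rfl fun w _ => ?_
      rw [Finset.sum_comm]
    rw [h1]
    ring
  have hgap : ∀ w w', g w w' = 0 ∨ (blockRank p b : ℝ) ≤ g w w' := by
    intro w w'
    have h1 := gap hM hz hzo hb hd hh
      (fun ξ => (if csg z ξ = w then m ξ else 0) - (if csg z ξ = w' then m ξ else 0))
    have h2 : (fun s => r w s - r w' s) = (fun s => ∑ ξ : IrrCharacter K, eB b ξ *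
        ((((if csg z ξ = w then m ξ else 0) - (if csg z ξ = w' then m ξ else 0) : ℤ) : ℂ) * rp p ξ.1 s)) := by
      funext s
      simp only [hr]
      rw [← Finset.sum_sub_distrib]
      refine Finset.sum_congr rfl fun ξ _ => ?_
      push_cast
      ring
    simp only [hg]
    rw [h2]
    exact h1
  have hg0 : ∀ w w', g w w' = 0 → ∀ s, r w s = r w' s := by
    intro w w' h s
    exact sub_eq_zero.mp (QF_eq_zero _ h s)
  have hgnn : ∀ w w', 0 ≤ g w w' := fun w w' => QF_nonneg _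
  have hg1 : ∀ w w', (∀ s, r w s = r w' s) → g w w' = 0 := by
    intro w w' h
    simp only [hg]
    unfold QF
    simp [h]
  by_cases hall : ∀ w ∈ TT p, ∀ w' ∈ TT p, g w w' = 0
  · left
    have h1 : ∑ j ∈ Finset.Ico 1 p, QF p (x j) = 0 := by
      rw [hsum]
      have : ∑ w ∈ TT p, ∑ w' ∈ TT p, g w w' = 0 :=
        Finset.sum_eq_zero fun w hw => Finset.sum_eq_zero fun w' hw' => hall w hw w' hw'
      rw [this, mul_zero]
    have h2 := (Finset.sum_eq_zero_iff_of_nonneg (fun j _ => QF_nonneg (x j))).mp h1 1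
      (Finset.mem_Ico.mpr ⟨le_rfl, hp.out.one_lt⟩)
    intro s
    exact QF_eq_zero (x 1) h2 s
  · right
    push Not at hall
    obtain ⟨w₀, hw₀, w₁, hw₁, hne⟩ := hall
    set C : Finset ℂ := (TT p).filter (fun w => ∀ s, r w s = r w₀ s) with hC
    have hCsub : C ⊆ TT p := Finset.filter_subset _ _
    have hw₀C : w₀ ∈ C := Finset.mem_filter.mpr ⟨hw₀, fun _ => rfl⟩
    have hw₁C : w₁ ∈ TT p \ C := by
      rw [Finset.mem_sdiff]
      refine ⟨hw₁, fun h => hne ?_⟩
      exact hg1 _ _ (fun s => ((Finset.mem_filter.mp h).2 s).symm)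
    have hl1 : ∀ w ∈ C, ∀ w' ∈ TT p \ C, (blockRank p b : ℝ) ≤ g w w' := by
      intro w hw w' hw'
      rcases hgap w w' with h | h
      · exfalso
        have h1 := hg0 _ _ h
        rw [Finset.mem_sdiff] at hw'
        apply hw'.2
        refine Finset.mem_filter.mpr ⟨hw'.1, fun s => ?_⟩
        rw [← h1 s]
        exact (Finset.mem_filter.mp hw).2 s
      · exact h
    have hl2 : ∀ w ∈ TT p \ C, ∀ w' ∈ C, (blockRank p b : ℝ) ≤ g w w' := by
      intro w hw w' hw'
      rcases hgap w w' with h | h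
      · exfalso
        have h1 := hg0 _ _ h
        rw [Finset.mem_sdiff] at hw
        apply hw.2
        refine Finset.mem_filter.mpr ⟨hw.1, fun s => ?_⟩
        rw [h1 s]
        exact (Finset.mem_filter.mp hw').2 s
      · exact h
    have hs1 : 1 ≤ C.card := Finset.card_pos.mpr ⟨w₀, hw₀C⟩
    have hs2 : 1 ≤ (TT p \ C).card := Finset.card_pos.mpr ⟨w₁, hw₁C⟩
    have hs3 : (TT p \ C).card + C.card = p := by
      rw [Finset.card_sdiff_add_card_eq_card hCsub, card_TT]
    have hl0 : (0 : ℝ) ≤ blockRank p b := Nat.cast_nonneg _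
    have hA : ((C.card : ℝ) * ((TT p \ C).card : ℝ)) * (blockRank p b : ℝ) ≤
        ∑ w ∈ C, ∑ w' ∈ TT p \ C, g w w' := by
      calc ((C.card : ℝ) * ((TT p \ C).card : ℝ)) * (blockRank p b : ℝ)
          = ∑ w ∈ C, ∑ w' ∈ TT p \ C, (blockRank p b : ℝ) := by
            simp only [Finset.sum_const, nsmul_eq_mul]
            ring
        _ ≤ _ := Finset.sum_le_sum fun w hw => Finset.sum_le_sum fun w' hw' => hl1 w hw w' hw'
    have hB : ((C.card : ℝ) * ((TT p \ C).card : ℝ)) * (blockRank p b : ℝ) ≤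
        ∑ w ∈ TT p \ C, ∑ w' ∈ C, g w w' := by
      calc ((C.card : ℝ) * ((TT p \ C).card : ℝ)) * (blockRank p b : ℝ)
          = ∑ w ∈ TT p \ C, ∑ w' ∈ C, (blockRank p b : ℝ) := by
            simp only [Finset.sum_const, nsmul_eq_mul]
            ring
        _ ≤ _ := Finset.sum_le_sum fun w hw => Finset.sum_le_sum fun w' hw' => hl2 w hw w' hw'
    have hsplit : ∑ w ∈ C, ∑ w' ∈ TT p \ C, g w w' + ∑ w ∈ TT p \ C, ∑ w' ∈ C, g w w' ≤
        ∑ w ∈ TT p, ∑ w' ∈ TT p, g w w' := by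
      rw [← Finset.sum_sdiff hCsub]
      rw [add_comm]
      refine add_le_add ?_ ?_
      · refine Finset.sum_le_sum fun w _ => ?_
        exact Finset.sum_le_sum_of_subset_of_nonneg hCsub (fun i _ _ => hgnn _ _)
      · refine Finset.sum_le_sum fun w _ => ?_
        exact Finset.sum_le_sum_of_subset_of_nonneg Finset.sdiff_subset (fun i _ _ => hgnn _ _)
    have hcount : (p : ℝ) - 1 ≤ (C.card : ℝ) * ((TT p \ C).card : ℝ) := by
      have h1 : (1 : ℝ) ≤ C.card := by exact_mod_cast hs1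
      have h2 : (1 : ℝ) ≤ (TT p \ C).card := by exact_mod_cast hs2
      have h3 : ((TT p \ C).card : ℝ) + C.card = p := by exact_mod_cast hs3
      nlinarith
    rw [hsum]
    have h4 : ((p : ℝ) - 1) * (blockRank p b : ℝ) ≤ ((C.card : ℝ) * ((TT p \ C).card : ℝ)) * (blockRank p b : ℝ) :=
      mul_le_mul_of_nonneg_right hcount hl0
    linarith

end Lower

end Cfsg.Agent.H22
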