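import Cfsg.Agent.Lib.H22.BFSec2

/-!
# Blocks of defect two: `k(B) ≤ p ^ 2`
-/

set_option autoImplicit false
set_option linter.unusedSectionVars false
set_option linter.style.haveILetI false
set_option linter.unusedSimpArgs false

namespace Cfsg.Agent.H22

open Cfsg Cfsg.Agent.H21 Module
open scoped ComplexConjugate ComplexOrder

universe u

section RankPos

variable {K : Type u} [Group K] [Finite K] {p : ℕ} [hp : Fact p.Prime] {M : Ideal AlgInt}
  [hMp : M.IsPrime]

theorem blockRank_pos_H22 {b : Set (IrrCharacter K)} (hb : IsPBlock M b) : 0 < blockRank p b := by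
  classical
  obtain ⟨ξ, rfl⟩ := hb
  rw [Nat.pos_iff_ne_zero]
  intro h
  unfold blockRank at h
  rw [Submodule.finrank_eq_zero] at h
  have h1 : pRegularPart p ξ.1 ∈ Submodule.span ℂ
      ((fun χ : IrrCharacter K => pRegularPart p (χ : K → ℂ)) '' blockOf M ξ.1) :=
    Submodule.subset_span ⟨ξ, self_mem_blockOf ξ, rfl⟩
  rw [h] at h1
  have h2 : pRegularPart p ξ.1 = 0 := (Submodule.mem_bot ℂ).mp h1
  have h3 := congrFun h2 1
  have hone : ¬ p ∣ orderOf (1 : K) := by
    rw [orderOf_one]
    exact hp.out.one_lt.ne' ∘ Nat.dvd_one.mp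
  rw [pRegularPart_of_regular p _ hone] at h3
  exact irr_one_ne_zero' ξ h3

end RankPos

section G

variable {G : Type u} [Group G] [Finite G] {p : ℕ} [hp : Fact p.Prime] {M : Ideal AlgInt}
  [hMp : M.IsPrime] {y : G}

/-- The section at a power of `y`. -/
abbrev secP (y : G) (j : ℕ) (χ : IrrCharacter G) : Subgroup.centralizer ({y} : Set G) → ℂ :=
  fun c => χ.1 (y ^ j * (c : G))

theorem inner_secP (χ : IrrCharacter G) (ξ : IrrCharacter (Subgroup.centralizer ({y} : Set G))) (j : ℕ) :
    classInner (secP y j χ) ξ.1 = csg (yC y) ξ ^ j * classInner (resF y χ) ξ.1 := by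
  classical
  unfold classInner
  rw [mul_left_comm]
  congr 1
  rw [Finset.mul_sum, ← Equiv.sum_comp (Equiv.mulLeft ((yC y) ^ j)⁻¹)]
  refine Finset.sum_congr rfl fun c _ => ?_
  simp only [Equiv.coe_mulLeft]
  have h1 : y ^ j * ((((yC y) ^ j)⁻¹ * c : Subgroup.centralizer ({y} : Set G)) : G) = (c : G) := by
    show y ^ j * (((yC y : G) ^ j)⁻¹ * (c : G)) = c
    show y ^ j * ((y ^ j)⁻¹ * (c : G)) = c
    group
  have h1' : secP y j χ (((yC y) ^ j)⁻¹ * c) = resF y χ c := congrArg χ.1 h1
  rw [h1']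
  have h2 : conj (ξ.1 (((yC y) ^ j)⁻¹ * c)) = csg (yC y) ξ ^ j * conj (ξ.1 c) := by
    rw [← irr_inv', mul_inv_rev, inv_inv, ← irr_inv']
    have h3 : c⁻¹ * (yC y) ^ j = (yC y) ^ j * c⁻¹ := by
      have h4 : (yC y) ^ j ∈ Subgroup.center (Subgroup.centralizer ({y} : Set G)) :=
        Subgroup.pow_mem _ (yC_center y) j
      exact (Subgroup.mem_center_iff.mp h4) c⁻¹
    rw [h3, csg_pow_mul (yC_center y)]
  rw [h2]
  ring

theorem rp_blockPart_secP (b : Set (IrrCharacter (Subgroup.centralizer ({y} : Set G))))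
    (χ : IrrCharacter G) (m : IrrCharacter (Subgroup.centralizer ({y} : Set G)) → ℤ)
    (hm : ∀ ξ, classInner (resF y χ) ξ.1 = (m ξ : ℂ)) (j : ℕ) (s : Subgroup.centralizer ({y} : Set G)) :
    rp p (blockPart b (secP y j χ)) s =
      ∑ ξ : IrrCharacter (Subgroup.centralizer ({y} : Set G)),
        eB b ξ * ((csg (yC y) ξ ^ j * (m ξ : ℂ)) * rp p ξ.1 s) := by
  rw [blockPart_fun, rp_sum, Finset.sum_apply]
  refine Finset.sum_congr rfl fun ξ _ => ?_
  rw [rp_smul, Pi.smul_apply, smul_eq_mul, inner_secP, hm]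
  ring

theorem centralizer_pow_eq (hy : orderOf y = p) {j : ℕ} (hj : ¬ p ∣ j) :
    Subgroup.centralizer ({y} : Set G) = Subgroup.centralizer ({y ^ j} : Set G) := by
  have hco : j.Coprime (orderOf y) := by
    rw [hy, Nat.coprime_comm]
    exact (Nat.Prime.coprime_iff_not_dvd hp.out).mpr hj
  obtain ⟨i, hi⟩ := exists_pow_eq_self_of_coprime hco
  ext c
  rw [Subgroup.mem_centralizer_singleton_iff, Subgroup.mem_centralizer_singleton_iff]
  constructor
  · intro h
    have h1 : Commute c y := h
    exact h1.pow_right j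
  · intro h
    have h1 : Commute c (y ^ j) := h
    have h2 : Commute c ((y ^ j) ^ i) := h1.pow_right i
    rw [hi] at h2
    exact h2

theorem orderOf_pow_prime (hy : orderOf y = p) {j : ℕ} (hj : ¬ p ∣ j) : orderOf (y ^ j) = p := by
  have h1 : y ^ j ≠ 1 := by
    intro h
    apply hj
    rw [← hy]
    exact orderOf_dvd_of_pow_eq_one h
  apply orderOf_eq_prime _ h1
  rw [← pow_mul, mul_comm, pow_mul, ← hy, pow_orderOf_eq_one, one_pow]

theorem sum_sec_gen (hM : IsPModular p M) {y' : G} (hy' : orderOf y' = p) (H : Subgroup G)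
    (hH : H = Subgroup.centralizer ({y'} : Set G)) {b : Set (IrrCharacter H)} (hb : IsPBlock M b)
    (s s' : H) :
    ∑ ζ : IrrCharacter G, rp p (blockPart b (fun c : H => ζ.1 (y' * (c : G)))) s *
        conj (rp p (blockPart b (fun c : H => ζ.1 (y' * (c : G)))) s') =
      if p ∣ orderOf s ∨ p ∣ orderOf s' then 0 else kerK b s s' := by
  subst hH
  exact sum_secR_mul hM (k := 1) (by rw [pow_one]; exact hy') hb s s'

/-- The sum over all characters of the squared norm of a section. -/
theorem sum_QF_sec (hM : IsPModular p M) (hy : orderOf y = p)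
    {b : Set (IrrCharacter (Subgroup.centralizer ({y} : Set G)))} (hb : IsPBlock M b)
    {j : ℕ} (hj : ¬ p ∣ j) :
    ∑ χ : IrrCharacter G, QF p (rp p (blockPart b (secP y j χ))) = (p : ℝ) ^ 2 * (blockRank p b : ℝ) := by
  classical
  have hK : (Nat.card (Subgroup.centralizer ({y} : Set G)) : ℂ) ≠ 0 := card_ne_zero_C
  apply Complex.ofReal_injective
  push_cast
  simp only [QF_cast]
  rw [← Finset.mul_sum, ← Finset.mul_sum, Finset.sum_comm]
  have h1 : ∀ s : Subgroup.centralizer ({y} : Set G),
      ∑ χ : IrrCharacter G, rp p (blockPart b (secP y j χ)) s * conj (rp p (blockPart b (secP y j χ)) s) =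
        if p ∣ orderOf s then 0 else kerK b s s := by
    intro s
    have h2 := sum_sec_gen hM (orderOf_pow_prime hy hj) (Subgroup.centralizer ({y} : Set G))
      (centralizer_pow_eq hy hj) hb s s
    simp only [or_self] at h2
    exact h2
  simp only [h1]
  have h3 := card_mul_blockRank hM hb (p := p)
  have h4 : ∀ x : Subgroup.centralizer ({y} : Set G),
      ∑ χ : IrrCharacter (Subgroup.centralizer ({y} : Set G)), eB b χ *
        (pRegularPart p χ.1 x * conj (pRegularPart p χ.1 x)) = if p ∣ orderOf x then 0 else kerK b x x := by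
    intro x
    by_cases hx : p ∣ orderOf x
    · rw [if_pos hx]
      simp only [pRegularPart_of_singular p _ hx]
      simp
    · rw [if_neg hx]
      simp only [pRegularPart_of_regular p _ hx]
      rfl
  simp only [h4] at h3
  rw [← h3, inv_mul_cancel_left₀ hK]

/-- **Blocks of defect two with a major subsection of order `p`.** -/
theorem defect_two_bound (hM : IsPModular p M) (hy : orderOf y = p)
    {b : Set (IrrCharacter (Subgroup.centralizer ({y} : Set G)))} {B : Set (IrrCharacter G)}
    (hind : IsInducedBlock M (Subgroup.centralizer ({y} : Set G)) b B)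
    (hdef : blockDefect p b = blockDefect p B) (hd : blockDefect p B = 2) :
    Nat.card B ≤ p ^ 2 := by
  classical
  have hb := hind.1
  have hB := hind.2.1
  have hdb : blockDefect p b = 2 := hdef.trans hd
  have hzo : orderOf (yC y) = p := by
    rw [← Subgroup.orderOf_coe]
    exact hy
  have hhb : ∀ ξ ∈ b, (charDegree ξ.1).factorization p = minExp p b := by
    intro ξ hξ
    by_contra h
    have h1 := (positive_height_bounds hM hb hξ h).2.1
    omega
  have hhB : ∀ ξ ∈ B, (charDegree ξ.1).factorization p = minExp p B := by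
    intro ξ hξ
    by_contra h
    have h1 := (positive_height_bounds hM hB hξ h).2.1
    omega
  have hl : 0 < blockRank p b := blockRank_pos_H22 hb
  have hl' : (0 : ℝ) < blockRank p b := by exact_mod_cast hl
  have hp1 : (1 : ℝ) < p := by exact_mod_cast hp.out.one_lt
  have hlower : ∀ χ ∈ B, ((p : ℝ) - 1) * (blockRank p b : ℝ) ≤
      ∑ j ∈ Finset.Ico 1 p, QF p (rp p (blockPart b (secP y j χ))) := by
    intro χ hχ
    have hint : ∀ ξ : IrrCharacter (Subgroup.centralizer ({y} : Set G)), ∃ m : ℕ,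
        classInner (resF y χ) ξ.1 = (m : ℂ) := fun ξ =>
      classInner_isCharacter_nat (isCharacter_restrict (Subgroup.centralizer ({y} : Set G))
        (isCharacter_of_irr χ)) (isCharacter_of_irr ξ)
    choose m hm using hint
    have hm' : ∀ ξ : IrrCharacter (Subgroup.centralizer ({y} : Set G)),
        classInner (resF y χ) ξ.1 = (((m ξ : ℕ) : ℤ) : ℂ) := by
      intro ξ
      rw [hm ξ]
      push_cast
      rfl
    have e : ∀ j, rp p (blockPart b (secP y j χ)) = fun s =>
        ∑ ξ : IrrCharacter (Subgroup.centralizer ({y} : Set G)),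
          eB b ξ * ((csg (yC y) ξ ^ j * (((m ξ : ℕ) : ℤ) : ℂ)) * rp p ξ.1 s) := fun j =>
      funext fun s => rp_blockPart_secP b χ (fun ξ => ((m ξ : ℕ) : ℤ)) hm' j s
    simp only [e]
    rcases sec_lower hM (yC_center y) hzo hb hdb hhb (fun ξ => ((m ξ : ℕ) : ℤ)) with h | h
    · exfalso
      have h1 : ∀ s, secR p y b χ s = 0 := by
        intro s
        have h2 := congrFun (e 1) s
        have h3 : secP y 1 χ = secF y χ := by
          funext c
          simp [secP, secF]
        rw [h3] at h2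
        unfold secR
        rw [h2]
        exact h s
      apply mE_not_mli hM (k := 1) (by rw [pow_one]; exact hy) hind hdef hχ hχ (hhB χ hχ) (hhB χ hχ)
      unfold mE
      simp only [h1, zero_mul, Finset.sum_const_zero, mul_zero]
      exact mli_zero
    · exact h
  have hupper : ∑ χ : IrrCharacter G, ∑ j ∈ Finset.Ico 1 p, QF p (rp p (blockPart b (secP y j χ))) =
      ((p : ℝ) - 1) * ((p : ℝ) ^ 2 * (blockRank p b : ℝ)) := by
    rw [Finset.sum_comm]
    have h1 : ∀ j ∈ Finset.Ico 1 p, ∑ χ : IrrCharacter G, QF p (rp p (blockPart b (secP y j χ))) =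
        (p : ℝ) ^ 2 * (blockRank p b : ℝ) := by
      intro j hj
      refine sum_QF_sec hM hy hb ?_
      intro hd
      have h2 := Finset.mem_Ico.mp hj
      have h3 := Nat.le_of_dvd (by omega) hd
      omega
    rw [Finset.sum_congr rfl h1, Finset.sum_const, Nat.card_Ico, nsmul_eq_mul]
    rw [Nat.cast_sub hp.out.one_lt.le]
    simp
  have hcard : ((Nat.card B : ℕ) : ℝ) * (((p : ℝ) - 1) * (blockRank p b : ℝ)) ≤
      ((p : ℝ) - 1) * ((p : ℝ) ^ 2 * (blockRank p b : ℝ)) := by
    rw [← hupper]
    calc ((Nat.card B : ℕ) : ℝ) * (((p : ℝ) - 1) * (blockRank p b : ℝ))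
        = ∑ _χ ∈ (Set.toFinite B).toFinset, (((p : ℝ) - 1) * (blockRank p b : ℝ)) := by
          rw [Finset.sum_const, nsmul_eq_mul, Nat.card_eq_card_finite_toFinset]
      _ ≤ ∑ χ ∈ (Set.toFinite B).toFinset, ∑ j ∈ Finset.Ico 1 p, QF p (rp p (blockPart b (secP y j χ))) := by
          refine Finset.sum_le_sum fun χ hχ => hlower χ ?_
          exact (Set.Finite.mem_toFinset _).mp hχ
      _ ≤ _ := by
          refine Finset.sum_le_sum_of_subset_of_nonneg (Finset.subset_univ _) ?_
          intro χ _ _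
          exact Finset.sum_nonneg fun j _ => QF_nonneg _
  have hpos : (0 : ℝ) < ((p : ℝ) - 1) * (blockRank p b : ℝ) := mul_pos (by linarith) hl'
  have h5 : ((Nat.card B : ℕ) : ℝ) ≤ (p : ℝ) ^ 2 := by
    have h6 : ((p : ℝ) - 1) * ((p : ℝ) ^ 2 * (blockRank p b : ℝ)) =
        (p : ℝ) ^ 2 * (((p : ℝ) - 1) * (blockRank p b : ℝ)) := by ring
    rw [h6] at hcard
    exact le_of_mul_le_mul_right hcard hpos
  exact_mod_cast h5

end G

end Cfsg.Agent.H22
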