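import Mathlib
import Cfsg.Agent.Lib.H17.Brd0

/-! # Exceptional vectors for a Frobenius action on an abelian Sylow subgroup: abstract part -/

set_option autoImplicit false
set_option linter.unusedSectionVars false
set_option linter.style.haveILetI false
set_option linter.unusedSimpArgs false
set_option linter.unusedVariables false

namespace Cfsg.Agent.H22

open Cfsg.Agent.H17.Brd
open scoped ComplexConjugate

section Dual

variable {A : Type*} [CommGroup A] [Fintype A]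

theorem dualFinite : Finite (A →* ℂˣ) := by
  have h : Nat.card (A →* ℂˣ) = Nat.card A := CommGroup.card_monoidHom_of_hasEnoughRootsOfUnity A ℂ
  apply Nat.finite_of_card_ne_zero
  rw [h]
  exact Nat.card_pos.ne'

theorem dualCard : Nat.card (A →* ℂˣ) = Nat.card A :=
  CommGroup.card_monoidHom_of_hasEnoughRootsOfUnity A ℂ

theorem dual_norm (ψ : A →* ℂˣ) (y : A) : ‖((ψ y : ℂˣ) : ℂ)‖ = 1 := by
  have h1 : (ψ y) ^ (orderOf y) = 1 := by rw [← map_pow, pow_orderOf_eq_one, map_one]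
  have h2 : ((ψ y : ℂˣ) : ℂ) ^ (orderOf y) = 1 := by
    rw [← Units.val_pow_eq_pow_val, h1, Units.val_one]
  exact Complex.norm_eq_one_of_pow_eq_one h2 (orderOf_pos y).ne'

theorem dual_conj (ψ : A →* ℂˣ) (y : A) : conj ((ψ y : ℂˣ) : ℂ) = ((ψ y⁻¹ : ℂˣ) : ℂ) := by
  have h1 := dual_norm ψ y
  have h2 : conj ((ψ y : ℂˣ) : ℂ) = ((ψ y : ℂˣ) : ℂ)⁻¹ := by
    rw [Complex.inv_def, Complex.normSq_eq_norm_sq, h1]
    simp
  rw [h2, map_inv]
  simp

theorem dual_mul_conj (ψ : A →* ℂˣ) (y : A) : ((ψ y : ℂˣ) : ℂ) * conj ((ψ y : ℂˣ) : ℂ) = 1 := by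
  rw [dual_conj, ← Units.val_mul, ← map_mul, mul_inv_cancel, map_one, Units.val_one]

/-- Orthogonality: the sum of a nontrivial character vanishes. -/
theorem char_sum_zero (ψ : A →* ℂˣ) (hψ : ψ ≠ 1) : ∑ y : A, ((ψ y : ℂˣ) : ℂ) = 0 := by
  obtain ⟨x, hx⟩ : ∃ x, ψ x ≠ 1 := by
    by_contra h
    push Not at h
    exact hψ (MonoidHom.ext h)
  have h1 : ((ψ x : ℂˣ) : ℂ) * ∑ y : A, ((ψ y : ℂˣ) : ℂ) = ∑ y : A, ((ψ y : ℂˣ) : ℂ) := by
    rw [Finset.mul_sum]
    refine Fintype.sum_equiv (Equiv.mulLeft x) _ _ fun y => ?_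
    simp
  have h2 : (((ψ x : ℂˣ) : ℂ) - 1) * ∑ y : A, ((ψ y : ℂˣ) : ℂ) = 0 := by
    rw [sub_mul, h1]
    ring
  rcases mul_eq_zero.mp h2 with h3 | h3
  · exact absurd (Units.ext (sub_eq_zero.mp h3)) hx
  · exact h3

open Classical in
/-- Orthogonality: two characters. -/
theorem char_inner_self (ψ φ : A →* ℂˣ) :
    ∑ y : A, ((ψ y : ℂˣ) : ℂ) * conj ((φ y : ℂˣ) : ℂ) =
      if ψ = φ then (Fintype.card A : ℂ) else 0 := by
  have h1 : ∀ y, ((ψ y : ℂˣ) : ℂ) * conj ((φ y : ℂˣ) : ℂ) = (((ψ * φ⁻¹) y : ℂˣ) : ℂ) := by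
    intro y
    rw [dual_conj, MonoidHom.mul_apply, MonoidHom.inv_apply, map_inv]
    simp
  simp only [h1]
  split_ifs with h
  · subst h
    simp
  · apply char_sum_zero
    intro h2
    exact h (mul_inv_eq_one.mp h2)

/-- Orthogonality on the dual. -/
theorem dual_sum_zero [Fintype (A →* ℂˣ)] (y : A) (hy : y ≠ 1) :
    ∑ ψ : A →* ℂˣ, ((ψ y : ℂˣ) : ℂ) = 0 := by
  obtain ⟨φ, hφ⟩ := CommGroup.exists_apply_ne_one_of_hasEnoughRootsOfUnity A ℂ hy
  have h1 : ((φ y : ℂˣ) : ℂ) * ∑ ψ : A →* ℂˣ, ((ψ y : ℂˣ) : ℂ) = ∑ ψ : A →* ℂˣ, ((ψ y : ℂˣ) : ℂ) := by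
    rw [Finset.mul_sum]
    refine Fintype.sum_equiv (Equiv.mulLeft φ) _ _ fun ψ => ?_
    simp
  have h2 : (((φ y : ℂˣ) : ℂ) - 1) * ∑ ψ : A →* ℂˣ, ((ψ y : ℂˣ) : ℂ) = 0 := by
    rw [sub_mul, h1]
    ring
  rcases mul_eq_zero.mp h2 with h3 | h3
  · exact absurd (Units.ext (sub_eq_zero.mp h3)) hφ
  · exact h3

/-- The inner product of two differences. -/
theorem char_inner_diff (ψ φ : A →* ℂˣ) (hψ : ψ ≠ 1) (hφ : φ ≠ 1) [DecidableEq (A →* ℂˣ)] :
    (Fintype.card A : ℂ)⁻¹ * ∑ y : A, (((ψ y : ℂˣ) : ℂ) - 1) * conj (((φ y : ℂˣ) : ℂ) - 1) =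
      (if ψ = φ then 1 else 0) + 1 := by
  classical
  have hA : (Fintype.card A : ℂ) ≠ 0 := by exact_mod_cast Fintype.card_ne_zero
  have h1 : ∀ y, (((ψ y : ℂˣ) : ℂ) - 1) * conj (((φ y : ℂˣ) : ℂ) - 1) =
      ((ψ y : ℂˣ) : ℂ) * conj ((φ y : ℂˣ) : ℂ) - ((ψ y : ℂˣ) : ℂ) - conj ((φ y : ℂˣ) : ℂ) + 1 := by
    intro y
    simp only [map_sub, map_one]
    ring
  simp only [h1]
  rw [Finset.sum_add_distrib, Finset.sum_sub_distrib, Finset.sum_sub_distrib, char_inner_self,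
    char_sum_zero ψ hψ, ← map_sum, char_sum_zero φ hφ]
  simp only [map_zero, sub_zero, Finset.sum_const, Finset.card_univ, nsmul_eq_mul, mul_one]
  by_cases h : ψ = φ
  · simp only [if_pos h]
    field_simp
    try ring
  · simp only [if_neg h]
    field_simp
    try ring

end Dual

section Coherent

variable {I B : Type*} [Fintype B] [DecidableEq B]

theorem diff_or {a b c f : B} (hab : a ≠ b) (hcf : c ≠ f)
    (h : 1 ≤ ip ((Pi.single a 1 : B → ℤ) - Pi.single b 1) (Pi.single c 1 - Pi.single f 1)) :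
    a = c ∨ b = f := by
  rw [ip_diff] at h
  by_contra hn
  push Not at hn
  simp only [if_neg hn.1, if_neg hn.2] at h
  split_ifs at h <;> omega

/-- Coherence without a lower bound on the number of vectors, for two or more vectors. -/
theorem coherent_family (wt : B → ℤ) (hwt : ∀ b, 0 < wt b) (v : I → B → ℤ) (e : ℤ)
    (hself : ∀ i, ip (v i) (v i) = e + 1) (hcross : ∀ i j, v i ≠ v j → ip (v i) (v j) = e)
    (horth : ∀ i, ip (v i) wt = 0) (htwo : ∃ i j, v i ≠ v j) :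
    ∃ (δ : ℤ) (ζ : I → B), (δ = 1 ∨ δ = -1) ∧
      ∀ i j, v i - v j = δ • ((Pi.single (ζ i) 1 : B → ℤ) - Pi.single (ζ j) 1) := by
  classical
  obtain ⟨i₀, j₀, hne⟩ := htwo
  have hform : ∀ k, v k ≠ v i₀ → ∃ a b, a ≠ b ∧ v i₀ - v k = Pi.single a 1 - Pi.single b 1 := by
    intro k hk
    apply norm_two_form _ wt hwt
    · rw [ip_sub_left, ip_sub_right, ip_sub_right, hself, hself, hcross _ _ hk.symm, hcross _ _ hk]
      ring
    · rw [ip_sub_left, horth, horth, sub_zero]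
  have hB : Nonempty B := by
    obtain ⟨a, _, _, _⟩ := hform j₀ (Ne.symm hne)
    exact ⟨a⟩
  have hform' : ∀ k, ∃ a b, v k ≠ v i₀ → a ≠ b ∧ v i₀ - v k = Pi.single a 1 - Pi.single b 1 := by
    intro k
    by_cases hk : v k = v i₀
    · exact ⟨hB.some, hB.some, fun h => absurd hk h⟩
    · obtain ⟨a, b, h⟩ := hform k hk
      exact ⟨a, b, fun _ => h⟩
  choose F E hFE using hform'
  have hpair : ∀ k k', v k ≠ v i₀ → v k' ≠ v i₀ → F k = F k' ∨ E k = E k' := by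
    intro k k' hk hk'
    obtain ⟨h1, h2⟩ := hFE k hk
    obtain ⟨h3, h4⟩ := hFE k' hk'
    apply diff_or h1 h3
    rw [← h2, ← h4, ip_sub_left, ip_sub_right, ip_sub_right, hself, hcross _ _ hk'.symm,
      hcross _ _ hk]
    by_cases h5 : v k = v k'
    · rw [h5, hself]
      have := hcross k' i₀ hk'
      linarith
    · rw [hcross _ _ h5]
      linarith
  have hj₀ : v j₀ ≠ v i₀ := Ne.symm hne
  by_cases hall : ∀ k, v k ≠ v i₀ → F k = F j₀
  · -- the first coordinate is common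
    refine ⟨1, fun i => if v i = v i₀ then F j₀ else E i, Or.inl rfl, ?_⟩
    have key : ∀ i, v i₀ - v i = Pi.single (F j₀) 1 -
        Pi.single (if v i = v i₀ then F j₀ else E i) 1 := by
      intro i
      by_cases hi : v i = v i₀
      · rw [if_pos hi, hi, sub_self, sub_self]
      · rw [if_neg hi, (hFE i hi).2, hall i hi]
    intro i j
    have e1 : v i - v j = (v i₀ - v j) - (v i₀ - v i) := by abel
    rw [e1, key i, key j, one_smul]
    abel
  · -- the second coordinate is common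
    push Not at hall
    obtain ⟨k₁, hk₁, hk₁F⟩ := hall
    have hE₁ : E k₁ = E j₀ := (hpair k₁ j₀ hk₁ hj₀).resolve_left hk₁F
    have hallE : ∀ k, v k ≠ v i₀ → E k = E j₀ := by
      intro k hk
      by_contra hkE
      have hkF : F k = F j₀ := (hpair k j₀ hk hj₀).resolve_right hkE
      rcases hpair k k₁ hk hk₁ with h | h
      · exact hk₁F (by rw [← h, hkF])
      · exact hkE (by rw [h, hE₁])
    refine ⟨-1, fun i => if v i = v i₀ then E j₀ else F i, Or.inr rfl, ?_⟩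
    have key : ∀ i, v i₀ - v i = Pi.single (if v i = v i₀ then E j₀ else F i) 1 -
        Pi.single (E j₀) 1 := by
      intro i
      by_cases hi : v i = v i₀
      · rw [if_pos hi, hi, sub_self, sub_self]
      · rw [if_neg hi, (hFE i hi).2, hallE i hi]
    intro i j
    have e1 : v i - v j = (v i₀ - v j) - (v i₀ - v i) := by abel
    rw [e1, key i, key j, neg_smul, one_smul]
    abel

/-- The common part of a coherent family. -/
theorem coherent_part (v : I → B → ℤ) (e δ : ℤ) (ζ : I → B) (hδ : δ = 1 ∨ δ = -1)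
    (hself : ∀ i, ip (v i) (v i) = e + 1)
    (h : ∀ i j, v i - v j = δ • ((Pi.single (ζ i) 1 : B → ℤ) - Pi.single (ζ j) 1)) (i₀ : I) :
    ∃ (u : B → ℤ) (d : ℤ), (∀ i, v i = u + δ • Pi.single (ζ i) 1) ∧ (∀ i, u (ζ i) = -d) ∧
      ip u u = e + 2 * δ * d := by
  classical
  refine ⟨v i₀ - δ • Pi.single (ζ i₀) 1, -((v i₀ - δ • Pi.single (ζ i₀) 1 : B → ℤ) (ζ i₀)), ?_, ?_⟩
  · intro i
    have h1 := h i i₀
    rw [smul_sub] at h1
    rw [sub_eq_iff_eq_add] at h1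
    rw [h1]
    abel
  have hv : ∀ i, v i = (v i₀ - δ • Pi.single (ζ i₀) 1) + δ • Pi.single (ζ i) 1 := by
    intro i
    have h1 := h i i₀
    rw [smul_sub] at h1
    rw [sub_eq_iff_eq_add] at h1
    rw [h1]
    abel
  set u : B → ℤ := v i₀ - δ • Pi.single (ζ i₀) 1 with hu
  have hsq : δ * δ = 1 := by
    rcases hδ with rfl | rfl <;> norm_num
  have hnorm : ∀ i, ip u u + 2 * δ * u (ζ i) + 1 = e + 1 := by
    intro i
    have h1 := hself i
    rw [hv i] at h1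
    have h2 : ip (u + δ • Pi.single (ζ i) 1) (u + δ • Pi.single (ζ i) 1) =
        ip u u + 2 * δ * u (ζ i) + δ * δ := by
      rw [ip_add_left, ip_add_right, ip_add_right]
      have e1 : ip u (δ • Pi.single (ζ i) 1) = δ * u (ζ i) := by
        simp [ip, Pi.single_apply, Finset.mul_sum, mul_comm, mul_left_comm]
      have e2 : ip (δ • Pi.single (ζ i) 1) u = δ * u (ζ i) := by
        rw [ip_comm, e1]
      have e3 : ip (δ • (Pi.single (ζ i) 1 : B → ℤ)) (δ • Pi.single (ζ i) 1) = δ * δ := by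
        simp [ip, Pi.single_apply]
      rw [e1, e2, e3]
      ring
    rw [h2, hsq] at h1
    exact h1
  constructor
  · intro i
    have h1 := hnorm i
    have h2 := hnorm i₀
    have h3 : 2 * δ * (u (ζ i) - u (ζ i₀)) = 0 := by linarith
    have h4 : δ ≠ 0 := by
      rcases hδ with rfl | rfl <;> norm_num
    have h5 : u (ζ i) - u (ζ i₀) = 0 := by
      rcases mul_eq_zero.mp h3 with h6 | h6
      · exact absurd (by simpa using h6) h4
      · exact h6
    linarith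
  · have h2 := hnorm i₀
    linarith

end Coherent

section Main

variable {A B : Type*} [CommGroup A] [Fintype A] [Fintype B] [DecidableEq B]

/-- Twisting a character by an automorphism. -/
def twistD (γ : MulAut A) (ψ : A →* ℂˣ) : A →* ℂˣ := ψ.comp (MulEquiv.toMonoidHom γ)

@[simp] theorem twistD_apply (γ : MulAut A) (ψ : A →* ℂˣ) (y : A) : twistD γ ψ y = ψ (γ y) := rfl

theorem twistD_mul (γ₁ γ₂ : MulAut A) (ψ : A →* ℂˣ) :
    twistD γ₁ (twistD γ₂ ψ) = twistD (γ₂ * γ₁) ψ := by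
  ext y
  simp [MulAut.mul_apply]

theorem twistD_one (ψ : A →* ℂˣ) : twistD (1 : MulAut A) ψ = ψ := by
  ext y
  simp

theorem twistD_ne_one (γ : MulAut A) {ψ : A →* ℂˣ} (hψ : ψ ≠ 1) : twistD γ ψ ≠ 1 := by
  intro h
  apply hψ
  ext y
  have h1 := DFunLike.congr_fun h (γ⁻¹ y)
  simpa [MulAut.inv_apply_self, MulAut.apply_inv_self] using congrArg Units.val h1

/-- The difference of the multiplicities of `ψ` and of the principal character in `X b`. -/
noncomputable def vV (X : B → A → ℂ) (ψ : A →* ℂˣ) (b : B) : ℂ :=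
  (Fintype.card A : ℂ)⁻¹ * ∑ y : A, (((ψ y : ℂˣ) : ℂ) - 1) * conj (X b y)

theorem vV_one (X : B → A → ℂ) (b : B) : vV X (1 : A →* ℂˣ) b = 0 := by
  simp [vV]

variable (Γ : Subgroup (MulAut A)) [Fintype Γ] (X : B → A → ℂ)

open Classical in
theorem vV_inner
    (hcol : ∀ y y' : A, y ≠ 1 → y' ≠ 1 → ∑ b, X b y' * conj (X b y) =
      (Fintype.card A : ℂ) * ∑ γ : Γ, if y' = (γ : MulAut A) y then (1 : ℂ) else 0)
    (ψ ψ' : A →* ℂˣ) (hψ : ψ ≠ 1) (hψ' : ψ' ≠ 1) :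
    ∑ b, vV X ψ b * conj (vV X ψ' b) =
      ∑ γ : Γ, ((if ψ = twistD (γ : MulAut A) ψ' then (1 : ℂ) else 0) + 1) := by
  classical
  have hA : (Fintype.card A : ℂ) ≠ 0 := by exact_mod_cast Fintype.card_ne_zero
  have step1 : ∀ b, vV X ψ b * conj (vV X ψ' b) =
      (Fintype.card A : ℂ)⁻¹ * (Fintype.card A : ℂ)⁻¹ * ∑ y : A, ∑ y' : A,
        ((((ψ y : ℂˣ) : ℂ) - 1) * conj (((ψ' y' : ℂˣ) : ℂ) - 1)) * (X b y' * conj (X b y)) := by
    intro b
    simp only [vV, map_mul, map_inv₀, map_natCast, map_sum, Complex.conj_conj]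
    rw [mul_mul_mul_comm, Finset.sum_mul_sum]
    congr 1
    refine Finset.sum_congr rfl fun y _ => Finset.sum_congr rfl fun y' _ => ?_
    simp only [map_sub, map_one]
    ring
  simp only [step1]
  rw [← Finset.mul_sum, Finset.sum_comm]
  have step2 : ∀ y : A, ∑ b, ∑ y' : A,
      ((((ψ y : ℂˣ) : ℂ) - 1) * conj (((ψ' y' : ℂˣ) : ℂ) - 1)) * (X b y' * conj (X b y)) =
      (Fintype.card A : ℂ) * ∑ γ : Γ, ((((ψ y : ℂˣ) : ℂ) - 1) *
        conj (((ψ' ((γ : MulAut A) y) : ℂˣ) : ℂ) - 1)) := by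
    intro y
    rw [Finset.sum_comm]
    have h1 : ∀ y' : A, ∑ b, ((((ψ y : ℂˣ) : ℂ) - 1) * conj (((ψ' y' : ℂˣ) : ℂ) - 1)) *
        (X b y' * conj (X b y)) =
        (Fintype.card A : ℂ) * ∑ γ : Γ, (((((ψ y : ℂˣ) : ℂ) - 1) *
          conj (((ψ' y' : ℂˣ) : ℂ) - 1)) * if y' = (γ : MulAut A) y then (1 : ℂ) else 0) := by
      intro y'
      rw [← Finset.mul_sum, ← Finset.mul_sum]
      by_cases hy : y = 1
      · simp [hy]
      by_cases hy' : y' = 1
      · simp [hy']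
      rw [hcol y y' hy hy']
      ring
    simp only [h1]
    rw [← Finset.mul_sum, Finset.sum_comm]
    congr 1
    refine Finset.sum_congr rfl fun γ _ => ?_
    simp
  simp only [step2]
  rw [← Finset.mul_sum, ← mul_assoc, mul_assoc _ _ (Fintype.card A : ℂ)]
  rw [inv_mul_cancel₀ hA, mul_one, Finset.sum_comm, Finset.mul_sum]
  refine Finset.sum_congr rfl fun γ _ => ?_
  have := char_inner_diff ψ (twistD (γ : MulAut A) ψ') hψ (twistD_ne_one _ hψ')
  simpa using this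

open Classical in
/-- Summing over the characters. -/
theorem dual_sum_all [Fintype (A →* ℂˣ)] (t : A) :
    ∑ ψ : A →* ℂˣ, ((ψ t : ℂˣ) : ℂ) = if t = 1 then (Fintype.card A : ℂ) else 0 := by
  classical
  split_ifs with h
  · subst h
    have h1 : Fintype.card (A →* ℂˣ) = Fintype.card A := by
      rw [← Nat.card_eq_fintype_card, ← Nat.card_eq_fintype_card]
      exact dualCard
    simp [h1]
  · exact dual_sum_zero t h

/-- Fourier inversion. -/
theorem fourier_vV [Fintype (A →* ℂˣ)] (y₀ : A) (hy₀ : y₀ ≠ 1) (b : B) :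
    ∑ ψ : A →* ℂˣ, vV X ψ b * conj ((ψ y₀ : ℂˣ) : ℂ) = conj (X b y₀) := by
  classical
  have hA : (Fintype.card A : ℂ) ≠ 0 := by exact_mod_cast Fintype.card_ne_zero
  have h1 : ∀ y : A, ∑ ψ : A →* ℂˣ, (((ψ y : ℂˣ) : ℂ) - 1) * conj ((ψ y₀ : ℂˣ) : ℂ) =
      if y = y₀ then (Fintype.card A : ℂ) else 0 := by
    intro y
    have h2 : ∀ ψ : A →* ℂˣ, (((ψ y : ℂˣ) : ℂ) - 1) * conj ((ψ y₀ : ℂˣ) : ℂ) =
        ((ψ (y * y₀⁻¹) : ℂˣ) : ℂ) - ((ψ y₀⁻¹ : ℂˣ) : ℂ) := by
      intro ψ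
      rw [dual_conj, map_mul]
      simp only [Units.val_mul]
      ring
    simp only [h2]
    rw [Finset.sum_sub_distrib, dual_sum_all, dual_sum_all]
    have h3 : y₀⁻¹ ≠ 1 := inv_ne_one.mpr hy₀
    rw [if_neg h3, sub_zero]
    simp [mul_inv_eq_one]
  calc ∑ ψ : A →* ℂˣ, vV X ψ b * conj ((ψ y₀ : ℂˣ) : ℂ)
      = (Fintype.card A : ℂ)⁻¹ * ∑ y : A, conj (X b y) *
          ∑ ψ : A →* ℂˣ, (((ψ y : ℂˣ) : ℂ) - 1) * conj ((ψ y₀ : ℂˣ) : ℂ) := by
        simp only [vV, Finset.mul_sum, Finset.sum_mul]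
        rw [Finset.sum_comm]
        refine Finset.sum_congr rfl fun y _ => Finset.sum_congr rfl fun ψ _ => ?_
        ring
    _ = conj (X b y₀) := by
        simp only [h1]
        simp only [mul_ite, mul_zero, Finset.sum_ite_eq', Finset.mem_univ, if_true]
        field_simp

/-- Orthogonal columns. -/
theorem column_vV (R : B → ℂ) (hR : ∀ y : A, y ≠ 1 → ∑ b, R b * conj (X b y) = 0) (ψ : A →* ℂˣ) :
    ∑ b, R b * vV X ψ b = 0 := by
  classical
  simp only [vV]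
  have h1 : ∀ b, R b * ((Fintype.card A : ℂ)⁻¹ * ∑ y : A, (((ψ y : ℂˣ) : ℂ) - 1) * conj (X b y)) =
      (Fintype.card A : ℂ)⁻¹ * ∑ y : A, (((ψ y : ℂˣ) : ℂ) - 1) * (R b * conj (X b y)) := by
    intro b
    rw [mul_left_comm, Finset.mul_sum]
    congr 1
    refine Finset.sum_congr rfl fun y _ => ?_
    ring
  simp only [h1]
  rw [← Finset.mul_sum, Finset.sum_comm]
  simp only [← Finset.mul_sum]
  apply mul_eq_zero_of_right
  apply Finset.sum_eq_zero
  intro y _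
  by_cases hy : y = 1
  · simp [hy]
  · rw [hR y hy, mul_zero]

/-- A fixed-point-free automorphism fixes no nontrivial character. -/
theorem twist_free (hfree : ∀ γ : Γ, ∀ y : A, (γ : MulAut A) y = y → y ≠ 1 → γ = 1)
    (γ : Γ) (ψ : A →* ℂˣ) (hψ : ψ ≠ 1) (h : twistD (γ : MulAut A) ψ = ψ) : γ = 1 := by
  classical
  by_contra hγ
  apply hψ
  have hinj : Function.Injective (fun y : A => (γ : MulAut A) y * y⁻¹) := by
    intro a c hac
    have h1 : (γ : MulAut A) a * a⁻¹ = (γ : MulAut A) c * c⁻¹ := hac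
    have h2 : (γ : MulAut A) (a * c⁻¹) = a * c⁻¹ := by
      rw [map_mul, map_inv]
      have h3 : (γ : MulAut A) a = (γ : MulAut A) c * c⁻¹ * a := by
        rw [← h1]
        group
      rw [h3]
      have h4 : (γ : MulAut A) c * c⁻¹ * a * ((γ : MulAut A) c)⁻¹ =
          a * c⁻¹ * ((γ : MulAut A) c * ((γ : MulAut A) c)⁻¹) := by
        simp only [mul_comm, mul_left_comm, mul_assoc]
      rw [h4, mul_inv_cancel, mul_one]
    by_contra hne
    have h5 : a * c⁻¹ ≠ 1 := fun h6 => hne (mul_inv_eq_one.mp h6)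
    exact hγ (hfree γ _ h2 h5)
  have hsurj := Finite.surjective_of_injective hinj
  ext x
  obtain ⟨y, rfl⟩ := hsurj x
  have h1 := DFunLike.congr_fun h y
  simp only [twistD_apply] at h1
  simp [map_mul, h1]

theorem twist_unique (hfree : ∀ γ : Γ, ∀ y : A, (γ : MulAut A) y = y → y ≠ 1 → γ = 1)
    (ψ : A →* ℂˣ) (hψ : ψ ≠ 1) (γ₁ γ₂ : Γ) (h : twistD (γ₁ : MulAut A) ψ = twistD (γ₂ : MulAut A) ψ) :
    γ₁ = γ₂ := by
  have h1 : twistD ((γ₂ * γ₁⁻¹ : Γ) : MulAut A) ψ = ψ := by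
    have h2 := congrArg (twistD ((γ₁⁻¹ : Γ) : MulAut A)) h
    rw [twistD_mul, twistD_mul] at h2
    have e1 : (γ₁ : MulAut A) * ((γ₁⁻¹ : Γ) : MulAut A) = 1 := by
      rw [← Subgroup.coe_mul, mul_inv_cancel, Subgroup.coe_one]
    rw [e1, twistD_one] at h2
    exact h2.symm
  have h3 := twist_free Γ hfree _ ψ hψ h1
  rw [mul_inv_eq_one] at h3
  exact h3.symm

end Main

end Cfsg.Agent.H22
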