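import Cfsg.Agent.Lib.H22.BwA

/-! # Exceptional vectors for a Frobenius action on an abelian Sylow subgroup: main abstract theorem -/

set_option autoImplicit false
set_option linter.unusedSectionVars false
set_option linter.style.haveILetI false
set_option linter.unusedSimpArgs false
set_option linter.unusedVariables false

namespace Cfsg.Agent.H22

open Cfsg.Agent.H17.Brd
open scoped ComplexConjugate

section Main

variable {A B : Type*} [CommGroup A] [Fintype A] [Fintype B] [DecidableEq B]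
variable (Γ : Subgroup (MulAut A)) [Fintype Γ] (X : B → A → ℂ)

open Classical in
/-- The fibres of the relation have exactly the size of `Γ`. -/
theorem twist_image_card (hfree : ∀ γ : Γ, ∀ y : A, (γ : MulAut A) y = y → y ≠ 1 → γ = 1)
    (ψ : A →* ℂˣ) (hψ : ψ ≠ 1) :
    (Finset.univ.image fun γ : Γ => twistD (γ : MulAut A) ψ).card = Fintype.card Γ := by
  rw [Finset.card_image_of_injective _ (fun γ₁ γ₂ h => twist_unique Γ hfree ψ hψ γ₁ γ₂ h)]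
  rfl

theorem dual_ne_one_card [Fintype (A →* ℂˣ)] [DecidablePred fun ψ : A →* ℂˣ => ψ ≠ 1] :
    (Finset.univ.filter fun ψ : A →* ℂˣ => ψ ≠ 1).card + 1 = Fintype.card A := by
  classical
  have h1 : Fintype.card (A →* ℂˣ) = Fintype.card A := by
    rw [← Nat.card_eq_fintype_card, ← Nat.card_eq_fintype_card]
    exact dualCard
  have h2 : (Finset.univ.filter fun ψ : A →* ℂˣ => ψ ≠ 1) = Finset.univ.erase 1 := by
    ext ψ
    simp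
  rw [← h1, h2, Finset.card_erase_of_mem (Finset.mem_univ _), Finset.card_univ]
  have : 0 < Fintype.card (A →* ℂˣ) := Fintype.card_pos
  omega

open Classical in
theorem bw_abstract [Fintype (A →* ℂˣ)]
    (hfree : ∀ γ : Γ, ∀ y : A, (γ : MulAut A) y = y → y ≠ 1 → γ = 1)
    (hcol : ∀ y y' : A, y ≠ 1 → y' ≠ 1 → ∑ b, X b y' * conj (X b y) =
      (Fintype.card A : ℂ) * ∑ γ : Γ, if y' = (γ : MulAut A) y then (1 : ℂ) else 0)
    (hint : ∀ (ψ : A →* ℂˣ) (b : B), ∃ n : ℤ, vV X ψ b = n)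
    (hm : Fintype.card Γ + 1 < Fintype.card A)
    (wt : B → ℤ) (hwt : ∀ b, 0 < wt b)
    (hwt0 : ∀ y : A, y ≠ 1 → ∑ b, (wt b : ℂ) * conj (X b y) = 0) :
    ∃ (δ d : ℤ) (ζ : (A →* ℂˣ) → B) (Y : Finset B) (a : B → ℤ),
      (δ = 1 ∨ δ = -1) ∧
      (∀ ψ, ψ ≠ 1 → ζ ψ ∈ Y) ∧ (∀ η ∈ Y, ∃ ψ, ψ ≠ 1 ∧ ζ ψ = η) ∧
      (∀ ψ, ψ ≠ 1 → ∀ γ : Γ, ζ (twistD (γ : MulAut A) ψ) = ζ ψ) ∧
      (Y.card * Fintype.card Γ + 1 = Fintype.card A) ∧
      (∀ b, b ∉ Y → ∀ y, y ≠ 1 → X b y = a b) ∧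
      (∀ ψ, ψ ≠ 1 → ∀ y, y ≠ 1 →
        X (ζ ψ) y = d + δ * ∑ γ : Γ, ((twistD (γ : MulAut A) ψ y : ℂˣ) : ℂ)) ∧
      ((d - δ) ^ 2 + ((Y.card : ℤ) - 1) * d ^ 2 + ∑ b ∈ Yᶜ, a b ^ 2 = (Fintype.card Γ : ℤ) + 1) ∧
      (∀ R : B → ℂ, (∀ y, y ≠ 1 → ∑ b, R b * conj (X b y) = 0) →
        (∀ ψ ψ', ψ ≠ 1 → ψ' ≠ 1 → R (ζ ψ) = R (ζ ψ')) ∧
        (∀ ψ, ψ ≠ 1 → ((Y.card : ℂ) * d - δ) * R (ζ ψ) + ∑ b ∈ Yᶜ, (a b : ℂ) * R b = 0)) ∧
      (∀ b₀, (∀ y, X b₀ y = 1) → b₀ ∉ Y) := by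
  choose vec hvec using hint
  set m : ℕ := Fintype.card Γ with hmdef
  -- the inner products
  have hip : ∀ ψ ψ' : A →* ℂˣ, ψ ≠ 1 → ψ' ≠ 1 → ip (vec ψ) (vec ψ') =
      (m : ℤ) + if ∃ γ : Γ, ψ = twistD (γ : MulAut A) ψ' then 1 else 0 := by
    intro ψ ψ' hψ hψ'
    have h1 := vV_inner Γ X hcol ψ ψ' hψ hψ'
    have h2 : ∑ b, vV X ψ b * conj (vV X ψ' b) = ((ip (vec ψ) (vec ψ') : ℤ) : ℂ) := by
      simp only [hvec, ip, Int.cast_sum, Int.cast_mul, map_intCast]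
    rw [h2, Finset.sum_add_distrib] at h1
    have h3 : ∑ γ : Γ, (if ψ = twistD (γ : MulAut A) ψ' then (1 : ℂ) else 0) =
        if ∃ γ : Γ, ψ = twistD (γ : MulAut A) ψ' then 1 else 0 := by
      split_ifs with h
      · obtain ⟨γ₀, hγ₀⟩ := h
        rw [Finset.sum_eq_single γ₀]
        · rw [if_pos hγ₀]
        · intro γ _ hne
          rw [if_neg]
          intro h4
          exact hne (twist_unique Γ hfree ψ' hψ' _ _ (h4.symm.trans hγ₀))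
        · simp
      · push Not at h
        exact Finset.sum_eq_zero fun γ _ => by rw [if_neg (h γ)]
    rw [h3] at h1
    have h4 : ∑ _γ : Γ, (1 : ℂ) = (m : ℂ) := by simp [hmdef]
    rw [h4] at h1
    have h5 : ((ip (vec ψ) (vec ψ') : ℤ) : ℂ) = (((m : ℤ) + if ∃ γ : Γ, ψ = twistD (γ : MulAut A) ψ'
        then 1 else 0 : ℤ) : ℂ) := by
      rw [h1]
      push_cast
      split_ifs <;> ring
    exact_mod_cast h5
  -- the relation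
  have hrefl : ∀ ψ : A →* ℂˣ, ∃ γ : Γ, ψ = twistD (γ : MulAut A) ψ :=
    fun ψ => ⟨1, (twistD_one ψ).symm⟩
  have hsymm : ∀ ψ ψ' : A →* ℂˣ, (∃ γ : Γ, ψ = twistD (γ : MulAut A) ψ') →
      ∃ γ : Γ, ψ' = twistD (γ : MulAut A) ψ := by
    rintro ψ ψ' ⟨γ, rfl⟩
    refine ⟨γ⁻¹, ?_⟩
    rw [twistD_mul]
    have e1 : (γ : MulAut A) * ((γ⁻¹ : Γ) : MulAut A) = 1 := by
      rw [← Subgroup.coe_mul, mul_inv_cancel, Subgroup.coe_one]
    rw [e1, twistD_one]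
  have hself : ∀ ψ : A →* ℂˣ, ψ ≠ 1 → ip (vec ψ) (vec ψ) = (m : ℤ) + 1 := by
    intro ψ hψ
    rw [hip ψ ψ hψ hψ, if_pos (hrefl ψ)]
  have hvec_iff : ∀ ψ ψ' : A →* ℂˣ, ψ ≠ 1 → ψ' ≠ 1 →
      (vec ψ = vec ψ' ↔ ∃ γ : Γ, ψ = twistD (γ : MulAut A) ψ') := by
    intro ψ ψ' hψ hψ'
    constructor
    · intro h
      by_contra hn
      have h1 := hip ψ ψ' hψ hψ'
      rw [if_neg hn, ← h, hself ψ hψ] at h1
      omega
    · intro h
      have h1 := hip ψ ψ' hψ hψ'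
      rw [if_pos h] at h1
      have h2 := hip ψ' ψ hψ' hψ
      rw [if_pos (hsymm _ _ h)] at h2
      have h3 : ip (vec ψ - vec ψ') (vec ψ - vec ψ') = 0 := by
        rw [ip_sub_left, ip_sub_right, ip_sub_right, hself ψ hψ, hself ψ' hψ', h1, h2]
        ring
      exact sub_eq_zero.mp (eq_zero_of_ip_self _ h3)
  have hcross : ∀ ψ ψ' : A →* ℂˣ, ψ ≠ 1 → ψ' ≠ 1 → vec ψ ≠ vec ψ' →
      ip (vec ψ) (vec ψ') = (m : ℤ) := by
    intro ψ ψ' hψ hψ' h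
    rw [hip ψ ψ' hψ hψ', if_neg (fun h1 => h ((hvec_iff ψ ψ' hψ hψ').mpr h1)), add_zero]
  have horth : ∀ ψ : A →* ℂˣ, ip (vec ψ) wt = 0 := by
    intro ψ
    have h1 := column_vV X (fun b => (wt b : ℂ)) hwt0 ψ
    simp only [hvec] at h1
    have h2 : ((ip (vec ψ) wt : ℤ) : ℂ) = 0 := by
      rw [← h1]
      simp only [ip, Int.cast_sum, Int.cast_mul]
      exact Finset.sum_congr rfl fun b _ => mul_comm _ _
    exact_mod_cast h2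
  -- a nontrivial character
  set s : Finset (A →* ℂˣ) := Finset.univ.filter fun ψ => ψ ≠ 1 with hs
  have hscard : s.card + 1 = Fintype.card A := dual_ne_one_card
  have hsmem : ∀ ψ, ψ ∈ s ↔ ψ ≠ 1 := fun ψ => by simp [hs]
  have hsne : s.Nonempty := by
    rw [← Finset.card_pos]
    omega
  obtain ⟨ψ₀, hψ₀s⟩ := hsne
  have hψ₀ : ψ₀ ≠ 1 := (hsmem ψ₀).mp hψ₀s
  -- there are two different vectors
  have htwo : ∃ ψ : A →* ℂˣ, ψ ≠ 1 ∧ vec ψ ≠ vec ψ₀ := by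
    by_contra hn
    push Not at hn
    have h1 : s ⊆ Finset.univ.image fun γ : Γ => twistD (γ : MulAut A) ψ₀ := by
      intro ψ hψ
      obtain ⟨γ, hγ⟩ := (hvec_iff ψ ψ₀ ((hsmem ψ).mp hψ) hψ₀).mp (hn ψ ((hsmem ψ).mp hψ))
      exact Finset.mem_image.mpr ⟨γ, Finset.mem_univ _, hγ.symm⟩
    have h2 := Finset.card_le_card h1
    rw [twist_image_card Γ hfree ψ₀ hψ₀] at h2
    omega
  obtain ⟨ψ₁, hψ₁, hψ₁ne⟩ := htwo
  let I := {ψ : A →* ℂˣ // ψ ≠ 1}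
  obtain ⟨δ, ζ', hδ, hζ'⟩ := coherent_family wt hwt (fun i : I => vec i.1) (m : ℤ)
    (fun i => hself i.1 i.2) (fun i j h => hcross i.1 j.1 i.2 j.2 h) (fun i => horth i.1)
    ⟨⟨ψ₁, hψ₁⟩, ⟨ψ₀, hψ₀⟩, hψ₁ne⟩
  obtain ⟨u, d, hvu, hud, hnorm⟩ := coherent_part (fun i : I => vec i.1) (m : ℤ) δ ζ' hδ
    (fun i => hself i.1 i.2) hζ' ⟨ψ₀, hψ₀⟩
  have hδ0 : δ ≠ 0 := by
    rcases hδ with rfl | rfl <;> norm_num
  have hδsq : δ * δ = 1 := by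
    rcases hδ with rfl | rfl <;> norm_num
  let ζ : (A →* ℂˣ) → B := fun ψ => if h : ψ ≠ 1 then ζ' ⟨ψ, h⟩ else ζ' ⟨ψ₀, hψ₀⟩
  have hζ : ∀ ψ (h : ψ ≠ 1), ζ ψ = ζ' ⟨ψ, h⟩ := fun ψ h => dif_pos h
  have hvu' : ∀ ψ, ψ ≠ 1 → ∀ b, vec ψ b = u b + δ * if b = ζ ψ then 1 else 0 := by
    intro ψ hψ b
    have h1 := congrFun (hvu ⟨ψ, hψ⟩) b
    simp only [Pi.add_apply, Pi.smul_apply, smul_eq_mul, Pi.single_apply] at h1
    rw [h1, hζ ψ hψ]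
  have hud' : ∀ ψ, ψ ≠ 1 → u (ζ ψ) = -d := by
    intro ψ hψ
    rw [hζ ψ hψ]
    exact hud _
  have hζ_iff : ∀ ψ ψ', ψ ≠ 1 → ψ' ≠ 1 → (ζ ψ = ζ ψ' ↔ vec ψ = vec ψ') := by
    intro ψ ψ' hψ hψ'
    constructor
    · intro h
      funext b
      rw [hvu' ψ hψ, hvu' ψ' hψ', h]
    · intro h
      have h1 := congrFun h (ζ ψ)
      rw [hvu' ψ hψ, hvu' ψ' hψ', if_pos rfl] at h1
      by_contra hne
      rw [if_neg hne] at h1
      omega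
  have hfib : ∀ ψ₂, ψ₂ ≠ 1 → (s.filter fun ψ => ζ ψ = ζ ψ₂) =
      Finset.univ.image fun γ : Γ => twistD (γ : MulAut A) ψ₂ := by
    intro ψ₂ hψ₂
    ext ψ
    simp only [Finset.mem_filter, hsmem, Finset.mem_image, Finset.mem_univ, true_and]
    constructor
    · rintro ⟨hψ, h⟩
      obtain ⟨γ, hγ⟩ := (hvec_iff ψ ψ₂ hψ hψ₂).mp ((hζ_iff ψ ψ₂ hψ hψ₂).mp h)
      exact ⟨γ, hγ.symm⟩
    · rintro ⟨γ, rfl⟩
      have h1 : twistD (γ : MulAut A) ψ₂ ≠ 1 := twistD_ne_one _ hψ₂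
      refine ⟨h1, (hζ_iff _ _ h1 hψ₂).mpr ((hvec_iff _ _ h1 hψ₂).mpr ⟨γ, rfl⟩)⟩
  set Y : Finset B := s.image ζ with hY
  have hYmem : ∀ η, η ∈ Y ↔ ∃ ψ, ψ ≠ 1 ∧ ζ ψ = η := by
    intro η
    simp only [hY, Finset.mem_image, hsmem]
  have hYcard : Y.card * m + 1 = Fintype.card A := by
    rw [← hscard]
    congr 1
    rw [Finset.card_eq_sum_card_image ζ s, ← hY]
    rw [Finset.sum_const_nat (m := m)]
    intro η hη
    obtain ⟨ψ, hψ, rfl⟩ := (hYmem η).mp hη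
    rw [hfib ψ hψ]
    exact twist_image_card Γ hfree ψ hψ
  -- the values
  have hval : ∀ b y, y ≠ 1 → X b y =
      -(u b : ℂ) + δ * ∑ ψ ∈ s.filter (fun ψ => ζ ψ = b), ((ψ y : ℂˣ) : ℂ) := by
    intro b y hy
    have h1 := fourier_vV X y hy b
    have h2 := congrArg (starRingEnd ℂ) h1
    rw [Complex.conj_conj, map_sum] at h2
    rw [← h2]
    have h3 : ∀ ψ : A →* ℂˣ, conj (vV X ψ b * conj ((ψ y : ℂˣ) : ℂ)) =
        (if ψ ≠ 1 then ((u b : ℂ) + δ * if b = ζ ψ then 1 else 0) * ((ψ y : ℂˣ) : ℂ) else 0) := by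
      intro ψ
      rw [map_mul, Complex.conj_conj, hvec, map_intCast]
      by_cases hψ : ψ = 1
      · subst hψ
        have h4 := hvec 1 b
        rw [vV_one] at h4
        rw [← h4]
        simp
      · rw [if_pos hψ, hvu' ψ hψ b]
        by_cases h : b = ζ ψ
        · simp [h]
        · simp [h]
    simp only [h3]
    rw [← Finset.sum_filter, ← hs]
    have h5 : ∑ ψ ∈ s, ((ψ y : ℂˣ) : ℂ) = -1 := by
      have h6 := dual_sum_zero y hy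
      rw [← Finset.sum_filter_add_sum_filter_not Finset.univ (fun ψ : A →* ℂˣ => ψ ≠ 1)] at h6
      rw [← hs] at h6
      have h7 : (Finset.univ.filter fun ψ : A →* ℂˣ => ¬ ψ ≠ 1) = {1} := by
        ext ψ
        simp
      rw [h7, Finset.sum_singleton] at h6
      simp only [MonoidHom.one_apply, Units.val_one] at h6
      linear_combination h6
    have h8 : ∀ ψ ∈ s, ((u b : ℂ) + δ * if b = ζ ψ then 1 else 0) * ((ψ y : ℂˣ) : ℂ) =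
        (u b : ℂ) * ((ψ y : ℂˣ) : ℂ) + δ * if ζ ψ = b then ((ψ y : ℂˣ) : ℂ) else 0 := by
      intro ψ _
      by_cases h9 : ζ ψ = b
      · rw [if_pos h9.symm, if_pos h9]
        ring
      · rw [if_neg (fun h => h9 h.symm), if_neg h9]
        ring
    have h9 : ∑ ψ ∈ s.filter (fun ψ => ζ ψ = b), ((ψ y : ℂˣ) : ℂ) =
        ∑ ψ ∈ s, if ζ ψ = b then ((ψ y : ℂˣ) : ℂ) else 0 := Finset.sum_filter _ _
    rw [Finset.sum_congr rfl h8, Finset.sum_add_distrib, ← Finset.mul_sum, ← Finset.mul_sum, h5, h9]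
    ring
  have hvalout : ∀ b, b ∉ Y → ∀ y, y ≠ 1 → X b y = ((-u b : ℤ) : ℂ) := by
    intro b hb y hy
    rw [hval b y hy]
    have h1 : s.filter (fun ψ => ζ ψ = b) = ∅ := by
      apply Finset.filter_eq_empty_iff.mpr
      intro ψ hψ h2
      exact hb ((hYmem b).mpr ⟨ψ, (hsmem ψ).mp hψ, h2⟩)
    rw [h1]
    simp
  have hvalin : ∀ ψ, ψ ≠ 1 → ∀ y, y ≠ 1 →
      X (ζ ψ) y = d + δ * ∑ γ : Γ, ((twistD (γ : MulAut A) ψ y : ℂˣ) : ℂ) := by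
    intro ψ hψ y hy
    rw [hval (ζ ψ) y hy, hud' ψ hψ, hfib ψ hψ,
      Finset.sum_image (fun γ₁ _ γ₂ _ h => twist_unique Γ hfree ψ hψ γ₁ γ₂ h)]
    push_cast
    ring
  -- the norm relation
  have hnorm2 : (d - δ) ^ 2 + ((Y.card : ℤ) - 1) * d ^ 2 + ∑ b ∈ Yᶜ, (-u b) ^ 2 = (m : ℤ) + 1 := by
    have h1 : ip u u = ∑ b ∈ Y, u b * u b + ∑ b ∈ Yᶜ, u b * u b := by
      rw [ip, Finset.sum_add_sum_compl]
    have h2 : ∑ b ∈ Y, u b * u b = (Y.card : ℤ) * d ^ 2 := by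
      rw [Finset.sum_congr rfl (g := fun _ => d ^ 2)]
      · simp
      · intro b hb
        obtain ⟨ψ, hψ, rfl⟩ := (hYmem b).mp hb
        rw [hud' ψ hψ]
        ring
    have h3 : ∑ b ∈ Yᶜ, (-u b) ^ 2 = ∑ b ∈ Yᶜ, u b * u b :=
      Finset.sum_congr rfl fun b _ => by ring
    rw [h3]
    have h4 : (d - δ) ^ 2 = d ^ 2 - 2 * δ * d + 1 := by
      have : δ ^ 2 = 1 := by rw [sq]; exact hδsq
      rw [sub_sq, this]
      ring
    rw [h4]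
    rw [h1, h2] at hnorm
    linarith
  -- the columns
  have hcolumns : ∀ R : B → ℂ, (∀ y, y ≠ 1 → ∑ b, R b * conj (X b y) = 0) →
      (∀ ψ ψ', ψ ≠ 1 → ψ' ≠ 1 → R (ζ ψ) = R (ζ ψ')) ∧
      (∀ ψ, ψ ≠ 1 → ((Y.card : ℂ) * d - δ) * R (ζ ψ) + ∑ b ∈ Yᶜ, (((-u b : ℤ)) : ℂ) * R b = 0) := by
    intro R hR
    have h1 : ∀ ψ, ψ ≠ 1 → ∑ b, R b * (u b : ℂ) + δ * R (ζ ψ) = 0 := by
      intro ψ hψ
      have h2 := column_vV X R hR ψ
      have h3 : ∀ b, R b * vV X ψ b = R b * (u b : ℂ) + δ * if b = ζ ψ then R b else 0 := by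
        intro b
        rw [hvec, hvu' ψ hψ b]
        split_ifs <;> push_cast <;> ring
      simp only [h3] at h2
      rw [Finset.sum_add_distrib, ← Finset.mul_sum, Finset.sum_ite_eq' Finset.univ (ζ ψ) R,
        if_pos (Finset.mem_univ _)] at h2
      exact h2
    have h2 : ∀ ψ ψ', ψ ≠ 1 → ψ' ≠ 1 → R (ζ ψ) = R (ζ ψ') := by
      intro ψ ψ' hψ hψ'
      have h3 := h1 ψ hψ
      have h4 := h1 ψ' hψ'
      have h5 : (δ : ℂ) * (R (ζ ψ) - R (ζ ψ')) = 0 := by linear_combination h3 - h4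
      have h6 : (δ : ℂ) ≠ 0 := by exact_mod_cast hδ0
      exact sub_eq_zero.mp ((mul_eq_zero.mp h5).resolve_left h6)
    refine ⟨h2, ?_⟩
    intro ψ hψ
    have h3 := h1 ψ hψ
    have h4 : ∑ b, R b * (u b : ℂ) = ∑ b ∈ Y, R b * (u b : ℂ) + ∑ b ∈ Yᶜ, R b * (u b : ℂ) := by
      rw [Finset.sum_add_sum_compl]
    have h5 : ∑ b ∈ Y, R b * (u b : ℂ) = (Y.card : ℂ) * (R (ζ ψ) * (-(d : ℂ))) := by
      rw [Finset.sum_congr rfl (g := fun _ => R (ζ ψ) * (-(d : ℂ)))]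
      · simp
      · intro b hb
        obtain ⟨ψ', hψ', rfl⟩ := (hYmem b).mp hb
        rw [hud' ψ' hψ', h2 ψ' ψ hψ' hψ]
        push_cast
        ring
    rw [h4, h5] at h3
    have h6 : ∑ b ∈ Yᶜ, (((-u b : ℤ)) : ℂ) * R b = -∑ b ∈ Yᶜ, R b * (u b : ℂ) := by
      rw [← Finset.sum_neg_distrib]
      refine Finset.sum_congr rfl fun b _ => ?_
      push_cast
      ring
    rw [h6]
    linear_combination -h3
  -- the principal character is outside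
  have hb₀ : ∀ b₀, (∀ y, X b₀ y = 1) → b₀ ∉ Y := by
    intro b₀ hb₀ hmem
    obtain ⟨ψ₃, hψ₃, rfl⟩ := (hYmem b₀).mp hmem
    have hone : ∀ ψ, ψ ≠ 1 → vec ψ (ζ ψ₃) = -1 := by
      intro ψ hψ
      have h1 : vV X ψ (ζ ψ₃) = -1 := by
        have hA : (Fintype.card A : ℂ) ≠ 0 := by exact_mod_cast Fintype.card_ne_zero
        simp only [vV, hb₀, map_one, mul_one]
        rw [Finset.sum_sub_distrib, char_sum_zero ψ hψ]
        simp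
        try field_simp
      rw [hvec] at h1
      exact_mod_cast h1
    have hψ₂ : ∃ ψ₂, ψ₂ ≠ 1 ∧ ζ ψ₂ ≠ ζ ψ₃ := by
      by_cases h : ζ ψ₁ = ζ ψ₃
      · refine ⟨ψ₀, hψ₀, fun h2 => hψ₁ne ?_⟩
        rw [(hζ_iff ψ₁ ψ₀ hψ₁ hψ₀).mp (h.trans h2.symm)]
      · exact ⟨ψ₁, hψ₁, h⟩
    obtain ⟨ψ₂, hψ₂1, hψ₂2⟩ := hψ₂
    have h1 := hone ψ₃ hψ₃
    have h2 := hone ψ₂ hψ₂1
    rw [hvu' ψ₃ hψ₃, if_pos rfl] at h1
    rw [hvu' ψ₂ hψ₂1, if_neg (Ne.symm hψ₂2)] at h2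
    omega
  refine ⟨δ, d, ζ, Y, fun b => -u b, hδ, ?_, ?_, ?_, hYcard, hvalout, hvalin, hnorm2, hcolumns, hb₀⟩
  · intro ψ hψ
    exact (hYmem _).mpr ⟨ψ, hψ, rfl⟩
  · intro η hη
    exact (hYmem η).mp hη
  · intro ψ hψ γ
    have h1 : twistD (γ : MulAut A) ψ ≠ 1 := twistD_ne_one _ hψ
    exact (hζ_iff _ _ h1 hψ).mpr ((hvec_iff _ _ h1 hψ).mpr ⟨γ, rfl⟩)

end Main

end Cfsg.Agent.H22
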