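import Cfsg.Agent.Lib.H06.Brauer5
import Cfsg.Agent.Lib.H21.Adams
import Cfsg.Agent.Lib.H22.Osima2
import Cfsg.Agent.Lib.H18.Nilp
import Cfsg.Agent.Lib.H21.Second4

/-!
# Parts of elements and a generalized character on nilpotent groups
-/

set_option autoImplicit false
set_option linter.unusedSectionVars false
set_option linter.style.haveILetI false
set_option linter.unusedSimpArgs false

namespace Cfsg.Agent.H22

open Cfsg Cfsg.Agent.H21 Cfsg.Agent.H06
open scoped ComplexConjugate

universe u v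

section Parts

variable {G : Type u} [Group G] [Finite G] (p : ℕ) [hp : Fact p.Prime]

/-- The `p`-part of an element. -/
noncomputable def pPt (g : G) : G := (exists_pPart_decomp p g).choose

/-- The `p`-regular part of an element. -/
noncomputable def rPt (g : G) : G := (exists_pPart_decomp p g).choose_spec.choose

theorem pPt_mul_rPt (g : G) : pPt p g * rPt p g = g :=
  (exists_pPart_decomp p g).choose_spec.choose_spec.1.symm

theorem commute_pPt_rPt (g : G) : Commute (pPt p g) (rPt p g) :=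
  (exists_pPart_decomp p g).choose_spec.choose_spec.2.1

theorem pPt_order (g : G) : ∃ k, orderOf (pPt p g) = p ^ k :=
  (exists_pPart_decomp p g).choose_spec.choose_spec.2.2.1

theorem rPt_not_dvd (g : G) : ¬ p ∣ orderOf (rPt p g) := by
  have h := (exists_pPart_decomp p g).choose_spec.choose_spec.2.2.2
  intro h1
  have h2 : p ∣ Nat.gcd (orderOf (rPt p g)) p := Nat.dvd_gcd h1 (dvd_refl p)
  have h3 : Nat.gcd (orderOf (rPt p g)) p = 1 := h
  rw [h3] at h2
  exact hp.out.one_lt.ne' (Nat.dvd_one.mp h2)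

theorem isPPart_pPt (g : G) : IsPPart p g (pPt p g) :=
  ⟨rPt p g, pPt_mul_rPt p g, commute_pPt_rPt p g, pPt_order p g, rPt_not_dvd p g⟩

variable {p}

theorem pPt_eq {g x : G} (h : IsPPart p g x) : pPt p g = x :=
  pPart_unique (isPPart_pPt p g) h

theorem pPt_of_parts {y x : G} (hc : Commute y x) (hy : ∃ k, orderOf y = p ^ k)
    (hx : ¬ p ∣ orderOf x) : pPt p (y * x) = y :=
  pPt_eq ⟨x, rfl, hc, hy, hx⟩

theorem rPt_of_parts {y x : G} (hc : Commute y x) (hy : ∃ k, orderOf y = p ^ k)
    (hx : ¬ p ∣ orderOf x) : rPt p (y * x) = x := by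
  have h1 := pPt_mul_rPt p (y * x)
  rw [pPt_of_parts hc hy hx] at h1
  exact mul_left_cancel h1

omit [Finite G] [hp : Fact p.Prime] in
theorem orderOf_conjH22 (g k : G) : orderOf (k * g * k⁻¹) = orderOf g :=
  orderOf_injective (MulAut.conj k).toMonoidHom (MulAut.conj k).injective g

theorem pPt_conj (g k : G) : pPt p (k * g * k⁻¹) = k * pPt p g * k⁻¹ := by
  apply pPt_eq
  refine ⟨k * rPt p g * k⁻¹, ?_, ?_, ?_, ?_⟩
  · conv_rhs => rw [← pPt_mul_rPt p g]
    group
  · have h := commute_pPt_rPt p g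
    show k * pPt p g * k⁻¹ * (k * rPt p g * k⁻¹) = k * rPt p g * k⁻¹ * (k * pPt p g * k⁻¹)
    have e1 : k * pPt p g * k⁻¹ * (k * rPt p g * k⁻¹) = k * (pPt p g * rPt p g) * k⁻¹ := by group
    have e2 : k * rPt p g * k⁻¹ * (k * pPt p g * k⁻¹) = k * (rPt p g * pPt p g) * k⁻¹ := by group
    rw [e1, e2, h.eq]
  · obtain ⟨j, hj⟩ := pPt_order p g
    refine ⟨j, ?_⟩
    rw [orderOf_conjH22]
    exact hj
  · rw [orderOf_conjH22]
    exact rPt_not_dvd p g

theorem rPt_conj (g k : G) : rPt p (k * g * k⁻¹) = k * rPt p g * k⁻¹ := by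
  have h1 := pPt_mul_rPt p (k * g * k⁻¹)
  rw [pPt_conj] at h1
  have h2 : k * pPt p g * k⁻¹ * (k * rPt p g * k⁻¹) = k * g * k⁻¹ := by
    conv_rhs => rw [← pPt_mul_rPt p g]
    group
  exact mul_left_cancel (h1.trans h2.symm)

end Parts

section Nil

variable {E : Type v} [Group E] [Finite E] [Group.IsNilpotent E] (p : ℕ) [hp : Fact p.Prime]

/-- Decomposition of a finite nilpotent group into its `p`-part and a complement. -/
theorem exists_nil_split (P : Sylow p E) : ∃ (X : Subgroup E) (e : E ≃* ↥(P : Subgroup E) × ↥X),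
    (∀ u : E, ((e u).1 : E) = pPt p u) ∧ (∀ u : E, ((e u).2 : E) = rPt p u) ∧
    (∀ (y : (P : Subgroup E)) (x : X), e ((y : E) * x) = (y, x)) ∧
    (∀ x : X, ¬ p ∣ orderOf (x : E)) := by
  classical
  haveI : (P : Subgroup E).Normal := inferInstance
  have hcop : (Nat.card (P : Subgroup E)).Coprime (P : Subgroup E).index := P.card_coprime_index
  obtain ⟨X, hX⟩ := Subgroup.exists_right_complement'_of_coprime hcop
  have hXp : ∀ x : X, ¬ p ∣ orderOf (x : E) := by
    intro x hd
    have h1 : orderOf (x : E) ∣ Nat.card X := by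
      have := orderOf_dvd_natCard x
      rwa [Subgroup.orderOf_coe]
    have h2 : Nat.card X = (P : Subgroup E).index := by
      have h3 := hX.card_mul_card
      have h4 := (P : Subgroup E).card_mul_index
      exact Nat.eq_of_mul_eq_mul_left Nat.card_pos (h3.trans h4.symm)
    rw [h2] at h1
    exact P.not_dvd_index (hd.trans h1)
  have hPo : ∀ y : (P : Subgroup E), ∃ k, orderOf (y : E) = p ^ k := by
    intro y
    obtain ⟨k, hk⟩ := P.isPGroup' y
    have h1 : (y : E) ^ (p ^ k) = 1 := by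
      have := congrArg Subtype.val hk
      simpa using this
    obtain ⟨j, -, hj⟩ := (Nat.dvd_prime_pow hp.out).mp (orderOf_dvd_of_pow_eq_one h1)
    exact ⟨j, hj⟩
  have hcomm : ∀ (y : (P : Subgroup E)) (x : X), Commute (y : E) (x : E) := by
    intro y x
    apply Cfsg.Agent.H18.commute_of_coprime_orderOf E
    obtain ⟨k, hk⟩ := hPo y
    rw [hk]
    exact Nat.Coprime.pow_left k ((Nat.Prime.coprime_iff_not_dvd hp.out).2 (hXp x))
  let φ : ↥(P : Subgroup E) × ↥X →* E :=
    MonoidHom.noncommCoprod (P : Subgroup E).subtype X.subtype hcomm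
  have hφ : ∀ q, φ q = (q.1 : E) * q.2 := fun q => rfl
  have hbij : Function.Bijective φ := hX
  let e0 : ↥(P : Subgroup E) × ↥X ≃* E := MulEquiv.ofBijective φ hbij
  have he0 : ∀ q, e0 q = (q.1 : E) * q.2 := fun q => rfl
  have hu : ∀ u : E, (((e0.symm u).1 : E) * ((e0.symm u).2 : E)) = u := by
    intro u
    rw [← he0]
    exact e0.apply_symm_apply u
  refine ⟨X, e0.symm, ?_, ?_, ?_, hXp⟩
  · intro u
    have h1 := pPt_of_parts (hcomm (e0.symm u).1 (e0.symm u).2) (hPo _) (hXp _)
    rw [hu] at h1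
    exact h1.symm
  · intro u
    have h1 := rPt_of_parts (hcomm (e0.symm u).1 (e0.symm u).2) (hPo _) (hXp _)
    rw [hu] at h1
    exact h1.symm
  · intro y x
    have : (y : E) * x = e0 (y, x) := rfl
    rw [this]
    exact e0.symm_apply_apply _

/-- The generalized character on a nilpotent group. -/
theorem nil_gen [Fintype E] (T₀ : Subgroup E) [hT : T₀.Normal] (hT₀ : IsPGroup p T₀)
    (z : T₀ → ℂ) (hz : IsGeneralizedCharacter T₀ z)
    (hzinv : ∀ (g : E) (t : T₀), z ⟨g * t * g⁻¹, hT.conj_mem t t.2 g⟩ = z t)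
    (c : E → ℂ) (hc : IsCharacter E c)
    (hcker : ∀ t ∈ T₀, ∀ u : E, c (t * u) = c u)
    (hcv : ∀ u : E, pPt p u ∉ T₀ → c u = 0)
    (F : E → ℂ) (hF1 : ∀ (u : E) (h : pPt p u ∈ T₀), F u = z ⟨pPt p u, h⟩ * c (rPt p u))
    (hF0 : ∀ u : E, pPt p u ∉ T₀ → F u = 0) : IsGeneralizedCharacter E F := by
  classical
  obtain ⟨P⟩ : Nonempty (Sylow p E) := inferInstance
  haveI : (P : Subgroup E).Normal := inferInstance
  haveI : Subsingleton (Sylow p E) := (Sylow.unique_of_normal P inferInstance).instSubsingleton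
  have hT₀P : T₀ ≤ (P : Subgroup E) := by
    obtain ⟨Q, hQ⟩ := hT₀.exists_le_sylow
    rwa [Subsingleton.elim Q P] at hQ
  obtain ⟨X, e, he1, he2, he3, hXp⟩ := exists_nil_split p P
  haveI : Fintype (P : Subgroup E) := Fintype.ofFinite _
  haveI : Fintype X := Fintype.ofFinite _
  haveI : Fintype (IrrCharacter X) := Fintype.ofFinite _
  let T : Subgroup (P : Subgroup E) := T₀.subgroupOf (P : Subgroup E)
  haveI : Fintype T := Fintype.ofFinite _
  have hTmem : ∀ y : (P : Subgroup E), y ∈ T ↔ (y : E) ∈ T₀ := fun y => Subgroup.mem_subgroupOf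
  let n : ℕ := T.index
  have hn : (n : ℂ) ≠ 0 := by
    have : n ≠ 0 := Subgroup.index_ne_zero_of_finite
    exact_mod_cast this
  let fT : T →* T₀ := ((P : Subgroup E).subtype.comp T.subtype).codRestrict T₀
    (fun t => (hTmem t.1).mp t.2)
  have hfT : ∀ t : T, ((fT t : T₀) : E) = ((t : (P : Subgroup E)) : E) := fun t => rfl
  let zT : T → ℂ := z ∘ fT
  have hzT : IsGeneralizedCharacter T zT := by
    obtain ⟨a, b, ha, hb, hab⟩ := hz
    refine ⟨a ∘ fT, b ∘ fT, isCharacter_comp fT ha, isCharacter_comp fT hb, ?_⟩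
    funext t
    simp only [zT, hab, Function.comp_apply, Pi.sub_apply]
  let α : ↥(P : Subgroup E) → ℂ := indFun T zT
  have hαgen : IsGeneralizedCharacter ↥(P : Subgroup E) α := Cfsg.Agent.H06.Brauer.gen_indFun T hzT
  have hcardP : (Nat.card (P : Subgroup E) : ℂ) = (Nat.card T : ℂ) * n := by
    have := T.card_mul_index
    exact_mod_cast this.symm
  have hT0 : (Nat.card T : ℂ) ≠ 0 := by exact_mod_cast Nat.card_pos.ne'
  have hα1 : ∀ (y : (P : Subgroup E)) (hy : (y : E) ∈ T₀), α y = n * z ⟨y, hy⟩ := by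
    intro y hy
    simp only [α, indFun]
    have h1 : ∀ x : (P : Subgroup E), extendByZero T zT (x⁻¹ * y * x) = z ⟨y, hy⟩ := by
      intro x
      have hm : x⁻¹ * y * x ∈ T := by
        rw [hTmem]
        have := hT.conj_mem _ hy (x⁻¹ : (P : Subgroup E))
        simpa using this
      have h2 := extendByZero_coe (H := T) zT ⟨x⁻¹ * y * x, hm⟩
      simp only at h2
      rw [h2]
      have h3 := hzinv ((x⁻¹ : (P : Subgroup E)) : E) ⟨y, hy⟩
      simp only [zT, Function.comp_apply]
      rw [← h3]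
      congr 1
      apply Subtype.ext
      simp [hfT]
    simp only [h1, Finset.sum_const, Finset.card_univ, nsmul_eq_mul]
    rw [← Nat.card_eq_fintype_card, hcardP]
    field_simp
  have hα0 : ∀ y : (P : Subgroup E), (y : E) ∉ T₀ → α y = 0 := by
    intro y hy
    simp only [α, indFun]
    have h1 : ∀ x : (P : Subgroup E), extendByZero T zT (x⁻¹ * y * x) = 0 := by
      intro x
      apply extendByZero_of_not_mem
      rw [hTmem]
      intro hm
      apply hy
      have := hT.conj_mem _ hm (x : (P : Subgroup E))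
      simpa [mul_assoc] using this
    simp only [h1, Finset.sum_const_zero, mul_zero]
  let β : X → ℂ := fun x => c x / n
  have hβclass : IsClassFunction X β := by
    intro x k
    simp only [β]
    have := isCharacter_conj hc (x : E) (k : E)
    push_cast
    rw [this]
  have hβ : IsCharacter X β := by
    apply isCharacter_of_inner_nat hβclass
    intro ξ
    let π₂ : E →* X := (MonoidHom.snd _ _).comp e.toMonoidHom
    have hπ₂ : ∀ (y : (P : Subgroup E)) (x : X), π₂ ((y : E) * x) = x := by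
      intro y x
      show (e ((y : E) * x)).2 = x
      rw [he3]
    have hξ' : IsCharacter E (ξ.1 ∘ π₂) := isCharacter_comp π₂ (isCharacter_of_irr ξ.2)
    obtain ⟨m, hm⟩ := classInner_isCharacter_nat hc hξ'
    refine ⟨m, ?_⟩
    rw [← hm]
    simp only [classInner, β, Function.comp_apply]
    set A : ℂ := ∑ x : X, c x * conj (ξ.1 x) with hA
    have hsplit : ∑ u : E, c u * conj (ξ.1 (π₂ u)) = (Nat.card T : ℂ) * A := by
      have h1 : ∑ u : E, c u * conj (ξ.1 (π₂ u)) =
          ∑ q : ↥(P : Subgroup E) × ↥X, c ((q.1 : E) * q.2) * conj (ξ.1 q.2) := by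
        refine Fintype.sum_equiv e _ _ ?_
        intro u
        have h2 : ((e u).1 : E) * (e u).2 = u := by
          rw [he1, he2, pPt_mul_rPt]
        show c u * conj (ξ.1 (e u).2) = c (((e u).1 : E) * (e u).2) * conj (ξ.1 (e u).2)
        rw [h2]
      have h1' : ∑ q : ↥(P : Subgroup E) × ↥X, c ((q.1 : E) * q.2) * conj (ξ.1 q.2) =
          ∑ y : (P : Subgroup E), ∑ x : X, c ((y : E) * x) * conj (ξ.1 x) := by
        convert Fintype.sum_prod_type (fun q : ↥(P : Subgroup E) × ↥X => c ((q.1 : E) * q.2) * conj (ξ.1 q.2))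
      rw [h1, h1']
      have h3 : ∀ y : (P : Subgroup E), ∑ x : X, c ((y : E) * x) * conj (ξ.1 x) =
          if y ∈ T then A else 0 := by
        intro y
        by_cases hy : y ∈ T
        · rw [if_pos hy]
          refine Finset.sum_congr rfl fun x _ => ?_
          rw [hcker _ ((hTmem y).mp hy)]
        · rw [if_neg hy]
          refine Finset.sum_eq_zero fun x _ => ?_
          have h4 : pPt p ((y : E) * x) = y := by
            rw [← he1, he3]
          rw [hcv _ (by rw [h4]; exact fun h => hy ((hTmem y).mpr h)), zero_mul]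
      simp only [h3]
      rw [Finset.sum_ite, Finset.sum_const_zero, add_zero, Finset.sum_const, nsmul_eq_mul]
      congr 1
      have h6 : ({x | x ∈ T} : Finset (P : Subgroup E)).card = Nat.card T := by
        rw [Nat.card_eq_fintype_card]
        exact (Fintype.card_of_subtype _ (by simp)).symm
      exact_mod_cast h6
    rw [hsplit]
    have hcardE : (Nat.card E : ℂ) = (Nat.card (P : Subgroup E) : ℂ) * Nat.card X := by
      have := Nat.card_congr e.toEquiv
      rw [Nat.card_prod] at this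
      exact_mod_cast this
    have hX0 : (Nat.card X : ℂ) ≠ 0 := by exact_mod_cast Nat.card_pos.ne'
    rw [hcardE, hcardP]
    have h5 : ∑ x : X, (c x / (n : ℂ)) * conj (ξ.1 x) = A / n := by
      rw [hA, Finset.sum_div]
      refine Finset.sum_congr rfl fun x _ => ?_
      ring
    rw [h5]
    field_simp
  let π₁ : E →* ↥(P : Subgroup E) := (MonoidHom.fst _ _).comp e.toMonoidHom
  let π₂ : E →* X := (MonoidHom.snd _ _).comp e.toMonoidHom
  have hπ₁ : ∀ u, ((π₁ u : (P : Subgroup E)) : E) = pPt p u := he1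
  have hπ₂ : ∀ u, ((π₂ u : X) : E) = rPt p u := he2
  have hFeq : F = (α ∘ π₁) * (β ∘ π₂) := by
    funext u
    simp only [Pi.mul_apply, Function.comp_apply]
    by_cases hu : pPt p u ∈ T₀
    · rw [hF1 u hu, hα1 (π₁ u) (by rw [hπ₁]; exact hu)]
      simp only [β, hπ₂]
      have : (⟨(π₁ u : E), by rw [hπ₁]; exact hu⟩ : T₀) = ⟨pPt p u, hu⟩ := Subtype.ext (hπ₁ u)
      rw [this]
      field_simp
    · rw [hF0 u hu, hα0 (π₁ u) (by rw [hπ₁]; exact hu), zero_mul]
  rw [hFeq]
  apply gen_mul
  · obtain ⟨a, b, ha, hb, hab⟩ := hαgen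
    refine ⟨a ∘ π₁, b ∘ π₁, isCharacter_comp π₁ ha, isCharacter_comp π₁ hb, ?_⟩
    funext u
    simp only [hab, Function.comp_apply, Pi.sub_apply]
  · exact gen_of_char (isCharacter_comp π₂ hβ)

end Nil

end Cfsg.Agent.H22
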