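import Cfsg.Agent.Lib.H22.AltSquare
import Cfsg.Agent.Lib.H21.CharInd
import Cfsg.Agent.Lib.H21.CharBasis
import Cfsg.Agent.Lib.H23.AcdTwo
import Cfsg.Agent.Lib.H01.Frobenius

/-! # Exceptional characters of a group of prime degree: the key identity -/

set_option autoImplicit false
set_option linter.unusedSectionVars false
set_option linter.style.haveILetI false
set_option linter.unusedSimpArgs false
set_option linter.unusedVariables false

namespace Cfsg.Agent.H22

open Cfsg Cfsg.Agent.H21 Cfsg.Agent.H23 Cfsg.Agent.H01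
open scoped ComplexConjugate

section KM

variable {P : Type*} [Group P] [Fintype P] {p : ℕ} [Fact p.Prime]

/-- The powers of a linear character. -/
noncomputable def kmH (μ : P →* ℂˣ) (j : ℤ) (y : P) : ℂ := ((μ y ^ j : ℂˣ) : ℂ)

theorem kmH_isCharacter (μ : P →* ℂˣ) (j : ℤ) : IsCharacter P (kmH μ j) :=
  isCharacter_hom ((zpowGroupHom j).comp μ)

theorem kmH_mul (μ : P →* ℂˣ) (i j : ℤ) (y : P) : kmH μ i y * kmH μ j y = kmH μ (i + j) y := by
  simp only [kmH, zpow_add, Units.val_mul]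

@[simp] theorem kmH_at_one (μ : P →* ℂˣ) (j : ℤ) : kmH μ j 1 = 1 := by
  simp [kmH]

@[simp] theorem kmH_zero (μ : P →* ℂˣ) (y : P) : kmH μ 0 y = 1 := by
  simp [kmH]

theorem kmH_inv (μ : P →* ℂˣ) (j : ℤ) (y : P) : kmH μ j y⁻¹ = kmH μ (-j) y := by
  simp [kmH]

theorem kmH_mul_self (μ : P →* ℂˣ) (j : ℤ) (y : P) : kmH μ j (y * y) = kmH μ (2 * j) y := by
  simp only [kmH, map_mul]
  rw [← pow_two, ← zpow_natCast, ← zpow_mul]
  simp [mul_comm]

theorem kmH_conj (μ : P →* ℂˣ) (j : ℤ) (y : P) : conj (kmH μ j y) = kmH μ (-j) y := by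
  rw [← isCharacter_inv (kmH_isCharacter μ j), kmH_inv]


theorem kmH_sum (hP : Nat.card P = p) (μ : P →* ℂˣ) (hμ : μ ≠ 1) (k : ℤ) :
    ∑ y, kmH μ k y = if (p : ℤ) ∣ k then (p : ℂ) else 0 := by
  classical
  by_cases hk : (p : ℤ) ∣ k
  · rw [if_pos hk]
    obtain ⟨c, rfl⟩ := hk
    have h1 : ∀ y : P, kmH μ ((p : ℤ) * c) y = 1 := by
      intro y
      have hy : y ^ p = 1 := by rw [← hP]; exact pow_card_eq_one'
      have h2 : μ y ^ p = 1 := by rw [← map_pow, hy, map_one]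
      simp only [kmH]
      rw [zpow_mul, zpow_natCast, h2, one_zpow, Units.val_one]
    simp only [h1, Finset.sum_const, Finset.card_univ, nsmul_eq_mul, mul_one]
    rw [← Nat.card_eq_fintype_card, hP]
  · rw [if_neg hk]
    have hsum := sum_hom_units_eq_zero (R := ℂ) ((Units.coeHom ℂ).comp ((zpowGroupHom k).comp μ)) (by
      intro hf
      apply hμ
      ext y
      by_contra hy
      have hy' : μ y ≠ 1 := fun h => hy (by simp [h])
      have h1 : ((μ y ^ k : ℂˣ) : ℂ) = 1 := by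
        have := congrArg (fun f : P →* ℂ => f y) hf
        simpa using this
      have h2 : μ y ^ k = 1 := Units.ext h1
      have h3 : orderOf (μ y) ∣ p := by
        apply orderOf_dvd_of_pow_eq_one
        have hy2 : y ^ p = 1 := by rw [← hP]; exact pow_card_eq_one'
        rw [← map_pow, hy2, map_one]
      have h4 : orderOf (μ y) = p := by
        rcases (Nat.dvd_prime (Fact.out : p.Prime)).mp h3 with h | h
        · exact absurd (orderOf_eq_one_iff.mp h) hy'
        · exact h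
      have h5 := orderOf_dvd_iff_zpow_eq_one.mpr h2
      rw [h4] at h5
      exact hk h5)
    exact hsum

theorem kmH_inner (hP : Nat.card P = p) (μ : P →* ℂˣ) (hμ : μ ≠ 1) (i j : ℤ) :
    classInner (kmH μ i) (kmH μ j) = if (p : ℤ) ∣ (i - j) then 1 else 0 := by
  have hp0 : (p : ℂ) ≠ 0 := by exact_mod_cast (Fact.out : p.Prime).ne_zero
  unfold classInner
  have h1 : ∀ y, kmH μ i y * conj (kmH μ j y) = kmH μ (i - j) y := by
    intro y
    rw [kmH_conj, kmH_mul, sub_eq_add_neg]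
  simp only [h1]
  rw [kmH_sum hP μ hμ, hP]
  split_ifs
  · field_simp
  · simp

theorem exists_nontrivial_char (hP : Nat.card P = p) : ∃ μ : P →* ℂˣ, μ ≠ 1 := by
  classical
  have hpp : p.Prime := Fact.out
  haveI : Fact (Nat.card P).Prime := ⟨by rw [hP]; exact hpp⟩
  haveI : IsCyclic P := isCyclic_of_prime_card rfl
  letI : CommGroup P := IsCyclic.commGroup
  have h1 : 1 < Nat.card P := by rw [hP]; exact hpp.one_lt
  haveI : Nontrivial P := (Finite.one_lt_card_iff_nontrivial).mp h1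
  obtain ⟨a, ha⟩ := exists_ne (1 : P)
  obtain ⟨φ, hφ⟩ := CommGroup.exists_apply_ne_one_of_hasEnoughRootsOfUnity P ℂ ha
  exact ⟨φ, fun h => hφ (by simp [h])⟩

end KM

theorem dvd_auxH {x : ℤ} {p : ℕ} (hx : x ≠ 0) (h1 : x < p) (h2 : -(p : ℤ) < x) : ¬ (p : ℤ) ∣ x := by
  intro h
  exact hx (Int.eq_zero_of_abs_lt_dvd h (abs_lt.mpr ⟨h2, h1⟩))

section Key

variable {G : Type*} [Group G] [Fintype G]

theorem classInner_sub_leftH (f g ψ : G → ℂ) :
    classInner (f - g) ψ = classInner f ψ - classInner g ψ := by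
  simp only [classInner, Pi.sub_apply, sub_mul, Finset.sum_sub_distrib, mul_sub]

theorem classInner_sub_rightH (f g ψ : G → ℂ) :
    classInner ψ (f - g) = classInner ψ f - classInner ψ g := by
  simp only [classInner, Pi.sub_apply, map_sub, mul_sub, Finset.sum_sub_distrib]

theorem conj_neg_twoH : conj (-2 : ℂ) = -2 := by
  rw [map_neg, Complex.conj_ofNat]

theorem classInner_one_one : classInner (fun _ : G => (1 : ℂ)) (fun _ : G => (1 : ℂ)) = 1 := by
  have h0 : (Nat.card G : ℂ) ≠ 0 := by simp [Nat.card_pos.ne']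
  simp only [classInner, map_one, mul_one, Finset.sum_const, Finset.card_univ, nsmul_eq_mul]
  rw [← Nat.card_eq_fintype_card]
  field_simp

variable {p : ℕ} [Fact p.Prime] {P : Subgroup G} [Fintype P] {π : G → ℂ}

/-- The data of the exceptional situation. -/
structure PermExc (p : ℕ) (P : Subgroup G) [Fintype P] (π : G → ℂ) : Prop where
  hPc : Nat.card P = p
  hp5 : 5 ≤ p
  hind : ∀ (θ : P → ℂ) (y : P), y ≠ 1 → indFun P θ (y : G) = θ y + θ y⁻¹
  hreg : ∀ (θ : P → ℂ) (g : G), g ≠ 1 → ¬ p ∣ orderOf g → indFun P θ g = 0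
  hπ : IsCharacter G π
  hπ1 : π 1 = p
  hπP : ∀ y : P, y ≠ 1 → π (y : G) = 0
  h1 : classInner π (fun _ => 1) = 1
  h2 : classInner π π = 2

/-- Differences of induced characters. -/
noncomputable def FjH (P : Subgroup G) [Fintype P] (μ : P →* ℂˣ) (j : ℤ) : G → ℂ :=
  indFun P (kmH μ j) - indFun P (kmH μ 0)

/-- The exceptional characters. -/
noncomputable def LamH (P : Subgroup G) [Fintype P] (π : G → ℂ) (μ : P →* ℂˣ) (j : ℤ) : G → ℂ :=
  π - (2 : ℂ) • (fun _ => (1 : ℂ)) - FjH P μ j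

/-- Kronecker delta modulo `p`. -/
noncomputable def DH (p : ℕ) (i j : ℤ) : ℂ := if (p : ℤ) ∣ (i - j) then 1 else 0

theorem FjH_isClass (μ : P →* ℂˣ) (j : ℤ) : IsClassFunction G (FjH P μ j) := by
  intro g k
  simp only [FjH, Pi.sub_apply, indFun_isClass P _ g k]

theorem FjH_at_one (μ : P →* ℂˣ) (j : ℤ) : FjH P μ j 1 = 0 := by
  simp only [FjH, Pi.sub_apply, indFun_one, kmH_at_one, sub_self]

theorem classInner_km_comb (hP : Nat.card P = p) (μ : P →* ℂˣ) (hμ : μ ≠ 1) (i a b e : ℤ) (c : ℂ) :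
    classInner (kmH μ i) (kmH μ a + kmH μ b + c • kmH μ e) =
      DH p i a + DH p i b + conj c * DH p i e := by
  rw [classInner_add_right, classInner_add_right, classInner_smul_right, kmH_inner hP μ hμ,
    kmH_inner hP μ hμ, kmH_inner hP μ hμ]
  rfl

theorem FjH_inner (hP : Nat.card P = p) (μ : P →* ℂˣ) (hμ : μ ≠ 1) (j : ℤ) {ψ : G → ℂ}
    (hψ : IsClassFunction G ψ) (a b e : ℤ) (c : ℂ)
    (h : ∀ y : P, y ≠ 1 → ψ y = kmH μ a y + kmH μ b y + c * kmH μ e y) :
    classInner (FjH P μ j) ψ =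
      (DH p j a + DH p j b + conj c * DH p j e) - (DH p 0 a + DH p 0 b + conj c * DH p 0 e) := by
  rw [FjH, classInner_sub_leftH, frobenius_reciprocity P _ _ hψ, frobenius_reciprocity P _ _ hψ,
    ← classInner_km_comb hP μ hμ j, ← classInner_km_comb hP μ hμ 0, ← classInner_sub_leftH,
    ← classInner_sub_leftH]
  simp only [classInner]
  congr 1
  refine Finset.sum_congr rfl fun y _ => ?_
  by_cases hy : y = 1
  · subst hy
    simp
  · rw [h y hy]
    simp

variable (hx : PermExc p P π) (μ : P →* ℂˣ) (hμ : μ ≠ 1)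

include hx in
theorem FjH_at_P (j : ℤ) (y : P) (hy : y ≠ 1) :
    FjH P μ j (y : G) = kmH μ j y + kmH μ (-j) y + (-2) * kmH μ 0 y := by
  simp only [FjH, Pi.sub_apply, hx.hind _ y hy, kmH_inv, kmH_zero, neg_zero]
  ring

include hx hμ in
theorem FjH_inner_one (j : ℤ) (hj : ¬ (p : ℤ) ∣ j) :
    classInner (FjH P μ j) (fun _ => (1 : ℂ)) = -1 := by
  rw [FjH_inner hx.hPc μ hμ j (ψ := fun _ => (1 : ℂ)) (fun _ _ => rfl) 0 0 0 (-1) (fun y _ => by simp)]
  simp [DH, hj]

include hx hμ in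
theorem FjH_inner_pi (j : ℤ) (hj : ¬ (p : ℤ) ∣ j) :
    classInner (FjH P μ j) π = 0 := by
  rw [FjH_inner hx.hPc μ hμ j (fun g k => isCharacter_conj hx.hπ g k) 0 0 0 (-2)
    (fun y hy => by rw [hx.hπP y hy]; simp; norm_num)]
  simp [DH, hj, conj_neg_twoH]
  norm_num

include hx hμ in
theorem FjH_inner_F (i j : ℤ) (hi : ¬ (p : ℤ) ∣ i) (hj : ¬ (p : ℤ) ∣ j) :
    classInner (FjH P μ i) (FjH P μ j) = DH p i j + DH p i (-j) + 2 := by
  rw [FjH_inner hx.hPc μ hμ i (FjH_isClass μ j) j (-j) 0 (-2) (fun y hy => FjH_at_P hx μ j y hy)]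
  have h1 : ¬ (p : ℤ) ∣ (0 - j) := by rwa [zero_sub, dvd_neg]
  have h2 : ¬ (p : ℤ) ∣ (0 - -j) := by rwa [zero_sub, neg_neg]
  simp [DH, hi, h1, h2, hj, conj_neg_twoH]

include hx hμ in
theorem LamH_inner (i j : ℤ) (hi : ¬ (p : ℤ) ∣ i) (hj : ¬ (p : ℤ) ∣ j) :
    classInner (LamH P π μ i) (LamH P π μ j) = DH p i j + DH p i (-j) := by
  have h1 := FjH_inner_one hx μ hμ i hi
  have h2 := FjH_inner_one hx μ hμ j hj
  have h3 := FjH_inner_pi hx μ hμ i hi
  have h4 := FjH_inner_pi hx μ hμ j hj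
  have h5 := FjH_inner_F hx μ hμ i j hi hj
  have h6 : classInner (fun _ => (1 : ℂ)) (FjH P μ j) = -1 := by
    rw [← classInner_comm_conj, h2]; simp
  have h7 : classInner π (FjH P μ j) = 0 := by
    rw [← classInner_comm_conj, h4]; simp
  have h8 : classInner (fun _ => (1 : ℂ)) π = 1 := by
    rw [← classInner_comm_conj, hx.h1]; simp
  simp only [LamH, classInner_sub_leftH, classInner_sub_rightH, classInner_smul_left,
    classInner_smul_right, h1, h3, h5, h6, h7, h8, hx.h1, hx.h2, classInner_one_one]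
  simp
  ring

include hx in
theorem LamH_isClass (j : ℤ) : IsClassFunction G (LamH P π μ j) := by
  intro g k
  simp only [LamH, Pi.sub_apply, Pi.smul_apply, FjH_isClass μ j g k,
    isCharacter_conj hx.hπ g k]

include hx hμ in
theorem LamH_at_one (j : ℤ) : LamH P π μ j 1 = (p : ℂ) - 2 := by
  simp only [LamH, Pi.sub_apply, Pi.smul_apply, FjH_at_one, hx.hπ1, smul_eq_mul, mul_one, sub_zero]

include hx in
theorem LamH_at_P (j : ℤ) (y : P) (hy : y ≠ 1) :
    LamH P π μ j (y : G) = - kmH μ j y - kmH μ (-j) y := by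
  simp only [LamH, Pi.sub_apply, Pi.smul_apply, FjH_at_P hx μ j y hy, hx.hπP y hy, kmH_zero,
    smul_eq_mul, mul_one]
  ring

include hx in
theorem LamH_at_reg (j : ℤ) (g : G) (hg : g ≠ 1) (hg2 : ¬ p ∣ orderOf g) :
    LamH P π μ j g = π g - 2 := by
  simp only [LamH, FjH, Pi.sub_apply, Pi.smul_apply, hx.hreg _ g hg hg2, smul_eq_mul, mul_one,
    sub_zero]

include hx hμ in
theorem LamH_irr (j : ℤ) (hj : ¬ (p : ℤ) ∣ j) (hj2 : ¬ (p : ℤ) ∣ (2 * j)) :
    IsIrrCharacter G (LamH P π μ j) := by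
  classical
  haveI : Fintype (IrrCharacter G) := Fintype.ofFinite _
  apply isIrrCharacter_of_int_norm_one (LamH_isClass hx μ j)
  · intro χ
    obtain ⟨a, ha⟩ := classInner_isNat hx.hπ χ
    obtain ⟨b, hb⟩ := classInner_isNat (isCharacter_one (G := G)) χ
    obtain ⟨c, hc⟩ := classInner_isNat (isCharacter_indFun P (kmH_isCharacter μ j)) χ
    obtain ⟨d, hd⟩ := classInner_isNat (isCharacter_indFun P (kmH_isCharacter μ 0)) χ
    refine ⟨(a : ℤ) - 2 * b - (c - d), ?_⟩
    simp only [LamH, FjH, classInner_sub_leftH, classInner_smul_left, ha, hb, hc, hd]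
    push_cast
    ring
  · rw [LamH_inner hx μ hμ j j hj hj]
    have h3 : ¬ (p : ℤ) ∣ (j + j) := by rwa [← two_mul]
    simp [DH, h3]
  · rw [LamH_at_one hx μ hμ]
    have h5 : (5 : ℝ) ≤ p := by exact_mod_cast hx.hp5
    have h6 : ((p : ℂ) - 2).re = (p : ℝ) - 2 := by simp
    rw [h6]
    linarith

include hx in
theorem perm_sq_ne_one (y : P) (hy : y ≠ 1) : y * y ≠ 1 := by
  intro h
  have h1 : y ^ p = 1 := by rw [← hx.hPc]; exact pow_card_eq_one'
  have h2 : y ^ 2 = 1 := by rw [pow_two, h]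
  have h3 := orderOf_dvd_of_pow_eq_one h1
  have h4 := orderOf_dvd_of_pow_eq_one h2
  have hpp : p.Prime := Fact.out
  have hodd : Nat.gcd p 2 = 1 := by
    apply (Nat.coprime_primes hpp Nat.prime_two).mpr
    have := hx.hp5
    omega
  have h5 : orderOf y ∣ Nat.gcd p 2 := Nat.dvd_gcd h3 h4
  rw [hodd, Nat.dvd_one] at h5
  exact hy (orderOf_eq_one_iff.mp h5)

/-- The alternating square of the first exceptional character. -/
noncomputable def aH (P : Subgroup G) [Fintype P] (π : G → ℂ) (μ : P →* ℂˣ) : G → ℂ :=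
  fun g => (LamH P π μ 1 g ^ 2 - LamH P π μ 1 (g * g)) / 2

include hx in
theorem aH_at_P (y : P) (hy : y ≠ 1) :
    aH P π μ (y : G) = kmH μ 2 y + kmH μ (-2) y + 1 * kmH μ 0 y := by
  have h := LamH_at_P hx μ 1 y hy
  have h2 := LamH_at_P hx μ 1 (y * y) (perm_sq_ne_one hx y hy)
  have h3 : ((y * y : P) : G) = (y : G) * y := rfl
  simp only [aH]
  rw [← h3, h, h2, kmH_mul_self, kmH_mul_self]
  have e1 : kmH μ 1 y * kmH μ 1 y = kmH μ 2 y := by rw [kmH_mul]; norm_num
  have e2 : kmH μ 1 y * kmH μ (-1) y = kmH μ 0 y := by rw [kmH_mul]; norm_num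
  have e3 : kmH μ (-1) y * kmH μ (-1) y = kmH μ (-2) y := by rw [kmH_mul]; norm_num
  have e4 : kmH μ (2 * 1) y = kmH μ 2 y := by norm_num
  have e5 : kmH μ (2 * -1) y = kmH μ (-2) y := by norm_num
  rw [e4, e5]
  linear_combination (1 / 2 : ℂ) * e1 + e2 + (1 / 2 : ℂ) * e3

theorem DH_conj (i j : ℤ) : conj (DH p i j) = DH p i j := by
  unfold DH
  split_ifs <;> simp

/-- **The key identity**: on the `p`-regular elements the permutation character satisfies a
quadratic relation. -/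
theorem perm_key (hx : PermExc p P π) (g : G) (hg1 : g ≠ 1) (hg : ¬ p ∣ orderOf g) :
    (π g - 2) ^ 2 - (π (g * g) - 2) = ((p : ℂ) - 3) * (π g - 2) := by
  classical
  obtain ⟨μ, hμ⟩ := exists_nontrivial_char hx.hPc
  haveI : Fintype (IrrCharacter G) := Fintype.ofFinite _
  have hp5 := hx.hp5
  have hpp : p.Prime := Fact.out
  have hodd : p % 2 = 1 := (hpp.eq_two_or_odd).resolve_left (by omega)
  obtain ⟨m, hm⟩ : ∃ m, p = 2 * (m + 2) + 1 := ⟨p / 2 - 2, by omega⟩
  have hk' : (p - 1) / 2 = m + 2 := by omega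
  set J : Finset ℕ := Finset.Icc 1 ((p - 1) / 2) with hJ
  have hJm : ∀ j, j ∈ J ↔ 1 ≤ j ∧ j ≤ m + 2 := by
    intro j
    rw [hJ, Finset.mem_Icc, hk']
  have hnd : ∀ j ∈ J, ¬ (p : ℤ) ∣ (j : ℤ) := by
    intro j hj
    obtain ⟨h1, h2⟩ := (hJm j).mp hj
    exact dvd_auxH (by omega) (by omega) (by omega)
  have hnd2 : ∀ j ∈ J, ¬ (p : ℤ) ∣ (2 * (j : ℤ)) := by
    intro j hj
    obtain ⟨h1, h2⟩ := (hJm j).mp hj
    exact dvd_auxH (by omega) (by omega) (by omega)
  have hirr : ∀ j ∈ J, IsIrrCharacter G (LamH P π μ (j : ℤ)) := fun j hj =>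
    LamH_irr hx μ hμ j (hnd j hj) (hnd2 j hj)
  have hortho : ∀ i ∈ J, ∀ j ∈ J, classInner (LamH P π μ (i : ℤ)) (LamH P π μ (j : ℤ)) =
      if i = j then 1 else 0 := by
    intro i hi j hj
    rw [LamH_inner hx μ hμ i j (hnd i hi) (hnd j hj)]
    obtain ⟨h1, h2⟩ := (hJm i).mp hi
    obtain ⟨h3, h4⟩ := (hJm j).mp hj
    have h5 : ¬ (p : ℤ) ∣ ((i : ℤ) - -(j : ℤ)) := dvd_auxH (by omega) (by omega) (by omega)
    simp only [DH, if_neg h5, add_zero]
    by_cases hij : i = j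
    · subst hij
      simp
    · have h6 : ¬ (p : ℤ) ∣ ((i : ℤ) - (j : ℤ)) := dvd_auxH (by omega) (by omega) (by omega)
      rw [if_neg h6, if_neg hij]
  have h1J : (1 : ℕ) ∈ J := (hJm 1).mpr ⟨le_refl _, by omega⟩
  have h2J : (2 : ℕ) ∈ J := (hJm 2).mpr ⟨by omega, by omega⟩
  have hLam1 : IsCharacter G (LamH P π μ 1) := by
    have := isCharacter_of_irr (hirr 1 h1J)
    simpa using this
  have ha : IsCharacter G (aH P π μ) := isCharacter_altSquare hLam1
  have haclass : IsClassFunction G (aH P π μ) := fun g k => isCharacter_conj ha g k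
  set E : ℂ := classInner (aH P π μ) π - 2 * classInner (aH P π μ) (fun _ => 1) with hE
  have hFa : ∀ j ∈ J, classInner (FjH P μ (j : ℤ)) (aH P π μ) = DH p j 2 - 1 := by
    intro j hj
    obtain ⟨h1, h2⟩ := (hJm j).mp hj
    rw [FjH_inner hx.hPc μ hμ j haclass 2 (-2) 0 1 (fun y hy => aH_at_P hx μ y hy)]
    have e1 : ¬ (p : ℤ) ∣ ((j : ℤ) - -2) := dvd_auxH (by omega) (by omega) (by omega)
    have e2 : ¬ (p : ℤ) ∣ ((j : ℤ) - 0) := dvd_auxH (by omega) (by omega) (by omega)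
    have e3 : ¬ (p : ℤ) ∣ ((0 : ℤ) - 2) := dvd_auxH (by omega) (by omega) (by omega)
    have e4 : ¬ (p : ℤ) ∣ ((0 : ℤ) - -2) := dvd_auxH (by omega) (by omega) (by omega)
    simp only [DH, if_neg e1, if_neg e2, if_neg e3, if_neg e4]
    simp
  have hin : ∀ j ∈ J, classInner (aH P π μ) (LamH P π μ (j : ℤ)) = E + 1 - DH p j 2 := by
    intro j hj
    have h1 : classInner (aH P π μ) (FjH P μ (j : ℤ)) = DH p j 2 - 1 := by
      rw [← classInner_comm_conj, hFa j hj, map_sub, DH_conj, map_one]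
    simp only [LamH, classInner_sub_rightH, classInner_smul_right, h1, hE, Complex.conj_ofNat]
    ring
  obtain ⟨n, hn⟩ : ∃ n : ℕ, E = n := by
    obtain ⟨n, hn⟩ := classInner_isNat ha ⟨_, hirr 2 h2J⟩
    refine ⟨n, ?_⟩
    have h3 := hin 2 h2J
    simp only at hn
    rw [hn] at h3
    simp only [DH, Nat.cast_ofNat, sub_self, dvd_zero, if_true] at h3
    have : E = n := by rw [h3]; ring
    exact this
  set b : G → ℂ := aH P π μ - ∑ j ∈ J.erase 2, LamH P π μ (j : ℤ) with hb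
  have hbclass : IsClassFunction G b := by
    intro g k
    simp only [hb, Pi.sub_apply, Finset.sum_apply, haclass g k]
    congr 1
    refine Finset.sum_congr rfl fun j _ => ?_
    exact LamH_isClass hx μ j g k
  have hbch : IsCharacter G b := by
    apply isCharacter_of_inner_nat hbclass
    intro ψ
    by_cases hψ : ∃ j₀ ∈ J.erase 2, (ψ : G → ℂ) = LamH P π μ (j₀ : ℤ)
    · obtain ⟨j₀, hj₀, e⟩ := hψ
      refine ⟨n, ?_⟩
      rw [e, hb, classInner_sub_leftH, classInner_sum_left]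
      have hj₀J : j₀ ∈ J := Finset.mem_of_mem_erase hj₀
      have hj₀2 : j₀ ≠ 2 := Finset.ne_of_mem_erase hj₀
      have h1 : ∑ j ∈ J.erase 2, classInner (LamH P π μ (j : ℤ)) (LamH P π μ (j₀ : ℤ)) = 1 := by
        rw [Finset.sum_congr rfl (fun j hj => hortho j (Finset.mem_of_mem_erase hj) j₀ hj₀J),
          Finset.sum_ite_eq' , if_pos hj₀]
      rw [h1, hin j₀ hj₀J, hn]
      obtain ⟨h3, h4⟩ := (hJm j₀).mp hj₀J
      have h5 : ¬ (p : ℤ) ∣ ((j₀ : ℤ) - 2) := dvd_auxH (by omega) (by omega) (by omega)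
      simp only [DH, if_neg h5]
      ring
    · push Not at hψ
      obtain ⟨r, hr⟩ := classInner_isNat ha ψ
      refine ⟨r, ?_⟩
      rw [hb, classInner_sub_leftH, classInner_sum_left, hr]
      rw [Finset.sum_eq_zero, sub_zero]
      intro j hj
      have h1 := classInner_irr ⟨_, hirr j (Finset.mem_of_mem_erase hj)⟩ ψ
      rw [if_neg] at h1
      · exact h1
      · intro h
        exact hψ j hj (by rw [← h])
  have hLam_one : ∀ j : ℤ, LamH P π μ j 1 = (p : ℂ) - 2 := LamH_at_one hx μ hμ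
  have hcard : (J.erase 2).card = m + 1 := by
    rw [Finset.card_erase_of_mem h2J, hJ, Nat.card_Icc, hk']
    omega
  have hpc : (p : ℂ) = 2 * ((m : ℂ) + 2) + 1 := by rw [hm]; push_cast; ring
  have hb1 : b 1 = 0 := by
    simp only [hb, Pi.sub_apply, Finset.sum_apply, aH, mul_one, hLam_one, Finset.sum_const, hcard,
      nsmul_eq_mul, hpc]
    push_cast
    ring
  have hb0 : ∀ g, b g = 0 := by
    intro g
    have h1 := isCharacter_norm_le hbch g
    have h2 := one_eq_charDegree hbch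
    rw [hb1] at h2
    have h3 : charDegree b = 0 := by exact_mod_cast h2.symm
    rw [h3] at h1
    simpa using h1
  have hreg2 : LamH P π μ 1 (g * g) = π (g * g) - 2 := by
    by_cases hgg : g * g = 1
    · rw [hgg, hLam_one, hx.hπ1]
    · apply LamH_at_reg hx μ 1 _ hgg
      intro hd
      apply hg
      refine hd.trans (orderOf_dvd_of_pow_eq_one ?_)
      rw [← pow_two, ← pow_mul, mul_comm, pow_mul, pow_orderOf_eq_one, one_pow]
  have hmain := hb0 g
  simp only [hb, Pi.sub_apply, Finset.sum_apply] at hmain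
  have hs : ∑ c ∈ J.erase 2, LamH P π μ ((c : ℕ) : ℤ) g = ((m + 1 : ℕ) : ℂ) * (π g - 2) := by
    rw [Finset.sum_congr rfl (fun j _ => LamH_at_reg hx μ ((j : ℕ) : ℤ) g hg1 hg), Finset.sum_const,
      hcard, nsmul_eq_mul]
  rw [hs] at hmain
  simp only [aH] at hmain
  rw [hreg2, LamH_at_reg hx μ 1 g hg1 hg] at hmain
  rw [hpc]
  push_cast at hmain
  linear_combination 2 * hmain

end Key

end Cfsg.Agent.H22
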