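import Cfsg.Agent.Lib.H22.BwB
import Cfsg.Agent.Lib.H21.Second4
import Cfsg.Agent.Lib.H21.Subsec3
import Cfsg.Agent.Lib.H19.CyclicSylow
import Cfsg.Agent.Lib.H23.RealDeg5
import Cfsg.Agent.Lib.H22.DCentGen
import Cfsg.Agent.Lib.H22.DefectZero
import Cfsg.Agent.Lib.H22.PermKey

/-! # Exceptional characters for a Frobenius action on an abelian Sylow subgroup: columns -/

set_option autoImplicit false
set_option linter.unusedSectionVars false
set_option linter.style.haveILetI false
set_option linter.unusedSimpArgs false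
set_option linter.unusedVariables false

namespace Cfsg.Agent.H22

open Cfsg Cfsg.Agent.H21
open scoped ComplexConjugate

universe u

section Cols

variable {G : Type u} [Group G] [Finite G] {p : ℕ} [hp : Fact p.Prime] {M : Ideal AlgInt}
  [hMp : M.IsPrime]

/-- The centralizer of a non-identity element of the Sylow subgroup has a normal `p`-complement. -/
theorem bw_cent_npc (P : Sylow p G)
    (hcomm : ∀ a ∈ (P : Subgroup G), ∀ b ∈ (P : Subgroup G), a * b = b * a)
    (hfrob : ∀ y : G, y ∈ (P : Subgroup G) → y ≠ 1 →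
      Subgroup.centralizer ({y} : Set G) ⊓ Subgroup.normalizer ((P : Subgroup G) : Set G) =
        Subgroup.centralizer ((P : Subgroup G) : Set G))
    {y : G} (hy : y ∈ (P : Subgroup G)) (hy1 : y ≠ 1) :
    ∃ O : Subgroup (Subgroup.centralizer ({y} : Set G)), O.Normal ∧ (Nat.card O).Coprime p ∧
      (∃ k, O.index = p ^ k) ∧
      p ^ (Nat.card (Subgroup.centralizer ({y} : Set G))).factorization p = Nat.card (P : Subgroup G) := by
  classical
  set H := Subgroup.centralizer ({y} : Set G) with hH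
  have hPH : (P : Subgroup G) ≤ H := fun s hs =>
    Subgroup.mem_centralizer_singleton_iff.mpr (hcomm s hs y hy)
  let P' : Sylow p H := P.subtype hPH
  have hcoe : (P' : Subgroup H) = (P : Subgroup G).subgroupOf H := Sylow.coe_subtype P hPH
  have hmem : ∀ a : H, a ∈ (P' : Subgroup H) ↔ (a : G) ∈ (P : Subgroup G) := by
    intro a
    rw [hcoe, Subgroup.mem_subgroupOf]
  have hN : Subgroup.normalizer ((P' : Subgroup H) : Set H) ≤
      Subgroup.centralizer ((P' : Subgroup H) : Set H) := by
    intro h hh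
    have h1 : (h : G) ∈ Subgroup.normalizer ((P : Subgroup G) : Set G) := by
      rw [Subgroup.mem_normalizer_iff]
      intro s
      rw [Subgroup.mem_normalizer_iff] at hh
      constructor
      · intro hs
        have hsH : s ∈ H := hPH hs
        have h2 := (hh ⟨s, hsH⟩).mp ((hmem _).mpr hs)
        exact (hmem _).mp h2
      · intro hs
        have h3 : (h : G) * s * (h : G)⁻¹ ∈ H := hPH hs
        have hsH : s ∈ H := by
          have h4 : s = (h : G)⁻¹ * ((h : G) * s * (h : G)⁻¹) * (h : G) := by group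
          rw [h4]
          exact H.mul_mem (H.mul_mem (H.inv_mem h.2) h3) h.2
        have h5 := (hh ⟨s, hsH⟩).mpr ((hmem _).mpr hs)
        exact (hmem _).mp h5
    have h2 : (h : G) ∈ H ⊓ Subgroup.normalizer ((P : Subgroup G) : Set G) := ⟨h.2, h1⟩
    have h2' : (h : G) ∈ Subgroup.centralizer ((P : Subgroup G) : Set G) := by
      rw [← hfrob y hy hy1]
      exact h2
    rw [Subgroup.mem_centralizer_iff]
    intro a ha
    apply Subtype.ext
    exact (Subgroup.mem_centralizer_iff.mp h2') a ((hmem a).mp ha)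
  obtain ⟨R, hRn, hRc⟩ := Cfsg.Agent.H19.burnside_complement P' hN
  have h1 : (P' : Subgroup H).index = Nat.card R := hRc.index_eq_card
  have h2 : R.index = Nat.card (P' : Subgroup H) := hRc.symm.index_eq_card
  have h3 : Nat.card (P' : Subgroup H) = p ^ (Nat.card H).factorization p := P'.card_eq_multiplicity
  refine ⟨R, hRn, ?_, ⟨_, h2.trans h3⟩, ?_⟩
  · rw [← h1]
    exact ((Nat.Prime.coprime_iff_not_dvd hp.out).mpr P'.not_dvd_index).symm
  · rw [← h3, hcoe]
    exact Nat.card_congr (Subgroup.subgroupOfEquivOfLe hPH).toEquiv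

theorem bw_order_of_mem (P : Sylow p G) {y : G} (hy : y ∈ (P : Subgroup G)) :
    ∃ k, orderOf y = p ^ k := by
  obtain ⟨k, hk⟩ := IsPGroup.iff_orderOf.mp P.isPGroup' (⟨y, hy⟩ : (P : Subgroup G))
  exact ⟨k, by rwa [Subgroup.orderOf_mk] at hk⟩

theorem isPPart_self_of {y : G} (h : ∃ k, orderOf y = p ^ k) : IsPPart p y y := by
  refine ⟨1, mul_one y, Commute.one_right y, h, ?_⟩
  rw [orderOf_one]
  exact hp.out.not_dvd_one

theorem isPPart_one_of {g : G} (h : ¬ p ∣ orderOf g) : IsPPart p g 1 :=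
  ⟨g, one_mul g, Commute.one_left g, ⟨0, by simp⟩, h⟩

/-- The section value. -/
theorem bw_section_value (hM : IsPModular p M) (P : Sylow p G)
    (hcomm : ∀ a ∈ (P : Subgroup G), ∀ b ∈ (P : Subgroup G), a * b = b * a)
    (hfrob : ∀ y : G, y ∈ (P : Subgroup G) → y ≠ 1 →
      Subgroup.centralizer ({y} : Set G) ⊓ Subgroup.normalizer ((P : Subgroup G) : Set G) =
        Subgroup.centralizer ((P : Subgroup G) : Set G))
    {χ : IrrCharacter G} (hχ : χ ∈ principalBlock M G) {z y : G} (hz : IsPPart p z y)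
    (hy : y ∈ (P : Subgroup G)) (hy1 : y ≠ 1) : χ.1 z = χ.1 y := by
  obtain ⟨w, rfl, hc, ⟨k, hk⟩, hw⟩ := hz
  obtain ⟨O, hO, hcop, hidx, -⟩ := bw_cent_npc P hcomm hfrob hy hy1
  have hwC : w ∈ Subgroup.centralizer ({y} : Set G) :=
    Subgroup.mem_centralizer_singleton_iff.mpr hc.eq.symm
  have hwO : (⟨w, hwC⟩ : Subgroup.centralizer ({y} : Set G)) ∈ O := by
    by_contra hn
    have h1 := dvd_orderOf_of_not_mem hidx hn
    rw [Subgroup.orderOf_mk] at h1
    exact hw h1
  exact principal_mul_core hM hk hχ O hcop hwO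

/-- The norm of a column. -/
theorem bw_col_norm (hM : IsPModular p M) (P : Sylow p G)
    (hcomm : ∀ a ∈ (P : Subgroup G), ∀ b ∈ (P : Subgroup G), a * b = b * a)
    (hfrob : ∀ y : G, y ∈ (P : Subgroup G) → y ≠ 1 →
      Subgroup.centralizer ({y} : Set G) ⊓ Subgroup.normalizer ((P : Subgroup G) : Set G) =
        Subgroup.centralizer ((P : Subgroup G) : Set G))
    {y : G} (hy : y ∈ (P : Subgroup G)) (hy1 : y ≠ 1) :
    ∑ᶠ ζ ∈ principalBlock M G, ‖(ζ : G → ℂ) y‖ ^ 2 = (Nat.card (P : Subgroup G) : ℝ) := by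
  obtain ⟨O, hO, hcop, hidx, hcard⟩ := bw_cent_npc P hcomm hfrob hy hy1
  obtain ⟨k, hk⟩ := bw_order_of_mem P hy
  have hr : ¬ p ∣ orderOf (1 : Subgroup.centralizer ({y} : Set G)) := by
    rw [orderOf_one]
    exact hp.out.not_dvd_one
  have h1 := principal_norm_sum hM hk (1 : Subgroup.centralizer ({y} : Set G)) hr
  have h2 := principal_column_npc hM O hcop hidx hr
  rw [h2, hcard] at h1
  simpa using h1

theorem sum_subtype_eB (B : Set (IrrCharacter G)) [Fintype B] [Fintype (IrrCharacter G)]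
    (f : IrrCharacter G → ℂ) : ∑ b : B, f b.1 = ∑ χ : IrrCharacter G, eB B χ * f χ := by
  classical
  have h1 : ∀ χ : IrrCharacter G, eB B χ * f χ = if χ ∈ B then f χ else 0 := by
    intro χ
    by_cases h : χ ∈ B
    · rw [eB_apply_mem h, if_pos h, one_mul]
    · rw [eB_apply_not_mem h, if_neg h, zero_mul]
  simp only [h1]
  rw [← Finset.sum_filter]
  exact (Finset.sum_subtype (Finset.univ.filter (· ∈ B)) (by simp) f).symm

/-- Orthogonality of sections, on the principal block. -/
theorem bw_orth (hM : IsPModular p M) [Fintype (principalBlock M G)] {g h x z : G}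
    (hg : IsPPart p g x) (hh : IsPPart p h z) (hne : ¬ IsConj x z) :
    ∑ b : principalBlock M G, b.1.1 h * conj (b.1.1 g) = 0 := by
  classical
  haveI : Fintype (IrrCharacter G) := Fintype.ofFinite _
  rw [sum_subtype_eB (principalBlock M G) (fun χ => χ.1 h * conj (χ.1 g))]
  have h1 := block_orth_sections hM hg hh hne (principalBlock_isBlock (M := M) (G := G))
  convert h1

/-- The norm of a column again. -/
theorem bw_col_self (hM : IsPModular p M) (P : Sylow p G) [Fintype (principalBlock M G)]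
    (hcomm : ∀ a ∈ (P : Subgroup G), ∀ b ∈ (P : Subgroup G), a * b = b * a)
    (hfrob : ∀ y : G, y ∈ (P : Subgroup G) → y ≠ 1 →
      Subgroup.centralizer ({y} : Set G) ⊓ Subgroup.normalizer ((P : Subgroup G) : Set G) =
        Subgroup.centralizer ((P : Subgroup G) : Set G))
    {y : G} (hy : y ∈ (P : Subgroup G)) (hy1 : y ≠ 1) (n : G) :
    ∑ b : principalBlock M G, b.1.1 (n * y * n⁻¹) * conj (b.1.1 y) = (Nat.card (P : Subgroup G) : ℂ) := by
  classical
  haveI : Fintype (IrrCharacter G) := Fintype.ofFinite _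
  have h1 := bw_col_norm (M := M) hM P hcomm hfrob hy hy1
  have h2 := finsum_norm_sq_cast (principalBlock M G) (fun ζ => ζ.1 y)
  have h3 : ∀ b : principalBlock M G, b.1.1 (n * y * n⁻¹) = b.1.1 y := fun b =>
    isCharacter_conj (Cfsg.Agent.H21.isCharacter_of_irr b.1.2) y n
  simp only [h3]
  rw [sum_subtype_eB (principalBlock M G) (fun χ => χ.1 y * conj (χ.1 y))]
  rw [h1] at h2
  have h5 : ∑ χ : IrrCharacter G, eB (principalBlock M G) χ * (χ.1 y * conj (χ.1 y)) =
      (((Nat.card (P : Subgroup G) : ℝ)) : ℂ) := by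
    convert h2.symm
  rw [h5]
  push_cast
  rfl

end Cols

end Cfsg.Agent.H22
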