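import Cfsg.Agent.Lib.H22.BwC

/-! # The principal block when the normalizer of an abelian Sylow subgroup acts as a Frobenius group -/

set_option autoImplicit false
set_option linter.unusedSectionVars false
set_option linter.style.haveILetI false
set_option linter.unusedSimpArgs false
set_option linter.unusedVariables false

namespace Cfsg.Agent.H22

open Cfsg Cfsg.Agent.H21 Cfsg.Agent.H23
open scoped ComplexConjugate

universe u

open Classical in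
set_option maxHeartbeats 2000000 in
theorem bw_main2 {G : Type u} [Group G] [Finite G] (p : ℕ) [hp : Fact p.Prime] (M : Ideal Cfsg.AlgInt) (hM : Cfsg.IsPModular p M) (P : Sylow p G) (hab : IsMulCommutative P) (hP1 : Nat.card P ≠ 1) (m : ℕ) (hm1 : 1 < m) (hm2 : m + 1 < Nat.card P) (hCN : (Subgroup.centralizer ((P : Subgroup G) : Set G)).relIndex (Subgroup.normalizer ((P : Subgroup G) : Set G)) = m) (hfrob : ∀ y : G, y ∈ (P : Subgroup G) → y ≠ 1 → Subgroup.centralizer ({y} : Set G) ⊓ Subgroup.normalizer ((P : Subgroup G) : Set G) = Subgroup.centralizer ((P : Subgroup G) : Set G)) : ∃ (s : ℕ) (X Y : Set (Cfsg.IrrCharacter G)), s ≤ m ∧ Cfsg.principalBlock M G = X ∪ Y ∧ Disjoint X Y ∧ Nat.card X = s ∧ Nat.card Y = (Nat.card P - 1) / m ∧ (∃ χ₁ ∈ X, (χ₁ : G → ℂ) = fun _ => 1) ∧ ∃ (a : Cfsg.IrrCharacter G → ℤ) (d δ : ℤ) (ζ : (↥(P : Subgroup G) →* ℂˣ) → Cfsg.IrrCharacter G), (δ = 1 ∨ δ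 = -1) ∧ (∀ χ ∈ X, a χ ≠ 0 ∧ ∀ z y : G, Cfsg.IsPPart p z y → y ∈ (P : Subgroup G) → y ≠ 1 → (χ : G → ℂ) z = (a χ : ℂ)) ∧ (∀ ψ : ↥(P : Subgroup G) →* ℂˣ, ψ ≠ 1 → ζ ψ ∈ Y) ∧ (∀ η ∈ Y, ∃ ψ : ↥(P : Subgroup G) →* ℂˣ, ψ ≠ 1 ∧ ζ ψ = η) ∧ (∀ ψ ψ' : ↥(P : Subgroup G) →* ℂˣ, ψ ≠ 1 → (∃ n : G, n ∈ Subgroup.normalizer ((P : Subgroup G) : Set G) ∧ ∀ w w' : ↥(P : Subgroup G), (w' : G) = n * w * n⁻¹ → ψ' w' = ψ w) → ζ ψ' = ζ ψ) ∧ (∀ ψ : ↥(P : Subgroup G) →* ℂˣ, ψ ≠ 1 → ∀ (z : G) (y : ↥(P : Subgroup G)), Cfsg.IsPPart p z (y : G) → (y : G) ≠ 1 → (ζ ψ : G → ℂ) z = (d : ℂ) + (δ : ℂ) * ∑ᶠ ψ' ∈ {ψ' : ↥(P : Subgroup G) →* ℂˣ | ∃ n : G, n ∈ Subgroup.normalizer ((P : Subgroup G) : Set G) ∧ ∀ w w' : ↥(P : Subgroup G), (w' : G) = n * w * n⁻¹ → ψ' w' = ψ w}, ((ψ' y : ℂˣ) : ℂ)) ∧ ((d - δ) ^ 2 + ((Nat.card P - 1) / m - 1 : ℤ) * d ^ 2 + ∑ᶠ χ ∈ X, a χ ^ 2 = (m : ℤ) + 1) ∧ (∀ η ∈ Y, ∀ η' ∈ Y, ∀ g : G, ¬ p ∣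 orderOf g → (η : G → ℂ) g = (η' : G → ℂ) g) ∧ (∀ η ∈ Y, ∀ g : G, ¬ p ∣ orderOf g → ((((Nat.card P - 1) / m : ℕ) : ℂ) * d - δ) * (η : G → ℂ) g + ∑ᶠ χ ∈ X, (a χ : ℂ) * (χ : G → ℂ) g = 0) ∧ (Nat.card Y * m + 1 = Nat.card P) ∧ (d = 0 → ∀ u v : ↥(P : Subgroup G), u ≠ 1 → v ≠ 1 → ∀ η ∈ Y, (η : G → ℂ) u * (η : G → ℂ) v = (δ : ℂ) * ∑ᶠ γ : (P : Subgroup G).normalizerMonoidHom.range, (if u * ((γ : MulAut ↥(P : Subgroup G)) v) = 1 then (m : ℂ) * δ else (η : G → ℂ) ((u * ((γ : MulAut ↥(P : Subgroup G)) v) : ↥(P : Subgroup G)) : G))) := by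
  classical
  haveI hMp : M.IsPrime := hM.2.1.isPrime
  haveI : Fintype G := Fintype.ofFinite G
  have hab' : IsMulCommutative (P : Subgroup G) := hab
  have hcomm : ∀ a ∈ (P : Subgroup G), ∀ b ∈ (P : Subgroup G), a * b = b * a := by
    intro a ha b hb
    have h1 := mul_comm' (⟨a, ha⟩ : (P : Subgroup G)) ⟨b, hb⟩
    exact congrArg Subtype.val h1
  letI iA : CommGroup (P : Subgroup G) :=
    { (inferInstance : Group (P : Subgroup G)) with
      mul_comm := fun a b => Subtype.ext (hcomm a a.2 b b.2) }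
  haveI : Fintype (P : Subgroup G) := Fintype.ofFinite _
  haveI : Finite ((P : Subgroup G) →* ℂˣ) := dualFinite
  haveI : Fintype ((P : Subgroup G) →* ℂˣ) := Fintype.ofFinite _
  let c := (P : Subgroup G).normalizerMonoidHom
  have hcn : ∀ (n : Subgroup.normalizer ((P : Subgroup G) : Set G)) (w : (P : Subgroup G)),
      ((c n w : (P : Subgroup G)) : G) = (n : G) * w * (n : G)⁻¹ := fun n w => rfl
  let Γ : Subgroup (MulAut (P : Subgroup G)) := c.range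
  haveI : Fintype Γ := Fintype.ofFinite _
  let B := principalBlock M G
  haveI : Fintype B := Fintype.ofFinite _
  let X : B → ↥(P : Subgroup G) → ℂ := fun b y => b.1.1 y
  have hΓcard : Fintype.card Γ = m := by
    rw [← Nat.card_eq_fintype_card, ← hCN]
    show Nat.card c.range = _
    rw [← Subgroup.index_ker, Subgroup.normalizerMonoidHom_ker]
    rfl
  have hAcard : Fintype.card (P : Subgroup G) = Nat.card P := by
    rw [← Nat.card_eq_fintype_card]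
  have hfree : ∀ γ : Γ, ∀ y : (P : Subgroup G), (γ : MulAut (P : Subgroup G)) y = y → y ≠ 1 → γ = 1 := by
    rintro ⟨γ, n, rfl⟩ y hy hy1
    have hy1' : (y : G) ≠ 1 := fun h => hy1 (Subtype.ext h)
    have h1 : (n : G) ∈ Subgroup.centralizer ({(y : G)} : Set G) := by
      rw [Subgroup.mem_centralizer_singleton_iff]
      have h2 : (n : G) * y * (n : G)⁻¹ = y := congrArg Subtype.val hy
      rw [mul_inv_eq_iff_eq_mul] at h2
      exact h2
    have h2 : (n : G) ∈ Subgroup.centralizer ((P : Subgroup G) : Set G) := by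
      rw [← hfrob y y.2 hy1']
      exact ⟨h1, n.2⟩
    apply Subtype.ext
    apply MulEquiv.ext
    intro w
    apply Subtype.ext
    show (n : G) * w * (n : G)⁻¹ = w
    rw [mul_inv_eq_iff_eq_mul]
    exact (Subgroup.mem_centralizer_iff.mp h2 w w.2).symm
  have hcol : ∀ y y' : (P : Subgroup G), y ≠ 1 → y' ≠ 1 → ∑ b, X b y' * conj (X b y) =
      (Fintype.card (P : Subgroup G) : ℂ) * ∑ γ : Γ,
        if y' = (γ : MulAut (P : Subgroup G)) y then (1 : ℂ) else 0 := by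
    intro y y' hy hy'
    have hy1 : (y : G) ≠ 1 := fun h => hy (Subtype.ext h)
    by_cases h : ∃ γ : Γ, y' = (γ : MulAut (P : Subgroup G)) y
    · obtain ⟨γ₀, hγ₀⟩ := h
      have h1 : ∑ γ : Γ, (if y' = (γ : MulAut (P : Subgroup G)) y then (1 : ℂ) else 0) = 1 := by
        rw [Finset.sum_eq_single γ₀]
        · rw [if_pos hγ₀]
        · intro γ _ hne
          rw [if_neg]
          intro h2
          have h3 : ((γ₀⁻¹ * γ : Γ) : MulAut (P : Subgroup G)) y = y := by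
            have e1 : ((γ₀⁻¹ * γ : Γ) : MulAut (P : Subgroup G)) y =
                ((γ₀ : MulAut (P : Subgroup G))⁻¹) ((γ : MulAut (P : Subgroup G)) y) := rfl
            rw [e1, ← h2, hγ₀, MulAut.inv_apply_self]
          have h4 := hfree _ y h3 hy
          rw [inv_mul_eq_one] at h4
          exact hne h4.symm
        · simp
      rw [h1, mul_one]
      obtain ⟨n, hn⟩ := γ₀.2
      have hy'' : (y' : G) = (n : G) * y * (n : G)⁻¹ := by
        rw [hγ₀, ← hn]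
        rfl
      simp only [X]
      rw [hy'', bw_col_self hM P hcomm hfrob y.2 hy1 n, Nat.card_eq_fintype_card]
    · push Not at h
      have h1 : ∑ γ : Γ, (if y' = (γ : MulAut (P : Subgroup G)) y then (1 : ℂ) else 0) = 0 :=
        Finset.sum_eq_zero fun γ _ => by rw [if_neg (h γ)]
      rw [h1, mul_zero]
      apply bw_orth hM (isPPart_self_of (bw_order_of_mem P y.2)) (isPPart_self_of (bw_order_of_mem P y'.2))
      intro hconj
      obtain ⟨c₀, hc₀⟩ := isConj_iff.mp hconj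
      obtain ⟨n, hn, hne⟩ := burnside_conj P
        (fun s hs => by rw [hcomm s hs y y.2]; group) (fun s hs => by rw [hcomm s hs y' y'.2]; group) hc₀
      apply h ⟨c ⟨n, hn⟩, ⟨n, hn⟩, rfl⟩
      apply Subtype.ext
      exact hne.symm
  have hreg : ∀ g : G, ¬ p ∣ orderOf g → ∀ y : (P : Subgroup G), y ≠ 1 →
      ∑ b : B, b.1.1 g * conj (X b y) = 0 := by
    intro g hg y hy
    apply bw_orth hM (isPPart_self_of (bw_order_of_mem P y.2)) (isPPart_one_of hg)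
    intro hconj
    exact hy (Subtype.ext (isConj_one_right.mp hconj.symm))
  have hint : ∀ (ψ : (P : Subgroup G) →* ℂˣ) (b : B), ∃ n : ℤ, vV X ψ b = n := by
    intro ψ b
    have hχ : IsCharacter (P : Subgroup G) (fun y : (P : Subgroup G) => b.1.1 (y : G)) :=
      isCharacter_restrict _ (Cfsg.Agent.H21.isCharacter_of_irr b.1.2)
    obtain ⟨n₁, h₁⟩ := classInner_isCharacter_nat (isCharacter_hom ψ) hχ
    obtain ⟨n₂, h₂⟩ := classInner_isCharacter_nat (isCharacter_hom (1 : (P : Subgroup G) →* ℂˣ)) hχ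
    refine ⟨(n₁ : ℤ) - n₂, ?_⟩
    simp only [classInner] at h₁ h₂
    rw [Nat.card_eq_fintype_card] at h₁ h₂
    simp only [vV, X, sub_mul, Finset.sum_sub_distrib, mul_sub]
    rw [h₁]
    simp only [MonoidHom.one_apply, Units.val_one] at h₂
    rw [h₂]
    push_cast
    rfl
  let wt : B → ℤ := fun b => (charDegree b.1.1 : ℤ)
  have hwt : ∀ b, 0 < wt b := fun b => by
    have := irr_charDegree_pos b.1.2
    simp only [wt]
    exact_mod_cast this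
  have hwtc : ∀ b, (wt b : ℂ) = b.1.1 1 := fun b => by
    simp only [wt, Int.cast_natCast]
    exact (one_eq_charDegree (Cfsg.Agent.H21.isCharacter_of_irr b.1.2)).symm
  have hwt0 : ∀ y : (P : Subgroup G), y ≠ 1 → ∑ b, (wt b : ℂ) * conj (X b y) = 0 := by
    intro y hy
    simp only [hwtc]
    apply hreg 1 _ y hy
    rw [orderOf_one]
    exact hp.out.not_dvd_one
  have hm' : Fintype.card Γ + 1 < Fintype.card (P : Subgroup G) := by
    rw [hΓcard, hAcard]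
    exact hm2
  obtain ⟨δ, d, ζ₀, Y₀, a₀, hδ, hζmem, hζsurj, hζinv, hcard, hout, hin, hnorm, hcols, hone⟩ :=
    bw_abstract Γ X hfree (fun y y' h1 h2 => by convert hcol y y' h1 h2) hint hm' wt hwt hwt0
  have hmpos : 0 < m := by omega
  rw [hΓcard] at hcard hnorm
  rw [hAcard] at hcard
  have hr : (Nat.card P - 1) / m = Y₀.card := by
    have h1 : Nat.card P - 1 = Y₀.card * m := by omega
    rw [h1, Nat.mul_div_cancel _ hmpos]
  have hY2 : 2 ≤ Y₀.card := by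
    by_contra h
    have h1 : Y₀.card ≤ 1 := by omega
    have h2 : Y₀.card * m ≤ 1 * m := Nat.mul_le_mul_right m h1
    omega
  have hP_ne : ∃ y : (P : Subgroup G), y ≠ 1 := by
    by_contra h
    push Not at h
    have h1 : Nat.card (P : Subgroup G) = 1 := by
      rw [Nat.card_eq_one_iff_unique]
      exact ⟨⟨fun a b => by rw [h a, h b]⟩, ⟨1⟩⟩
    exact hP1 h1
  have ha₀ : ∀ b, b ∉ Y₀ → a₀ b ≠ 0 := by
    intro b hb h0
    have hvan : ∀ g : G, p ∣ orderOf g → b.1.1 g = 0 := by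
      intro g hg
      have hpart := isPPart_pPt p g
      have hx1 : pPt p g ≠ 1 := by
        intro hx
        have h1 := pPt_mul_rPt p g
        rw [hx, one_mul] at h1
        have h2 := rPt_not_dvd p g
        rw [h1] at h2
        exact h2 hg
      obtain ⟨c₀, hc₀⟩ : ∃ c₀ : G, c₀ * pPt p g * c₀⁻¹ ∈ (P : Subgroup G) := by
        obtain ⟨k, hk⟩ := pPt_order p g
        have hDp : IsPGroup p (Subgroup.zpowers (pPt p g)) :=
          IsPGroup.of_card (n := k) (by rw [Nat.card_zpowers, hk])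
        obtain ⟨S, hS⟩ := hDp.exists_le_sylow
        obtain ⟨g₁, hg₁⟩ := MulAction.exists_smul_eq G S P
        refine ⟨g₁, ?_⟩
        rw [← hg₁]
        exact ⟨pPt p g, hS (Subgroup.mem_zpowers _), rfl⟩
      have hy1 : c₀ * pPt p g * c₀⁻¹ ≠ 1 := by
        intro h
        apply hx1
        have h2 : pPt p g = c₀⁻¹ * (c₀ * pPt p g * c₀⁻¹) * c₀ := by group
        rw [h2, h]
        group
      have h1 : b.1.1 g = b.1.1 (c₀ * g * c₀⁻¹) :=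
        (isCharacter_conj (Cfsg.Agent.H21.isCharacter_of_irr b.1.2) g c₀).symm
      rw [h1, bw_section_value hM P hcomm hfrob b.2 (isPPart_conj hpart c₀) hc₀ hy1]
      have h2 := hout b hb ⟨_, hc₀⟩ (fun h => hy1 (congrArg Subtype.val h))
      simp only [X] at h2
      rw [h2, h0]
      simp
    have hd0 := card_sylow_dvd_degree_of_vanish b.1 hvan
    have hs := block_sameBlock (principalBlock_isBlock (M := M) (G := G)) b.2 oneIrr_mem_principal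
    have heq := eq_of_mem_block_of_defect_zero hM b.1 hd0 hs
    obtain ⟨y, hy⟩ := hP_ne
    have h2 := hout b hb y hy
    simp only [X] at h2
    rw [h0, ← heq] at h2
    simp [oneIrr] at h2
  let Xs : Set (IrrCharacter G) := Subtype.val '' ((Y₀ᶜ : Finset B) : Set B)
  let Ys : Set (IrrCharacter G) := Subtype.val '' ((Y₀ : Finset B) : Set B)
  let a : IrrCharacter G → ℤ := fun χ => if h : χ ∈ principalBlock M G then a₀ ⟨χ, h⟩ else 0
  have ha : ∀ b : B, a b.1 = a₀ b := fun b => dif_pos b.2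
  let ζ : (↥(P : Subgroup G) →* ℂˣ) → IrrCharacter G := fun ψ => (ζ₀ ψ).1
  have hXmem : ∀ χ, χ ∈ Xs ↔ ∃ b : B, b ∉ Y₀ ∧ b.1 = χ := by
    intro χ
    simp only [Xs, Set.mem_image, Finset.mem_coe, Finset.mem_compl]
  have hYmem : ∀ χ, χ ∈ Ys ↔ ∃ b : B, b ∈ Y₀ ∧ b.1 = χ := by
    intro χ
    simp only [Ys, Set.mem_image, Finset.mem_coe]
  have hfsZ : ∀ f : IrrCharacter G → ℤ, ∑ᶠ χ ∈ Xs, f χ = ∑ b ∈ Y₀ᶜ, f b.1 := by
    intro f
    rw [finsum_mem_image Subtype.val_injective.injOn, finsum_mem_coe_finset]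
  have hfsC : ∀ f : IrrCharacter G → ℂ, ∑ᶠ χ ∈ Xs, f χ = ∑ b ∈ Y₀ᶜ, f b.1 := by
    intro f
    rw [finsum_mem_image Subtype.val_injective.injOn, finsum_mem_coe_finset]
  have hS : ∀ ψ : ↥(P : Subgroup G) →* ℂˣ, {ψ' : ↥(P : Subgroup G) →* ℂˣ | ∃ n : G,
      n ∈ Subgroup.normalizer ((P : Subgroup G) : Set G) ∧ ∀ w w' : ↥(P : Subgroup G),
        (w' : G) = n * w * n⁻¹ → ψ' w' = ψ w} =
      Set.range (fun γ : Γ => twistD (γ : MulAut (P : Subgroup G)) ψ) := by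
    intro ψ
    ext ψ'
    constructor
    · rintro ⟨n, hn, h⟩
      refine ⟨⟨c (⟨n, hn⟩ : Subgroup.normalizer ((P : Subgroup G) : Set G))⁻¹, ⟨_, rfl⟩⟩, ?_⟩
      apply MonoidHom.ext
      intro w'
      have h1 := h (c (⟨n, hn⟩ : Subgroup.normalizer ((P : Subgroup G) : Set G))⁻¹ w') w'
        (by
          show (w' : G) = n * (n⁻¹ * w' * n⁻¹⁻¹) * n⁻¹
          group)
      rw [h1]
      rfl
    · rintro ⟨⟨γ, k, rfl⟩, rfl⟩
      refine ⟨((k⁻¹ : Subgroup.normalizer ((P : Subgroup G) : Set G)) : G), (k⁻¹).2, ?_⟩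
      intro w w' h
      show ψ (c k w') = ψ w
      congr 1
      apply Subtype.ext
      show (k : G) * w' * (k : G)⁻¹ = w
      rw [h]
      show (k : G) * ((k : G)⁻¹ * w * (k : G)⁻¹⁻¹) * (k : G)⁻¹ = w
      group
  have hrel : ∀ ψ ψ' : ↥(P : Subgroup G) →* ℂˣ, (∃ n : G,
      n ∈ Subgroup.normalizer ((P : Subgroup G) : Set G) ∧ ∀ w w' : ↥(P : Subgroup G),
        (w' : G) = n * w * n⁻¹ → ψ' w' = ψ w) → ∃ γ : Γ, twistD (γ : MulAut (P : Subgroup G)) ψ = ψ' := by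
    intro ψ ψ' h
    have h1 : ψ' ∈ {ψ' : ↥(P : Subgroup G) →* ℂˣ | ∃ n : G,
      n ∈ Subgroup.normalizer ((P : Subgroup G) : Set G) ∧ ∀ w w' : ↥(P : Subgroup G),
        (w' : G) = n * w * n⁻¹ → ψ' w' = ψ w} := h
    rw [hS ψ] at h1
    exact h1
  have hsum : ∀ ψ : ↥(P : Subgroup G) →* ℂˣ, ψ ≠ 1 → ∀ y : ↥(P : Subgroup G),
      ∑ᶠ ψ' ∈ {ψ' : ↥(P : Subgroup G) →* ℂˣ | ∃ n : G,
      n ∈ Subgroup.normalizer ((P : Subgroup G) : Set G) ∧ ∀ w w' : ↥(P : Subgroup G),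
        (w' : G) = n * w * n⁻¹ → ψ' w' = ψ w}, ((ψ' y : ℂˣ) : ℂ) =
      ∑ γ : Γ, ((twistD (γ : MulAut (P : Subgroup G)) ψ y : ℂˣ) : ℂ) := by
    intro ψ hψ y
    rw [hS ψ, finsum_mem_range (fun γ₁ γ₂ h => twist_unique Γ hfree ψ hψ γ₁ γ₂ h),
      finsum_eq_sum_of_fintype]
  have hintr : ((Nat.card P : ℤ) - 1) / (m : ℤ) = (Y₀.card : ℤ) := by
    have h1 : (Nat.card P : ℤ) - 1 = (Y₀.card : ℤ) * m := by
      have : (Nat.card P : ℤ) = (Y₀.card : ℤ) * m + 1 := by exact_mod_cast hcard.symm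
      rw [this]
      ring
    rw [h1, Int.mul_ediv_cancel _ (by exact_mod_cast hmpos.ne')]
  have hs_le : Y₀ᶜ.card ≤ m := by
    have h1 : ((Y₀ᶜ.card : ℕ) : ℤ) ≤ ∑ b ∈ Y₀ᶜ, a₀ b ^ 2 := by
      have h2 : ∀ b ∈ Y₀ᶜ, (1 : ℤ) ≤ a₀ b ^ 2 := by
        intro b hb
        have h3 := ha₀ b (Finset.mem_compl.mp hb)
        have h4 : 0 < a₀ b ^ 2 := by positivity
        omega
      calc ((Y₀ᶜ.card : ℕ) : ℤ) = ∑ _b ∈ Y₀ᶜ, (1 : ℤ) := by simp
        _ ≤ _ := Finset.sum_le_sum h2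
    have h2 : 1 ≤ (d - δ) ^ 2 + ((Y₀.card : ℤ) - 1) * d ^ 2 := by
      by_cases hd : d = 0
      · subst hd
        rcases hδ with rfl | rfl <;> norm_num
      · have h3 : 0 < d ^ 2 := by positivity
        have h4 : (1 : ℤ) ≤ (Y₀.card : ℤ) - 1 := by
          have : (2 : ℤ) ≤ (Y₀.card : ℤ) := by exact_mod_cast hY2
          linarith
        nlinarith [sq_nonneg (d - δ)]
    have h3 : ((Y₀ᶜ.card : ℕ) : ℤ) ≤ (m : ℤ) := by linarith
    exact_mod_cast h3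
  refine ⟨Y₀ᶜ.card, Xs, Ys, hs_le, ?_, ?_, ?_, ?_, ?_, a, d, δ, ζ, hδ, ?_, ?_, ?_, ?_, ?_, ?_, ?_, ?_, ?_, ?_⟩
  · -- the union
    ext χ
    rw [Set.mem_union, hXmem, hYmem]
    constructor
    · intro hχ
      by_cases h : (⟨χ, hχ⟩ : B) ∈ Y₀
      · exact Or.inr ⟨_, h, rfl⟩
      · exact Or.inl ⟨_, h, rfl⟩
    · rintro (⟨b, _, rfl⟩ | ⟨b, _, rfl⟩) <;> exact b.2
  · -- disjointness
    rw [Set.disjoint_left]
    intro χ h1 h2
    obtain ⟨b₁, hb₁, rfl⟩ := (hXmem χ).mp h1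
    obtain ⟨b₂, hb₂, h3⟩ := (hYmem _).mp h2
    have h4 : b₂ = b₁ := Subtype.ext h3
    exact hb₁ (h4 ▸ hb₂)
  · -- the cardinality of X
    show Nat.card (Subtype.val '' ((Y₀ᶜ : Finset B) : Set B)) = _
    rw [Nat.card_image_of_injective Subtype.val_injective, Nat.card_coe_set_eq,
      Set.ncard_coe_finset]
  · -- the cardinality of Y
    show Nat.card (Subtype.val '' ((Y₀ : Finset B) : Set B)) = _
    rw [Nat.card_image_of_injective Subtype.val_injective, hr, Nat.card_coe_set_eq,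
      Set.ncard_coe_finset]
  · -- the principal character
    refine ⟨oneIrr G, ?_, rfl⟩
    rw [hXmem]
    exact ⟨⟨oneIrr G, oneIrr_mem_principal⟩, hone _ (fun y => rfl), rfl⟩
  · -- the characters in X
    intro χ hχ
    obtain ⟨b, hb, rfl⟩ := (hXmem χ).mp hχ
    rw [ha]
    refine ⟨ha₀ b hb, ?_⟩
    intro z y hz hy hy1
    rw [bw_section_value hM P hcomm hfrob b.2 hz hy hy1]
    exact hout b hb ⟨y, hy⟩ (fun h => hy1 (congrArg Subtype.val h))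
  · -- ζ lands in Y
    intro ψ hψ
    exact (hYmem _).mpr ⟨_, hζmem ψ hψ, rfl⟩
  · -- ζ is onto
    intro η hη
    obtain ⟨b, hb, rfl⟩ := (hYmem η).mp hη
    obtain ⟨ψ, hψ, rfl⟩ := hζsurj b hb
    exact ⟨ψ, hψ, rfl⟩
  · -- constant on classes
    intro ψ ψ' hψ h
    obtain ⟨γ, rfl⟩ := hrel ψ ψ' h
    exact congrArg Subtype.val (hζinv ψ hψ γ)
  · -- the values of ζ
    intro ψ hψ z y hz hy1
    have h1 : (ζ ψ : G → ℂ) z = (ζ ψ : G → ℂ) y :=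
      bw_section_value hM P hcomm hfrob (ζ₀ ψ).2 hz y.2 hy1
    rw [h1, hsum ψ hψ y]
    exact hin ψ hψ y (fun h => hy1 (congrArg Subtype.val h))
  · -- the norm
    rw [hfsZ, hintr]
    simp only [ha]
    exact hnorm
  · -- the p-regular values agree
    intro η hη η' hη' g hg
    obtain ⟨b, hb, rfl⟩ := (hYmem η).mp hη
    obtain ⟨ψ, hψ, rfl⟩ := hζsurj b hb
    obtain ⟨b', hb', rfl⟩ := (hYmem η').mp hη'
    obtain ⟨ψ', hψ', rfl⟩ := hζsurj b' hb'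
    exact (hcols (fun b => b.1.1 g) (fun y hy => hreg g hg y hy)).1 ψ ψ' hψ hψ'
  · -- the relation
    intro η hη g hg
    obtain ⟨b, hb, rfl⟩ := (hYmem η).mp hη
    obtain ⟨ψ, hψ, rfl⟩ := hζsurj b hb
    have h1 := (hcols (fun b => b.1.1 g) (fun y hy => hreg g hg y hy)).2 ψ hψ
    rw [hr, hfsC]
    simp only [ha]
    exact h1
  · -- the number of classes
    have h1 : Nat.card Ys = Y₀.card := by
      show Nat.card (Subtype.val '' ((Y₀ : Finset B) : Set B)) = _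
      rw [Nat.card_image_of_injective Subtype.val_injective, Nat.card_coe_set_eq,
        Set.ncard_coe_finset]
    rw [h1]
    exact hcard
  · -- products of orbit sums
    intro hd0 u v hu hv η hη
    subst hd0
    obtain ⟨b, hb, rfl⟩ := (hYmem η).mp hη
    obtain ⟨ψ, hψ, rfl⟩ := hζsurj b hb
    have hδsq : (δ : ℂ) * δ = 1 := by
      rcases hδ with rfl | rfl <;> norm_num
    have hval : ∀ w : (P : Subgroup G), w ≠ 1 →
        ∑ γ : Γ, ((ψ ((γ : MulAut (P : Subgroup G)) w) : ℂˣ) : ℂ) = δ * (ζ₀ ψ).1.1 w := by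
      intro w hw
      have h1 := hin ψ hψ w hw
      simp only [X, Int.cast_zero, zero_add, twistD_apply] at h1
      rw [h1, ← mul_assoc, hδsq, one_mul]
    have hu' := hval u hu
    have hv' := hval v hv
    have hprod : ((ζ₀ ψ).1.1 u) * ((ζ₀ ψ).1.1 v) =
        (∑ γ : Γ, ((ψ ((γ : MulAut (P : Subgroup G)) u) : ℂˣ) : ℂ)) *
        (∑ γ : Γ, ((ψ ((γ : MulAut (P : Subgroup G)) v) : ℂˣ) : ℂ)) := by
      rw [hu', hv']
      linear_combination (-(ζ₀ ψ).1.1 u * (ζ₀ ψ).1.1 v) * hδsq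
    rw [show ((ζ₀ ψ : B).1 : G → ℂ) (u : G) = (ζ₀ ψ).1.1 u from rfl,
      show ((ζ₀ ψ : B).1 : G → ℂ) (v : G) = (ζ₀ ψ).1.1 v from rfl, hprod, Finset.sum_mul_sum]
    have hre : ∀ γ : Γ, ∑ τ : Γ, ((ψ ((γ : MulAut (P : Subgroup G)) u) : ℂˣ) : ℂ) *
        ((ψ ((τ : MulAut (P : Subgroup G)) v) : ℂˣ) : ℂ) = ∑ σ : Γ,
        ((ψ ((γ : MulAut (P : Subgroup G)) (u * (σ : MulAut (P : Subgroup G)) v)) : ℂˣ) : ℂ) := by
      intro γ
      refine (Fintype.sum_equiv (Equiv.mulLeft γ⁻¹) _ _ fun τ => ?_)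
      simp only [Equiv.coe_mulLeft]
      rw [map_mul, map_mul]
      have e1 : (γ : MulAut (P : Subgroup G)) (((γ⁻¹ * τ : Γ) : MulAut (P : Subgroup G)) v) =
          (τ : MulAut (P : Subgroup G)) v := by
        have e2 : ((γ⁻¹ * τ : Γ) : MulAut (P : Subgroup G)) v =
            (γ : MulAut (P : Subgroup G))⁻¹ ((τ : MulAut (P : Subgroup G)) v) := rfl
        rw [e2, MulAut.apply_inv_self]
      rw [e1, Units.val_mul]
    simp only [hre]
    rw [Finset.sum_comm, finsum_eq_sum_of_fintype, Finset.mul_sum]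
    refine Finset.sum_congr rfl fun σ _ => ?_
    by_cases hw : u * (σ : MulAut (P : Subgroup G)) v = 1
    · rw [if_pos hw, hw]
      simp only [map_one, Units.val_one, Finset.sum_const, Finset.card_univ, nsmul_eq_mul, mul_one]
      rw [hΓcard]
      linear_combination (-(m : ℂ)) * hδsq
    · rw [if_neg hw, hval _ hw]


theorem bw_main {G : Type u} [Group G] [Finite G] (p : ℕ) [hp : Fact p.Prime] (M : Ideal Cfsg.AlgInt) (hM : Cfsg.IsPModular p M) (P : Sylow p G) (hab : IsMulCommutative P) (hP1 : Nat.card P ≠ 1) (m : ℕ) (hm1 : 1 < m) (hm2 : m + 1 < Nat.card P) (hCN : (Subgroup.centralizer ((P : Subgroup G) : Set G)).relIndex (Subgroup.normalizer ((P : Subgroup G) : Set G)) = m) (hfrob : ∀ y : G, y ∈ (P : Subgroup G) → y ≠ 1 → Subgroup.centralizer ({y} : Set G) ⊓ Subgroup.normalizer ((P : Subgroup G) : Set G) = Subgroup.centralizer ((P : Subgroup G) : Set G)) : ∃ (s : ℕ) (X Y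 : Set (Cfsg.IrrCharacter G)), s ≤ m ∧ Cfsg.principalBlock M G = X ∪ Y ∧ Disjoint X Y ∧ Nat.card X = s ∧ Nat.card Y = (Nat.card P - 1) / m ∧ (∃ χ₁ ∈ X, (χ₁ : G → ℂ) = fun _ => 1) ∧ ∃ (a : Cfsg.IrrCharacter G → ℤ) (d δ : ℤ) (ζ : (↥(P : Subgroup G) →* ℂˣ) → Cfsg.IrrCharacter G), (δ = 1 ∨ δ = -1) ∧ (∀ χ ∈ X, a χ ≠ 0 ∧ ∀ z y : G, Cfsg.IsPPart p z y → y ∈ (P : Subgroup G) → y ≠ 1 → (χ : G → ℂ) z = (a χ : ℂ)) ∧ (∀ ψ : ↥(P : Subgroup G) →* ℂˣ, ψ ≠ 1 → ζ ψ ∈ Y) ∧ (∀ η ∈ Y, ∃ ψ : ↥(P : Subgroup G) →* ℂˣ, ψ ≠ 1 ∧ ζ ψ = η) ∧ (∀ ψ ψ' : ↥(P : Subgroup G) →* ℂˣ, ψ ≠ 1 → (∃ n : G, n ∈ Subgroup.normalizer ((P : Subgroup G) : Set G) ∧ ∀ w w' : ↥(P : Subgroup G), (w' : G) = n * w * n⁻¹ → ψ' w' = ψ w) → ζ ψ' = ζ ψ) ∧ (∀ ψ : ↥(P : Subgroup G) →* ℂˣ, ψ ≠ 1 → ∀ (z : G) (y : ↥(P : Subgroup G)), Cfsg.IsPPart p z (y : G) → (y : G) ≠ 1 → (ζ ψ : G → ℂ) z = (d : ℂ) + (δ : ℂ) * ∑ᶠ ψ' ∈ {ψ' : ↥(P : Subgroup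 G) →* ℂˣ | ∃ n : G, n ∈ Subgroup.normalizer ((P : Subgroup G) : Set G) ∧ ∀ w w' : ↥(P : Subgroup G), (w' : G) = n * w * n⁻¹ → ψ' w' = ψ w}, ((ψ' y : ℂˣ) : ℂ)) ∧ ((d - δ) ^ 2 + ((Nat.card P - 1) / m - 1 : ℤ) * d ^ 2 + ∑ᶠ χ ∈ X, a χ ^ 2 = (m : ℤ) + 1) ∧ (∀ η ∈ Y, ∀ η' ∈ Y, ∀ g : G, ¬ p ∣ orderOf g → (η : G → ℂ) g = (η' : G → ℂ) g) ∧ (∀ η ∈ Y, ∀ g : G, ¬ p ∣ orderOf g → ((((Nat.card P - 1) / m : ℕ) : ℂ) * d - δ) * (η : G → ℂ) g + ∑ᶠ χ ∈ X, (a χ : ℂ) * (χ : G → ℂ) g = 0) := by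
  obtain ⟨s, X, Y, h1, h2, h3, h4, h5, h6, a, d, δ, ζ, h7, h8, h9, h10, h11, h12, h13, h14, h15, -, -⟩ :=
    bw_main2 p M hM P hab hP1 m hm1 hm2 hCN hfrob
  exact ⟨s, X, Y, h1, h2, h3, h4, h5, h6, a, d, δ, ζ, h7, h8, h9, h10, h11, h12, h13, h14, h15⟩

end Cfsg.Agent.H22
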