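import Cfsg.Agent.Lib.H22.BlockField
import Cfsg.Agent.Lib.H21.NormalBlocks
import Cfsg.Agent.Lib.H21.ModP
import Cfsg.Agent.Lib.H06.FittingHall

/-! # The column sums `λ(G,x)` of the principal block -/

set_option autoImplicit false
set_option linter.unusedSectionVars false
set_option linter.style.haveILetI false
set_option linter.unusedSimpArgs false
set_option linter.unusedVariables false

namespace Cfsg.Agent.H22

open Cfsg Cfsg.Agent.H21 Module
open scoped ComplexConjugate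

universe u

variable {G : Type u} [Group G] [Finite G] {p : ℕ} [hp : Fact p.Prime] {M : Ideal AlgInt}

/-- An element of a cyclotomic field fixed by all the automorphisms of `ℂ` is rational. -/
theorem rat_of_fixed {n : ℕ} (hn : n ≠ 0) {ζ : ℂ} (hζ : IsPrimitiveRoot ζ n) {s : ℂ}
    (hsE : s ∈ IntermediateField.adjoin ℚ ({ζ} : Set ℂ))
    (hfix : ∀ τ : ℂ →+* ℂ, ∀ k : ℕ, k.Coprime n → τ ζ = ζ ^ k → τ s = s) : ∃ q : ℚ, s = (q : ℂ) := by
  classical
  haveI : NeZero n := ⟨hn⟩
  set E : IntermediateField ℚ ℂ := IntermediateField.adjoin ℚ {ζ} with hE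
  have halg : IsAlgebraic ℚ ζ := by
    refine ⟨Polynomial.X ^ n - 1, Polynomial.X_pow_sub_C_ne_zero (Nat.pos_of_ne_zero hn) (1 : ℚ), ?_⟩
    simp [hζ.pow_eq_one]
  have hcyc : IsCyclotomicExtension {n} ℚ E := by
    change IsCyclotomicExtension {n} ℚ E.toSubalgebra
    rw [hE, IntermediateField.adjoin_simple_toSubalgebra_of_isAlgebraic halg]
    exact hζ.adjoin_isCyclotomicExtension ℚ
  haveI : IsGalois ℚ E := IsCyclotomicExtension.isGalois {n} ℚ E
  haveI : FiniteDimensional ℚ E := IsCyclotomicExtension.finiteDimensional {n} ℚ E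
  set x' : E := ⟨s, hsE⟩ with hx'
  have hfixed : ∀ σ : Gal(E/ℚ), σ x' = x' := by
    intro σ
    obtain ⟨τ, hτ⟩ := H06.exists_ringHom_extend (K := E) σ.toRingEquiv
    have hτE : ∀ a : E, τ (a : ℂ) = ((σ a : E) : ℂ) := fun a => hτ a
    have hτζ : (τ ζ) ^ n = 1 := by
      rw [← map_pow, hζ.pow_eq_one, map_one]
    obtain ⟨k, -, hk⟩ := hζ.eq_pow_of_pow_eq_one hτζ
    have hprim : IsPrimitiveRoot (τ ζ) n := hζ.map_of_injective τ.injective
    rw [← hk] at hprim
    have hcop : k.Coprime n := (hζ.pow_iff_coprime (Nat.pos_of_ne_zero hn) k).mp hprim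
    have h1 := hfix τ k hcop hk.symm
    apply Subtype.ext
    have h6 := hτE x'
    have h7 : (x' : ℂ) = s := rfl
    rw [h7, h1] at h6
    rw [← h6]
  have hbot := (IsGalois.mem_bot_iff_fixed x').mpr hfixed
  obtain ⟨y, hy⟩ := IntermediateField.mem_bot.mp hbot
  have h8 : (algebraMap ℚ ℂ y) = s := congrArg Subtype.val hy
  exact ⟨y, by rw [← h8]; simp⟩

/-- Rational algebraic integers are integers. -/
theorem int_of_fixed {n : ℕ} (hn : n ≠ 0) {ζ : ℂ} (hζ : IsPrimitiveRoot ζ n) {s : ℂ}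
    (hsE : s ∈ IntermediateField.adjoin ℚ ({ζ} : Set ℂ))
    (hfix : ∀ τ : ℂ →+* ℂ, ∀ k : ℕ, k.Coprime n → τ ζ = ζ ^ k → τ s = s)
    (hint : IsIntegral ℤ s) : ∃ z : ℤ, s = (z : ℂ) := by
  obtain ⟨q, rfl⟩ := rat_of_fixed hn hζ hsE hfix
  obtain ⟨z, rfl⟩ := isInt_of_isIntegral_rat q hint
  exact ⟨z, by simp⟩

theorem character_value_mem_adjoin {χ : G → ℂ} (hχ : IsCharacter G χ) (g : G) {ζ : ℂ}
    (hζ : IsPrimitiveRoot ζ (Nat.card G)) : χ g ∈ IntermediateField.adjoin ℚ ({ζ} : Set ℂ) := by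
  obtain ⟨ι, _, e, he⟩ := character_eq_sum_pow hχ g hζ
  have h1 := he 1
  rw [pow_one, pow_one] at h1
  rw [h1]
  exact sum_mem fun i _ => pow_mem (IntermediateField.mem_adjoin_simple_self ℚ ζ) _

theorem centralizer_pow_eq {k : ℕ} (hk : k.Coprime (Nat.card G)) (g : G) :
    Subgroup.centralizer ({g ^ k} : Set G) = Subgroup.centralizer ({g} : Set G) := by
  ext y
  rw [Subgroup.mem_centralizer_singleton_iff, Subgroup.mem_centralizer_singleton_iff]
  constructor
  · intro h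
    have h1 : (y * g * y⁻¹) ^ k = g ^ k := by rw [conj_pow, h, mul_inv_cancel_right]
    have h2 := (powCoprime (G := G) (n := k) (Nat.coprime_comm.mp hk)).injective
      (a₁ := y * g * y⁻¹) (a₂ := g) h1
    calc y * g = (y * g * y⁻¹) * y := by group
      _ = g * y := by rw [h2]
  · intro h
    have : Commute y g := h
    exact (this.pow_right k).eq

/-- Galois conjugation preserves the relation of being in the same block. -/
theorem powIrr_sameBlock {k : ℕ} (hk : k.Coprime (Nat.card G)) {χ ψ : IrrCharacter G}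
    (h : SameBlock M χ.1 ψ.1) : SameBlock M (powIrr hk χ).1 (powIrr hk ψ).1 := by
  intro g
  have h1 := h (g ^ k)
  unfold centralChar at h1 ⊢
  rw [centralizer_pow_eq hk] at h1
  simp only [powIrr_apply, one_pow]
  exact h1

theorem powIrr_oneIrr {k : ℕ} (hk : k.Coprime (Nat.card G)) : powIrr hk (oneIrr G) = oneIrr G := rfl

theorem powIrr_mem_principal {k : ℕ} (hk : k.Coprime (Nat.card G)) {χ : IrrCharacter G}
    (h : χ ∈ principalBlock M G) : powIrr hk χ ∈ principalBlock M G := by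
  have h1 := powIrr_sameBlock (M := M) hk (χ := oneIrr G) (ψ := χ) h
  rw [powIrr_oneIrr] at h1
  exact h1

/-- The inflation of an irreducible character. -/
noncomputable def inflIrr (N : Subgroup G) [hN : N.Normal] (ψ : IrrCharacter (G ⧸ N)) : IrrCharacter G :=
  ⟨ψ.1 ∘ QuotientGroup.mk' N, isIrr_inflate N ψ.2⟩

theorem inflIrr_apply (N : Subgroup G) [hN : N.Normal] (ψ : IrrCharacter (G ⧸ N)) (g : G) :
    (inflIrr N ψ).1 g = ψ.1 (g : G ⧸ N) := rfl

theorem inflIrr_bijOn (hM : IsPModular p M) (N : Subgroup G) [hN : N.Normal] (hcop : ¬ p ∣ Nat.card N) :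
    Set.BijOn (inflIrr N) (principalBlock M (G ⧸ N)) (principalBlock M G) := by
  haveI : M.IsPrime := hM.2.1.isPrime
  refine ⟨?_, ?_, ?_⟩
  · intro ψ hψ
    have h1 := sameBlock_inflate (M := M) N (χ := (oneIrr (G ⧸ N)).1) (ψ := ψ.1) hψ
    exact h1
  · intro ψ _ ψ' _ h
    apply Subtype.ext
    funext q
    obtain ⟨g, rfl⟩ := QuotientGroup.mk_surjective q
    exact congrFun (congrArg Subtype.val h) g
  · intro χ hχ
    have h1 := block_of_inflation hM hcop (N := N) (oneIrr (G ⧸ N)) χ hχ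
    obtain ⟨ψ', h2, h3⟩ := h1
    exact ⟨ψ', h3, Subtype.ext h2.symm⟩

theorem finsum_principal_eq {K : Type u} [Group K] [Finite K] (F : IrrCharacter K → ℝ) :
    letI := Classical.decPred (· ∈ principalBlock M K)
    ∑ᶠ χ ∈ principalBlock M K, F χ = ∑ χ ∈ Finset.univ.filter (· ∈ principalBlock M K), F χ := by
  classical
  rw [finsum_mem_eq_finite_toFinset_sum _ (Set.toFinite _)]
  refine Finset.sum_congr ?_ fun _ _ => rfl
  ext χ
  simp

/-- `λ(G,x)` is a positive integer. -/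
theorem lam_isNat (hM : IsPModular p M) (x : G) :
    ∃ n : ℕ, 0 < n ∧ ∑ᶠ χ ∈ principalBlock M G, Complex.normSq (χ.1 x) = n := by
  classical
  haveI : M.IsPrime := hM.2.1.isPrime
  set n := Nat.card G with hn
  have hn0 : n ≠ 0 := Nat.card_pos.ne'
  set ζ := Complex.exp (2 * Real.pi * Complex.I / (n : ℂ)) with hζd
  have hζ : IsPrimitiveRoot ζ n := Complex.isPrimitiveRoot_exp n hn0
  rw [finsum_principal_eq]
  set B := (Finset.univ : Finset (IrrCharacter G)).filter (· ∈ principalBlock M G) with hB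
  set s : ℂ := ∑ χ ∈ B, χ.1 x * χ.1 x⁻¹ with hs
  have hsum : s = ((∑ χ ∈ B, Complex.normSq (χ.1 x) : ℝ) : ℂ) := by
    rw [hs]
    push_cast
    refine Finset.sum_congr rfl fun χ _ => ?_
    rw [irr_inv', Complex.mul_conj]
  have hint : IsIntegral ℤ s := by
    refine IsIntegral.sum _ fun χ _ => IsIntegral.mul (irr_isIntegral' χ _) (irr_isIntegral' χ _)
  have hE : s ∈ IntermediateField.adjoin ℚ ({ζ} : Set ℂ) := by
    refine sum_mem fun χ _ => mul_mem ?_ ?_
    · exact character_value_mem_adjoin (Cfsg.Agent.H21.isCharacter_of_irr χ.2) x hζ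
    · exact character_value_mem_adjoin (Cfsg.Agent.H21.isCharacter_of_irr χ.2) x⁻¹ hζ
  have hfix : ∀ τ : ℂ →+* ℂ, ∀ k : ℕ, k.Coprime n → τ ζ = ζ ^ k → τ s = s := by
    intro τ k hk hτ
    let π := powIrr (G := G) hk
    have hinj : Function.Injective π := (powIrr_bijective hk).1
    have hsub : B.image π ⊆ B := by
      intro ψ hψ
      obtain ⟨χ, hχ, rfl⟩ := Finset.mem_image.mp hψ
      exact Finset.mem_filter.mpr ⟨Finset.mem_univ _, powIrr_mem_principal hk (Finset.mem_filter.mp hχ).2⟩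
    have himg : B.image π = B := Finset.eq_of_subset_of_card_le hsub
      (by rw [Finset.card_image_of_injective _ hinj])
    conv_rhs => rw [hs, ← himg, Finset.sum_image (fun a _ b _ h => hinj h)]
    rw [hs, map_sum]
    refine Finset.sum_congr rfl fun χ _ => ?_
    rw [map_mul, character_map (Cfsg.Agent.H21.isCharacter_of_irr χ.2) x hζ hτ,
      character_map (Cfsg.Agent.H21.isCharacter_of_irr χ.2) x⁻¹ hζ hτ]
    rfl
  obtain ⟨z, hz⟩ := int_of_fixed hn0 hζ hE hfix hint
  have hz' : (∑ χ ∈ B, Complex.normSq (χ.1 x) : ℝ) = (z : ℝ) := by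
    have h1 : (((∑ χ ∈ B, Complex.normSq (χ.1 x) : ℝ)) : ℂ) = ((z : ℝ) : ℂ) := by
      rw [← hsum, hz]
      simp
    exact Complex.ofReal_injective h1
  have hpos : (1 : ℝ) ≤ ∑ χ ∈ B, Complex.normSq (χ.1 x) := by
    have h1 : oneIrr G ∈ B := Finset.mem_filter.mpr ⟨Finset.mem_univ _, oneIrr_mem_principal⟩
    have h2 := Finset.single_le_sum (f := fun χ : IrrCharacter G => Complex.normSq (χ.1 x))
      (fun χ _ => Complex.normSq_nonneg _) h1
    have h3 : Complex.normSq ((oneIrr G).1 x) = 1 := by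
      unfold oneIrr
      simp
    simp only [h3] at h2
    exact h2
  have hzpos : 1 ≤ z := by
    rw [hz'] at hpos
    exact_mod_cast hpos
  refine ⟨z.toNat, by omega, ?_⟩
  rw [hz']
  have : ((z.toNat : ℤ) : ℝ) = (z : ℝ) := by
    rw [Int.toNat_of_nonneg (by omega)]
  rw [← this, Int.cast_natCast]

/-- `λ(G,x) = λ(G/N, xN)` for a normal `p'`-subgroup. -/
theorem lam_quot (hM : IsPModular p M) (N : Subgroup G) [hN : N.Normal] (hcop : ¬ p ∣ Nat.card N)
    (x : G) : ∑ᶠ χ ∈ principalBlock M G, Complex.normSq (χ.1 x) =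
      ∑ᶠ ψ ∈ principalBlock M (G ⧸ N), Complex.normSq (ψ.1 (x : G ⧸ N)) := by
  symm
  refine finsum_mem_eq_of_bijOn (inflIrr N) (inflIrr_bijOn hM N hcop) fun ψ _ => ?_
  rfl

theorem lam_le (hM : IsPModular p M) (x : G) :
    ∑ᶠ χ ∈ principalBlock M G, Complex.normSq (χ.1 x) ≤
      (Nat.card (Subgroup.centralizer ({x} : Set G)) : ℝ) := by
  classical
  rw [finsum_principal_eq]
  have h1 := column_orthogonality_of_isConj (IsConj.refl x)
  have h2 : (∑ χ : IrrCharacter G, Complex.normSq (χ.1 x) : ℝ) =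
      (Nat.card (Subgroup.centralizer ({x} : Set G)) : ℝ) := by
    have h3 : ((∑ χ : IrrCharacter G, Complex.normSq (χ.1 x) : ℝ) : ℂ) =
        ((Nat.card (Subgroup.centralizer ({x} : Set G)) : ℝ) : ℂ) := by
      push_cast
      rw [← h1]
      refine Finset.sum_congr rfl fun χ _ => ?_
      rw [Complex.mul_conj]
    exact_mod_cast h3
  rw [← h2]
  exact Finset.sum_le_sum_of_subset_of_nonneg (Finset.subset_univ _)
    (fun χ _ _ => Complex.normSq_nonneg _)

theorem charDegree_inflIrr (N : Subgroup G) [hN : N.Normal] (ψ : IrrCharacter (G ⧸ N)) :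
    charDegree (inflIrr N ψ).1 = charDegree ψ.1 := by
  unfold charDegree
  rfl

theorem lam_one_iff (hM : IsPModular p M) (N : Subgroup G) [hN : N.Normal] (hcop : ¬ p ∣ Nat.card N) :
    (∑ᶠ χ ∈ principalBlock M G, charDegree χ.1 ^ 2) = N.index ↔
      ∀ B : Set (IrrCharacter (G ⧸ N)), IsPBlock M B → B = principalBlock M (G ⧸ N) := by
  classical
  haveI : M.IsPrime := hM.2.1.isPrime
  have h1 : ∑ᶠ χ ∈ principalBlock M G, charDegree χ.1 ^ 2 =
      ∑ᶠ ψ ∈ principalBlock M (G ⧸ N), charDegree ψ.1 ^ 2 := by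
    symm
    refine finsum_mem_eq_of_bijOn (inflIrr N) (inflIrr_bijOn hM N hcop) fun ψ _ => ?_
    rw [charDegree_inflIrr]
  rw [h1]
  have h2 : ∑ᶠ ψ ∈ principalBlock M (G ⧸ N), charDegree ψ.1 ^ 2 =
      ∑ ψ ∈ (Finset.univ : Finset (IrrCharacter (G ⧸ N))).filter (· ∈ principalBlock M (G ⧸ N)),
        charDegree ψ.1 ^ 2 := by
    rw [finsum_mem_eq_finite_toFinset_sum _ (Set.toFinite _)]
    refine Finset.sum_congr ?_ fun _ _ => rfl
    ext χ
    simp
  rw [h2]
  have h3 : N.index = ∑ ψ : IrrCharacter (G ⧸ N), charDegree ψ.1 ^ 2 := by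
    rw [sum_degree_sq]
    rfl
  rw [h3]
  have hdeg : ∀ ψ : IrrCharacter (G ⧸ N), 0 < charDegree ψ.1 ^ 2 := by
    intro ψ
    have h4 : charDegree ψ.1 ≠ 0 := by
      intro h0
      have := Cfsg.Agent.H21.one_eq_charDegree (Cfsg.Agent.H21.isCharacter_of_irr ψ.2)
      rw [h0] at this
      exact irr_one_ne_zero' ψ (by simpa using this)
    positivity
  constructor
  · intro h B hB
    have h5 : ∀ ψ : IrrCharacter (G ⧸ N), ψ ∈ principalBlock M (G ⧸ N) := by
      intro ψ
      by_contra hψ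
      have h6 : ∑ ψ ∈ (Finset.univ : Finset (IrrCharacter (G ⧸ N))).filter (· ∈ principalBlock M (G ⧸ N)),
          charDegree ψ.1 ^ 2 < ∑ ψ : IrrCharacter (G ⧸ N), charDegree ψ.1 ^ 2 := by
        refine Finset.sum_lt_sum_of_subset (Finset.subset_univ _) (Finset.mem_univ ψ) ?_ (hdeg ψ) ?_
        · intro h7
          exact hψ (Finset.mem_filter.mp h7).2
        · intro _ _ _
          exact Nat.zero_le _
      omega
    obtain ⟨χ, rfl⟩ := hB
    exact blockOf_eq_of_mem (χ := oneIrr (G ⧸ N)) (h5 χ)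
  · intro h
    have h5 : ∀ ψ : IrrCharacter (G ⧸ N), ψ ∈ principalBlock M (G ⧸ N) := by
      intro ψ
      have h6 := h (blockOf M ψ.1) ⟨ψ, rfl⟩
      rw [← h6]
      exact self_mem_blockOf ψ
    refine Finset.sum_congr ?_ fun _ _ => rfl
    ext ψ
    simp [h5 ψ]

end Cfsg.Agent.H22
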