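import Cfsg.Agent.Lib.H22.Deg2pB
import Cfsg.Agent.Lib.H22.PrincipalLam

/-! # Sylow normalizers of order `2p`: the order of the group for `p ≥ 7` -/

set_option autoImplicit false
set_option linter.unusedSectionVars false
set_option linter.style.haveILetI false
set_option linter.unusedSimpArgs false
set_option linter.unusedVariables false

namespace Cfsg.Agent.H22

open Cfsg Cfsg.Agent.H21 Cfsg.Agent.H06 Cfsg.Agent.H03
open scoped ComplexConjugate

attribute [-instance] Cfsg.Agent.H22.fintypeOfFiniteH22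

section Ineq

variable {G : Type*} [Group G] [Finite G]

theorem unit_sq_ineq (u : ℂ) (hu : ‖u‖ = 1) : 1 - (u ^ 2).re ≤ 4 * (1 - u.re) := by
  have h1 := Complex.sq_norm u
  rw [hu, Complex.normSq_apply] at h1
  rw [sq, Complex.mul_re]
  nlinarith [sq_nonneg (1 - u.re)]

theorem char_sq_ineq {χ : G → ℂ} (hχ : IsCharacter G χ) (g : G) :
    (χ 1).re - (χ (g * g)).re ≤ 4 * ((χ 1).re - (χ g).re) := by
  have hN : Nat.card G ≠ 0 := Nat.card_pos.ne'
  have hζ := Complex.isPrimitiveRoot_exp (Nat.card G) hN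
  set ζ := Complex.exp (2 * Real.pi * Complex.I / (Nat.card G : ℕ)) with hζdef
  obtain ⟨ι, hι, e, he⟩ := character_eq_sum_pow hχ g hζ
  have h0 := he 0
  have h1 := he 1
  have h2 := he 2
  simp only [pow_zero, one_pow, pow_one] at h0 h1
  rw [pow_two] at h2
  have hnorm : ∀ i, ‖ζ ^ e i‖ = 1 := by
    intro i
    apply Complex.norm_eq_one_of_pow_eq_one (n := Nat.card G) _ hN
    rw [← pow_mul, mul_comm, pow_mul, hζ.pow_eq_one, one_pow]
  have h2' : χ (g * g) = ∑ i, (ζ ^ e i) ^ 2 := by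
    rw [h2]
    refine Finset.sum_congr rfl fun i _ => ?_
    rw [← pow_mul, ← pow_mul, mul_comm]
  rw [h0, h1, h2', Complex.re_sum, Complex.re_sum, Complex.re_sum, ← Finset.sum_sub_distrib,
    ← Finset.sum_sub_distrib, Finset.mul_sum]
  refine Finset.sum_le_sum fun i _ => ?_
  simpa using unit_sq_ineq _ (hnorm i)

theorem int_of_pow_fixed {χ : G → ℂ} (hχ : IsCharacter G χ) (g : G)
    (h : ∀ k : ℕ, k.Coprime (Nat.card G) → χ (g ^ k) = χ g) : ∃ z : ℤ, χ g = z := by
  have hN : Nat.card G ≠ 0 := Nat.card_pos.ne'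
  have hζ := Complex.isPrimitiveRoot_exp (Nat.card G) hN
  set ζ := Complex.exp (2 * Real.pi * Complex.I / (Nat.card G : ℕ)) with hζdef
  apply int_of_fixed hN hζ (character_value_mem_adjoin hχ g hζ) _ (isCharacter_isIntegral hχ g)
  intro τ k hk hτ
  obtain ⟨ι, hι, e, he⟩ := character_eq_sum_pow hχ g hζ
  have h1 := he 1
  have h2 := he k
  simp only [pow_one] at h1
  rw [h1, map_sum]
  simp only [map_pow, hτ]
  rw [← h2, ← h1, h k hk]

end Ineq

section Main

variable {G : Type*} [Group G] [Fintype G] {p : ℕ} [Fact p.Prime] {P : Subgroup G} [Fintype P]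

theorem exc2_D_fixed (D R : IrrCharacter G) {π : G → ℂ}
    (hπ : π = fun g => 1 + (D : G → ℂ) g + (R : G → ℂ) g)
    (hD1 : (D : G → ℂ) 1 = (p : ℂ) - 1) (hR1 : (R : G → ℂ) 1 = p)
    (hrat : ∀ k : ℕ, k.Coprime (Nat.card G) → ∀ g, π (g ^ k) = π g)
    (k : ℕ) (hk : k.Coprime (Nat.card G)) (g : G) : (D : G → ℂ) (g ^ k) = (D : G → ℂ) g := by
  classical
  have hD' := isIrrCharacter_comp_pow hk D.2
  have hR' := isIrrCharacter_comp_pow hk R.2
  let D' : IrrCharacter G := ⟨_, hD'⟩
  let R' : IrrCharacter G := ⟨_, hR'⟩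
  have hsum : (D' : G → ℂ) + (R' : G → ℂ) = (D : G → ℂ) + (R : G → ℂ) := by
    funext h
    have := hrat k hk h
    rw [hπ] at this
    simp only [Pi.add_apply]
    show (D : G → ℂ) (h ^ k) + (R : G → ℂ) (h ^ k) = _
    linear_combination this
  have h1 : classInner (D' : G → ℂ) ((D' : G → ℂ) + (R' : G → ℂ)) =
      classInner (D' : G → ℂ) ((D : G → ℂ) + (R : G → ℂ)) := by rw [hsum]
  rw [classInner_add_right, classInner_add_right, classInner_irr, classInner_irr, classInner_irr,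
    classInner_irr, if_pos rfl] at h1
  have hne : D' ≠ R := by
    intro h
    have h2 := congrFun (congrArg Subtype.val h) 1
    have h3 : (D : G → ℂ) (1 ^ k) = (R : G → ℂ) 1 := h2
    rw [one_pow, hD1, hR1] at h3
    have : (0 : ℂ) = 1 := by linear_combination h3
    exact zero_ne_one this
  have hDD : D' = D := by
    by_contra hcon
    rw [if_neg hcon, if_neg hne] at h1
    split_ifs at h1 <;> norm_num at h1
  have := congrFun (congrArg Subtype.val hDD) g
  exact this

theorem exc2_D_int (D R : IrrCharacter G) {π : G → ℂ}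
    (hπ : π = fun g => 1 + (D : G → ℂ) g + (R : G → ℂ) g)
    (hD1 : (D : G → ℂ) 1 = (p : ℂ) - 1) (hR1 : (R : G → ℂ) 1 = p)
    (hrat : ∀ k : ℕ, k.Coprime (Nat.card G) → ∀ g, π (g ^ k) = π g) (g : G) :
    ∃ z : ℤ, (D : G → ℂ) g = z :=
  int_of_pow_fixed (Cfsg.Agent.H21.isCharacter_of_irr D.2) g fun k hk =>
    exc2_D_fixed D R hπ hD1 hR1 hrat k hk g

theorem exc2_permExc (hx : Exc2 p P) (D : IrrCharacter G) (hDne : D ≠ PC.oneI G)
    (hD1 : (D : G → ℂ) 1 = (p : ℂ) - 1) (hy : ∀ y : P, y ≠ 1 → (D : G → ℂ) y = -1) :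
    PermExc p P ((fun _ => (1 : ℂ)) + (D : G → ℂ)) := by
  haveI : Fintype (IrrCharacter G) := Fintype.ofFinite _
  have h0 : classInner (D : G → ℂ) (fun _ => (1 : ℂ)) = 0 := by
    rw [← classInner_comm_conj, one_inner_irr _ hDne]
    simp
  refine ⟨hx.hPc, hx.hp5, hx.hind, hx.hreg, isCharacter_add isCharacter_one
    (Cfsg.Agent.H21.isCharacter_of_irr D.2), ?_, ?_, ?_, ?_⟩
  · simp only [Pi.add_apply, hD1]
    ring
  · intro y hy1
    simp only [Pi.add_apply, hy y hy1]
    ring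
  · rw [classInner_add_left, classInner_one_one, h0, add_zero]
  · rw [classInner_add_left, classInner_add_right, classInner_add_right,
      classInner_one_one, one_inner_irr _ hDne, h0, classInner_self_irr]
    norm_num

/-- The value analysis of the key identity. -/
theorem exc2_values (hx : Exc2 p P) (D : IrrCharacter G) (hDne : D ≠ PC.oneI G)
    (hD1 : (D : G → ℂ) 1 = (p : ℂ) - 1) (hy : ∀ y : P, y ≠ 1 → (D : G → ℂ) y = -1)
    (hint : ∀ g, ∃ z : ℤ, (D : G → ℂ) g = z) (hfaith : ∀ g, (D : G → ℂ) g = (D : G → ℂ) 1 → g = 1)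
    (h7 : 7 ≤ p) (g : G) (hg1 : g ≠ 1) (hg : ¬ p ∣ orderOf g) :
    (D : G → ℂ) g = 0 ∨ (D : G → ℂ) g = 1 := by
  classical
  have hD := exc2_permExc hx D hDne hD1 hy
  have hDc : IsCharacter G (D : G → ℂ) := Cfsg.Agent.H21.isCharacter_of_irr D.2
  choose f hf using hint
  have hf1 : f 1 = (p : ℤ) - 1 := by
    apply Int.cast_injective (α := ℂ)
    push_cast
    rw [← hf 1, hD1]
  have hdeg : charDegree (D : G → ℂ) = p - 1 := by
    have h2 := one_eq_charDegree hDc
    rw [hD1] at h2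
    have h3 : ((charDegree (D : G → ℂ) : ℕ) : ℤ) = (p : ℤ) - 1 := by
      apply Int.cast_injective (α := ℂ)
      push_cast
      rw [← h2]
    omega
  have hle : ∀ h : G, f h ≤ (p : ℤ) - 1 := by
    intro h
    have h2 := isCharacter_norm_le hDc h
    rw [hf h, Complex.norm_intCast, hdeg] at h2
    have h3 : |f h| ≤ ((p - 1 : ℕ) : ℤ) := by exact_mod_cast h2
    have h4 : ((p - 1 : ℕ) : ℤ) = (p : ℤ) - 1 := by
      have := (Fact.out : p.Prime).pos
      omega
    rw [h4] at h3
    exact (le_abs_self _).trans h3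
  have hne : ∀ h : G, h ≠ 1 → f h ≠ (p : ℤ) - 1 := by
    intro h hh h2
    apply hh
    apply hfaith
    rw [hf h, h2, hD1]
    push_cast
    ring
  have hkey : ∀ h : G, h ≠ 1 → ¬ p ∣ orderOf h →
      (f h - 1) ^ 2 - (f (h * h) - 1) = ((p : ℤ) - 3) * (f h - 1) := by
    intro h hh1 hh
    have h2 := perm_key hD h hh1 hh
    simp only [Pi.add_apply, hf h, hf (h * h)] at h2
    have h3 : (((f h - 1) ^ 2 - (f (h * h) - 1) : ℤ) : ℂ) = ((((p : ℤ) - 3) * (f h - 1) : ℤ) : ℂ) := by
      push_cast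
      linear_combination h2
    exact_mod_cast h3
  have hsq_reg : ∀ h : G, ¬ p ∣ orderOf h → ¬ p ∣ orderOf (h * h) := by
    intro h hh hd
    apply hh
    refine hd.trans (orderOf_dvd_of_pow_eq_one ?_)
    rw [← pow_two, ← pow_mul, mul_comm, pow_mul, pow_orderOf_eq_one, one_pow]
  have hlower : ∀ h : G, h ≠ 1 → ¬ p ∣ orderOf h → 0 ≤ f h := by
    intro h hh1 hh
    by_contra hlt
    have h2 := hkey h hh1 hh
    have h3 := hle (h * h)
    have hp : (7 : ℤ) ≤ p := by exact_mod_cast h7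
    push Not at hlt
    nlinarith
  have h0 := hlower g hg1 hg
  have h2 := hkey g hg1 hg
  have hp : (7 : ℤ) ≤ p := by exact_mod_cast h7
  have hupper : f g ≤ 1 := by
    by_contra hlt
    push Not at hlt
    have h3 : f g ≤ (p : ℤ) - 2 := by
      have h4 := hle g
      have h5 := hne g hg1
      omega
    have hgg : g * g ≠ 1 := by
      intro hgg
      rw [hgg, hf1] at h2
      nlinarith
    have h4 := hlower (g * g) hgg (hsq_reg g hg)
    have h5 : f g = (p : ℤ) - 2 := by
      by_contra hne2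
      have h6 : f g ≤ (p : ℤ) - 3 := by omega
      nlinarith
    rw [h5] at h2
    have h6 : f (g * g) = 1 := by linarith
    have h7' := char_sq_ineq hDc g
    rw [hD1, hf g, hf (g * g), h5, h6] at h7'
    simp only [Complex.sub_re, Complex.natCast_re, Complex.one_re, Complex.intCast_re] at h7'
    have hp' : (7 : ℝ) ≤ p := by exact_mod_cast h7
    push_cast at h7'
    linarith
  have h3 : f g = 0 ∨ f g = 1 := by omega
  rcases h3 with h3 | h3
  · left
    rw [hf g, h3]
    simp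
  · right
    rw [hf g, h3]
    simp

theorem exc2_faithful (D : IrrCharacter G) (hD1 : (D : G → ℂ) 1 = (p : ℂ) - 1)
    (hy : ∀ y : P, y ≠ 1 → (D : G → ℂ) y = -1)
    (hK : ∀ K : Subgroup G, K.Normal → K ≠ ⊥ →
      (∃ z : P, z ≠ 1 ∧ (z : G) ∈ K) ∧ ∃ u ∈ K, orderOf u = 2)
    (g : G) (hg : (D : G → ℂ) g = (D : G → ℂ) 1) : g = 1 := by
  by_contra hg1
  have hDc : IsCharacter G (D : G → ℂ) := Cfsg.Agent.H21.isCharacter_of_irr D.2
  have hK2 : charKer (D : G → ℂ) hDc ≠ ⊥ := by
    intro hb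
    have h3 : g ∈ charKer (D : G → ℂ) hDc := mem_charKer.mpr hg
    rw [hb, Subgroup.mem_bot] at h3
    exact hg1 h3
  obtain ⟨⟨z, hz, hzK⟩, -⟩ := hK _ (charKer_normal _ _) hK2
  have h3 := mem_charKer.mp hzK
  rw [hy z hz, hD1] at h3
  have hp0 : (p : ℂ) ≠ 0 := by exact_mod_cast (Fact.out : p.Prime).ne_zero
  apply hp0
  linear_combination -h3

/-- **The order of the group**, for `p ≥ 7`. -/
theorem exc2_count (hx : Exc2 p P) (D R : IrrCharacter G) {π : G → ℂ}
    (hπ : π = fun g => 1 + (D : G → ℂ) g + (R : G → ℂ) g)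
    (hD1 : (D : G → ℂ) 1 = (p : ℂ) - 1) (hR1 : (R : G → ℂ) 1 = p)
    (hy : ∀ y : P, y ≠ 1 → (D : G → ℂ) y = -1)
    (hrat : ∀ k : ℕ, k.Coprime (Nat.card G) → ∀ g, π (g ^ k) = π g)
    (hK : ∀ K : Subgroup G, K.Normal → K ≠ ⊥ →
      (∃ z : P, z ≠ 1 ∧ (z : G) ∈ K) ∧ ∃ u ∈ K, orderOf u = 2)
    (hsing : ∀ g : G, p ∣ orderOf g → ∃ (c : G) (z : P), z ≠ 1 ∧ c⁻¹ * g * c = z)
    (h7 : 7 ≤ p) : (Nat.card G : ℂ) = p * (p - 1) * (p - 2) := by
  classical
  haveI : Fintype (IrrCharacter G) := Fintype.ofFinite _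
  have hpp : p.Prime := Fact.out
  have hp0 : (p : ℂ) ≠ 0 := by exact_mod_cast hpp.ne_zero
  have hDne : D ≠ PC.oneI G := by
    intro h
    rw [h] at hD1
    have h2 : (1 : ℂ) = (p : ℂ) - 1 := hD1
    have h3 : (p : ℂ) = ((2 : ℕ) : ℂ) := by
      push_cast
      linear_combination -h2
    have h4 : p = 2 := by exact_mod_cast h3
    omega
  have hDc : IsCharacter G (D : G → ℂ) := Cfsg.Agent.H21.isCharacter_of_irr D.2
  have hint : ∀ g, ∃ z : ℤ, (D : G → ℂ) g = z := exc2_D_int D R hπ hD1 hR1 hrat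
  have hfaith := exc2_faithful (P := P) D hD1 hy hK
  have hval := exc2_values hx D hDne hD1 hy hint hfaith h7
  set θ : P → ℂ := fun y => if y = 1 then 0 else 1 with hθ
  set c : G → ℂ := indFun P θ with hc
  have hc1 : c 1 = 0 := by
    rw [hc, indFun_one]
    simp [hθ]
  have hcP : ∀ y : P, y ≠ 1 → c y = 2 := by
    intro y hy1
    rw [hc, hx.hind θ y hy1]
    have : y⁻¹ ≠ 1 := inv_ne_one.mpr hy1
    simp only [hθ, if_neg hy1, if_neg this]
    norm_num
  have hpoint : ∀ g : G, (D : G → ℂ) g * ((D : G → ℂ) g - 1) =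
      (if g = 1 then ((p : ℂ) - 1) * ((p : ℂ) - 2) else 0) + c g := by
    intro g
    by_cases hg1 : g = 1
    · subst hg1
      rw [if_pos rfl, hc1, hD1]
      ring
    · rw [if_neg hg1, zero_add]
      by_cases hd : p ∣ orderOf g
      · obtain ⟨c₀, z, hz, hgz⟩ := hsing g hd
        have h1 : (D : G → ℂ) g = (D : G → ℂ) z := by
          rw [← hgz]
          have := isCharacter_conj hDc g c₀⁻¹
          rw [inv_inv] at this
          exact this.symm
        have h2 : c g = c z := by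
          rw [← hgz]
          have := indFun_isClass P θ g c₀⁻¹
          rw [inv_inv] at this
          exact this.symm
        rw [h1, h2, hy z hz, hcP z hz]
        norm_num
      · have h2 : c g = 0 := hx.hreg θ g hg1 hd
        rw [h2]
        rcases hval g hg1 hd with h3 | h3 <;> rw [h3] <;> simp
  have hG0 : (Nat.card G : ℂ) ≠ 0 := by simp [Nat.card_pos.ne']
  have hsum1 : ∑ g : G, (D : G → ℂ) g * ((D : G → ℂ) g - 1) = (Nat.card G : ℂ) := by
    have h1 : classInner (D : G → ℂ) (D : G → ℂ) = 1 := classInner_self_irr D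
    have h2 : classInner (D : G → ℂ) (fun _ => (1 : ℂ)) = 0 := by
      rw [← classInner_comm_conj, one_inner_irr _ hDne]
      simp
    simp only [classInner, map_one, mul_one] at h1 h2
    have h3 : ∑ g : G, (D : G → ℂ) g = 0 := by
      rcases mul_eq_zero.mp h2 with h4 | h4
      · exact absurd h4 (inv_ne_zero hG0)
      · exact h4
    have h4 : ∑ g : G, (D : G → ℂ) g * conj ((D : G → ℂ) g) = Nat.card G := by
      field_simp at h1
      exact h1
    have h5 : ∀ g : G, conj ((D : G → ℂ) g) = (D : G → ℂ) g := by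
      intro g
      obtain ⟨z, hz⟩ := hint g
      rw [hz]
      simp
    simp only [h5] at h4
    simp only [mul_sub, mul_one, Finset.sum_sub_distrib, h3, h4, sub_zero]
  have hsum2 : ∑ g : G, c g * conj (1 : ℂ) = (Nat.card G : ℂ) * (((p : ℂ) - 1) / p) := by
    have h1 := frobenius_reciprocity P θ (fun _ => (1 : ℂ)) (fun _ _ => rfl)
    simp only [classInner, map_one, mul_one] at h1 ⊢
    have h2 : ∑ y : P, θ y = (p : ℂ) - 1 := by
      have h3 : ∀ y : P, θ y = 1 - if y = 1 then 1 else 0 := by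
        intro y
        simp only [hθ]
        split_ifs <;> simp
      simp only [h3, Finset.sum_sub_distrib, Finset.sum_ite_eq', Finset.mem_univ, if_true,
        Finset.sum_const, Finset.card_univ, nsmul_eq_mul, mul_one]
      rw [← Nat.card_eq_fintype_card, hx.hPc]
    rw [h2, hx.hPc] at h1
    field_simp at h1 ⊢
    linear_combination h1
  have hfin : (Nat.card G : ℂ) = ((p : ℂ) - 1) * ((p : ℂ) - 2) + (Nat.card G : ℂ) * (((p : ℂ) - 1) / p) := by
    have h := hsum1
    rw [Finset.sum_congr rfl (fun g _ => hpoint g), Finset.sum_add_distrib,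
      Finset.sum_ite_eq' Finset.univ (1 : G)] at h
    simp only [map_one, mul_one] at hsum2
    rw [if_pos (Finset.mem_univ _), hsum2] at h
    exact h.symm
  field_simp at hfin
  linear_combination hfin

end Main

end Cfsg.Agent.H22
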