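import Cfsg.Agent.Lib.H22.PermKey
import Cfsg.Agent.Lib.H22.Sharp3
import Cfsg.Agent.Lib.H03.PrimeDeg2
import Cfsg.Agent.Lib.H03.PC3
import Cfsg.Agent.Lib.H03.JordanN

/-! # Groups of prime degree with a Sylow normalizer of order `2p` -/

set_option autoImplicit false
set_option linter.unusedSectionVars false
set_option linter.style.haveILetI false
set_option linter.unusedSimpArgs false
set_option linter.unusedVariables false

namespace Cfsg.Agent.H22

open Cfsg Cfsg.Agent.H21 Cfsg.Agent.H03 MulAction
open scoped ComplexConjugate commutatorElement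

section

variable {α : Type*} [Fintype α] {p : ℕ} [hpf : Fact p.Prime]
variable {H : Type*} [Group H] [MulAction H α] [FaithfulSMul H α]

theorem no_fixed_of_orderOf (hα : Fintype.card α = p) (h : H) (ho : orderOf h = p) (a : α) :
    h • a ≠ a := by
  classical
  have hinj : Function.Injective (MulAction.toPermHom H α) := fun u v huv =>
    eq_of_smul_eq_smul fun a => by
      have := congrArg (fun f : Equiv.Perm α => f a) huv
      simpa using this
  have ho2 : orderOf (MulAction.toPermHom H α h) = p := by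
    rw [orderOf_injective _ hinj, ho]
  have hc := Equiv.Perm.isCycle_of_prime_order'' (σ := MulAction.toPermHom H α h)
    (by rw [hα]; exact hpf.out) (by rw [ho2, hα])
  have hs : (MulAction.toPermHom H α h).support.card = p := by rw [← hc.orderOf, ho2]
  have hu : (MulAction.toPermHom H α h).support = Finset.univ :=
    Finset.eq_univ_of_card _ (by rw [hs, hα])
  have hm := Finset.mem_univ a
  rw [← hu, Equiv.Perm.mem_support] at hm
  exact hm

theorem transitive_of_orderOf (hα : Fintype.card α = p) (h : H) (ho : orderOf h = p) :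
    IsPretransitive H α := by
  classical
  have hinj : Function.Injective (MulAction.toPermHom H α) := fun u v huv =>
    eq_of_smul_eq_smul fun a => by
      have := congrArg (fun f : Equiv.Perm α => f a) huv
      simpa using this
  have ho2 : orderOf (MulAction.toPermHom H α h) = p := by
    rw [orderOf_injective _ hinj, ho]
  have hc := Equiv.Perm.isCycle_of_prime_order'' (σ := MulAction.toPermHom H α h)
    (by rw [hα]; exact hpf.out) (by rw [ho2, hα])
  constructor
  intro a b
  obtain ⟨i, hi⟩ := hc.exists_pow_eq (x := a) (y := b) (no_fixed_of_orderOf hα h ho a)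
    (no_fixed_of_orderOf hα h ho b)
  refine ⟨h ^ i, ?_⟩
  rw [← hi, ← map_pow]
  rfl

theorem normal_sylow_of_solvable [Finite H] [IsPretransitive H α] (hα : Fintype.card α = p)
    (hs : IsSolvable H) (Q : Sylow p H) : (Q : Subgroup H).Normal := by
  classical
  obtain ⟨x, e, hxP, hxo, he, hQx⟩ := sylow_coord (α := α) hα Q
  have hex : ∃ n, derivedSeries H n = ⊥ := hs.solvable
  have hne : ¬ derivedSeries H 0 = ⊥ := by
    intro h
    rw [derivedSeries_zero] at h
    have hx1 : x ∈ (⊤ : Subgroup H) := Subgroup.mem_top x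
    rw [h, Subgroup.mem_bot] at hx1
    rw [hx1, orderOf_one] at hxo
    exact hpf.out.one_lt.ne hxo
  have hn0 : Nat.find hex ≠ 0 := fun h => hne (by
    have := Nat.find_spec hex
    rwa [h] at this)
  obtain ⟨m, hm⟩ := Nat.exists_eq_succ_of_ne_zero hn0
  set D := derivedSeries H m with hD
  have hDbot : D ≠ ⊥ := Nat.find_min hex (m := m) (by omega)
  have hDcomm : ⁅D, D⁆ = ⊥ := by
    have := Nat.find_spec hex
    rw [hm] at this
    exact this
  haveI hDn : D.Normal := derivedSeries_normal H m
  have hcomm : ∀ u ∈ D, ∀ v ∈ D, u * v = v * u := by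
    intro u hu v hv
    have h1 : ⁅u, v⁆ ∈ ⁅D, D⁆ := Subgroup.commutator_mem_commutator hu hv
    rw [hDcomm, Subgroup.mem_bot, commutatorElement_eq_one_iff_mul_comm] at h1
    exact h1
  have hprim : IsPreprimitive H α := by
    apply IsPreprimitive.of_prime_card
    rw [Nat.card_eq_fintype_card, hα]
    exact hpf.out
  haveI hDt : IsPretransitive D α := isPretransitive_normal_of_prim hprim D hDbot
  obtain ⟨a⟩ : Nonempty α := by
    apply Fintype.card_pos_iff.mp
    rw [hα]
    exact hpf.out.pos
  have hstab : MulAction.stabilizer D a = ⊥ := by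
    rw [eq_bot_iff]
    intro u hu
    rw [Subgroup.mem_bot]
    have hu' : u • a = a := hu
    apply Subtype.ext
    show (u : H) = 1
    apply eq_of_smul_eq_smul (α := α)
    intro b
    obtain ⟨v, rfl⟩ := MulAction.exists_smul_eq D a b
    rw [one_smul]
    have h1 : (u : H) * (v : H) = (v : H) * (u : H) := hcomm u u.2 v v.2
    have h2 : (u : H) • ((v : H) • a) = (v : H) • ((u : H) • a) := by
      rw [← mul_smul, h1, mul_smul]
    have h3 : (u : H) • a = a := hu'
    rw [h3] at h2
    exact h2
  have hDcard : Nat.card D = p := by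
    have h1 := MulAction.index_stabilizer_of_transitive D a
    rw [hstab, Subgroup.index_bot, Nat.card_eq_fintype_card (α := α), hα] at h1
    exact h1
  have hDp : IsPGroup p D := by
    apply IsPGroup.of_card (n := 1)
    rw [hDcard, pow_one]
  obtain ⟨S, hS⟩ := hDp.exists_le_sylow
  obtain ⟨g, hg⟩ := MulAction.exists_smul_eq H S Q
  have hle : D ≤ (Q : Subgroup H) := by
    intro d hd
    rw [← hg]
    show d ∈ ((g • S : Sylow p H) : Subgroup H)
    rw [Sylow.coe_subgroup_smul, Subgroup.mem_pointwise_smul_iff_inv_smul_mem]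
    apply hS
    have h1 : (MulAut.conj g)⁻¹ • d = g⁻¹ * d * g⁻¹⁻¹ := by
      simp [MulAut.smul_def, MulAut.conj_inv_apply]
    rw [h1]
    exact hDn.conj_mem d hd g⁻¹
  have hQcard : Nat.card (Q : Subgroup H) = p := by
    rw [hQx, Nat.card_zpowers, hxo]
  have heq : D = (Q : Subgroup H) :=
    Subgroup.eq_of_le_of_card_ge hle (by rw [hQcard, hDcard])
  rw [← heq]
  exact hDn

theorem two_trans_pair (h2 : IsMultiplyPretransitive H α 2) (a b c d : α) (hab : a ≠ b)
    (hcd : c ≠ d) : ∃ g : H, g • a = c ∧ g • b = d := by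
  let x : Fin 2 ↪ α := ⟨![a, b], by
    intro u v huv
    fin_cases u <;> fin_cases v <;> simp_all⟩
  let y : Fin 2 ↪ α := ⟨![c, d], by
    intro u v huv
    fin_cases u <;> fin_cases v <;> simp_all⟩
  obtain ⟨g, hg⟩ := MulAction.exists_smul_eq H x y
  refine ⟨g, ?_, ?_⟩
  · exact congrArg (fun f : Fin 2 ↪ α => f 0) hg
  · exact congrArg (fun f : Fin 2 ↪ α => f 1) hg

theorem rank_two_of_two_trans (h2 : IsMultiplyPretransitive H α 2) (hcard : 2 ≤ Fintype.card α)
    (a : α) : Nat.card (MulAction.orbitRel.Quotient (MulAction.stabilizer H a) α) = 2 := by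
  classical
  let f : MulAction.orbitRel.Quotient (MulAction.stabilizer H a) α → Bool :=
    Quotient.lift (fun b => decide (b = a)) (by
      intro b c hbc
      obtain ⟨⟨s, hs⟩, rfl⟩ := hbc
      have hs' : s • a = a := hs
      have h1 : (s • c = a) ↔ (c = a) := by
        constructor
        · intro h
          rw [← hs'] at h
          exact smul_left_cancel s h
        · rintro rfl
          exact hs'
      simp only [decide_eq_decide]
      exact h1)
  have hbij : Function.Bijective f := by
    constructor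
    · intro u v
      induction u using Quotient.inductionOn with
      | h b =>
        induction v using Quotient.inductionOn with
        | h c =>
          intro huv
          have huv' : decide (b = a) = decide (c = a) := huv
          rw [decide_eq_decide] at huv'
          apply Quotient.sound
          by_cases hb : b = a
          · have hc : c = a := huv'.mp hb
            rw [hb, hc]
          · have hc : c ≠ a := fun h => hb (huv'.mpr h)
            obtain ⟨g, h1, h3⟩ := two_trans_pair h2 a c a b (Ne.symm hc) (Ne.symm hb)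
            exact ⟨⟨g, h1⟩, h3⟩
    · intro t
      cases t with
      | true => exact ⟨Quotient.mk _ a, by simp [f]⟩
      | false =>
        obtain ⟨b, hb⟩ : ∃ b, b ≠ a := by
          haveI : Nontrivial α := Fintype.one_lt_card_iff_nontrivial.mp (by omega)
          exact exists_ne a
        exact ⟨Quotient.mk _ b, by simp [f, hb]⟩
  rw [Nat.card_eq_of_bijective f hbij]
  simp

theorem classInner_perm_one [Fintype H] [IsPretransitive H α] (hα : Fintype.card α = p) :
    classInner (fun g : H => (Nat.card (MulAction.fixedBy α g) : ℂ)) (fun _ => 1) = 1 := by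
  classical
  haveI : ∀ g : H, Fintype (MulAction.fixedBy α g) := fun g => Fintype.ofFinite _
  haveI : Fintype (Quotient (MulAction.orbitRel H α)) := Fintype.ofFinite _
  have h := MulAction.sum_card_fixedBy_eq_card_orbits_mul_card_group H α
  obtain ⟨a⟩ : Nonempty α := by
    apply Fintype.card_pos_iff.mp
    rw [hα]
    exact hpf.out.pos
  have horb : Fintype.card (Quotient (MulAction.orbitRel H α)) = 1 := by
    rw [Fintype.card_eq_one_iff]
    refine ⟨Quotient.mk _ a, fun q => ?_⟩
    induction q using Quotient.inductionOn with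
    | h b =>
      apply Quotient.sound
      obtain ⟨g, hg⟩ := MulAction.exists_smul_eq H a b
      exact ⟨g, hg⟩
  have h0 : (Nat.card H : ℂ) ≠ 0 := by simp [Nat.card_pos.ne']
  simp only [classInner, map_one, mul_one]
  have h3 : ∑ g : H, (Nat.card (MulAction.fixedBy α g) : ℂ) = (Nat.card H : ℂ) := by
    have h4 : ∑ g : H, Nat.card (MulAction.fixedBy α g) = Nat.card H := by
      rw [Nat.card_eq_fintype_card (α := H)]
      have h5 : ∀ g : H, Nat.card (MulAction.fixedBy α g) = Fintype.card (MulAction.fixedBy α g) :=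
        fun g => Nat.card_eq_fintype_card
      simp only [h5]
      rw [h, horb, one_mul]
    exact_mod_cast h4
  rw [h3]
  field_simp

theorem cent_mem_zpowers (x : H) (e : ZMod p ≃ α) (he : ∀ j, x • e j = e (j + 1)) (c : H)
    (hc : c * x = x * c) : c ∈ Subgroup.zpowers x := by
  classical
  set b : ZMod p := e.symm (c • e 0) with hb
  have h1 : ∀ n : ℕ, c • e (n : ZMod p) = e ((n : ZMod p) + b) := by
    intro n
    induction n with
    | zero => simp [hb]
    | succ n ih =>
      push_cast
      rw [← he, ← mul_smul, hc, mul_smul, ih, he]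
      congr 1
      ring
  have h2 : ∀ j, c • e j = e (j + b) := by
    intro j
    have := h1 j.val
    rwa [ZMod.natCast_zmod_val] at this
  have h3 : c = x ^ b.val := by
    apply eq_of_smul_eq_smul (α := α)
    intro a
    obtain ⟨j, rfl⟩ := e.surjective a
    rw [h2, pow_coord x e he, ZMod.natCast_zmod_val]
  rw [h3]
  exact Subgroup.npow_mem_zpowers x _

theorem pow_p_of_mem (x : H) (hxo : orderOf x = p) {y : H} (hy : y ∈ Subgroup.zpowers x) :
    y ^ p = 1 := by
  obtain ⟨k, rfl⟩ := Subgroup.mem_zpowers_iff.mp hy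
  rw [← zpow_natCast, ← zpow_mul, mul_comm, zpow_mul, zpow_natCast, ← hxo, pow_orderOf_eq_one,
    one_zpow]

theorem orderOf_of_mem (x : H) (hxo : orderOf x = p) {y : H} (hy : y ∈ Subgroup.zpowers x)
    (hy1 : y ≠ 1) : orderOf y = p := by
  have h1 := orderOf_dvd_of_pow_eq_one (pow_p_of_mem x hxo hy)
  rcases (Nat.dvd_prime hpf.out).mp h1 with h | h
  · exact absurd (orderOf_eq_one_iff.mp h) hy1
  · exact h

theorem zpowers_eq_of_mem [Finite H] (x : H) (hxo : orderOf x = p) {y : H}
    (hy : y ∈ Subgroup.zpowers x) (hy1 : y ≠ 1) : Subgroup.zpowers y = Subgroup.zpowers x := by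
  apply Subgroup.eq_of_le_of_card_ge
  · exact (Subgroup.zpowers_le).mpr hy
  · rw [Nat.card_zpowers, Nat.card_zpowers, orderOf_of_mem x hxo hy hy1, hxo]

theorem mem_normalizer_of_conj_mem [Finite H] (x : H) (hxo : orderOf x = p) {y c : H}
    (hy : y ∈ Subgroup.zpowers x) (hy1 : y ≠ 1) (hc : c⁻¹ * y * c ∈ Subgroup.zpowers x) :
    c ∈ Subgroup.normalizer ((Subgroup.zpowers x : Subgroup H) : Set H) := by
  have hc1 : c⁻¹ * y * c ≠ 1 := by
    intro h
    apply hy1
    have h2 : y = c * (c⁻¹ * y * c) * c⁻¹ := by group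
    rw [h2, h]
    group
  have e1 := zpowers_eq_of_mem x hxo hy hy1
  have e2 := zpowers_eq_of_mem x hxo hc hc1
  rw [Subgroup.mem_normalizer_iff]
  intro h
  constructor
  · intro hh
    rw [← e2] at hh
    obtain ⟨t, rfl⟩ := Subgroup.mem_zpowers_iff.mp hh
    have h3 : c * (c⁻¹ * y * c) ^ t * c⁻¹ = y ^ t := by
      have h4 : c⁻¹ * y * c = c⁻¹ * y * c⁻¹⁻¹ := by simp
      rw [h4, conj_zpow]
      group
    rw [h3]
    rw [← e1]
    exact Subgroup.zpow_mem_zpowers y t
  · intro hh
    rw [← e1] at hh
    obtain ⟨t, ht⟩ := Subgroup.mem_zpowers_iff.mp hh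
    have h3 : h = (c⁻¹ * y * c) ^ t := by
      have h4 : c⁻¹ * y * c = c⁻¹ * y * c⁻¹⁻¹ := by simp
      rw [h4, conj_zpow, ht]
      group
    rw [h3]
    rw [← e2]
    exact Subgroup.zpow_mem_zpowers _ t

theorem conj_inv_of_norm [Finite H] (x : H) (e : ZMod p ≃ α) (he : ∀ j, x • e j = e (j + 1))
    (hxo : orderOf x = p)
    (hN : Nat.card (Subgroup.normalizer ((Subgroup.zpowers x : Subgroup H) : Set H)) = 2 * p)
    {c y : H} (hc : c ∈ Subgroup.normalizer ((Subgroup.zpowers x : Subgroup H) : Set H))
    (hcQ : c ∉ Subgroup.zpowers x) (hy : y ∈ Subgroup.zpowers x) : c⁻¹ * y * c = y⁻¹ := by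
  classical
  set Q := Subgroup.zpowers x with hQ
  set N := Subgroup.normalizer ((Q : Subgroup H) : Set H) with hNdef
  have hle : Q ≤ N := Subgroup.le_normalizer
  have hidx : (Q.subgroupOf N).index = 2 := by
    have h1 := Subgroup.card_mul_index (Q.subgroupOf N)
    have h2 : Nat.card (Q.subgroupOf N) = p := by
      rw [Nat.card_congr (Subgroup.subgroupOfEquivOfLe hle).toEquiv, hQ, Nat.card_zpowers, hxo]
    rw [h2, hN] at h1
    have hp0 := hpf.out.pos
    nlinarith
  have hcc : c * c ∈ Q := by
    have := Subgroup.mul_self_mem_of_index_two hidx ⟨c, hc⟩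
    rwa [Subgroup.mem_subgroupOf] at this
  have hxQ : x ∈ Q := Subgroup.mem_zpowers x
  obtain ⟨n, hn⟩ := Subgroup.mem_zpowers_iff.mp ((Subgroup.mem_normalizer_iff.mp hc x).mp hxQ)
  have hcomm : (c * c) * x = x * (c * c) := by
    obtain ⟨t, ht⟩ := Subgroup.mem_zpowers_iff.mp hcc
    rw [← ht]
    exact (Commute.refl x).zpow_left t
  have hnn : x ^ (n * n) = x := by
    have h1 : c * (c * x * c⁻¹) * c⁻¹ = x := by
      have h2 : c * (c * x * c⁻¹) * c⁻¹ = ((c * c) * x) * (c * c)⁻¹ := by group
      rw [h2, hcomm]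
      group
    rw [← hn] at h1
    rw [← conj_zpow, ← hn, ← zpow_mul] at h1
    exact h1
  have hdvd : (p : ℤ) ∣ (n - 1) * (n + 1) := by
    rw [← hxo]
    rw [orderOf_dvd_iff_zpow_eq_one]
    have h1 : (n - 1) * (n + 1) = n * n - 1 := by ring
    rw [h1, zpow_sub, zpow_one, hnn, mul_inv_cancel]
  have hpi : Prime (p : ℤ) := Nat.prime_iff_prime_int.mp hpf.out
  rcases hpi.dvd_or_dvd hdvd with h | h
  · exfalso
    apply hcQ
    rw [← hxo, orderOf_dvd_iff_zpow_eq_one, zpow_sub, zpow_one] at h
    have h2 : x ^ n = x := by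
      have := mul_eq_one_iff_eq_inv.mp h
      rw [this, inv_inv]
    rw [h2] at hn
    apply cent_mem_zpowers x e he c
    have h3 : c * x * c⁻¹ * c = x * c := by rw [← hn]
    rw [← h3]
    group
  · rw [← hxo, orderOf_dvd_iff_zpow_eq_one, zpow_add, zpow_one] at h
    have h2 : x ^ n = x⁻¹ := mul_eq_one_iff_eq_inv.mp h
    rw [h2] at hn
    have h3 : c⁻¹ * x * c = x⁻¹ := by
      have h4 : x = c⁻¹ * x⁻¹ * c := by
        rw [hn]
        group
      have h5 : c⁻¹ * x * c = (c⁻¹ * x⁻¹ * c)⁻¹ := by group
      rw [h5, ← h4]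
    obtain ⟨k, rfl⟩ := Subgroup.mem_zpowers_iff.mp hy
    have h4 : c⁻¹ * x ^ k * c = (c⁻¹ * x * c) ^ k := by
      have h5 : c⁻¹ * x * c = c⁻¹ * x * c⁻¹⁻¹ := by simp
      rw [h5, conj_zpow]
      simp
    rw [h4, h3, inv_zpow]

theorem sum_two_levelH {H : Type*} [Fintype H] (A B : H → Prop) [DecidablePred A] [DecidablePred B]
    (hAB : ∀ c, A c → B c) (u v : ℂ) :
    ∑ c : H, (if A c then u else if B c then v else 0) =
      (Finset.univ.filter A).card * u +
        ((Finset.univ.filter B).card - (Finset.univ.filter A).card : ℂ) * v := by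
  classical
  have h1 : ∀ c, (if A c then u else if B c then v else 0) =
      (if A c then u else 0) + ((if B c then v else 0) - (if A c then v else 0)) := by
    intro c
    by_cases hA : A c
    · simp [hA, hAB c hA]
    · simp [hA]
  simp only [h1, Finset.sum_add_distrib, Finset.sum_sub_distrib, Finset.sum_ite, Finset.sum_const,
    Finset.sum_const_zero, nsmul_eq_mul, add_zero, sub_mul]
  ring

theorem indFun_prime [Fintype H] (x : H) (e : ZMod p ≃ α) (he : ∀ j, x • e j = e (j + 1))
    (hxo : orderOf x = p)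
    (hN : Nat.card (Subgroup.normalizer ((Subgroup.zpowers x : Subgroup H) : Set H)) = 2 * p)
    (θ : Subgroup.zpowers x → ℂ) (y : Subgroup.zpowers x) (hy : y ≠ 1) :
    indFun (Subgroup.zpowers x) θ (y : H) = θ y + θ y⁻¹ := by
  classical
  have hy1 : (y : H) ≠ 1 := fun h => hy (Subtype.ext h)
  have hterm : ∀ c : H, extendByZero (Subgroup.zpowers x) θ (c⁻¹ * (y : H) * c) =
      if c ∈ Subgroup.zpowers x then θ y else if c ∈ Subgroup.normalizer ((Subgroup.zpowers x : Subgroup H) : Set H) then θ y⁻¹ else 0 := by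
    intro c
    by_cases hcQ : c ∈ Subgroup.zpowers x
    · rw [if_pos hcQ]
      have h1 : c⁻¹ * (y : H) * c = (y : H) := by
        obtain ⟨t, ht⟩ := Subgroup.mem_zpowers_iff.mp hcQ
        obtain ⟨s, hs⟩ := Subgroup.mem_zpowers_iff.mp y.2
        rw [← hs, ← ht]
        have : Commute (x ^ t) (x ^ s) := (Commute.refl x).zpow_zpow t s
        rw [mul_assoc, this.eq.symm, ← mul_assoc, inv_mul_cancel, one_mul]
      rw [h1]
      exact extendByZero_coe (Subgroup.zpowers x) θ y
    · rw [if_neg hcQ]
      by_cases hcN : c ∈ Subgroup.normalizer ((Subgroup.zpowers x : Subgroup H) : Set H)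
      · rw [if_pos hcN]
        have h1 := conj_inv_of_norm x e he hxo hN hcN hcQ y.2
        rw [h1]
        exact extendByZero_coe (Subgroup.zpowers x) θ y⁻¹
      · rw [if_neg hcN]
        apply extendByZero_of_not_mem
        intro h
        exact hcN (mem_normalizer_of_conj_mem x hxo y.2 hy1 h)
  have hle : Subgroup.zpowers x ≤ Subgroup.normalizer ((Subgroup.zpowers x : Subgroup H) : Set H) := Subgroup.le_normalizer
  have hA : ((Finset.univ.filter (· ∈ Subgroup.zpowers x)).card : ℕ) = p := by
    have h1 : Nat.card (Subgroup.zpowers x) = p := by rw [Nat.card_zpowers, hxo]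
    rw [← h1, Nat.card_eq_fintype_card, Fintype.card_subtype]
  have hB : ((Finset.univ.filter (· ∈ Subgroup.normalizer ((Subgroup.zpowers x : Subgroup H) : Set H))).card : ℕ) = 2 * p := by
    rw [← hN, Nat.card_eq_fintype_card, Fintype.card_subtype]
  have hp0 : (p : ℂ) ≠ 0 := by exact_mod_cast hpf.out.ne_zero
  simp only [indFun]
  simp only [hterm]
  rw [sum_two_levelH (fun c => c ∈ Subgroup.zpowers x) (fun c => c ∈ Subgroup.normalizer ((Subgroup.zpowers x : Subgroup H) : Set H)) (fun c hc => hle hc), hA, hB]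
  have h1 : Nat.card (Subgroup.zpowers x) = p := by rw [Nat.card_zpowers, hxo]
  rw [h1]
  push_cast
  field_simp
  ring

theorem indFun_regular [Fintype H] (x : H) (hxo : orderOf x = p) (θ : Subgroup.zpowers x → ℂ)
    (g : H) (hg : g ≠ 1) (hg2 : ¬ p ∣ orderOf g) : indFun (Subgroup.zpowers x) θ g = 0 := by
  classical
  simp only [indFun]
  rw [Finset.sum_eq_zero, mul_zero]
  intro c _
  apply extendByZero_of_not_mem
  intro h
  have h1 := pow_p_of_mem x hxo h
  have h2 : g ^ p = 1 := by
    have h3 : (c⁻¹ * g * c) ^ p = c⁻¹ * g ^ p * c := by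
      have h4 : c⁻¹ * g * c = c⁻¹ * g * c⁻¹⁻¹ := by simp
      rw [h4, conj_pow]
      simp
    rw [h3] at h1
    have h5 : g ^ p = c * (c⁻¹ * g ^ p * c) * c⁻¹ := by group
    rw [h5, h1]
    group
  have h3 := orderOf_dvd_of_pow_eq_one h2
  rcases (Nat.dvd_prime hpf.out).mp h3 with h4 | h4
  · exact hg (orderOf_eq_one_iff.mp h4)
  · exact hg2 (by rw [h4])

theorem permExc_of [Fintype H] [DecidableEq α] (hα : Fintype.card α = p) (x : H) (e : ZMod p ≃ α)
    (he : ∀ j, x • e j = e (j + 1)) (hxo : orderOf x = p)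
    (hN : Nat.card (Subgroup.normalizer ((Subgroup.zpowers x : Subgroup H) : Set H)) = 2 * p)
    (h2 : IsMultiplyPretransitive H α 2) (hp5 : 5 ≤ p) [Fintype (Subgroup.zpowers x)] :
    PermExc p (Subgroup.zpowers x) (fun g : H => (Nat.card (MulAction.fixedBy α g) : ℂ)) where
  hPc := by rw [Nat.card_zpowers, hxo]
  hp5 := hp5
  hind := fun θ y hy => indFun_prime x e he hxo hN θ y hy
  hreg := fun θ g hg hg2 => indFun_regular x hxo θ g hg hg2
  hπ := by
    have h := isCharacter_of_rep (Cfsg.permRep ℂ H α)
    rwa [PC.perm_char_fun] at h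
  hπ1 := by
    have h1 : MulAction.fixedBy α (1 : H) = Set.univ := by
      ext a
      simp
    rw [h1, Nat.card_congr (Equiv.Set.univ α), Nat.card_eq_fintype_card, hα]
  hπP := by
    intro y hy
    have hy1 : (y : H) ≠ 1 := fun h => hy (Subtype.ext h)
    have h1 := orderOf_of_mem x hxo y.2 hy1
    have h3 : MulAction.fixedBy α (y : H) = ∅ := by
      ext a
      simp only [MulAction.mem_fixedBy, Set.mem_empty_iff_false, iff_false]
      exact no_fixed_of_orderOf hα _ h1 a
    simp only [h3]
    simp
  h1 := by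
    haveI := transitive_of_orderOf hα x hxo
    exact classInner_perm_one hα
  h2 := by
    haveI := transitive_of_orderOf hα x hxo
    obtain ⟨a⟩ : Nonempty α := by
      apply Fintype.card_pos_iff.mp
      rw [hα]
      exact hpf.out.pos
    have h3 := PC.inner_self_eq_rank (G := H) (Ω := α) a
    rw [PC.perm_char_fun, rank_two_of_two_trans h2 (by omega) a] at h3
    simpa using h3

theorem fix_bound [Fintype H] [DecidableEq α] (hα : Fintype.card α = p) (x : H) (e : ZMod p ≃ α)
    (he : ∀ j, x • e j = e (j + 1)) (hxo : orderOf x = p)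
    (hN : Nat.card (Subgroup.normalizer ((Subgroup.zpowers x : Subgroup H) : Set H)) = 2 * p)
    (h2 : IsMultiplyPretransitive H α 2) (hp5 : 5 ≤ p) (g : H)
    (hv : 3 ≤ Nat.card (MulAction.fixedBy α g)) : g = 1 := by
  classical
  by_contra hg1
  letI : Fintype (Subgroup.zpowers x) := Fintype.ofFinite _
  have hx := permExc_of hα x e he hxo hN h2 hp5
  obtain ⟨⟨a, ha⟩⟩ : Nonempty (MulAction.fixedBy α g) := by
    apply (Nat.card_pos_iff.mp (by omega)).1
  have ha' : g • a = a := ha
  by_cases hd : p ∣ orderOf g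
  · have ho : orderOf g ≠ 0 := (orderOf_pos g).ne'
    have h1 := orderOf_pow_orderOf_div ho hd
    have h3 := no_fixed_of_orderOf hα _ h1 a
    apply h3
    generalize orderOf g / p = k
    induction k with
    | zero => simp
    | succ k ih => rw [pow_succ, mul_smul, ha', ih]
  · have key := perm_key hx g hg1 hd
    have hv2 : Nat.card (MulAction.fixedBy α g) ≤ Nat.card (MulAction.fixedBy α (g * g)) := by
      rw [Nat.card_coe_set_eq, Nat.card_coe_set_eq]
      apply Set.ncard_le_ncard _ (Set.toFinite _)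
      intro z hz
      have hz' : g • z = z := hz
      show (g * g) • z = z
      rw [mul_smul, hz', hz']
    have hvp : Nat.card (MulAction.fixedBy α g) + 2 ≤ p := by
      obtain ⟨b, hb⟩ : ∃ b : α, g • b ≠ b := by
        by_contra hcon
        push Not at hcon
        exact hg1 (eq_of_smul_eq_smul fun z => by rw [hcon z, one_smul])
      have hb2 : g • (g • b) ≠ g • b := fun h => hb (smul_left_cancel g h)
      have hsub : MulAction.fixedBy α g ⊆
          (((Finset.univ.erase b).erase (g • b) : Finset α) : Set α) := by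
        intro z hz
        have hz' : g • z = z := hz
        rw [Finset.mem_coe, Finset.mem_erase, Finset.mem_erase]
        refine ⟨?_, ?_, Finset.mem_univ _⟩
        · rintro rfl
          exact hb2 hz'
        · rintro rfl
          exact hb hz'
      have h3 := Set.ncard_le_ncard hsub (Finset.finite_toSet _)
      rw [Set.ncard_coe_finset, Finset.card_erase_of_mem (by simp [hb]),
        Finset.card_erase_of_mem (Finset.mem_univ _), Finset.card_univ, hα] at h3
      rw [Nat.card_coe_set_eq]
      have hp5' := hp5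
      omega
    generalize Nat.card (MulAction.fixedBy α g) = v at *
    generalize Nat.card (MulAction.fixedBy α (g * g)) = v2 at *
    have hZ : ((v : ℤ) - 2) ^ 2 - ((v2 : ℤ) - 2) = ((p : ℤ) - 3) * ((v : ℤ) - 2) := by
      exact_mod_cast key
    have hw1 : 1 ≤ (v : ℤ) - 2 := by omega
    have hw2 : 1 ≤ (p : ℤ) - 3 - ((v : ℤ) - 2) := by omega
    have hw3 : (v : ℤ) ≤ v2 := by exact_mod_cast hv2
    nlinarith [mul_pos (by omega : (0 : ℤ) < (v : ℤ) - 2)
      (by omega : (0 : ℤ) < (p : ℤ) - 3 - ((v : ℤ) - 2))]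

end

/-- **A group of prime degree whose Sylow normalizer has order `2p`.** -/
theorem prime_deg_two_main {α : Type*} [Fintype α] [DecidableEq α] {p : ℕ} [hpf : Fact p.Prime]
    (hp : 2 < p) (hα : Fintype.card α = p) (G : Subgroup (Equiv.Perm α)) (P : Sylow p G)
    (hN : Nat.card (Subgroup.normalizer ((P : Subgroup G) : Set G)) = 2 * p) :
    (P : Subgroup G).Normal ∨ ∃ (a : ℕ) (F : Type) (_ : Field F) (_ : Fintype F),
      p = 2 ^ a + 1 ∧ Fintype.card F = 2 ^ a ∧
        Nonempty (G ≃* Matrix.SpecialLinearGroup (Fin 2) F) := by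
  classical
  by_cases hn : (P : Subgroup G).Normal
  · exact Or.inl hn
  right
  letI : Fintype G := Fintype.ofFinite _
  have hdvd : p ∣ Nat.card G := by
    have h1 := Subgroup.card_subgroup_dvd_card (Subgroup.normalizer ((P : Subgroup G) : Set G))
    rw [hN] at h1
    exact (Dvd.intro_left 2 rfl).trans h1
  obtain ⟨h, hho⟩ := exists_prime_orderOf_dvd_card' p hdvd
  haveI := transitive_of_orderOf hα h hho
  have hP' := P
  obtain ⟨x, e, hxP, hxo, he, hPx⟩ := sylow_coord (α := α) hα P
  have hpp : p.Prime := hpf.out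
  have hp5 : 5 ≤ p := by
    by_contra hlt
    have hp3 : p = 3 := by
      interval_cases p
      · rfl
      · exact absurd hpp (by norm_num)
    apply hn
    rw [← Subgroup.normalizer_eq_top_iff]
    apply Subgroup.eq_top_of_le_card
    rw [hN, hp3]
    have h1 : Nat.card G ≤ Nat.card (Equiv.Perm α) := Nat.card_le_card_of_injective _ Subtype.val_injective
    rw [Nat.card_eq_fintype_card (α := Equiv.Perm α), Fintype.card_perm, hα, hp3] at h1
    simpa [Nat.factorial] using h1
  have hns : ¬ IsSolvable G := fun hs => hn (normal_sylow_of_solvable hα hs P)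
  have h3 := three_trans_of_even (α := α) hα hns P (by rw [hN]; exact even_two_mul p)
  have h2 : IsMultiplyPretransitive G α 2 :=
    (burnside_prime_degree G hα).resolve_left hns
  rw [hPx] at hN
  have hfix : ∀ g : G, 3 ≤ Nat.card (MulAction.fixedBy α g) → g = 1 := fun g hg =>
    fix_bound hα x e he hxo hN h2 hp5 g hg
  have hodd : Odd (Fintype.card α) := by
    rw [hα]
    exact hpp.odd_of_ne_two (by omega)
  obtain ⟨a, ha1, hcard, F, iF, iFt, hF, hiso⟩ := sharp3_main (by omega) hodd G h3 hfix
  exact ⟨a, F, iF, iFt, by omega, hF, hiso⟩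

end Cfsg.Agent.H22
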