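import Cfsg.Agent.Lib.H22.Deg2pC
import Cfsg.Agent.Lib.H22.PermKey2
import Cfsg.Agent.Lib.H19.CyclicSylow

/-! # Primitive groups of degree `2p` with a Sylow normalizer of order `2p`: local analysis -/

set_option autoImplicit false
set_option linter.unusedSectionVars false
set_option linter.style.haveILetI false
set_option linter.unusedSimpArgs false
set_option linter.unusedVariables false

namespace Cfsg.Agent.H22

open Cfsg Cfsg.Agent.H21 Cfsg.Agent.H03 MulAction
open scoped ComplexConjugate Pointwise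

attribute [-instance] Cfsg.Agent.H22.fintypeOfFiniteH22

section

variable {α : Type*} [Fintype α] {p : ℕ} [hpf : Fact p.Prime]
variable {H : Type*} [Group H] [MulAction H α] [FaithfulSMul H α]

theorem card_sylow_of_norm [Finite H] (hp : 2 < p) (P : Sylow p H)
    (hN : Nat.card (Subgroup.normalizer ((P : Subgroup H) : Set H)) = 2 * p) :
    Nat.card (P : Subgroup H) = p := by
  have hpp : p.Prime := hpf.out
  have h1 : Nat.card (P : Subgroup H) ∣ 2 * p := by
    rw [← hN]
    exact Subgroup.card_dvd_of_le Subgroup.le_normalizer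
  obtain ⟨k, hk⟩ := IsPGroup.iff_card.mp P.isPGroup'
  have hdvd : p ∣ Nat.card H := by
    have h2 := Subgroup.card_subgroup_dvd_card (Subgroup.normalizer ((P : Subgroup H) : Set H))
    rw [hN] at h2
    exact (Dvd.intro_left 2 rfl).trans h2
  rcases k with _ | _ | k
  · exfalso
    rw [pow_zero] at hk
    have h3 := Subgroup.card_mul_index (P : Subgroup H)
    rw [hk, one_mul] at h3
    exact P.not_dvd_index (by rw [h3]; exact hdvd)
  · simpa using hk
  · exfalso
    rw [hk] at h1
    have h3 : p ^ 2 ∣ 2 * p := (pow_dvd_pow p (by omega)).trans h1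
    have h4 : p * p ∣ 2 * p := by rwa [← pow_two]
    have h5 : p ∣ 2 := Nat.dvd_of_mul_dvd_mul_right hpp.pos h4
    have := Nat.le_of_dvd (by norm_num) h5
    omega

theorem exists_gen_sylow [Finite H] (P : Sylow p H) (hPc : Nat.card (P : Subgroup H) = p) :
    ∃ x : H, (P : Subgroup H) = Subgroup.zpowers x ∧ orderOf x = p := by
  have hpp : p.Prime := hpf.out
  haveI : Nontrivial (P : Subgroup H) :=
    (Finite.one_lt_card_iff_nontrivial).mp (by rw [hPc]; exact hpp.one_lt)
  obtain ⟨y, hy⟩ := exists_ne (1 : (P : Subgroup H))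
  have ho : orderOf (y : H) = p := by
    have h1 : orderOf y ∣ Nat.card (P : Subgroup H) := orderOf_dvd_natCard y
    rw [hPc] at h1
    rw [Subgroup.orderOf_coe]
    rcases (Nat.dvd_prime hpp).mp h1 with h2 | h2
    · exact absurd (orderOf_eq_one_iff.mp h2) hy
    · exact h2
  refine ⟨y, ?_, ho⟩
  symm
  apply Subgroup.eq_of_le_of_card_ge
  · rw [Subgroup.zpowers_le]
    exact y.2
  · rw [hPc, Nat.card_zpowers, ho]

theorem card_dvd_of_transitive [Finite H] (K : Subgroup H) [IsPretransitive K α] (a : α) :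
    Fintype.card α ∣ Nat.card K := by
  have h1 := MulAction.index_stabilizer_of_transitive K a
  rw [Nat.card_eq_fintype_card] at h1
  rw [← h1]
  exact Subgroup.index_dvd_card _

theorem conj_into_sylow [Finite H] (P : Sylow p H) (y : H) (hy : orderOf y = p) :
    ∃ c : H, c⁻¹ * y * c ∈ (P : Subgroup H) := by
  have hDp : IsPGroup p (Subgroup.zpowers y) := by
    apply IsPGroup.of_card (n := 1)
    rw [Nat.card_zpowers, hy, pow_one]
  obtain ⟨S, hS⟩ := hDp.exists_le_sylow
  obtain ⟨g, hg⟩ := MulAction.exists_smul_eq H S P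
  refine ⟨g⁻¹, ?_⟩
  rw [← hg]
  show g⁻¹⁻¹ * y * g⁻¹ ∈ ((g • S : Sylow p H) : Subgroup H)
  rw [Sylow.coe_subgroup_smul, Subgroup.mem_pointwise_smul_iff_inv_smul_mem]
  apply hS
  have h1 : (MulAut.conj g)⁻¹ • (g⁻¹⁻¹ * y * g⁻¹) = y := by
    simp [MulAut.smul_def, MulAut.conj_inv_apply]
    group
  rw [h1]
  exact Subgroup.mem_zpowers y

/-- `N_G(P)` does not centralize `P` in a primitive group of composite degree `2p`. -/
theorem cent_of_prim [Finite H] (hprim : IsPreprimitive H α) (hα : Fintype.card α = 2 * p)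
    (hp : 2 < p) (P : Sylow p H) (x : H) (hPx : (P : Subgroup H) = Subgroup.zpowers x)
    (hxo : orderOf x = p)
    (hN : Nat.card (Subgroup.normalizer ((P : Subgroup H) : Set H)) = 2 * p)
    (c : H) (hc : c * x = x * c) : c ∈ Subgroup.zpowers x := by
  classical
  have hpp : p.Prime := hpf.out
  by_contra hcQ
  have hPc : Nat.card (P : Subgroup H) = p := by rw [hPx, Nat.card_zpowers, hxo]
  set Q : Subgroup H := (P : Subgroup H) with hQ
  set N := Subgroup.normalizer ((Q : Subgroup H) : Set H) with hNdef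
  have hle : Q ≤ N := Subgroup.le_normalizer
  have hxQ : x ∈ Q := by rw [hPx]; exact Subgroup.mem_zpowers x
  have hcomm_Q : ∀ n : H, n * x = x * n → ∀ y ∈ Q, n * y = y * n := by
    intro n hn y hy
    rw [hPx] at hy
    obtain ⟨k, rfl⟩ := Subgroup.mem_zpowers_iff.mp hy
    exact ((Commute.zpow_right (show Commute n x from hn) k)).eq
  have hcN : c ∈ N := by
    rw [hNdef, Subgroup.mem_normalizer_iff]
    intro h
    constructor
    · intro hh
      have h3 := hcomm_Q c hc h hh
      rw [h3, mul_inv_cancel_right]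
      exact hh
    · intro hh
      have h3 := hcomm_Q c hc _ hh
      have h4 : c * h * c⁻¹ = h := by
        apply mul_left_cancel (a := c)
        rw [h3, inv_mul_cancel_right]
      rwa [h4] at hh
  have hidx : (Q.subgroupOf N).index = 2 := by
    have h1 := Subgroup.card_mul_index (Q.subgroupOf N)
    have h2 : Nat.card (Q.subgroupOf N) = p := by
      rw [Nat.card_congr (Subgroup.subgroupOfEquivOfLe hle).toEquiv, hPc]
    rw [h2, hN] at h1
    have hp0 := hpp.pos
    nlinarith
  have hall : ∀ n ∈ N, n * x = x * n := by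
    intro n hn
    by_cases hnQ : n ∈ Q
    · exact hcomm_Q x rfl n hnQ |>.symm
    · have h1 := Subgroup.mul_mem_iff_of_index_two hidx (a := ⟨n, hn⟩) (b := ⟨c, hcN⟩)
      have h2 : (⟨n, hn⟩ : N) ∉ Q.subgroupOf N := by rwa [Subgroup.mem_subgroupOf]
      have h3 : (⟨c, hcN⟩ : N) ∉ Q.subgroupOf N := by
        rw [Subgroup.mem_subgroupOf]
        show c ∉ Q
        rw [hPx]
        exact hcQ
      have h4 : (⟨n, hn⟩ * ⟨c, hcN⟩ : N) ∈ Q.subgroupOf N := h1.mpr (iff_of_false h2 h3)
      rw [Subgroup.mem_subgroupOf] at h4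
      have h5 : n * c ∈ Q := h4
      have h6 := hcomm_Q x rfl _ h5
      apply mul_right_cancel (b := c)
      calc n * x * c = n * (c * x) := by rw [hc, mul_assoc]
        _ = n * c * x := by rw [mul_assoc]
        _ = x * (n * c) := h6.symm
        _ = x * n * c := by rw [mul_assoc]
  have hNC : N ≤ Subgroup.centralizer ((Q : Subgroup H) : Set H) := by
    intro n hn
    rw [Subgroup.mem_centralizer_iff]
    intro y hy
    exact (hcomm_Q n (hall n hn) y hy).symm
  obtain ⟨R, hRn, hRc⟩ := Cfsg.Agent.H19.burnside_complement P hNC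
  have hcard := hRc.card_mul_card
  haveI := hprim.toIsPretransitive
  obtain ⟨a⟩ : Nonempty α := by
    apply Fintype.card_pos_iff.mp
    rw [hα]
    have := hpp.pos
    omega
  by_cases hRb : R = ⊥
  · rw [hRb, Subgroup.card_bot, one_mul, hPc] at hcard
    have h1 := MulAction.index_stabilizer_of_transitive H a
    rw [Nat.card_eq_fintype_card, hα] at h1
    have h2 := Subgroup.index_dvd_card (MulAction.stabilizer H a)
    rw [h1, ← hcard] at h2
    have := Nat.le_of_dvd hpp.pos h2
    have := hpp.pos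
    omega
  · haveI := hRn
    haveI := isPretransitive_normal_of_prim hprim R hRb
    have h1 := card_dvd_of_transitive (α := α) R a
    rw [hα] at h1
    have h2 : p ∣ Nat.card R := (Dvd.intro_left 2 rfl).trans h1
    have h3 := Subgroup.card_mul_index (P : Subgroup H)
    have h4 : (P : Subgroup H).index = Nat.card R := by
      have h5 : Nat.card (P : Subgroup H) ≠ 0 := Nat.card_pos.ne'
      apply Nat.eq_of_mul_eq_mul_left (Nat.pos_of_ne_zero h5)
      rw [h3, ← hcard, mul_comm]
    apply P.not_dvd_index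
    rw [h4]
    exact h2

/-- Elements of the normalizer outside `P` invert `P`. -/
theorem conj_inv_of_cent [Finite H] (x : H) (hxo : orderOf x = p)
    (hcent : ∀ c : H, c * x = x * c → c ∈ Subgroup.zpowers x)
    (hN : Nat.card (Subgroup.normalizer ((Subgroup.zpowers x : Subgroup H) : Set H)) = 2 * p)
    {c y : H} (hc : c ∈ Subgroup.normalizer ((Subgroup.zpowers x : Subgroup H) : Set H))
    (hcQ : c ∉ Subgroup.zpowers x) (hy : y ∈ Subgroup.zpowers x) : c⁻¹ * y * c = y⁻¹ := by
  classical
  set Q := Subgroup.zpowers x with hQ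
  set N := Subgroup.normalizer ((Q : Subgroup H) : Set H) with hNdef
  have hle : Q ≤ N := Subgroup.le_normalizer
  have hidx : (Q.subgroupOf N).index = 2 := by
    have h1 := Subgroup.card_mul_index (Q.subgroupOf N)
    have h2 : Nat.card (Q.subgroupOf N) = p := by
      rw [Nat.card_congr (Subgroup.subgroupOfEquivOfLe hle).toEquiv, hQ, Nat.card_zpowers, hxo]
    rw [h2, hN] at h1
    have hp0 := hpf.out.pos
    nlinarith
  have hcc : c * c ∈ Q := by
    have := Subgroup.mul_self_mem_of_index_two hidx ⟨c, hc⟩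
    rwa [Subgroup.mem_subgroupOf] at this
  have hxQ : x ∈ Q := Subgroup.mem_zpowers x
  obtain ⟨n, hn⟩ := Subgroup.mem_zpowers_iff.mp ((Subgroup.mem_normalizer_iff.mp hc x).mp hxQ)
  have hcomm : (c * c) * x = x * (c * c) := by
    obtain ⟨t, ht⟩ := Subgroup.mem_zpowers_iff.mp hcc
    rw [← ht]
    exact (Commute.refl x).zpow_left t
  have hnn : x ^ (n * n) = x := by
    have h1 : c * (c * x * c⁻¹) * c⁻¹ = x := by
      have h2 : c * (c * x * c⁻¹) * c⁻¹ = ((c * c) * x) * (c * c)⁻¹ := by group
      rw [h2, hcomm]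
      group
    rw [← hn] at h1
    rw [← conj_zpow, ← hn, ← zpow_mul] at h1
    exact h1
  have hdvd : (p : ℤ) ∣ (n - 1) * (n + 1) := by
    rw [← hxo]
    rw [orderOf_dvd_iff_zpow_eq_one]
    have h1 : (n - 1) * (n + 1) = n * n - 1 := by ring
    rw [h1, zpow_sub, zpow_one, hnn, mul_inv_cancel]
  have hpi : Prime (p : ℤ) := Nat.prime_iff_prime_int.mp hpf.out
  rcases hpi.dvd_or_dvd hdvd with h | h
  · exfalso
    apply hcQ
    rw [← hxo, orderOf_dvd_iff_zpow_eq_one, zpow_sub, zpow_one] at h
    have h2 : x ^ n = x := by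
      have := mul_eq_one_iff_eq_inv.mp h
      rw [this, inv_inv]
    rw [h2] at hn
    apply hcent
    have h3 : c * x * c⁻¹ * c = x * c := by rw [← hn]
    rw [← h3]
    group
  · rw [← hxo, orderOf_dvd_iff_zpow_eq_one, zpow_add, zpow_one] at h
    have h2 : x ^ n = x⁻¹ := mul_eq_one_iff_eq_inv.mp h
    rw [h2] at hn
    have h3 : c⁻¹ * x * c = x⁻¹ := by
      have h4 : x = c⁻¹ * x⁻¹ * c := by
        rw [hn]
        group
      have h5 : c⁻¹ * x * c = (c⁻¹ * x⁻¹ * c)⁻¹ := by group
      rw [h5, ← h4]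
    obtain ⟨k, rfl⟩ := Subgroup.mem_zpowers_iff.mp hy
    have h4 : c⁻¹ * x ^ k * c = (c⁻¹ * x * c) ^ k := by
      have h5 : c⁻¹ * x * c = c⁻¹ * x * c⁻¹⁻¹ := by simp
      rw [h5, conj_zpow]
      simp
    rw [h4, h3, inv_zpow]

theorem indFun_prime2 [Fintype H] (x : H) (hxo : orderOf x = p)
    (hcent : ∀ c : H, c * x = x * c → c ∈ Subgroup.zpowers x)
    (hN : Nat.card (Subgroup.normalizer ((Subgroup.zpowers x : Subgroup H) : Set H)) = 2 * p)
    [Fintype (Subgroup.zpowers x)]
    (θ : Subgroup.zpowers x → ℂ) (y : Subgroup.zpowers x) (hy : y ≠ 1) :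
    indFun (Subgroup.zpowers x) θ (y : H) = θ y + θ y⁻¹ := by
  classical
  have hy1 : (y : H) ≠ 1 := fun h => hy (Subtype.ext h)
  have hterm : ∀ c : H, extendByZero (Subgroup.zpowers x) θ (c⁻¹ * (y : H) * c) =
      if c ∈ Subgroup.zpowers x then θ y else if c ∈ Subgroup.normalizer ((Subgroup.zpowers x : Subgroup H) : Set H) then θ y⁻¹ else 0 := by
    intro c
    by_cases hcQ : c ∈ Subgroup.zpowers x
    · rw [if_pos hcQ]
      have h1 : c⁻¹ * (y : H) * c = (y : H) := by
        obtain ⟨t, ht⟩ := Subgroup.mem_zpowers_iff.mp hcQ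
        obtain ⟨s, hs⟩ := Subgroup.mem_zpowers_iff.mp y.2
        rw [← hs, ← ht]
        have : Commute (x ^ t) (x ^ s) := (Commute.refl x).zpow_zpow t s
        rw [mul_assoc, this.eq.symm, ← mul_assoc, inv_mul_cancel, one_mul]
      rw [h1]
      exact extendByZero_coe (Subgroup.zpowers x) θ y
    · rw [if_neg hcQ]
      by_cases hcN : c ∈ Subgroup.normalizer ((Subgroup.zpowers x : Subgroup H) : Set H)
      · rw [if_pos hcN]
        have h1 := conj_inv_of_cent x hxo hcent hN hcN hcQ y.2
        rw [h1]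
        exact extendByZero_coe (Subgroup.zpowers x) θ y⁻¹
      · rw [if_neg hcN]
        apply extendByZero_of_not_mem
        intro h
        exact hcN (mem_normalizer_of_conj_mem x hxo y.2 hy1 h)
  have hle : Subgroup.zpowers x ≤ Subgroup.normalizer ((Subgroup.zpowers x : Subgroup H) : Set H) := Subgroup.le_normalizer
  have hA : ((Finset.univ.filter (· ∈ Subgroup.zpowers x)).card : ℕ) = p := by
    have h1 : Nat.card (Subgroup.zpowers x) = p := by rw [Nat.card_zpowers, hxo]
    rw [← h1, Nat.card_eq_fintype_card, Fintype.card_subtype]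
  have hB : ((Finset.univ.filter (· ∈ Subgroup.normalizer ((Subgroup.zpowers x : Subgroup H) : Set H))).card : ℕ) = 2 * p := by
    rw [← hN, Nat.card_eq_fintype_card, Fintype.card_subtype]
  have hp0 : (p : ℂ) ≠ 0 := by exact_mod_cast hpf.out.ne_zero
  simp only [indFun]
  simp only [hterm]
  rw [sum_two_levelH (fun c => c ∈ Subgroup.zpowers x) (fun c => c ∈ Subgroup.normalizer ((Subgroup.zpowers x : Subgroup H) : Set H)) (fun c hc => hle hc), hA, hB]
  have h1 : Nat.card (Subgroup.zpowers x) = p := by rw [Nat.card_zpowers, hxo]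
  rw [h1]
  push_cast
  field_simp
  ring

/-- Every nontrivial normal subgroup contains an involution and a nontrivial element of `P`. -/
theorem normal_has_of_prim [Finite H] (hprim : IsPreprimitive H α) (hα : Fintype.card α = 2 * p)
    (P : Sylow p H) (K : Subgroup H) (hKn : K.Normal) (hK : K ≠ ⊥) :
    (∃ z : (P : Subgroup H), z ≠ 1 ∧ (z : H) ∈ K) ∧ ∃ u ∈ K, orderOf u = 2 := by
  have hpp : p.Prime := hpf.out
  haveI := hKn
  haveI := isPretransitive_normal_of_prim hprim K hK
  obtain ⟨a⟩ : Nonempty α := by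
    apply Fintype.card_pos_iff.mp
    rw [hα]
    have := hpp.pos
    omega
  have h1 := card_dvd_of_transitive (α := α) K a
  rw [hα] at h1
  constructor
  · have h2 : p ∣ Nat.card K := (Dvd.intro_left 2 rfl).trans h1
    obtain ⟨y, hy⟩ := exists_prime_orderOf_dvd_card' p h2
    have hy' : orderOf (y : H) = p := by rw [Subgroup.orderOf_coe, hy]
    obtain ⟨c, hc⟩ := conj_into_sylow P (y : H) hy'
    refine ⟨⟨_, hc⟩, ?_, ?_⟩
    · intro h
      have h3 : c⁻¹ * (y : H) * c = 1 := congrArg Subtype.val h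
      have h4 : (y : H) = 1 := by
        have h5 : (y : H) = c * (c⁻¹ * (y : H) * c) * c⁻¹ := by group
        rw [h5, h3]
        group
      rw [h4, orderOf_one] at hy'
      exact hpp.one_lt.ne hy'
    · have := hKn.conj_mem (y : H) y.2 c⁻¹
      rwa [inv_inv] at this
  · haveI : Fact (Nat.Prime 2) := ⟨Nat.prime_two⟩
    have h2 : 2 ∣ Nat.card K := (Dvd.intro p rfl).trans h1
    obtain ⟨u, hu⟩ := exists_prime_orderOf_dvd_card' 2 h2
    exact ⟨u, u.2, by rw [Subgroup.orderOf_coe, hu]⟩

/-- `p`-singular elements are conjugate into `P`. -/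
theorem sing_conj [Finite H] (hp : 2 < p) (P : Sylow p H) (x : H)
    (hPx : (P : Subgroup H) = Subgroup.zpowers x) (hxo : orderOf x = p)
    (hcent : ∀ c : H, c * x = x * c → c ∈ Subgroup.zpowers x)
    (g : H) (hg : p ∣ orderOf g) :
    ∃ (c : H) (z : (P : Subgroup H)), z ≠ 1 ∧ c⁻¹ * g * c = z := by
  have hpp : p.Prime := hpf.out
  have ho : orderOf g ≠ 0 := (orderOf_pos g).ne'
  have h1 := orderOf_pow_orderOf_div ho hg
  set h := g ^ (orderOf g / p) with hh
  obtain ⟨c, hc⟩ := conj_into_sylow P h h1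
  set z := c⁻¹ * h * c with hz
  have hz1 : z ≠ 1 := by
    intro h3
    have h4 : h = 1 := by
      have h5 : h = c * z * c⁻¹ := by rw [hz]; group
      rw [h5, h3]
      group
    rw [h4, orderOf_one] at h1
    exact hpp.one_lt.ne h1
  set g' := c⁻¹ * g * c with hg'
  have hcomm : g' * z = z * g' := by
    have h3 : g * h = h * g := by
      rw [hh]
      exact ((Commute.refl g).pow_right _).eq
    simp only [hg', hz]
    calc c⁻¹ * g * c * (c⁻¹ * h * c) = c⁻¹ * (g * h) * c := by group
      _ = c⁻¹ * (h * g) * c := by rw [h3]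
      _ = c⁻¹ * h * c * (c⁻¹ * g * c) := by group
  rw [hPx] at hc
  have hg'Q : g' ∈ Subgroup.zpowers x := by
    have hzgen := zpowers_eq_of_mem x hxo hc hz1
    have hxz : x ∈ Subgroup.zpowers z := by
      rw [hzgen]
      exact Subgroup.mem_zpowers x
    apply hcent
    obtain ⟨t, ht⟩ := Subgroup.mem_zpowers_iff.mp hxz
    rw [← ht]
    exact ((Commute.zpow_right (show Commute g' z from hcomm) t)).eq
  refine ⟨c, ⟨g', by rw [hPx]; exact hg'Q⟩, ?_, rfl⟩
  intro h3
  have h4 : g' = 1 := congrArg Subtype.val h3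
  have h5 : g = 1 := by
    have h6 : g = c * g' * c⁻¹ := by rw [hg']; group
    rw [h6, h4]
    group
  rw [h5, orderOf_one] at hg
  have := Nat.le_of_dvd one_pos hg
  omega

theorem fixedBy_pow_coprime [Finite H] (g : H) (k : ℕ) (hk : k.Coprime (Nat.card H)) :
    MulAction.fixedBy α (g ^ k) = MulAction.fixedBy α g := by
  apply Set.Subset.antisymm
  · have hb := Nat.gcd_eq_gcd_ab k (Nat.card H)
    rw [Nat.Coprime.gcd_eq_one hk] at hb
    have h1 : g = (g ^ k) ^ (Nat.gcdA k (Nat.card H)) := by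
      have h2 : g ^ ((k : ℤ) * Nat.gcdA k (Nat.card H) + (Nat.card H : ℤ) * Nat.gcdB k (Nat.card H)) = g := by
        rw [← hb]
        simp
      rw [zpow_add, zpow_mul, zpow_mul, zpow_natCast, zpow_natCast, pow_card_eq_one', one_zpow,
        mul_one] at h2
      exact h2.symm
    intro a ha
    rw [h1]
    exact MulAction.fixedBy_subset_fixedBy_zpow α (g ^ k) _ ha
  · rw [← zpow_natCast]
    exact MulAction.fixedBy_subset_fixedBy_zpow α g _

theorem two_trans_of_rank_two (a₀ : α) [IsPretransitive H α]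
    (hrank : Nat.card (MulAction.orbitRel.Quotient (MulAction.stabilizer H a₀) α) = 2) :
    IsMultiplyPretransitive H α 2 := by
  classical
  letI : Fintype (MulAction.orbitRel.Quotient (MulAction.stabilizer H a₀) α) := Fintype.ofFinite _
  set Q := MulAction.orbitRel.Quotient (MulAction.stabilizer H a₀) α with hQ
  have hc : Fintype.card Q = 2 := by rwa [← Nat.card_eq_fintype_card]
  have hmem : ∀ y z : α, (Quotient.mk'' y : Q) = Quotient.mk'' z ↔
      y ∈ MulAction.orbit (MulAction.stabilizer H a₀) z := by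
    intro y z
    rw [Quotient.eq'']
    rfl
  have hne : ∀ b : α, b ≠ a₀ → (Quotient.mk'' b : Q) ≠ Quotient.mk'' a₀ := by
    intro b hb h
    obtain ⟨s, hs⟩ := (hmem b a₀).1 h
    apply hb
    rw [← hs]
    exact s.2
  have hsame : ∀ b c : α, b ≠ a₀ → c ≠ a₀ → ∃ s : H, s • a₀ = a₀ ∧ s • c = b := by
    intro b c hb hc'
    by_contra hcon
    have h1 : (Quotient.mk'' b : Q) ≠ Quotient.mk'' c := by
      intro h
      obtain ⟨s, hs⟩ := (hmem b c).1 h
      exact hcon ⟨s.1, s.2, hs⟩
    have h2 : ({Quotient.mk'' a₀, Quotient.mk'' b, Quotient.mk'' c} : Finset Q).card = 3 :=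
      Finset.card_eq_three.2 ⟨_, _, _, (hne b hb).symm, (hne c hc').symm, h1, rfl⟩
    have h3 := Finset.card_le_univ ({Quotient.mk'' a₀, Quotient.mk'' b, Quotient.mk'' c} : Finset Q)
    omega
  rw [is_two_pretransitive_iff]
  intro a b c d hab hcd
  obtain ⟨g₁, hg₁⟩ := MulAction.exists_smul_eq H a a₀
  obtain ⟨g₂, hg₂⟩ := MulAction.exists_smul_eq H c a₀
  have h1 : g₁ • b ≠ a₀ := by
    rw [← hg₁]
    exact fun h => hab (smul_left_cancel g₁ h).symm
  have h2 : g₂ • d ≠ a₀ := by
    rw [← hg₂]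
    exact fun h => hcd (smul_left_cancel g₂ h).symm
  obtain ⟨s, hs1, hs2⟩ := hsame _ _ h2 h1
  refine ⟨g₂⁻¹ * s * g₁, ?_, ?_⟩
  · simp only [mul_smul, hg₁, hs1, inv_smul_eq_iff, hg₂]
  · simp only [mul_smul, hs2, inv_smul_smul]

end

/-- A prime-order element of a primitive group of degree `2p`, not `2`-transitive, has no fixed
point. -/
theorem no_fixed_of_not_two {α : Type*} [Fintype α] [DecidableEq α] {p : ℕ} [hpf : Fact p.Prime]
    (hp : 3 < p) (hα : Fintype.card α = 2 * p) (G : Subgroup (Equiv.Perm α))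
    (hprim : MulAction.IsPreprimitive G α) (hnot2 : ¬ MulAction.IsMultiplyPretransitive G α 2)
    (x : G) (hxo : orderOf x = p) (a : α) : x • a ≠ a := by
  intro hfix
  have hpp : p.Prime := hpf.out
  set σ : Equiv.Perm α := (x : Equiv.Perm α) with hσ
  have hoσ : orderOf σ = p := by rw [hσ, Subgroup.orderOf_coe, hxo]
  have h1 : σ ^ p ^ 1 = 1 := by rw [pow_one, ← hoσ, pow_orderOf_eq_one]
  have h2 := Equiv.Perm.card_compl_support_modEq h1
  have hdvd : p ∣ σ.supportᶜ.card := by
    have h3 : σ.supportᶜ.card % p = 0 := by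
      have := h2
      rw [Nat.ModEq, hα] at this
      rw [this]
      simp
    exact Nat.dvd_of_mod_eq_zero h3
  have ha : a ∈ σ.supportᶜ := by
    rw [Finset.mem_compl, Equiv.Perm.notMem_support]
    exact hfix
  have hpos : 0 < σ.supportᶜ.card := Finset.card_pos.mpr ⟨a, ha⟩
  have hle : σ.supportᶜ.card ≤ 2 * p := by
    rw [← hα]
    exact Finset.card_le_univ _
  have hσ1 : σ ≠ 1 := by
    intro h
    rw [h, orderOf_one] at hoσ
    exact hpp.one_lt.ne hoσ
  have hsupp : σ.support.card + σ.supportᶜ.card = 2 * p := by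
    rw [Finset.card_add_card_compl, hα]
  have hsne : σ.support.card ≠ 0 := by
    intro h
    rw [Finset.card_eq_zero, Equiv.Perm.support_eq_empty_iff] at h
    exact hσ1 h
  obtain ⟨k, hk⟩ := hdvd
  have hk1 : k = 1 := by
    have hk0 : k ≠ 0 := by
      rintro rfl
      rw [mul_zero] at hk
      omega
    have hk2 : k < 2 := by
      by_contra hge
      have : p * 2 ≤ p * k := Nat.mul_le_mul_left p (by omega)
      omega
    omega
  subst hk1
  have hs : σ.support.card = p := by omega
  have hcyc : σ.IsCycle := Equiv.Perm.isCycle_of_prime_order (by rw [hoσ]; exact hpp)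
    (by rw [hoσ, hs]; have := hpp.pos; omega)
  have htr := Equiv.Perm.isPretransitive_of_isCycle_mem (G := G) hcyc x.2
  apply hnot2
  apply hprim.is_two_pretransitive (s := ((σ.support : Finset α) : Set α)ᶜ) (n := p - 1) _ _ htr
  · rw [← Finset.coe_compl, Set.ncard_coe_finset, hk]
    have := hpp.pos
    omega
  · rw [Nat.card_eq_fintype_card, hα]
    omega

end Cfsg.Agent.H22
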