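import Cfsg.Agent.Lib.H22.BwD
import Cfsg.Agent.Lib.H22.Deg2pC
import Cfsg.Agent.Lib.H22.Deg2pD

/-! # `N/C` of order three: the quadratic form on the principal block -/

set_option autoImplicit false
set_option linter.unusedSectionVars false
set_option linter.style.haveILetI false
set_option linter.unusedSimpArgs false
set_option linter.unusedVariables false

namespace Cfsg.Agent.H22

open Cfsg Cfsg.Agent.H21 Cfsg.Agent.H23
open scoped ComplexConjugate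

universe u

section Alg

theorem iso_identity (c₁ c₂ c₃ a₁ a₂ a₃ b₁ b₂ b₃ : ℚ)
    (h₁ : 1 + c₁ * a₁ ^ 2 + c₂ * a₂ ^ 2 + c₃ * a₃ ^ 2 = 0)
    (h₂ : 1 + c₁ * a₁ * b₁ + c₂ * a₂ * b₂ + c₃ * a₃ * b₃ = 0)
    (h₃ : 1 + c₁ * b₁ ^ 2 + c₂ * b₂ ^ 2 + c₃ * b₃ ^ 2 = 0) :
    c₁ * (a₁ - b₁) ^ 2 = c₂ * c₃ * (a₂ * b₃ - a₃ * b₂) ^ 2 := by
  linear_combination (1 + c₁ * b₁ ^ 2) * h₁ - (c₂ * a₂ ^ 2 + c₃ * a₃ ^ 2) * h₃ -
    ((1 + c₁ * a₁ * b₁) - (c₂ * a₂ * b₂ + c₃ * a₃ * b₃)) * h₂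

theorem isSquare_of_mul_sq {n u w : ℕ} (hu : u ≠ 0) (h : n * u ^ 2 = w ^ 2) : IsSquare n := by
  have h1 : u ^ 2 ∣ w ^ 2 := ⟨n, by rw [← h]; ring⟩
  have h2 : u ∣ w := (Nat.pow_dvd_pow_iff (by norm_num)).mp h1
  obtain ⟨k, rfl⟩ := h2
  refine ⟨k, ?_⟩
  have h3 : u ^ 2 ≠ 0 := pow_ne_zero 2 hu
  apply Nat.eq_of_mul_eq_mul_right (Nat.pos_of_ne_zero h3)
  rw [h]
  ring

/-- A totally isotropic plane forces the discriminant to be a square. -/
theorem iso_main (f₁ f₂ f₀ : ℕ) (hf₁ : 0 < f₁) (hf₂ : 0 < f₂) (hf₀ : 0 < f₀) (a₁ a₂ e₀ : ℤ)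
    (ha₁ : a₁ = 1 ∨ a₁ = -1) (ha₂ : a₂ = 1 ∨ a₂ = -1) (he₀ : e₀ = 1 ∨ e₀ = -1) (b₁ b₂ b₀ : ℤ)
    (h1 : 1 + a₁ * f₁ + a₂ * f₂ + e₀ * f₀ = 0) (h2 : 1 + a₁ * b₁ + a₂ * b₂ + e₀ * b₀ = 0)
    (h3 : (1 : ℚ) + a₁ * b₁ ^ 2 / f₁ + a₂ * b₂ ^ 2 / f₂ + e₀ * b₀ ^ 2 / f₀ = 0)
    (hne : b₁ ≠ f₁) : e₀ * a₁ * a₂ = 1 ∧ IsSquare (f₁ * f₂ * f₀) := by
  have hf₁q : (f₁ : ℚ) ≠ 0 := by exact_mod_cast hf₁.ne'
  have hf₂q : (f₂ : ℚ) ≠ 0 := by exact_mod_cast hf₂.ne'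
  have hf₀q : (f₀ : ℚ) ≠ 0 := by exact_mod_cast hf₀.ne'
  have h1q : (1 : ℚ) + a₁ * f₁ + a₂ * f₂ + e₀ * f₀ = 0 := by exact_mod_cast h1
  have h2q : (1 : ℚ) + a₁ * b₁ + a₂ * b₂ + e₀ * b₀ = 0 := by exact_mod_cast h2
  have key := iso_identity ((a₁ : ℚ) / f₁) ((a₂ : ℚ) / f₂) ((e₀ : ℚ) / f₀) f₁ f₂ f₀ b₁ b₂ b₀
    (by field_simp; field_simp at h1q; linarith)
    (by field_simp; field_simp at h2q; linarith)
    (by linarith [h3, (by ring : (a₁ : ℚ) * b₁ ^ 2 / f₁ = (a₁ : ℚ) / f₁ * b₁ ^ 2),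
      (by ring : (a₂ : ℚ) * b₂ ^ 2 / f₂ = (a₂ : ℚ) / f₂ * b₂ ^ 2),
      (by ring : (e₀ : ℚ) * b₀ ^ 2 / f₀ = (e₀ : ℚ) / f₀ * b₀ ^ 2)])
  set D : ℤ := (f₂ : ℤ) * b₀ - f₀ * b₂ with hD
  set v : ℤ := (f₁ : ℤ) - b₁ with hv
  have hv0 : v ≠ 0 := fun h => hne (by rw [hv] at h; omega)
  have key2 : (a₁ : ℤ) * f₂ * f₀ * v ^ 2 = a₂ * e₀ * f₁ * D ^ 2 := by
    have h4 : ((a₁ : ℚ) * f₂ * f₀ * ((f₁ : ℚ) - b₁) ^ 2) = a₂ * e₀ * f₁ * ((f₂ : ℚ) * b₀ - f₀ * b₂) ^ 2 := by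
      field_simp at key
      linarith
    rw [hD, hv]
    exact_mod_cast h4
  have hsq₁ : a₁ * a₁ = 1 := by rcases ha₁ with rfl | rfl <;> norm_num
  have hsq₂ : a₂ * a₂ = 1 := by rcases ha₂ with rfl | rfl <;> norm_num
  have hsq₀ : e₀ * e₀ = 1 := by rcases he₀ with rfl | rfl <;> norm_num
  have key3 : ((f₂ : ℤ) * f₀ * v ^ 2) = (e₀ * a₁ * a₂) * f₁ * D ^ 2 := by
    calc ((f₂ : ℤ) * f₀ * v ^ 2) = (a₁ * a₁) * ((f₂ : ℤ) * f₀ * v ^ 2) := by rw [hsq₁, one_mul]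
      _ = a₁ * (a₁ * f₂ * f₀ * v ^ 2) := by ring
      _ = a₁ * (a₂ * e₀ * f₁ * D ^ 2) := by rw [key2]
      _ = _ := by ring
  have hpos : 0 < ((f₂ : ℤ) * f₀ * v ^ 2) := by positivity
  have hf₁z : (0 : ℤ) < f₁ := by exact_mod_cast hf₁
  have hσ : e₀ * a₁ * a₂ = 1 := by
    have h5 : e₀ * a₁ * a₂ = 1 ∨ e₀ * a₁ * a₂ = -1 := by
      rcases ha₁ with rfl | rfl <;> rcases ha₂ with rfl | rfl <;> rcases he₀ with rfl | rfl <;> norm_num
    rcases h5 with h5 | h5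
    · exact h5
    · exfalso
      rw [h5] at key3
      nlinarith [sq_nonneg D]
  refine ⟨hσ, ?_⟩
  rw [hσ, one_mul] at key3
  have key4 : ((f₁ * f₂ * f₀ : ℕ) : ℤ) * v ^ 2 = ((f₁ : ℤ) * D) ^ 2 := by
    push_cast
    linear_combination (f₁ : ℤ) * key3
  have key5 : (f₁ * f₂ * f₀) * v.natAbs ^ 2 = (((f₁ : ℤ) * D).natAbs) ^ 2 := by
    zify
    rw [sq_abs, sq_abs]
    exact_mod_cast key4
  exact isSquare_of_mul_sq (Int.natAbs_ne_zero.mpr hv0) key5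

end Alg

section Orth

variable {G : Type u} [Group G] [Finite G] {p : ℕ} [hp : Fact p.Prime] {M : Ideal AlgInt}
  [hMp : M.IsPrime]

theorem orth_fin (hM : IsPModular p M) {g h x z : G} (hg : IsPPart p g x) (hh : IsPPart p h z)
    (hne : ¬ IsConj x z) :
    ∑ᶠ χ ∈ principalBlock M G, χ.1 h * conj (χ.1 g) = 0 := by
  classical
  haveI : Fintype G := Fintype.ofFinite G
  haveI : Fintype (IrrCharacter G) := Fintype.ofFinite _
  rw [finsum_mem_irr]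
  have h1 := block_orth_sections hM hg hh hne (principalBlock_isBlock (M := M) (G := G))
  convert h1

theorem class_sq_sum [Fintype G] [Fintype (IrrCharacter G)] (χ : IrrCharacter G) (t : G) :
    ∑ a : G, ∑ b : G, χ.1 (a * t * a⁻¹ * (b * t * b⁻¹)) =
      (Nat.card G : ℂ) * (Nat.card G : ℂ) * (χ.1 t * χ.1 t / χ.1 1) := by
  rw [Finset.sum_comm]
  have h1 : ∀ b : G, ∑ a : G, χ.1 (a * t * a⁻¹ * (b * t * b⁻¹)) =
      (Nat.card G : ℂ) * (χ.1 t * χ.1 t / χ.1 1) := by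
    intro b
    rw [sum_conj_mul_char χ t (b * t * b⁻¹),
      isCharacter_conj (Cfsg.Agent.H21.isCharacter_of_irr χ.2) t b]
    ring
  simp only [h1, Finset.sum_const, Finset.card_univ, nsmul_eq_mul]
  rw [Nat.card_eq_fintype_card]
  ring

/-- The vanishing of the sums attached to pairs of conjugates whose product has no
`y`-section. -/
theorem Q_zero (hM : IsPModular p M) {t y : G} (hy : ∃ k, orderOf y = p ^ k)
    (hno : ∀ a b x : G, IsPPart p (a * t * a⁻¹ * (b * t * b⁻¹)) x → ¬ IsConj y x) :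
    ∑ᶠ χ ∈ principalBlock M G, (χ.1 t * χ.1 t / χ.1 1) * conj (χ.1 y) = 0 := by
  classical
  haveI : Fintype G := Fintype.ofFinite G
  haveI : Fintype (IrrCharacter G) := Fintype.ofFinite _
  have hG : (Nat.card G : ℂ) ≠ 0 := by exact_mod_cast Nat.card_pos.ne'
  rw [finsum_mem_eq_finite_toFinset_sum _ (Set.toFinite (principalBlock M G))]
  set S := (Set.toFinite (principalBlock M G)).toFinset with hS
  have h1 : ∀ a b : G, ∑ χ ∈ S, χ.1 (a * t * a⁻¹ * (b * t * b⁻¹)) * conj (χ.1 y) = 0 := by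
    intro a b
    have h2 := orth_fin (M := M) hM (isPPart_self_of hy)
      (isPPart_pPt p (a * t * a⁻¹ * (b * t * b⁻¹))) (hno a b _ (isPPart_pPt p _))
    rw [finsum_mem_eq_finite_toFinset_sum _ (Set.toFinite (principalBlock M G))] at h2
    exact h2
  have h3 : ∀ χ : IrrCharacter G, (χ.1 t * χ.1 t / χ.1 1) * conj (χ.1 y) =
      ((Nat.card G : ℂ) * (Nat.card G : ℂ))⁻¹ * ∑ a : G, ∑ b : G,
        χ.1 (a * t * a⁻¹ * (b * t * b⁻¹)) * conj (χ.1 y) := by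
    intro χ
    have h4 := class_sq_sum χ t
    have h5 : ∑ a : G, ∑ b : G, χ.1 (a * t * a⁻¹ * (b * t * b⁻¹)) * conj (χ.1 y) =
        (∑ a : G, ∑ b : G, χ.1 (a * t * a⁻¹ * (b * t * b⁻¹))) * conj (χ.1 y) := by
      simp only [Finset.sum_mul]
    rw [h5, h4]
    field_simp
  simp only [h3]
  rw [← Finset.mul_sum]
  apply mul_eq_zero_of_right
  rw [Finset.sum_comm]
  apply Finset.sum_eq_zero
  intro a _
  rw [Finset.sum_comm]
  exact Finset.sum_eq_zero fun b _ => h1 a b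

theorem real_p_part {t₁ t₂ x : G} (h₁ : t₁ * t₁ = 1) (h₂ : t₂ * t₂ = 1)
    (h : IsPPart p (t₁ * t₂) x) : t₁ * x * t₁⁻¹ = x⁻¹ := by
  have hi₁ : t₁⁻¹ = t₁ := inv_eq_of_mul_eq_one_left h₁
  have hi₂ : t₂⁻¹ = t₂ := inv_eq_of_mul_eq_one_left h₂
  have h1 := isPPart_conj h t₁
  have h2 : t₁ * (t₁ * t₂) * t₁⁻¹ = (t₁ * t₂)⁻¹ := by
    rw [hi₁, mul_inv_rev, hi₁, hi₂]
    calc t₁ * (t₁ * t₂) * t₁ = (t₁ * t₁) * t₂ * t₁ := by group
      _ = t₂ * t₁ := by rw [h₁, one_mul]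
  rw [h2] at h1
  obtain ⟨w, hw, hc, ho, hr⟩ := h
  have h3 : IsPPart p (t₁ * t₂)⁻¹ x⁻¹ := by
    refine ⟨w⁻¹, ?_, hc.inv_inv, ?_, ?_⟩
    · rw [← hw, mul_inv_rev, hc.inv_inv.eq]
    · rwa [orderOf_inv]
    · rwa [orderOf_inv]
  exact pPart_unique h1 h3

end Orth

section Local

variable {G : Type u} [Group G] [Finite G] {p : ℕ} [hp : Fact p.Prime]

/-- An element of the abelian Sylow subgroup conjugate to its inverse is an involution, when `N/C`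
has order three. -/
theorem conj_inv_sq (P : Sylow p G)
    (hcomm : ∀ a ∈ (P : Subgroup G), ∀ b ∈ (P : Subgroup G), a * b = b * a)
    (hCN : (Subgroup.centralizer ((P : Subgroup G) : Set G)).relIndex
      (Subgroup.normalizer ((P : Subgroup G) : Set G)) = 3)
    (hfrob : ∀ y : G, y ∈ (P : Subgroup G) → y ≠ 1 →
      Subgroup.centralizer ({y} : Set G) ⊓ Subgroup.normalizer ((P : Subgroup G) : Set G) =
        Subgroup.centralizer ((P : Subgroup G) : Set G))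
    {y : G} (hy : y ∈ (P : Subgroup G)) (h : IsConj y y⁻¹) : y * y = 1 := by
  by_cases hy1 : y = 1
  · simp [hy1]
  have hyi : y⁻¹ ∈ (P : Subgroup G) := (P : Subgroup G).inv_mem hy
  obtain ⟨c, hc⟩ := isConj_iff.mp h
  obtain ⟨n, hn, hne⟩ := burnside_conj P (a := y) (b := y⁻¹) (c := c)
    (fun s hs => by rw [hcomm s hs y hy]; group)
    (fun s hs => by rw [hcomm s hs _ hyi]; group) hc
  set C := Subgroup.centralizer ((P : Subgroup G) : Set G) with hC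
  set N := Subgroup.normalizer ((P : Subgroup G) : Set G) with hN
  have hnormal : (C.subgroupOf N).Normal := by
    have h1 : (P : Subgroup G).normalizerMonoidHom.ker = C.subgroupOf N :=
      Subgroup.normalizerMonoidHom_ker _
    rw [← h1]
    infer_instance
  let n₀ : N := ⟨n, hn⟩
  have h3 : n₀ ^ 3 ∈ C.subgroupOf N := by
    have h4 := Subgroup.pow_index_mem (C.subgroupOf N) n₀
    have h5 : (C.subgroupOf N).index = 3 := hCN
    rwa [h5] at h4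
  have h2 : n₀ ^ 2 ∈ C.subgroupOf N := by
    rw [Subgroup.mem_subgroupOf]
    have h6 : (n : G) ^ 2 ∈ Subgroup.centralizer ({y} : Set G) := by
      rw [Subgroup.mem_centralizer_singleton_iff]
      have h7 : n * y⁻¹ * n⁻¹ = y := by
        calc n * y⁻¹ * n⁻¹ = (n * y * n⁻¹)⁻¹ := by group
          _ = (y⁻¹)⁻¹ := by rw [hne]
          _ = y := inv_inv y
      have h8 : n * n * y * (n * n)⁻¹ = y := by
        calc n * n * y * (n * n)⁻¹ = n * (n * y * n⁻¹) * n⁻¹ := by group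
          _ = n * y⁻¹ * n⁻¹ := by rw [hne]
          _ = y := h7
      rw [sq]
      exact mul_inv_eq_iff_eq_mul.mp h8
    have h8 : (n : G) ^ 2 ∈ Subgroup.centralizer ({y} : Set G) ⊓ N :=
      ⟨h6, N.pow_mem hn 2⟩
    rw [hfrob y hy hy1] at h8
    exact h8
  have h9 : n₀ ∈ C.subgroupOf N := by
    have h10 : n₀ = n₀ ^ 3 * (n₀ ^ 2)⁻¹ := by group
    rw [h10]
    exact (C.subgroupOf N).mul_mem h3 ((C.subgroupOf N).inv_mem h2)
  have h11 : n ∈ C := Subgroup.mem_subgroupOf.mp h9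
  have h12 := Subgroup.mem_centralizer_iff.mp h11 y hy
  have h13 : n * y * n⁻¹ = y := by
    rw [← h12]
    group
  rw [h13] at hne
  calc y * y = y⁻¹ * y := by rw [← hne]
    _ = 1 := by group

/-- `p` odd: no product of two involutions has a `p`-part conjugate to a nontrivial element of `P`. -/
theorem no_section_odd (P : Sylow p G)
    (hcomm : ∀ a ∈ (P : Subgroup G), ∀ b ∈ (P : Subgroup G), a * b = b * a)
    (hCN : (Subgroup.centralizer ((P : Subgroup G) : Set G)).relIndex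
      (Subgroup.normalizer ((P : Subgroup G) : Set G)) = 3)
    (hfrob : ∀ y : G, y ∈ (P : Subgroup G) → y ≠ 1 →
      Subgroup.centralizer ({y} : Set G) ⊓ Subgroup.normalizer ((P : Subgroup G) : Set G) =
        Subgroup.centralizer ((P : Subgroup G) : Set G))
    (hp2 : p ≠ 2) {y : G} (hy : y ∈ (P : Subgroup G)) (hy1 : y ≠ 1) {t₁ t₂ x : G}
    (h₁ : t₁ * t₁ = 1) (h₂ : t₂ * t₂ = 1) (h : IsPPart p (t₁ * t₂) x) : ¬ IsConj y x := by
  intro hc
  have h1 := real_p_part h₁ h₂ h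
  have h2 : IsConj x x⁻¹ := isConj_iff.mpr ⟨t₁, h1⟩
  have h3 : IsConj y y⁻¹ := by
    have h4 : IsConj x⁻¹ y⁻¹ := by
      obtain ⟨c, hc⟩ := isConj_iff.mp hc.symm
      refine isConj_iff.mpr ⟨c, ?_⟩
      rw [← hc]
      group
    exact hc.trans (h2.trans h4)
  have h5 := conj_inv_sq P hcomm hCN hfrob hy h3
  obtain ⟨k, hk⟩ := bw_order_of_mem P hy
  have h6 : orderOf y ∣ 2 := orderOf_dvd_of_pow_eq_one (by rw [sq]; exact h5)
  rw [hk] at h6
  have hpp := hp.out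
  rcases Nat.eq_zero_or_pos k with rfl | hk0
  · rw [pow_zero, orderOf_eq_one_iff] at hk
    exact hy1 hk
  · have h7 : p ∣ 2 := (dvd_pow_self p hk0.ne').trans h6
    exact hp2 ((Nat.prime_dvd_prime_iff_eq hpp Nat.prime_two).mp h7)

/-- The complement of the centralizer contains its commutators. -/
theorem bw_cent_npc2 (P : Sylow p G)
    (hcomm : ∀ a ∈ (P : Subgroup G), ∀ b ∈ (P : Subgroup G), a * b = b * a)
    (hfrob : ∀ y : G, y ∈ (P : Subgroup G) → y ≠ 1 →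
      Subgroup.centralizer ({y} : Set G) ⊓ Subgroup.normalizer ((P : Subgroup G) : Set G) =
        Subgroup.centralizer ((P : Subgroup G) : Set G))
    {y : G} (hy : y ∈ (P : Subgroup G)) (hy1 : y ≠ 1) :
    ∃ O : Subgroup (Subgroup.centralizer ({y} : Set G)), O.Normal ∧ (Nat.card O).Coprime p ∧
      (∃ k, O.index = p ^ k) ∧ ∀ c g : Subgroup.centralizer ({y} : Set G), c * g * c⁻¹ * g⁻¹ ∈ O := by
  classical
  set H := Subgroup.centralizer ({y} : Set G) with hH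
  have hPH : (P : Subgroup G) ≤ H := fun s hs =>
    Subgroup.mem_centralizer_singleton_iff.mpr (hcomm s hs y hy)
  let P' : Sylow p H := P.subtype hPH
  have hcoe : (P' : Subgroup H) = (P : Subgroup G).subgroupOf H := Sylow.coe_subtype P hPH
  have hmem : ∀ a : H, a ∈ (P' : Subgroup H) ↔ (a : G) ∈ (P : Subgroup G) := by
    intro a
    rw [hcoe, Subgroup.mem_subgroupOf]
  have hN : Subgroup.normalizer ((P' : Subgroup H) : Set H) ≤
      Subgroup.centralizer ((P' : Subgroup H) : Set H) := by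
    intro h hh
    have h1 : (h : G) ∈ Subgroup.normalizer ((P : Subgroup G) : Set G) := by
      rw [Subgroup.mem_normalizer_iff]
      intro s
      rw [Subgroup.mem_normalizer_iff] at hh
      constructor
      · intro hs
        have hsH : s ∈ H := hPH hs
        have h2 := (hh ⟨s, hsH⟩).mp ((hmem _).mpr hs)
        exact (hmem _).mp h2
      · intro hs
        have h3 : (h : G) * s * (h : G)⁻¹ ∈ H := hPH hs
        have hsH : s ∈ H := by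
          have h4 : s = (h : G)⁻¹ * ((h : G) * s * (h : G)⁻¹) * (h : G) := by group
          rw [h4]
          exact H.mul_mem (H.mul_mem (H.inv_mem h.2) h3) h.2
        have h5 := (hh ⟨s, hsH⟩).mpr ((hmem _).mpr hs)
        exact (hmem _).mp h5
    have h2 : (h : G) ∈ H ⊓ Subgroup.normalizer ((P : Subgroup G) : Set G) := ⟨h.2, h1⟩
    have h2' : (h : G) ∈ Subgroup.centralizer ((P : Subgroup G) : Set G) := by
      rw [← hfrob y hy hy1]
      exact h2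
    rw [Subgroup.mem_centralizer_iff]
    intro a ha
    apply Subtype.ext
    exact (Subgroup.mem_centralizer_iff.mp h2') a ((hmem a).mp ha)
  obtain ⟨R, hRn, hRc⟩ := Cfsg.Agent.H19.burnside_complement P' hN
  have h1 : (P' : Subgroup H).index = Nat.card R := hRc.index_eq_card
  have h2 : R.index = Nat.card (P' : Subgroup H) := hRc.symm.index_eq_card
  have h3 : Nat.card (P' : Subgroup H) = p ^ (Nat.card H).factorization p := P'.card_eq_multiplicity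
  refine ⟨R, hRn, ?_, ⟨_, h2.trans h3⟩, ?_⟩
  · rw [← h1]
    exact ((Nat.Prime.coprime_iff_not_dvd hp.out).mpr P'.not_dvd_index).symm
  · intro c g
    obtain ⟨⟨r₁, s₁⟩, h₁⟩ := hRc.2 c
    obtain ⟨⟨r₂, s₂⟩, h₂⟩ := hRc.2 g
    have hc : c = (r₁ : H) * (s₁ : H) := h₁.symm
    have hg : g = (r₂ : H) * (s₂ : H) := h₂.symm
    have hs : (s₁ : H) * (s₂ : H) = (s₂ : H) * (s₁ : H) := by
      apply Subtype.ext
      exact hcomm _ ((hmem _).mp s₁.2) _ ((hmem _).mp s₂.2)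
    rw [← QuotientGroup.eq_one_iff]
    have hr₁ : ((r₁ : H) : H ⧸ R) = 1 := (QuotientGroup.eq_one_iff _).mpr r₁.2
    have hr₂ : ((r₂ : H) : H ⧸ R) = 1 := (QuotientGroup.eq_one_iff _).mpr r₂.2
    have e1 : (c : H ⧸ R) = ((s₁ : H) : H ⧸ R) := by
      rw [hc, QuotientGroup.mk_mul, hr₁, one_mul]
    have e2 : (g : H ⧸ R) = ((s₂ : H) : H ⧸ R) := by
      rw [hg, QuotientGroup.mk_mul, hr₂, one_mul]
    simp only [QuotientGroup.mk_mul, QuotientGroup.mk_inv, e1, e2]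
    have e3 : ((s₁ : H) : H ⧸ R) * ((s₂ : H) : H ⧸ R) = ((s₂ : H) : H ⧸ R) * ((s₁ : H) : H ⧸ R) := by
      rw [← QuotientGroup.mk_mul, ← QuotientGroup.mk_mul, hs]
    rw [e3]
    group

/-- `p = 2`: the sections of products of two conjugates of an involution of `P`. -/
theorem no_section_two (P : Sylow 2 G) [Fact (Nat.Prime 2)]
    (hcomm : ∀ a ∈ (P : Subgroup G), ∀ b ∈ (P : Subgroup G), a * b = b * a)
    (hCN : (Subgroup.centralizer ((P : Subgroup G) : Set G)).relIndex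
      (Subgroup.normalizer ((P : Subgroup G) : Set G)) = 3)
    (hfrob : ∀ y : G, y ∈ (P : Subgroup G) → y ≠ 1 →
      Subgroup.centralizer ({y} : Set G) ⊓ Subgroup.normalizer ((P : Subgroup G) : Set G) =
        Subgroup.centralizer ((P : Subgroup G) : Set G))
    {t₀ y : G} (ht₀ : t₀ * t₀ = 1) (ht₀1 : t₀ ≠ 1) (hy : y ∈ (P : Subgroup G)) (hy1 : y ≠ 1)
    (hno : ∀ s₁ s₂ : G, s₁ ∈ (P : Subgroup G) → s₂ ∈ (P : Subgroup G) → IsConj t₀ s₁ → IsConj t₀ s₂ →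
      y ≠ s₁ * s₂)
    (a b x : G) (h : IsPPart 2 (a * t₀ * a⁻¹ * (b * t₀ * b⁻¹)) x) : ¬ IsConj y x := by
  intro hc
  obtain ⟨c, hc'⟩ := isConj_iff.mp hc.symm
  -- conjugate the product
  set t₁ := (c * a) * t₀ * (c * a)⁻¹ with ht₁
  set t₂ := (c * b) * t₀ * (c * b)⁻¹ with ht₂
  have hprod : c * (a * t₀ * a⁻¹ * (b * t₀ * b⁻¹)) * c⁻¹ = t₁ * t₂ := by
    rw [ht₁, ht₂]
    group
  have hpart : IsPPart 2 (t₁ * t₂) y := by
    have h1 := isPPart_conj h c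
    rwa [hprod, hc'] at h1
  have hsqc : ∀ u : G, (u * t₀ * u⁻¹) * (u * t₀ * u⁻¹) = 1 := by
    intro u
    calc (u * t₀ * u⁻¹) * (u * t₀ * u⁻¹) = u * (t₀ * t₀) * u⁻¹ := by group
      _ = 1 := by rw [ht₀]; group
  have ht₁s : t₁ * t₁ = 1 := hsqc _
  have ht₂s : t₂ * t₂ = 1 := hsqc _
  have hinv := real_p_part ht₁s ht₂s hpart
  have hyy : y * y = 1 := conj_inv_sq P hcomm hCN hfrob hy (isConj_iff.mpr ⟨t₁, hinv⟩)
  have hyi : y⁻¹ = y := inv_eq_of_mul_eq_one_left hyy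
  rw [hyi] at hinv
  -- both involutions centralize y
  obtain ⟨w, hw, hcw, ho, hr⟩ := hpart
  have hi₁ : t₁⁻¹ = t₁ := inv_eq_of_mul_eq_one_left ht₁s
  have hi₂ : t₂⁻¹ = t₂ := inv_eq_of_mul_eq_one_left ht₂s
  have hc₁ : t₁ * y = y * t₁ := by
    rw [mul_inv_eq_iff_eq_mul] at hinv
    exact hinv
  have hc₂ : t₂ * y = y * t₂ := by
    have e1 : t₂ = t₁ * (y * w) := by
      rw [hw]
      calc t₂ = (t₁ * t₁) * t₂ := by rw [ht₁s, one_mul]
        _ = t₁ * (t₁ * t₂) := by group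
    rw [e1]
    calc t₁ * (y * w) * y = t₁ * y * (w * y) := by group
      _ = t₁ * y * (y * w) := by rw [hcw.eq]
      _ = y * t₁ * (y * w) := by rw [hc₁]
      _ = y * (t₁ * (y * w)) := by group
  have hwy : w * y = y * w := hcw.eq.symm
  set H := Subgroup.centralizer ({y} : Set G) with hH
  have hmemH : ∀ u : G, u * y = y * u → u ∈ H := fun u hu =>
    Subgroup.mem_centralizer_singleton_iff.mpr hu
  let T₁ : H := ⟨t₁, hmemH _ hc₁⟩
  let T₂ : H := ⟨t₂, hmemH _ hc₂⟩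
  let W : H := ⟨w, hmemH _ hwy⟩
  let Y : H := ⟨y, hmemH _ rfl⟩
  obtain ⟨O, hO, hcop, hidx, hcomm'⟩ := bw_cent_npc2 P hcomm hfrob hy hy1
  have hWO : W ∈ O := by
    by_contra hn
    have h1 := dvd_orderOf_of_not_mem hidx hn
    rw [Subgroup.orderOf_mk] at h1
    exact hr h1
  have hPH : (P : Subgroup G) ≤ H := fun s hs =>
    Subgroup.mem_centralizer_singleton_iff.mpr (hcomm s hs y hy)
  let P' : Sylow 2 H := P.subtype hPH
  have hcoe : (P' : Subgroup H) = (P : Subgroup G).subgroupOf H := Sylow.coe_subtype P hPH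
  have hmem : ∀ u : H, u ∈ (P' : Subgroup H) ↔ (u : G) ∈ (P : Subgroup G) := by
    intro u
    rw [hcoe, Subgroup.mem_subgroupOf]
  have ht0conj : ∀ u : G, orderOf (u * t₀ * u⁻¹) = 2 := by
    intro u
    have h1 : orderOf (u * t₀ * u⁻¹) = orderOf t₀ := orderOf_conjH22 t₀ u
    rw [h1]
    exact orderOf_eq_prime (by rw [sq]; exact ht₀) ht₀1
  have hT₁o : orderOf T₁ = 2 := by
    rw [Subgroup.orderOf_mk]
    exact ht0conj _
  have hT₂o : orderOf T₂ = 2 := by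
    rw [Subgroup.orderOf_mk]
    exact ht0conj _
  obtain ⟨c₁, hc₁'⟩ := conj_into_sylow P' T₁ hT₁o
  obtain ⟨c₂, hc₂'⟩ := conj_into_sylow P' T₂ hT₂o
  set S₁ : H := c₁⁻¹ * T₁ * c₁ with hS₁
  set S₂ : H := c₂⁻¹ * T₂ * c₂ with hS₂
  have hS₁P : (S₁ : G) ∈ (P : Subgroup G) := (hmem _).mp hc₁'
  have hS₂P : (S₂ : G) ∈ (P : Subgroup G) := (hmem _).mp hc₂'
  have hconj₁ : IsConj t₀ (S₁ : G) := by
    refine isConj_iff.mpr ⟨(c₁ : G)⁻¹ * (c * a), ?_⟩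
    show _ = (c₁ : G)⁻¹ * t₁ * (c₁ : G)
    rw [ht₁]
    group
  have hconj₂ : IsConj t₀ (S₂ : G) := by
    refine isConj_iff.mpr ⟨(c₂ : G)⁻¹ * (c * b), ?_⟩
    show _ = (c₂ : G)⁻¹ * t₂ * (c₂ : G)
    rw [ht₂]
    group
  apply hno _ _ hS₁P hS₂P hconj₁ hconj₂
  -- compare in the quotient
  have hmodS₁ : ((S₁ : H) : H ⧸ O) = (T₁ : H ⧸ O) := by
    have h1 := (QuotientGroup.eq_one_iff (N := O) _).mpr (hcomm' c₁⁻¹ T₁)
    simp only [QuotientGroup.mk_mul, QuotientGroup.mk_inv, inv_inv] at h1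
    rw [hS₁]
    simp only [QuotientGroup.mk_mul, QuotientGroup.mk_inv]
    exact mul_inv_eq_one.mp h1
  have hmodS₂ : ((S₂ : H) : H ⧸ O) = (T₂ : H ⧸ O) := by
    have h1 := (QuotientGroup.eq_one_iff (N := O) _).mpr (hcomm' c₂⁻¹ T₂)
    simp only [QuotientGroup.mk_mul, QuotientGroup.mk_inv, inv_inv] at h1
    rw [hS₂]
    simp only [QuotientGroup.mk_mul, QuotientGroup.mk_inv]
    exact mul_inv_eq_one.mp h1
  have hprodH : T₁ * T₂ = Y * W := Subtype.ext hw.symm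
  have hWq : (W : H ⧸ O) = 1 := (QuotientGroup.eq_one_iff _).mpr hWO
  have hmod : ((S₁ * S₂ : H) : H ⧸ O) = (Y : H ⧸ O) := by
    rw [QuotientGroup.mk_mul, hmodS₁, hmodS₂, ← QuotientGroup.mk_mul, hprodH, QuotientGroup.mk_mul,
      hWq, mul_one]
  have hmemO : (S₁ * S₂) * Y⁻¹ ∈ O := by
    rw [← QuotientGroup.eq_one_iff, QuotientGroup.mk_mul, QuotientGroup.mk_inv, hmod]
    group
  -- an element of `O` lying in `P` is trivial
  have hZP : (S₁ * S₂) * Y⁻¹ ∈ (P' : Subgroup H) := by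
    rw [hmem]
    exact (P : Subgroup G).mul_mem ((P : Subgroup G).mul_mem hS₁P hS₂P) ((P : Subgroup G).inv_mem hy)
  have hZ1 : (S₁ * S₂) * Y⁻¹ = 1 := by
    obtain ⟨k, hk⟩ := IsPGroup.iff_orderOf.mp P'.isPGroup' (⟨_, hZP⟩ : (P' : Subgroup H))
    rw [Subgroup.orderOf_mk] at hk
    have h3 : orderOf ((S₁ * S₂) * Y⁻¹) ∣ Nat.card O := by
      have h4 := orderOf_dvd_natCard (⟨_, hmemO⟩ : O)
      rwa [Subgroup.orderOf_mk] at h4
    rw [hk] at h3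
    have h5 : 2 ^ k = 1 := Nat.Coprime.eq_one_of_dvd (Nat.Coprime.pow_left k hcop.symm) h3
    rw [h5, orderOf_eq_one_iff] at hk
    exact hk
  have h6 : S₁ * S₂ = Y := mul_inv_eq_one.mp hZ1
  exact (congrArg Subtype.val h6).symm

end Local

end Cfsg.Agent.H22
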