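import Cfsg.Agent.Lib.H22.BwE

/-! # `N/C` of order three: the principal block in normal form -/

set_option autoImplicit false
set_option linter.unusedSectionVars false
set_option linter.style.haveILetI false
set_option linter.unusedSimpArgs false
set_option linter.unusedVariables false

namespace Cfsg.Agent.H22

open Cfsg Cfsg.Agent.H21 Cfsg.Agent.H23
open scoped ComplexConjugate

universe u

section Helpers

variable {G : Type u} [Group G] [Finite G] {p : ℕ} [hp : Fact p.Prime] {M : Ideal AlgInt}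
  [hMp : M.IsPrime]

open Classical in
/-- Splitting a sum over the principal block. -/
theorem block_split {o χ₁ χ₂ : IrrCharacter G} {Y : Set (IrrCharacter G)}
    (h12 : o ≠ χ₁) (h13 : o ≠ χ₂) (h23 : χ₁ ≠ χ₂)
    (hU : principalBlock M G = ({o, χ₁, χ₂} : Set (IrrCharacter G)) ∪ Y)
    (hD : Disjoint ({o, χ₁, χ₂} : Set (IrrCharacter G)) Y) (F : IrrCharacter G → ℂ) :
    ∑ᶠ χ ∈ principalBlock M G, F χ = F o + F χ₁ + F χ₂ + ∑ η ∈ (Set.toFinite Y).toFinset, F η := by
  rw [hU, finsum_mem_union hD (Set.toFinite _) (Set.toFinite _),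
    finsum_mem_insert _ (by simp [h12, h13]) (Set.toFinite _), finsum_mem_pair h23,
    finsum_mem_eq_finite_toFinset_sum F (Set.toFinite Y)]
  ring

/-- The constancy of the sum over `P`. -/
theorem sum_P_value (P : Sylow p G) [Fintype (P : Subgroup G)] (χ : IrrCharacter G) (c : ℤ)
    (h : ∀ y : (P : Subgroup G), y ≠ 1 → χ.1 y = c) :
    ((Nat.card (P : Subgroup G) : ℤ)) ∣ (charDegree χ.1 : ℤ) - c := by
  classical
  have hχ : IsCharacter (P : Subgroup G) (fun y : (P : Subgroup G) => χ.1 (y : G)) :=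
    isCharacter_restrict _ (Cfsg.Agent.H21.isCharacter_of_irr χ.2)
  obtain ⟨n, hn⟩ := classInner_isCharacter_nat hχ (isCharacter_hom (1 : (P : Subgroup G) →* ℂˣ))
  simp only [classInner, MonoidHom.one_apply, Units.val_one, map_one, mul_one] at hn
  have hP0 : (Nat.card (P : Subgroup G) : ℂ) ≠ 0 := by exact_mod_cast Nat.card_pos.ne'
  have h1 : ∑ y : (P : Subgroup G), χ.1 (y : G) = (Nat.card (P : Subgroup G) : ℂ) * n := by
    field_simp at hn
    rw [hn]
  have h2 : ∑ y : (P : Subgroup G), χ.1 (y : G) = χ.1 1 + ((Nat.card (P : Subgroup G) : ℂ) - 1) * c := by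
    rw [← Finset.add_sum_erase Finset.univ _ (Finset.mem_univ (1 : (P : Subgroup G)))]
    congr 1
    rw [Finset.sum_congr rfl (g := fun _ => (c : ℂ))]
    · rw [Finset.sum_const, Finset.card_erase_of_mem (Finset.mem_univ _), Finset.card_univ,
        nsmul_eq_mul, ← Nat.card_eq_fintype_card]
      have : 1 ≤ Nat.card (P : Subgroup G) := Nat.card_pos
      push_cast [Nat.cast_sub this]
      ring
    · intro y hy
      exact h y (Finset.ne_of_mem_erase hy)
  have h3 : (charDegree χ.1 : ℂ) - c = (Nat.card (P : Subgroup G) : ℂ) * ((n : ℂ) - c) := by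
    have h4 := one_eq_charDegree (Cfsg.Agent.H21.isCharacter_of_irr χ.2)
    rw [h1, h4] at h2
    linear_combination -h2
  refine ⟨(n : ℤ) - c, ?_⟩
  exact_mod_cast h3

/-- A nonprincipal irreducible character cannot contain in its kernel an element lying in no
proper normal subgroup. -/
theorem ker_contra {o χ : IrrCharacter G} (ho : (o : G → ℂ) = fun _ => 1) (hne : χ ≠ o) {t : G}
    (ht : χ.1 t = χ.1 1) (hnorm : ∀ K : Subgroup G, K.Normal → t ∈ K → K = ⊤) : False := by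
  classical
  haveI : Fintype G := Fintype.ofFinite G
  haveI : Fintype (IrrCharacter G) := Fintype.ofFinite _
  have h1 := hnorm (charKer χ.1 (Cfsg.Agent.H21.isCharacter_of_irr χ.2)) inferInstance
    (mem_charKer.mpr ht)
  have h2 : ∀ g : G, χ.1 g = χ.1 1 := fun g => by
    have : g ∈ charKer χ.1 (Cfsg.Agent.H21.isCharacter_of_irr χ.2) := by rw [h1]; trivial
    exact mem_charKer.mp this
  have h3 := classInner_irr χ o
  rw [if_neg hne] at h3
  simp only [classInner, ho, map_one, mul_one, h2, Finset.sum_const, Finset.card_univ,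
    nsmul_eq_mul] at h3
  rw [← Nat.card_eq_fintype_card] at h3
  have hG : (Nat.card G : ℂ) ≠ 0 := by exact_mod_cast Nat.card_pos.ne'
  have h4 : χ.1 1 ≠ 0 := by
    have h5 := irr_charDegree_pos χ.2
    rw [one_eq_charDegree (Cfsg.Agent.H21.isCharacter_of_irr χ.2)]
    exact_mod_cast h5.ne'
  field_simp at h3
  exact h4 h3

theorem no_sq_two (a : ℤ) (h : a ^ 2 = 2) : False := by
  have h1 : a < 2 := by nlinarith
  have h2 : -2 < a := by nlinarith
  interval_cases a <;> omega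

theorem prime_pow_ne_ten {p k : ℕ} (hp : p.Prime) : p ^ k ≠ 10 := by
  intro h
  have h0 : k ≠ 0 := by
    rintro rfl
    simp at h
  have h1 : p ∣ 10 := h ▸ dvd_pow_self p h0
  have h2 : p = 2 ∨ p = 5 := by
    have h3 : p ∣ 2 * 5 := h1
    rcases (Nat.Prime.dvd_mul hp).mp h3 with h4 | h4
    · exact Or.inl ((Nat.prime_dvd_prime_iff_eq hp Nat.prime_two).mp h4)
    · exact Or.inr ((Nat.prime_dvd_prime_iff_eq hp Nat.prime_five).mp h4)
  rcases h2 with rfl | rfl
  · rcases Nat.lt_or_ge k 4 with h3 | h3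
    · interval_cases k <;> simp at h
    · have : 2 ^ 4 ≤ 2 ^ k := Nat.pow_le_pow_right (by norm_num) h3
      omega
  · rcases Nat.lt_or_ge k 2 with h3 | h3
    · interval_cases k <;> simp at h
    · have : 5 ^ 2 ≤ 5 ^ k := Nat.pow_le_pow_right (by norm_num) h3
      omega

theorem two_pow_ne_seven {k : ℕ} : 2 ^ k ≠ 7 := by
  intro h
  rcases Nat.lt_or_ge k 3 with h3 | h3
  · interval_cases k <;> simp at h
  · have : 2 ^ 3 ≤ 2 ^ k := Nat.pow_le_pow_right (by norm_num) h3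
    omega

end Helpers


open Classical in
set_option maxHeartbeats 2000000 in
theorem bw3_normal {G : Type u} [Group G] [Finite G] (p : ℕ) [hp : Fact p.Prime]
    (M : Ideal AlgInt) (hM : IsPModular p M) (P : Sylow p G) (hab : IsMulCommutative P)
    (hP1 : Nat.card P ≠ 1)
    (hCN : (Subgroup.centralizer ((P : Subgroup G) : Set G)).relIndex
      (Subgroup.normalizer ((P : Subgroup G) : Set G)) = 3) (hm2 : 3 + 1 < Nat.card P)
    (hfrob : ∀ y : G, y ∈ (P : Subgroup G) → y ≠ 1 →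
      Subgroup.centralizer ({y} : Set G) ⊓ Subgroup.normalizer ((P : Subgroup G) : Set G) =
        Subgroup.centralizer ((P : Subgroup G) : Set G)) :
    ∃ (o χ₁ χ₂ : IrrCharacter G) (Y : Set (IrrCharacter G)) (a : IrrCharacter G → ℤ) (δ : ℤ)
      (ζ : (↥(P : Subgroup G) →* ℂˣ) → IrrCharacter G),
      ((o : G → ℂ) = fun _ => 1) ∧ o ≠ χ₁ ∧ o ≠ χ₂ ∧ χ₁ ≠ χ₂ ∧
      principalBlock M G = ({o, χ₁, χ₂} : Set (IrrCharacter G)) ∪ Y ∧
      Disjoint ({o, χ₁, χ₂} : Set (IrrCharacter G)) Y ∧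
      Nat.card Y = (Nat.card P - 1) / 3 ∧ Nat.card Y * 3 + 1 = Nat.card P ∧
      a o = 1 ∧ (a χ₁ = 1 ∨ a χ₁ = -1) ∧ (a χ₂ = 1 ∨ a χ₂ = -1) ∧ (δ = 1 ∨ δ = -1) ∧
      (∀ χ ∈ ({o, χ₁, χ₂} : Set (IrrCharacter G)), ∀ z y : G, IsPPart p z y →
        y ∈ (P : Subgroup G) → y ≠ 1 → (χ : G → ℂ) z = (a χ : ℂ)) ∧
      (∀ ψ : ↥(P : Subgroup G) →* ℂˣ, ψ ≠ 1 → ζ ψ ∈ Y) ∧
      (∀ η ∈ Y, ∃ ψ : ↥(P : Subgroup G) →* ℂˣ, ψ ≠ 1 ∧ ζ ψ = η) ∧
      (∀ ψ ψ' : ↥(P : Subgroup G) →* ℂˣ, ψ ≠ 1 → (∃ n : G, n ∈ Subgroup.normalizer ((P : Subgroup G) : Set G) ∧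
        ∀ w w' : ↥(P : Subgroup G), (w' : G) = n * w * n⁻¹ → ψ' w' = ψ w) → ζ ψ' = ζ ψ) ∧
      (∀ ψ : ↥(P : Subgroup G) →* ℂˣ, ψ ≠ 1 → ∀ (z : G) (y : ↥(P : Subgroup G)), IsPPart p z (y : G) →
        (y : G) ≠ 1 → (ζ ψ : G → ℂ) z = (δ : ℂ) * ∑ᶠ ψ' ∈ {ψ' : ↥(P : Subgroup G) →* ℂˣ | ∃ n : G,
          n ∈ Subgroup.normalizer ((P : Subgroup G) : Set G) ∧ ∀ w w' : ↥(P : Subgroup G),
            (w' : G) = n * w * n⁻¹ → ψ' w' = ψ w}, ((ψ' y : ℂˣ) : ℂ)) ∧
      (∀ η ∈ Y, ∀ η' ∈ Y, ∀ g : G, ¬ p ∣ orderOf g → (η : G → ℂ) g = (η' : G → ℂ) g) ∧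
      (∀ η ∈ Y, ∀ g : G, ¬ p ∣ orderOf g →
        1 + (a χ₁ : ℂ) * (χ₁ : G → ℂ) g + (a χ₂ : ℂ) * (χ₂ : G → ℂ) g - (δ : ℂ) * (η : G → ℂ) g = 0) ∧
      (p = 2 → ∀ u v : ↥(P : Subgroup G), u ≠ 1 → v ≠ 1 → ∀ η ∈ Y,
        (η : G → ℂ) u * (η : G → ℂ) v = (δ : ℂ) * ∑ᶠ γ : (P : Subgroup G).normalizerMonoidHom.range,
          (if u * ((γ : MulAut ↥(P : Subgroup G)) v) = 1 then ((3 : ℕ) : ℂ) * δ
            else (η : G → ℂ) ((u * ((γ : MulAut ↥(P : Subgroup G)) v) : ↥(P : Subgroup G)) : G))) := by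
  haveI hMp : M.IsPrime := hM.2.1.isPrime
  have hab' : IsMulCommutative (P : Subgroup G) := hab
  have hcomm : ∀ a ∈ (P : Subgroup G), ∀ b ∈ (P : Subgroup G), a * b = b * a := by
    intro a ha b hb
    have h1 := mul_comm' (⟨a, ha⟩ : (P : Subgroup G)) ⟨b, hb⟩
    exact congrArg Subtype.val h1
  obtain ⟨s, X, Y, hs, hU, hD, hXc, hYc, ⟨o, hoX, ho⟩, a, d, δ, ζ, hδ, hXv, hζY, hζS, hζC, hζV, hN,
    hYA, hR, hYm, hT⟩ := bw_main2 p M hM P hab hP1 3 (by norm_num) hm2 hCN hfrob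
  have hP_ne : ∃ y : (P : Subgroup G), y ≠ 1 := by
    by_contra h
    push Not at h
    have h1 : Nat.card (P : Subgroup G) = 1 := by
      rw [Nat.card_eq_one_iff_unique]
      exact ⟨⟨fun a b => by rw [h a, h b]⟩, ⟨1⟩⟩
    exact hP1 h1
  obtain ⟨y₀, hy₀⟩ := hP_ne
  have hy₀1 : (y₀ : G) ≠ 1 := fun h => hy₀ (Subtype.ext h)
  have hao : a o = 1 := by
    have h1 := (hXv o hoX).2 y₀ y₀ (isPPart_self_of (bw_order_of_mem P y₀.2)) y₀.2 hy₀1
    rw [ho] at h1
    simp only at h1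
    exact_mod_cast h1.symm
  set R := Nat.card Y with hRdef
  have hR2 : 2 ≤ R := by omega
  have he : ((Nat.card P : ℤ) - 1) / ((3 : ℕ) : ℤ) = (R : ℤ) := by
    have h1 : (Nat.card P : ℤ) - 1 = (R : ℤ) * ((3 : ℕ) : ℤ) := by
      have : (Nat.card P : ℤ) = (R : ℤ) * 3 + 1 := by exact_mod_cast hYm.symm
      rw [this]
      push_cast
      ring
    rw [h1, Int.mul_ediv_cancel _ (by norm_num)]
  have hXcoe : ∀ χ, χ ∈ (Set.toFinite X).toFinset ↔ χ ∈ X := fun χ => Set.Finite.mem_toFinset _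
  set Xf := (Set.toFinite X).toFinset with hXf
  have hoXf : o ∈ Xf := (hXcoe o).mpr hoX
  have hSdef : ∑ᶠ χ ∈ X, a χ ^ 2 = 1 + ∑ χ ∈ Xf.erase o, a χ ^ 2 := by
    rw [finsum_mem_eq_finite_toFinset_sum _ (Set.toFinite X), ← hXf,
      ← Finset.add_sum_erase _ _ hoXf, hao]
    ring
  rw [he, hSdef] at hN
  set S' := ∑ χ ∈ Xf.erase o, a χ ^ 2 with hS'
  have hage : ∀ χ ∈ Xf.erase o, (1 : ℤ) ≤ a χ ^ 2 := by
    intro χ hχ
    have h3 := (hXv χ ((hXcoe χ).mp (Finset.mem_of_mem_erase hχ))).1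
    have h4 : 0 < a χ ^ 2 := by positivity
    omega
  have hS'ge : ((Xf.erase o).card : ℤ) ≤ S' := by
    calc ((Xf.erase o).card : ℤ) = ∑ _χ ∈ Xf.erase o, (1 : ℤ) := by simp
      _ ≤ S' := Finset.sum_le_sum hage
  have hδsq : δ * δ = 1 := by
    rcases hδ with rfl | rfl <;> norm_num
  have hRz : (2 : ℤ) ≤ (R : ℤ) := by exact_mod_cast hR2
  have hS'0 : 0 ≤ S' := le_trans (by positivity) hS'ge
  -- numerology
  have hcases : (d = 0 ∧ S' = 2) ∨ (d = δ ∧ (R : ℤ) + S' = 4) := by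
    by_cases hd : d = 0
    · left
      refine ⟨hd, ?_⟩
      subst hd
      have : (0 - δ) ^ 2 = 1 := by rcases hδ with rfl | rfl <;> norm_num
      rw [this] at hN
      push_cast at hN
      linarith
    · right
      have hd2 : d ^ 2 ≤ 3 := by
        have h1 : d ^ 2 ≤ ((R : ℤ) - 1) * d ^ 2 := by nlinarith [sq_nonneg d]
        push_cast at hN
        nlinarith [sq_nonneg (d - δ)]
      have hd1 : d = 1 ∨ d = -1 := by
        have h1 : d < 2 := by nlinarith
        have h2 : -2 < d := by nlinarith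
        interval_cases d
        · right; rfl
        · exact absurd rfl hd
        · left; rfl
      have hdd : d = δ := by
        by_contra hne
        have h1 : (d - δ) ^ 2 = 4 := by
          rcases hd1 with rfl | rfl <;> rcases hδ with rfl | rfl <;> first | exact absurd rfl hne | norm_num
        rw [h1] at hN
        have h2 : d ^ 2 = 1 := by rcases hd1 with rfl | rfl <;> norm_num
        rw [h2] at hN
        push_cast at hN
        linarith
      refine ⟨hdd, ?_⟩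
      rw [hdd, sub_self] at hN
      have h2 : δ ^ 2 = 1 := by rw [sq]; exact hδsq
      rw [h2] at hN
      push_cast at hN
      linarith
  obtain ⟨k₀, hk₀⟩ : ∃ k, Nat.card P = p ^ k := IsPGroup.iff_card.mp P.isPGroup'
  -- the exceptional numbers
  have hS2 : S' = 2 := by
    rcases hcases with ⟨_, h⟩ | ⟨hdd, h⟩
    · exact h
    · by_contra hne
      have hR3 : R = 3 ∨ R = 4 := by
        have h1 : (R : ℤ) ≤ 4 := by linarith
        have h2 : R ≤ 4 := by exact_mod_cast h1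
        have h3 : R ≠ 2 := by
          rintro h4
          apply hne
          rw [h4] at h
          push_cast at h
          linarith
        omega
      rcases hR3 with h3 | h4
      · exfalso
        have h5 : Nat.card P = 10 := by omega
        exact prime_pow_ne_ten hp.out (hk₀ ▸ h5)
      · exfalso
        have hS0 : S' = 0 := by
          rw [h4] at h
          push_cast at h
          linarith
        have hcard0 : (Xf.erase o).card = 0 := by
          have h5 : ((Xf.erase o).card : ℤ) ≤ 0 := hS0 ▸ hS'ge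
          have h6 : (Xf.erase o).card ≤ 0 := by exact_mod_cast h5
          omega
        have hem : Xf.erase o = ∅ := Finset.card_eq_zero.mp hcard0
        have hXo : X = {o} := by
          ext χ
          simp only [Set.mem_singleton_iff]
          constructor
          · intro hχ
            by_contra hne'
            have : χ ∈ Xf.erase o := Finset.mem_erase.mpr ⟨hne', (hXcoe χ).mpr hχ⟩
            rw [hem] at this
            simp at this
          · rintro rfl
            exact hoX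
        obtain ⟨η, hη⟩ : Y.Nonempty := by
          by_contra hne'
          rw [Set.not_nonempty_iff_eq_empty] at hne'
          rw [hne'] at hRdef
          simp at hRdef
          omega
        have h7 := hR η hη 1 (by rw [orderOf_one]; exact hp.out.not_dvd_one)
        rw [← hYc, hXo, finsum_mem_singleton, hao, ho, h4, hdd] at h7
        simp only [Int.cast_one, one_mul] at h7
        have h8 := one_eq_charDegree (Cfsg.Agent.H21.isCharacter_of_irr η.2)
        have h9 : ((4 : ℕ) : ℂ) * (δ : ℂ) - δ = 3 * δ := by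
          push_cast
          ring
        rw [h9] at h7
        change 3 * (δ : ℂ) * η.1 1 + 1 = 0 at h7
        rw [h8] at h7
        have h10 : 3 * δ * (charDegree η.1 : ℤ) + 1 = 0 := by exact_mod_cast h7
        rcases hδ with rfl | rfl <;> omega
  -- X has three elements
  obtain ⟨χ₁, χ₂, h12, hXe⟩ : ∃ χ₁ χ₂ : IrrCharacter G, χ₁ ≠ χ₂ ∧ Xf.erase o = {χ₁, χ₂} := by
    have hc2 : (Xf.erase o).card ≤ 2 := by
      have h1 : ((Xf.erase o).card : ℤ) ≤ 2 := hS2 ▸ hS'ge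
      exact_mod_cast h1
    have hc0 : (Xf.erase o).card ≠ 0 := by
      intro h0
      have hem := Finset.card_eq_zero.mp h0
      rw [hS', hem] at hS2
      simp at hS2
    have hc1 : (Xf.erase o).card ≠ 1 := by
      intro h1
      obtain ⟨χ, hχ⟩ := Finset.card_eq_one.mp h1
      rw [hS', hχ, Finset.sum_singleton] at hS2
      exact no_sq_two _ hS2
    have hc : (Xf.erase o).card = 2 := by omega
    obtain ⟨χ₁, χ₂, h1, h2⟩ := Finset.card_eq_two.mp hc
    exact ⟨χ₁, χ₂, h1, h2⟩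
  have hsum2 : a χ₁ ^ 2 + a χ₂ ^ 2 = 2 := by
    rw [hS', hXe, Finset.sum_pair h12] at hS2
    exact hS2
  have hm1 : χ₁ ∈ Xf.erase o := by rw [hXe]; simp
  have hm2' : χ₂ ∈ Xf.erase o := by rw [hXe]; simp
  have hg1 := hage χ₁ hm1
  have hg2 := hage χ₂ hm2'
  have ha₁ : a χ₁ = 1 ∨ a χ₁ = -1 := by
    have h1 : a χ₁ ^ 2 = 1 := by omega
    exact mul_self_eq_one_iff.mp (by rw [← sq]; exact h1)
  have ha₂ : a χ₂ = 1 ∨ a χ₂ = -1 := by
    have h1 : a χ₂ ^ 2 = 1 := by omega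
    exact mul_self_eq_one_iff.mp (by rw [← sq]; exact h1)
  have ho1 : o ≠ χ₁ := (Finset.ne_of_mem_erase hm1).symm
  have ho2 : o ≠ χ₂ := (Finset.ne_of_mem_erase hm2').symm
  have hXeq : X = {o, χ₁, χ₂} := by
    ext χ
    simp only [Set.mem_insert_iff, Set.mem_singleton_iff]
    constructor
    · intro hχ
      by_cases h0 : χ = o
      · exact Or.inl h0
      · have : χ ∈ Xf.erase o := Finset.mem_erase.mpr ⟨h0, (hXcoe χ).mpr hχ⟩
        rw [hXe] at this
        simpa using Or.inr this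
    · rintro (rfl | rfl | rfl)
      · exact hoX
      · exact (hXcoe _).mp (Finset.mem_of_mem_erase hm1)
      · exact (hXcoe _).mp (Finset.mem_of_mem_erase hm2')
  subst hXeq
  have hXval : ∀ χ ∈ ({o, χ₁, χ₂} : Set (IrrCharacter G)), ∀ z y : G, IsPPart p z y →
      y ∈ (P : Subgroup G) → y ≠ 1 → (χ : G → ℂ) z = (a χ : ℂ) := fun χ hχ => (hXv χ hχ).2
  have hsumX : ∀ g : G, ∑ᶠ χ ∈ ({o, χ₁, χ₂} : Set (IrrCharacter G)), (a χ : ℂ) * (χ : G → ℂ) g =
      1 + (a χ₁ : ℂ) * (χ₁ : G → ℂ) g + (a χ₂ : ℂ) * (χ₂ : G → ℂ) g := by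
    intro g
    rw [finsum_mem_insert _ (by simp [ho1, ho2]) (Set.toFinite _), finsum_mem_pair h12, hao, ho]
    simp only [Int.cast_one, one_mul]
    ring
  have hrel₀ : ∀ η ∈ Y, ∀ g : G, ¬ p ∣ orderOf g →
      ((R : ℂ) * d - δ) * (η : G → ℂ) g +
        (1 + (a χ₁ : ℂ) * (χ₁ : G → ℂ) g + (a χ₂ : ℂ) * (χ₂ : G → ℂ) g) = 0 := by
    intro η hη g hg
    have h1 := hR η hη g hg
    rw [hsumX, ← hYc] at h1
    exact h1
  rcases hcases with ⟨hd0, -⟩ | ⟨hdd, hRS⟩
  · -- the main case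
    subst hd0
    refine ⟨o, χ₁, χ₂, Y, a, δ, ζ, ho, ho1, ho2, h12, hU, hD, hYc, hYm, hao, ha₁, ha₂, hδ, hXval,
      hζY, hζS, hζC, ?_, hYA, ?_, fun _ => hT rfl⟩
    · intro ψ hψ z y hz hy
      rw [hζV ψ hψ z y hz hy]
      simp
    · intro η hη g hg
      have h1 := hrel₀ η hη g hg
      simp only [Int.cast_zero, mul_zero, zero_sub] at h1
      linear_combination h1
  · -- the relabelling case
    have hR2' : R = 2 := by
      have h1 : (R : ℤ) = 2 := by
        rw [hS2] at hRS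
        linarith
      exact_mod_cast h1
    have hP7 : Nat.card P = 7 := by omega
    have hpne2 : p ≠ 2 := by
      rintro rfl
      exact two_pow_ne_seven (hk₀ ▸ hP7)
    obtain ⟨η₁, η₂, hne, hYe⟩ : ∃ η₁ η₂ : IrrCharacter G, η₁ ≠ η₂ ∧ Y = {η₁, η₂} := by
      rw [← Set.ncard_eq_two, ← Nat.card_coe_set_eq]
      exact hR2'
    subst hYe
    have hη₁ : η₁ ∈ ({η₁, η₂} : Set (IrrCharacter G)) := by simp
    have hη₂ : η₂ ∈ ({η₁, η₂} : Set (IrrCharacter G)) := by simp
    have hone : ¬ p ∣ orderOf (1 : G) := by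
      rw [orderOf_one]
      exact hp.out.not_dvd_one
    have hYfin : (Set.toFinite ({η₁, η₂} : Set (IrrCharacter G))).toFinset = {η₁, η₂} := by
      ext η
      simp
    -- the values of the two exceptional characters add up to `δ`
    have hpair : ∀ y : G, y ∈ (P : Subgroup G) → y ≠ 1 → (η₁ : G → ℂ) y + (η₂ : G → ℂ) y = δ := by
      intro y hy hy1
      have hyo := bw_order_of_mem P hy
      have h1 := orth_fin (M := M) hM (isPPart_self_of hyo) (isPPart_one_of hone)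
        (fun hc => hy1 (isConj_one_right.mp hc.symm))
      rw [block_split (o := o) (χ₁ := χ₁) (χ₂ := χ₂) (Y := {η₁, η₂}) ho1 ho2 h12 hU hD, hYfin,
        Finset.sum_pair hne] at h1
      rw [hXval o (by simp) y y (isPPart_self_of hyo) hy hy1,
        hXval χ₁ (by simp) y y (isPPart_self_of hyo) hy hy1,
        hXval χ₂ (by simp) y y (isPPart_self_of hyo) hy hy1, hao] at h1
      simp only [map_intCast, Int.cast_one, map_one] at h1
      have h2 := hrel₀ η₁ hη₁ 1 hone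
      rw [hR2', hdd] at h2
      have h3 := hYA η₁ hη₁ η₂ hη₂ 1 hone
      have h4 : o.1 1 = 1 := by
        have := congrFun ho 1
        exact this
      rw [h4, ← h3] at h1
      change (1 : ℂ) * 1 + χ₁.1 1 * (a χ₁ : ℂ) + χ₂.1 1 * (a χ₂ : ℂ) +
        (η₁.1 1 * conj (η₁.1 y) + η₁.1 1 * conj (η₂.1 y)) = 0 at h1
      change (((2 : ℕ) : ℂ) * (δ : ℂ) - δ) * η₁.1 1 +
        (1 + (a χ₁ : ℂ) * χ₁.1 1 + (a χ₂ : ℂ) * χ₂.1 1) = 0 at h2
      have h5 : η₁.1 1 * (conj (η₁.1 y) + conj (η₂.1 y) - δ) = 0 := by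
        push_cast at h2
        linear_combination h1 - h2
      have h6 : η₁.1 1 ≠ 0 := by
        rw [one_eq_charDegree (Cfsg.Agent.H21.isCharacter_of_irr η₁.2)]
        exact_mod_cast (irr_charDegree_pos η₁.2).ne'
      have h7 : conj (η₁.1 y) + conj (η₂.1 y) = δ := by
        have := (mul_eq_zero.mp h5).resolve_left h6
        linear_combination this
      have h8 := congrArg (starRingEnd ℂ) h7
      simp only [map_add, Complex.conj_conj, map_intCast] at h8
      exact h8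
    let ζ' : (↥(P : Subgroup G) →* ℂˣ) → IrrCharacter G := fun ψ => if ζ ψ = η₁ then η₂ else η₁
    have hζ'1 : ∀ ψ, ζ ψ = η₁ → ζ' ψ = η₂ := fun ψ h => if_pos h
    have hζ'2 : ∀ ψ, ζ ψ = η₂ → ζ' ψ = η₁ := fun ψ h => if_neg (by rw [h]; exact hne.symm)
    have hζcases : ∀ ψ : ↥(P : Subgroup G) →* ℂˣ, ψ ≠ 1 → ζ ψ = η₁ ∨ ζ ψ = η₂ := by
      intro ψ hψ
      simpa using hζY ψ hψ
    refine ⟨o, χ₁, χ₂, {η₁, η₂}, a, -δ, ζ', ho, ho1, ho2, h12, hU, hD, hYc, hYm, hao, ha₁, ha₂, ?_,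
      hXval, ?_, ?_, ?_, ?_, hYA, ?_, fun h => absurd h hpne2⟩
    · rcases hδ with rfl | rfl <;> norm_num
    · intro ψ hψ
      rcases hζcases ψ hψ with h | h
      · rw [hζ'1 ψ h]; exact hη₂
      · rw [hζ'2 ψ h]; exact hη₁
    · intro η hη
      simp only [Set.mem_insert_iff, Set.mem_singleton_iff] at hη
      rcases hη with rfl | rfl
      · obtain ⟨ψ, hψ, h⟩ := hζS η₂ hη₂
        exact ⟨ψ, hψ, hζ'2 ψ h⟩
      · obtain ⟨ψ, hψ, h⟩ := hζS η₁ hη₁
        exact ⟨ψ, hψ, hζ'1 ψ h⟩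
    · intro ψ ψ' hψ hn
      have h1 := hζC ψ ψ' hψ hn
      show (if ζ ψ' = η₁ then η₂ else η₁) = (if ζ ψ = η₁ then η₂ else η₁)
      rw [h1]
    · intro ψ hψ z y hz hy
      have hyo := bw_order_of_mem P y.2
      have h0 := hζV ψ hψ (y : G) y (isPPart_self_of hyo) hy
      have hmemB : ∀ η ∈ ({η₁, η₂} : Set (IrrCharacter G)), η ∈ principalBlock M G := by
        intro η hη
        rw [hU]
        exact Or.inr hη
      have hsec : ∀ η ∈ ({η₁, η₂} : Set (IrrCharacter G)), (η : G → ℂ) z = (η : G → ℂ) y :=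
        fun η hη => bw_section_value hM P hcomm hfrob (hmemB η hη) hz y.2 hy
      have hp2 := hpair y y.2 hy
      rcases hζcases ψ hψ with h | h
      · rw [hζ'1 ψ h, hsec η₂ hη₂]
        rw [h, hdd] at h0
        push_cast
        linear_combination hp2 - h0
      · rw [hζ'2 ψ h, hsec η₁ hη₁]
        rw [h, hdd] at h0
        push_cast
        linear_combination hp2 - h0
    · intro η hη g hg
      have h1 := hrel₀ η hη g hg
      rw [hR2', hdd] at h1
      push_cast at h1 ⊢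
      linear_combination h1

end Cfsg.Agent.H22
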