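import Cfsg.Agent.Lib.H22.BwF

/-! # `N/C` of order three: signs and the perfect square -/

set_option autoImplicit false
set_option linter.unusedSectionVars false
set_option linter.style.haveILetI false
set_option linter.unusedSimpArgs false
set_option linter.unusedVariables false

namespace Cfsg.Agent.H22

open Cfsg Cfsg.Agent.H21 Cfsg.Agent.H23
open scoped ComplexConjugate

attribute [-instance] Cfsg.Agent.H22.fintypeOfFiniteH22

universe u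

section Main

variable {G : Type u} [Group G] [Finite G] {p : ℕ} [hp : Fact p.Prime] {M : Ideal AlgInt}
  [hMp : M.IsPrime]

theorem inv_value_int (χ : IrrCharacter G) {t : G} (ht : orderOf t = 2) : ∃ z : ℤ, χ.1 t = z := by
  haveI : Fintype G := Fintype.ofFinite G
  apply int_of_pow_fixed (Cfsg.Agent.H21.isCharacter_of_irr χ.2)
  intro k hk
  have h2 : 2 ∣ Nat.card G := ht ▸ orderOf_dvd_natCard t
  have hodd : ¬ 2 ∣ k := fun h => by
    have := Nat.dvd_gcd h h2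
    rw [Nat.Coprime.gcd_eq_one hk] at this
    omega
  have h3 : k % 2 = 1 := by omega
  have h4 : t ^ k = t ^ (k % 2) := by
    rw [← pow_mod_orderOf, ht]
  rw [h4, h3, pow_one]

open Classical in
/-- The sum of the exceptional values in a column. -/
theorem col_Y (hM : IsPModular p M) (P : Sylow p G) {o χ₁ χ₂ : IrrCharacter G}
    {Y : Set (IrrCharacter G)} {a : IrrCharacter G → ℤ} {δ : ℤ}
    (ho : (o : G → ℂ) = fun _ => 1) (ho1 : o ≠ χ₁) (ho2 : o ≠ χ₂) (h12 : χ₁ ≠ χ₂)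
    (hU : principalBlock M G = ({o, χ₁, χ₂} : Set (IrrCharacter G)) ∪ Y)
    (hD : Disjoint ({o, χ₁, χ₂} : Set (IrrCharacter G)) Y)
    (hao : a o = 1)
    (hXval : ∀ χ ∈ ({o, χ₁, χ₂} : Set (IrrCharacter G)), ∀ z y : G, IsPPart p z y →
        y ∈ (P : Subgroup G) → y ≠ 1 → (χ : G → ℂ) z = (a χ : ℂ))
    (hYA : ∀ η ∈ Y, ∀ η' ∈ Y, ∀ g : G, ¬ p ∣ orderOf g → (η : G → ℂ) g = (η' : G → ℂ) g)
    (hrel : ∀ η ∈ Y, ∀ g : G, ¬ p ∣ orderOf g →
        1 + (a χ₁ : ℂ) * (χ₁ : G → ℂ) g + (a χ₂ : ℂ) * (χ₂ : G → ℂ) g - (δ : ℂ) * (η : G → ℂ) g = 0)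
    {η : IrrCharacter G} (hη : η ∈ Y) {y : G} (hy : y ∈ (P : Subgroup G)) (hy1 : y ≠ 1) :
    ∑ η' ∈ (Set.toFinite Y).toFinset, conj (η'.1 y) = -(δ : ℂ) := by
  have hone : ¬ p ∣ orderOf (1 : G) := by
    rw [orderOf_one]
    exact hp.out.not_dvd_one
  have hyo := bw_order_of_mem P hy
  have h1 := orth_fin (M := M) hM (isPPart_self_of hyo) (isPPart_one_of hone)
    (fun hc => hy1 (isConj_one_right.mp hc.symm))
  rw [block_split (o := o) (χ₁ := χ₁) (χ₂ := χ₂) (Y := Y) ho1 ho2 h12 hU hD] at h1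
  have hconst : ∀ η' ∈ (Set.toFinite Y).toFinset, η'.1 1 * conj (η'.1 y) = η.1 1 * conj (η'.1 y) := by
    intro η' hη'
    rw [hYA η' ((Set.toFinite Y).mem_toFinset.mp hη') η hη 1 hone]
  rw [Finset.sum_congr rfl hconst, ← Finset.mul_sum,
    hXval o (by simp) y y (isPPart_self_of hyo) hy hy1,
    hXval χ₁ (by simp) y y (isPPart_self_of hyo) hy hy1,
    hXval χ₂ (by simp) y y (isPPart_self_of hyo) hy hy1, hao] at h1
  simp only [map_intCast, Int.cast_one, map_one] at h1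
  have h2 := hrel η hη 1 hone
  have h4 : o.1 1 = 1 := congrFun ho 1
  rw [h4] at h1
  change (1 : ℂ) * 1 + χ₁.1 1 * (a χ₁ : ℂ) + χ₂.1 1 * (a χ₂ : ℂ) +
      η.1 1 * ∑ η' ∈ (Set.toFinite Y).toFinset, conj (η'.1 y) = 0 at h1
  change 1 + (a χ₁ : ℂ) * χ₁.1 1 + (a χ₂ : ℂ) * χ₂.1 1 - (δ : ℂ) * η.1 1 = 0 at h2
  have h5 : η.1 1 * (∑ η' ∈ (Set.toFinite Y).toFinset, conj (η'.1 y) + δ) = 0 := by
    linear_combination h1 - h2
  have h6 : η.1 1 ≠ 0 := by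
    rw [one_eq_charDegree (Cfsg.Agent.H21.isCharacter_of_irr η.2)]
    exact_mod_cast (irr_charDegree_pos η.2).ne'
  have := (mul_eq_zero.mp h5).resolve_left h6
  linear_combination this

open Classical in
set_option maxHeartbeats 1000000 in
/-- `p` odd. -/
theorem bw3_invol_odd (hM : IsPModular p M) (P : Sylow p G)
    (hcomm : ∀ a ∈ (P : Subgroup G), ∀ b ∈ (P : Subgroup G), a * b = b * a)
    (hCN : (Subgroup.centralizer ((P : Subgroup G) : Set G)).relIndex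
      (Subgroup.normalizer ((P : Subgroup G) : Set G)) = 3)
    (hfrob : ∀ y : G, y ∈ (P : Subgroup G) → y ≠ 1 →
      Subgroup.centralizer ({y} : Set G) ⊓ Subgroup.normalizer ((P : Subgroup G) : Set G) =
        Subgroup.centralizer ((P : Subgroup G) : Set G))
    (hp2 : p ≠ 2)
    {o χ₁ χ₂ : IrrCharacter G}
    {Y : Set (IrrCharacter G)} {a : IrrCharacter G → ℤ} {δ : ℤ}
    (ho : (o : G → ℂ) = fun _ => 1) (ho1 : o ≠ χ₁) (ho2 : o ≠ χ₂) (h12 : χ₁ ≠ χ₂)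
    (hU : principalBlock M G = ({o, χ₁, χ₂} : Set (IrrCharacter G)) ∪ Y)
    (hD : Disjoint ({o, χ₁, χ₂} : Set (IrrCharacter G)) Y)
    (hao : a o = 1) (ha₁ : a χ₁ = 1 ∨ a χ₁ = -1) (ha₂ : a χ₂ = 1 ∨ a χ₂ = -1) (hδ : δ = 1 ∨ δ = -1)
    (hXval : ∀ χ ∈ ({o, χ₁, χ₂} : Set (IrrCharacter G)), ∀ z y : G, IsPPart p z y →
        y ∈ (P : Subgroup G) → y ≠ 1 → (χ : G → ℂ) z = (a χ : ℂ))
    (hYA : ∀ η ∈ Y, ∀ η' ∈ Y, ∀ g : G, ¬ p ∣ orderOf g → (η : G → ℂ) g = (η' : G → ℂ) g)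
    (hrel : ∀ η ∈ Y, ∀ g : G, ¬ p ∣ orderOf g →
        1 + (a χ₁ : ℂ) * (χ₁ : G → ℂ) g + (a χ₂ : ℂ) * (χ₂ : G → ℂ) g - (δ : ℂ) * (η : G → ℂ) g = 0)
    {t : G} (ht : orderOf t = 2) (hnorm : ∀ K : Subgroup G, K.Normal → t ∈ K → K = ⊤)
    {η : IrrCharacter G} (hη : η ∈ Y) {y : G} (hy : y ∈ (P : Subgroup G)) (hy1 : y ≠ 1) :
    (-δ) * a χ₁ * a χ₂ = 1 ∧ IsSquare (charDegree χ₁.1 * charDegree χ₂.1 * charDegree η.1) := by
  have hone : ¬ p ∣ orderOf (1 : G) := by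
    rw [orderOf_one]
    exact hp.out.not_dvd_one
  have htreg : ¬ p ∣ orderOf t := by
    rw [ht]
    intro h
    exact hp2 ((Nat.prime_dvd_prime_iff_eq hp.out Nat.prime_two).mp h)
  have hsq : t * t = 1 := by rw [← sq, ← ht, pow_orderOf_eq_one]
  have hyo := bw_order_of_mem P hy
  obtain ⟨b₁, hb₁⟩ := inv_value_int χ₁ ht
  obtain ⟨b₂, hb₂⟩ := inv_value_int χ₂ ht
  obtain ⟨b₀, hb₀⟩ := inv_value_int η ht
  have hf₁ := one_eq_charDegree (Cfsg.Agent.H21.isCharacter_of_irr χ₁.2)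
  have hf₂ := one_eq_charDegree (Cfsg.Agent.H21.isCharacter_of_irr χ₂.2)
  have hf₀ := one_eq_charDegree (Cfsg.Agent.H21.isCharacter_of_irr η.2)
  have h1C := hrel η hη 1 hone
  change 1 + (a χ₁ : ℂ) * χ₁.1 1 + (a χ₂ : ℂ) * χ₂.1 1 - (δ : ℂ) * η.1 1 = 0 at h1C
  rw [hf₁, hf₂, hf₀] at h1C
  have h2C := hrel η hη t htreg
  change 1 + (a χ₁ : ℂ) * χ₁.1 t + (a χ₂ : ℂ) * χ₂.1 t - (δ : ℂ) * η.1 t = 0 at h2C
  rw [hb₁, hb₂, hb₀] at h2C
  have hne : b₁ ≠ (charDegree χ₁.1 : ℤ) := by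
    intro h
    apply ker_contra ho (Ne.symm ho1) (t := t) _ hnorm
    rw [hb₁, hf₁, h]
    simp
  have hno : ∀ a' b' x : G, IsPPart p (a' * t * a'⁻¹ * (b' * t * b'⁻¹)) x → ¬ IsConj y x := by
    intro a' b' x hx
    have hs : ∀ u : G, (u * t * u⁻¹) * (u * t * u⁻¹) = 1 := by
      intro u
      calc (u * t * u⁻¹) * (u * t * u⁻¹) = u * (t * t) * u⁻¹ := by group
        _ = 1 := by rw [hsq]; group
    exact no_section_odd P hcomm hCN hfrob hp2 hy hy1 (hs a') (hs b') hx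
  have hQ := Q_zero (M := M) hM hyo hno
  rw [block_split (o := o) (χ₁ := χ₁) (χ₂ := χ₂) (Y := Y) ho1 ho2 h12 hU hD] at hQ
  have hcol := col_Y (M := M) hM P ho ho1 ho2 h12 hU hD hao hXval hYA hrel hη hy hy1
  have hconst : ∀ η' ∈ (Set.toFinite Y).toFinset,
      (η'.1 t * η'.1 t / η'.1 1) * conj (η'.1 y) =
        ((b₀ : ℂ) * b₀ / (charDegree η.1 : ℂ)) * conj (η'.1 y) := by
    intro η' hη'
    have hm := (Set.toFinite Y).mem_toFinset.mp hη'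
    rw [hYA η' hm η hη t htreg, hYA η' hm η hη 1 hone, hb₀, hf₀]
  rw [Finset.sum_congr rfl hconst, ← Finset.mul_sum, hcol,
    hXval o (by simp) y y (isPPart_self_of hyo) hy hy1,
    hXval χ₁ (by simp) y y (isPPart_self_of hyo) hy hy1,
    hXval χ₂ (by simp) y y (isPPart_self_of hyo) hy hy1, hao, hb₁, hb₂, hf₁, hf₂] at hQ
  have h4 : o.1 t = 1 := congrFun ho t
  have h4' : o.1 1 = 1 := congrFun ho 1
  rw [h4, h4'] at hQ
  simp only [map_intCast, Int.cast_one, map_one] at hQ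
  have hpos₁ := irr_charDegree_pos χ₁.2
  have hpos₂ := irr_charDegree_pos χ₂.2
  have hpos₀ := irr_charDegree_pos η.2
  have h1Z : 1 + a χ₁ * (charDegree χ₁.1 : ℤ) + a χ₂ * (charDegree χ₂.1 : ℤ) +
      (-δ) * (charDegree η.1 : ℤ) = 0 := by
    have : ((1 + a χ₁ * (charDegree χ₁.1 : ℤ) + a χ₂ * (charDegree χ₂.1 : ℤ) +
      (-δ) * (charDegree η.1 : ℤ) : ℤ) : ℂ) = 0 := by
      push_cast
      linear_combination h1C
    exact_mod_cast this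
  have h2Z : 1 + a χ₁ * b₁ + a χ₂ * b₂ + (-δ) * b₀ = 0 := by
    have : ((1 + a χ₁ * b₁ + a χ₂ * b₂ + (-δ) * b₀ : ℤ) : ℂ) = 0 := by
      push_cast
      linear_combination h2C
    exact_mod_cast this
  have h3Q : (1 : ℚ) + a χ₁ * b₁ ^ 2 / (charDegree χ₁.1 : ℕ) + a χ₂ * b₂ ^ 2 / (charDegree χ₂.1 : ℕ) +
      ((-δ : ℤ) : ℚ) * b₀ ^ 2 / (charDegree η.1 : ℕ) = 0 := by
    have : (((1 : ℚ) + a χ₁ * b₁ ^ 2 / (charDegree χ₁.1 : ℕ) + a χ₂ * b₂ ^ 2 / (charDegree χ₂.1 : ℕ) +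
      ((-δ : ℤ) : ℚ) * b₀ ^ 2 / (charDegree η.1 : ℕ) : ℚ) : ℂ) = 0 := by
      push_cast
      linear_combination hQ
    exact_mod_cast this
  have he₀ : -δ = 1 ∨ -δ = -1 := by
    rcases hδ with rfl | rfl <;> norm_num
  have := iso_main (charDegree χ₁.1) (charDegree χ₂.1) (charDegree η.1) hpos₁ hpos₂ hpos₀ (a χ₁) (a χ₂)
    (-δ) ha₁ ha₂ he₀ b₁ b₂ b₀ h1Z h2Z h3Q hne
  exact this

theorem no_sq_five_mod_eight (r Z : ℤ) (h : r * r = -3 + 8 * Z) : False := by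
  have h1 : ((r : ZMod 8)) * (r : ZMod 8) = 5 := by
    have h2 := congrArg (Int.cast : ℤ → ZMod 8) h
    push_cast at h2
    rw [h2]
    have h3 : (8 : ZMod 8) = 0 := rfl
    rw [h3, zero_mul, add_zero]
    rfl
  revert h1
  generalize (r : ZMod 8) = x
  revert x
  decide

open Classical in
set_option maxHeartbeats 2000000 in
/-- `p = 2`: the hypothesis on the involution cannot hold. -/
theorem bw3_invol_two [Fact (Nat.Prime 2)] (hM : IsPModular 2 M) (P : Sylow 2 G)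
    (hcomm : ∀ a ∈ (P : Subgroup G), ∀ b ∈ (P : Subgroup G), a * b = b * a)
    (hCN : (Subgroup.centralizer ((P : Subgroup G) : Set G)).relIndex
      (Subgroup.normalizer ((P : Subgroup G) : Set G)) = 3)
    (hfrob : ∀ y : G, y ∈ (P : Subgroup G) → y ≠ 1 →
      Subgroup.centralizer ({y} : Set G) ⊓ Subgroup.normalizer ((P : Subgroup G) : Set G) =
        Subgroup.centralizer ((P : Subgroup G) : Set G))
    (hm2 : 3 + 1 < Nat.card P)
    {o χ₁ χ₂ : IrrCharacter G}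
    {Y : Set (IrrCharacter G)} {a : IrrCharacter G → ℤ} {δ : ℤ}
    (ho : (o : G → ℂ) = fun _ => 1) (ho1 : o ≠ χ₁) (ho2 : o ≠ χ₂) (h12 : χ₁ ≠ χ₂)
    (hU : principalBlock M G = ({o, χ₁, χ₂} : Set (IrrCharacter G)) ∪ Y)
    (hD : Disjoint ({o, χ₁, χ₂} : Set (IrrCharacter G)) Y)
    (hYm : Nat.card Y * 3 + 1 = Nat.card P)
    (hao : a o = 1) (ha₁ : a χ₁ = 1 ∨ a χ₁ = -1) (ha₂ : a χ₂ = 1 ∨ a χ₂ = -1) (hδ : δ = 1 ∨ δ = -1)
    (hXval : ∀ χ ∈ ({o, χ₁, χ₂} : Set (IrrCharacter G)), ∀ z y : G, IsPPart 2 z y →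
        y ∈ (P : Subgroup G) → y ≠ 1 → (χ : G → ℂ) z = (a χ : ℂ))
    (hYA : ∀ η ∈ Y, ∀ η' ∈ Y, ∀ g : G, ¬ 2 ∣ orderOf g → (η : G → ℂ) g = (η' : G → ℂ) g)
    (hrel : ∀ η ∈ Y, ∀ g : G, ¬ 2 ∣ orderOf g →
        1 + (a χ₁ : ℂ) * (χ₁ : G → ℂ) g + (a χ₂ : ℂ) * (χ₂ : G → ℂ) g - (δ : ℂ) * (η : G → ℂ) g = 0)
    (hT : ∀ u v : ↥(P : Subgroup G), u ≠ 1 → v ≠ 1 → ∀ η ∈ Y,
        (η : G → ℂ) u * (η : G → ℂ) v = (δ : ℂ) * ∑ᶠ γ : (P : Subgroup G).normalizerMonoidHom.range,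
          (if u * ((γ : MulAut ↥(P : Subgroup G)) v) = 1 then ((3 : ℕ) : ℂ) * δ
            else (η : G → ℂ) ((u * ((γ : MulAut ↥(P : Subgroup G)) v) : ↥(P : Subgroup G)) : G)))
    {t : G} (ht : orderOf t = 2) (hnorm : ∀ K : Subgroup G, K.Normal → t ∈ K → K = ⊤) : False := by
  haveI : Fintype G := Fintype.ofFinite G
  haveI : Fintype (P : Subgroup G) := Fintype.ofFinite _
  have hone : ¬ 2 ∣ orderOf (1 : G) := by
    rw [orderOf_one]
    norm_num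
  -- the order of P
  obtain ⟨k₀, hk₀⟩ : ∃ k, Nat.card P = 2 ^ k := IsPGroup.iff_card.mp P.isPGroup'
  have hk₄ : 4 ≤ k₀ := by
    by_contra h
    have h1 : k₀ ≤ 3 := by omega
    interval_cases k₀ <;> omega
  have h16 : (16 : ℕ) ∣ Nat.card P := by
    rw [hk₀]
    exact pow_dvd_pow 2 hk₄
  have h16' : 16 ≤ Nat.card P := Nat.le_of_dvd Nat.card_pos h16
  -- an involution in P
  obtain ⟨c₀, hc₀⟩ := conj_into_sylow P t ht
  set t₀ : G := c₀⁻¹ * t * c₀ with ht₀def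
  have ht₀o : orderOf t₀ = 2 := by
    have h1 : t₀ = c₀⁻¹ * t * (c₀⁻¹)⁻¹ := by rw [ht₀def, inv_inv]
    rw [h1, orderOf_conjH22, ht]
  have ht₀s : t₀ * t₀ = 1 := by rw [← sq, ← ht₀o, pow_orderOf_eq_one]
  have ht₀1 : t₀ ≠ 1 := by
    intro h
    rw [h, orderOf_one] at ht₀o
    omega
  let t' : (P : Subgroup G) := ⟨t₀, hc₀⟩
  have ht'1 : t' ≠ 1 := fun h => ht₀1 (congrArg Subtype.val h)
  -- the group of automorphisms
  let Γ := (P : Subgroup G).normalizerMonoidHom.range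
  haveI : Fintype Γ := Fintype.ofFinite _
  have hΓcard : Fintype.card Γ = 3 := by
    rw [← Nat.card_eq_fintype_card, ← hCN]
    show Nat.card (P : Subgroup G).normalizerMonoidHom.range = _
    rw [← Subgroup.index_ker, Subgroup.normalizerMonoidHom_ker]
    rfl
  let Sf : Finset (P : Subgroup G) := (Finset.univ : Finset (Γ × Γ)).image
    (fun q => ((q.1 : MulAut (P : Subgroup G)) t') * ((q.2 : MulAut (P : Subgroup G)) t'))
  have hSfcard : Sf.card ≤ 9 := by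
    refine le_trans Finset.card_image_le ?_
    rw [Finset.card_univ, Fintype.card_prod, hΓcard]
  obtain ⟨y', -, hy'⟩ : ∃ y' ∈ (Finset.univ : Finset (P : Subgroup G)), y' ∉ Sf := by
    apply Finset.exists_mem_notMem_of_card_lt_card
    rw [Finset.card_univ, ← Nat.card_eq_fintype_card]
    have : Nat.card (P : Subgroup G) = Nat.card P := rfl
    omega
  have hy'1 : y' ≠ 1 := by
    rintro rfl
    apply hy'
    refine Finset.mem_image.mpr ⟨(1, 1), Finset.mem_univ _, ?_⟩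
    apply Subtype.ext
    show t₀ * t₀ = 1
    exact ht₀s
  set y : G := (y' : G) with hydef
  have hy : y ∈ (P : Subgroup G) := y'.2
  have hy1 : y ≠ 1 := fun h => hy'1 (Subtype.ext h)
  have hyo := bw_order_of_mem P hy
  -- conjugates of `t₀` in `P`
  have hconjP : ∀ s : G, s ∈ (P : Subgroup G) → IsConj t₀ s → ∃ γ : Γ,
      (((γ : MulAut (P : Subgroup G)) t' : (P : Subgroup G)) : G) = s := by
    intro s hs hc
    obtain ⟨c, hc'⟩ := isConj_iff.mp hc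
    obtain ⟨n, hn, hne⟩ := burnside_conj P (a := t₀) (b := s) (c := c)
      (fun r hr => by rw [hcomm r hr t₀ hc₀]; group)
      (fun r hr => by rw [hcomm r hr s hs]; group) hc'
    exact ⟨⟨(P : Subgroup G).normalizerMonoidHom ⟨n, hn⟩, ⟨n, hn⟩, rfl⟩, hne⟩
  have hnoS : ∀ s₁ s₂ : G, s₁ ∈ (P : Subgroup G) → s₂ ∈ (P : Subgroup G) → IsConj t₀ s₁ → IsConj t₀ s₂ →
      y ≠ s₁ * s₂ := by
    intro s₁ s₂ hs₁ hs₂ h₁ h₂ he
    obtain ⟨γ₁, hγ₁⟩ := hconjP s₁ hs₁ h₁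
    obtain ⟨γ₂, hγ₂⟩ := hconjP s₂ hs₂ h₂
    apply hy'
    refine Finset.mem_image.mpr ⟨(γ₁, γ₂), Finset.mem_univ _, ?_⟩
    apply Subtype.ext
    show (((γ₁ : MulAut (P : Subgroup G)) t' : (P : Subgroup G)) : G) *
      (((γ₂ : MulAut (P : Subgroup G)) t' : (P : Subgroup G)) : G) = y
    rw [hγ₁, hγ₂, he]
  have hQ := Q_zero (M := M) hM hyo
    (no_section_two P hcomm hCN hfrob ht₀s ht₀1 hy hy1 hnoS)
  rw [block_split (o := o) (χ₁ := χ₁) (χ₂ := χ₂) (Y := Y) ho1 ho2 h12 hU hD] at hQ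
  -- a member of Y
  have hYne : Y.Nonempty := by
    by_contra hne
    rw [Set.not_nonempty_iff_eq_empty] at hne
    have h0 : Nat.card (↥(∅ : Set (IrrCharacter G))) = 0 := by simp
    rw [hne, h0] at hYm
    omega
  obtain ⟨η, hη⟩ := hYne
  have hcol := col_Y (M := M) hM P ho ho1 ho2 h12 hU hD hao hXval hYA hrel hη hy hy1
  have hf₁ := one_eq_charDegree (Cfsg.Agent.H21.isCharacter_of_irr χ₁.2)
  have hf₂ := one_eq_charDegree (Cfsg.Agent.H21.isCharacter_of_irr χ₂.2)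
  have hf₀ := one_eq_charDegree (Cfsg.Agent.H21.isCharacter_of_irr η.2)
  have hδsq : δ * δ = 1 := by
    rcases hδ with rfl | rfl <;> norm_num
  have hδsqC : (δ : ℂ) * δ = 1 := by exact_mod_cast hδsq
  have hsq₁ : a χ₁ * a χ₁ = 1 := by rcases ha₁ with h | h <;> rw [h] <;> norm_num
  have hsq₂ : a χ₂ * a χ₂ = 1 := by rcases ha₂ with h | h <;> rw [h] <;> norm_num
  have hsq₁C : (a χ₁ : ℂ) * a χ₁ = 1 := by exact_mod_cast hsq₁
  have hsq₂C : (a χ₂ : ℂ) * a χ₂ = 1 := by exact_mod_cast hsq₂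
  -- the triple sum over Y
  have hw : ∀ γ : Γ, ∑ η' ∈ (Set.toFinite Y).toFinset,
      (if t' * ((γ : MulAut (P : Subgroup G)) t') = 1 then ((3 : ℕ) : ℂ) * δ
        else (η' : G → ℂ) ((t' * ((γ : MulAut (P : Subgroup G)) t') : (P : Subgroup G)) : G)) *
          conj (η'.1 y) = -3 := by
    intro γ
    by_cases h1 : t' * ((γ : MulAut (P : Subgroup G)) t') = 1
    · simp only [if_pos h1]
      rw [← Finset.mul_sum, hcol]
      push_cast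
      linear_combination (-3 : ℂ) * hδsqC
    · simp only [if_neg h1]
      set w : (P : Subgroup G) := t' * ((γ : MulAut (P : Subgroup G)) t') with hwdef
      have hw1 : (w : G) ≠ 1 := fun h => h1 (Subtype.ext h)
      have hwo := bw_order_of_mem P w.2
      have hnc : ¬ IsConj y (w : G) := by
        intro hc
        obtain ⟨c, hc'⟩ := isConj_iff.mp hc.symm
        obtain ⟨n, hn, hne⟩ := burnside_conj P (a := (w : G)) (b := y) (c := c)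
          (fun r hr => by rw [hcomm r hr _ w.2]; group)
          (fun r hr => by rw [hcomm r hr y hy]; group) hc'
        apply hy'
        let c₁ : MulAut (P : Subgroup G) := (P : Subgroup G).normalizerMonoidHom ⟨n, hn⟩
        refine Finset.mem_image.mpr ⟨(⟨c₁, ⟨n, hn⟩, rfl⟩, ⟨c₁, ⟨n, hn⟩, rfl⟩ * γ), Finset.mem_univ _, ?_⟩
        apply Subtype.ext
        show n * t₀ * n⁻¹ * (n * (((γ : MulAut (P : Subgroup G)) t' : (P : Subgroup G)) : G) * n⁻¹) = y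
        rw [← hne]
        show _ = n * (t₀ * (((γ : MulAut (P : Subgroup G)) t' : (P : Subgroup G)) : G)) * n⁻¹
        group
      have h2 := orth_fin (M := M) hM (isPPart_self_of hyo) (isPPart_self_of hwo) hnc
      rw [block_split (o := o) (χ₁ := χ₁) (χ₂ := χ₂) (Y := Y) ho1 ho2 h12 hU hD,
        hXval o (by simp) y y (isPPart_self_of hyo) hy hy1,
        hXval χ₁ (by simp) y y (isPPart_self_of hyo) hy hy1,
        hXval χ₂ (by simp) y y (isPPart_self_of hyo) hy hy1,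
        hXval o (by simp) w w (isPPart_self_of hwo) w.2 hw1,
        hXval χ₁ (by simp) w w (isPPart_self_of hwo) w.2 hw1,
        hXval χ₂ (by simp) w w (isPPart_self_of hwo) w.2 hw1, hao] at h2
      simp only [map_intCast, Int.cast_one, map_one] at h2
      change _ = _
      linear_combination h2 - hsq₁C - hsq₂C
  have hYsum : ∑ η' ∈ (Set.toFinite Y).toFinset, η'.1 t₀ * η'.1 t₀ * conj (η'.1 y) = -9 * (δ : ℂ) := by
    have h1 : ∀ η' ∈ (Set.toFinite Y).toFinset, η'.1 t₀ * η'.1 t₀ * conj (η'.1 y) =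
        (δ : ℂ) * ∑ γ : Γ, (if t' * ((γ : MulAut (P : Subgroup G)) t') = 1 then ((3 : ℕ) : ℂ) * δ
          else (η' : G → ℂ) ((t' * ((γ : MulAut (P : Subgroup G)) t') : (P : Subgroup G)) : G)) *
            conj (η'.1 y) := by
      intro η' hη'
      have h2 := hT t' t' ht'1 ht'1 η' ((Set.toFinite Y).mem_toFinset.mp hη')
      rw [finsum_eq_sum_of_fintype] at h2
      have h3 : η'.1 t₀ * η'.1 t₀ = _ := h2
      rw [h3, mul_assoc, Finset.sum_mul]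
    rw [Finset.sum_congr rfl h1, ← Finset.mul_sum, Finset.sum_comm]
    simp only [hw, Finset.sum_const, Finset.card_univ, hΓcard, nsmul_eq_mul]
    push_cast
    ring
  have hconst : ∀ η' ∈ (Set.toFinite Y).toFinset,
      (η'.1 t₀ * η'.1 t₀ / η'.1 1) * conj (η'.1 y) =
        ((charDegree η.1 : ℂ))⁻¹ * (η'.1 t₀ * η'.1 t₀ * conj (η'.1 y)) := by
    intro η' hη'
    have hm := (Set.toFinite Y).mem_toFinset.mp hη'
    rw [hYA η' hm η hη 1 hone, hf₀]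
    ring
  rw [Finset.sum_congr rfl hconst, ← Finset.mul_sum, hYsum,
    hXval o (by simp) y y (isPPart_self_of hyo) hy hy1,
    hXval χ₁ (by simp) y y (isPPart_self_of hyo) hy hy1,
    hXval χ₂ (by simp) y y (isPPart_self_of hyo) hy hy1,
    hXval o (by simp) t₀ t₀ (isPPart_self_of (bw_order_of_mem P hc₀)) hc₀ ht₀1,
    hXval χ₁ (by simp) t₀ t₀ (isPPart_self_of (bw_order_of_mem P hc₀)) hc₀ ht₀1,
    hXval χ₂ (by simp) t₀ t₀ (isPPart_self_of (bw_order_of_mem P hc₀)) hc₀ ht₀1, hao, hf₁, hf₂] at hQ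
  have h4' : o.1 1 = 1 := congrFun ho 1
  rw [h4'] at hQ
  simp only [map_intCast, Int.cast_one, map_one] at hQ
  -- the relation at the identity
  have h1C := hrel η hη 1 hone
  change 1 + (a χ₁ : ℂ) * χ₁.1 1 + (a χ₂ : ℂ) * χ₂.1 1 - (δ : ℂ) * η.1 1 = 0 at h1C
  rw [hf₁, hf₂, hf₀] at h1C
  have hpos₁ := irr_charDegree_pos χ₁.2
  have hpos₂ := irr_charDegree_pos χ₂.2
  have hpos₀ := irr_charDegree_pos η.2
  have h1Z : 1 + a χ₁ * (charDegree χ₁.1 : ℤ) + a χ₂ * (charDegree χ₂.1 : ℤ) +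
      (-δ) * (charDegree η.1 : ℤ) = 0 := by
    have : ((1 + a χ₁ * (charDegree χ₁.1 : ℤ) + a χ₂ * (charDegree χ₂.1 : ℤ) +
      (-δ) * (charDegree η.1 : ℤ) : ℤ) : ℂ) = 0 := by
      push_cast
      linear_combination h1C
    exact_mod_cast this
  have h2Z : 1 + a χ₁ * a χ₁ + a χ₂ * a χ₂ + (-δ) * (3 * δ) = 0 := by
    rw [hsq₁, hsq₂]
    linear_combination (-3) * hδsq
  have hf₁0 : ((charDegree χ₁.1 : ℕ) : ℂ) ≠ 0 := by exact_mod_cast hpos₁.ne'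
  have hf₂0 : ((charDegree χ₂.1 : ℕ) : ℂ) ≠ 0 := by exact_mod_cast hpos₂.ne'
  have hf₀0 : ((charDegree η.1 : ℕ) : ℂ) ≠ 0 := by exact_mod_cast hpos₀.ne'
  have hQ' : (1 : ℂ) + (a χ₁ : ℂ) / (charDegree χ₁.1 : ℕ) + (a χ₂ : ℂ) / (charDegree χ₂.1 : ℕ) +
      (-9 * (δ : ℂ)) / (charDegree η.1 : ℕ) = 0 := by
    linear_combination hQ - ((a χ₁ : ℂ) / (charDegree χ₁.1 : ℕ)) * hsq₁C -
      ((a χ₂ : ℂ) / (charDegree χ₂.1 : ℕ)) * hsq₂C
  have hQ'' : (1 : ℚ) + (a χ₁ : ℚ) / (charDegree χ₁.1 : ℕ) + (a χ₂ : ℚ) / (charDegree χ₂.1 : ℕ) +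
      (-9 * (δ : ℚ)) / (charDegree η.1 : ℕ) = 0 := by
    exact_mod_cast hQ'
  have hsq₁Q : (a χ₁ : ℚ) * a χ₁ = 1 := by exact_mod_cast hsq₁
  have hsq₂Q : (a χ₂ : ℚ) * a χ₂ = 1 := by exact_mod_cast hsq₂
  have hδsqQ : (δ : ℚ) * δ = 1 := by exact_mod_cast hδsq
  have h3Q : (1 : ℚ) + a χ₁ * ((a χ₁ : ℤ) : ℚ) ^ 2 / (charDegree χ₁.1 : ℕ) +
      a χ₂ * ((a χ₂ : ℤ) : ℚ) ^ 2 / (charDegree χ₂.1 : ℕ) +
      ((-δ : ℤ) : ℚ) * ((3 * δ : ℤ) : ℚ) ^ 2 / (charDegree η.1 : ℕ) = 0 := by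
    push_cast
    linear_combination hQ'' + ((a χ₁ : ℚ) / (charDegree χ₁.1 : ℕ)) * hsq₁Q +
      ((a χ₂ : ℚ) / (charDegree χ₂.1 : ℕ)) * hsq₂Q + ((-9 * (δ : ℚ)) / (charDegree η.1 : ℕ)) * hδsqQ
  have hval₁ : ∀ g : (P : Subgroup G), g ≠ 1 → χ₁.1 g = ((a χ₁ : ℤ) : ℂ) := fun g hg =>
    hXval χ₁ (by simp) g g (isPPart_self_of (bw_order_of_mem P g.2)) g.2 (fun h => hg (Subtype.ext h))
  have hval₂ : ∀ g : (P : Subgroup G), g ≠ 1 → χ₂.1 g = ((a χ₂ : ℤ) : ℂ) := fun g hg =>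
    hXval χ₂ (by simp) g g (isPPart_self_of (bw_order_of_mem P g.2)) g.2 (fun h => hg (Subtype.ext h))
  have hne : a χ₁ ≠ (charDegree χ₁.1 : ℤ) := by
    intro h
    apply ker_contra ho (Ne.symm ho1) (t := t) _ hnorm
    have h5 : χ₁.1 t = χ₁.1 t₀ := by
      have h6 := isCharacter_conj (Cfsg.Agent.H21.isCharacter_of_irr χ₁.2) t c₀⁻¹
      rw [inv_inv] at h6
      exact h6.symm
    rw [h5, hval₁ t' ht'1, hf₁, h]
    simp
  have he₀ : -δ = 1 ∨ -δ = -1 := by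
    rcases hδ with rfl | rfl <;> norm_num
  obtain ⟨hσ, r, hr⟩ := iso_main (charDegree χ₁.1) (charDegree χ₂.1) (charDegree η.1) hpos₁ hpos₂ hpos₀
    (a χ₁) (a χ₂) (-δ) ha₁ ha₂ he₀ (a χ₁) (a χ₂) (3 * δ) h1Z h2Z h3Q hne
  -- congruences modulo 8
  have h8P : (8 : ℤ) ∣ (Nat.card (P : Subgroup G) : ℤ) := by
    have : (8 : ℕ) ∣ Nat.card (P : Subgroup G) := (by norm_num : (8 : ℕ) ∣ 16).trans h16
    exact_mod_cast this
  obtain ⟨u₁, hu₁⟩ := h8P.trans (sum_P_value P χ₁ (a χ₁) hval₁)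
  obtain ⟨u₂, hu₂⟩ := h8P.trans (sum_P_value P χ₂ (a χ₂) hval₂)
  have hf₀Z : (charDegree η.1 : ℤ) = δ * (3 + 8 * (a χ₁ * u₁ + a χ₂ * u₂)) := by
    have e1 : (charDegree χ₁.1 : ℤ) = a χ₁ + 8 * u₁ := by linarith
    have e2 : (charDegree χ₂.1 : ℤ) = a χ₂ + 8 * u₂ := by linarith
    rw [e1, e2] at h1Z
    linear_combination (-(charDegree η.1 : ℤ)) * hδsq - δ * h1Z + δ * hsq₁ + δ * hsq₂
  have hσ' : a χ₁ * a χ₂ * δ = -1 := by linarith
  have hrZ : (r : ℤ) * r = (charDegree χ₁.1 : ℤ) * (charDegree χ₂.1 : ℤ) * (charDegree η.1 : ℤ) := by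
    exact_mod_cast hr.symm
  have e1 : (charDegree χ₁.1 : ℤ) = a χ₁ + 8 * u₁ := by linarith
  have e2 : (charDegree χ₂.1 : ℤ) = a χ₂ + 8 * u₂ := by linarith
  rw [e1, e2, hf₀Z] at hrZ
  refine no_sq_five_mod_eight (r : ℤ) ((a χ₁ * u₂ + u₁ * a χ₂ + 8 * u₁ * u₂) * δ * 3 +
    (a χ₁ + 8 * u₁) * (a χ₂ + 8 * u₂) * δ * (a χ₁ * u₁ + a χ₂ * u₂)) ?_
  rw [hrZ]
  linear_combination 3 * hσ'

end Main

end Cfsg.Agent.H22
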