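import Cfsg.Agent.Lib.H22.Frobenius

/-!
# Centric normal pairs
-/

set_option autoImplicit false
set_option linter.unusedSectionVars false
set_option linter.style.haveILetI false
set_option linter.unusedSimpArgs false

namespace Cfsg.Agent.H22

open Cfsg Cfsg.Agent.H21 Module
open scoped ComplexConjugate Pointwise

universe u

section

variable {G : Type u} [Group G] [Finite G] {M : Ideal AlgInt} [hM : M.IsPrime]
variable {p : ℕ} [hp : Fact p.Prime] (hMp : IsPModular p M)

omit hM hp in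
theorem orbU_eq_of_stable {Q : Subgroup G}
    {f : Set (IrrCharacter (Subgroup.centralizer (Q : Set G)))}
    (hG : ∀ x : G, x ∈ Subgroup.normalizer (Q : Set G) ∧
      StabilizesBlock (Subgroup.centralizer (Q : Set G)) f x) : orbU Q f = f := by
  apply Set.Subset.antisymm _ (subset_orbU Q f)
  rintro _ ⟨x, hx, ξ, hξ, rfl⟩
  exact (stabilizesBlock_iff (normalizer_le_normalizer_centralizer Q hx)).mp (hG x).2 ⟨ξ, hξ, rfl⟩

include hMp

/-- **S4693.** -/
theorem centric_normal_pair {B : Set (IrrCharacter G)} {P Q : Subgroup G}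
    {e : Set (IrrCharacter (Subgroup.centralizer (P : Set G)))} {F : FusionSystem P}
    {f : Set (IrrCharacter (Subgroup.centralizer (Q : Set G)))}
    (hmax : IsMaximalBrauerPair p M B P e) (hQP : Q ≤ P) (hf : IsPBlock M f)
    (hle : SubpairLE p M Q f P e) (hcen : F.IsCentric Q)
    (hG : ∀ x : G, x ∈ Subgroup.normalizer (Q : Set G) ∧
      StabilizesBlock (Subgroup.centralizer (Q : Set G)) f x) :
    (∀ g : G, MemLocalIdeal M (blockCoeff B g - subgroupBlockCoeff (Subgroup.centralizer (Q : Set G)) f g)) ∧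
      ∃ F' : Set (IrrCharacter ↥(Q ⊔ Subgroup.centralizer (Q : Set G))), IsPBlock M F' ∧
        (∀ t : ↥(Q ⊔ Subgroup.centralizer (Q : Set G)), blockCoeff F' t =
          subgroupBlockCoeff (Subgroup.centralizer (Q : Set G)) f (t : G)) ∧
        IsNilpotentBlock p M F' := by
  classical
  have hPb := isBrauerPairOf_iff.mp hmax.1
  have hQb : IsBrauerPair p M Q f := brauerPair_of_chain hle hPb.1
  have hQp : IsPGroup p Q := hQb.1
  have hQB : IsBrauerPairOf p M B Q f := (isBrauerPairOf_iff_of_subpairLE hMp hQb hle).mp hmax.1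
  haveI hQn : Q.Normal := ⟨fun n hn g => (normalizer_iff_of_mem (hG g).1 n).mp hn⟩
  haveI hCn : (Subgroup.centralizer (Q : Set G)).Normal :=
    ⟨fun n hn g => (normalizer_iff_of_mem (normalizer_le_normalizer_centralizer Q (hG g).1) n).mp hn⟩
  refine ⟨fun g => ?_, ?_⟩
  · rw [blockCoeff_eq_sbc_orbU hMp hQp hQB g, orbU_eq_of_stable hG, sub_self]
    exact mli_zero
  have hCH : Subgroup.centralizer (Q : Set G) ≤ Q ⊔ Subgroup.centralizer (Q : Set G) := le_sup_right
  have hHN : Q ⊔ Subgroup.centralizer (Q : Set G) ≤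
      Subgroup.normalizer ((Subgroup.centralizer (Q : Set G) : Subgroup G) : Set G) :=
    fun x _ => normalizer_le_normalizer_centralizer Q (hG x).1
  have hst : ∀ x ∈ Q ⊔ Subgroup.centralizer (Q : Set G),
      StabilizesBlock (Subgroup.centralizer (Q : Set G)) f x := fun x _ => (hG x).2
  have hidx : ∃ k : ℕ, (Subgroup.centralizer (Q : Set G)).relIndex
      (Q ⊔ Subgroup.centralizer (Q : Set G)) = p ^ k := by
    rw [Subgroup.relIndex_sup_right]
    obtain ⟨n, hn⟩ := IsPGroup.iff_card.mp hQp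
    have h2 : (Subgroup.centralizer (Q : Set G)).relIndex Q ∣ p ^ n := by
      rw [← hn]
      exact Subgroup.relIndex_dvd_card _ _
    obtain ⟨j, -, hj⟩ := (Nat.dvd_prime_pow hp.out).mp h2
    exact ⟨j, hj⟩
  obtain ⟨F', hF'b, hF'c⟩ := exists_block_pIndex_sub hMp hCH hHN hidx hf hst
  refine ⟨F', hF'b, hF'c, ?_⟩
  obtain ⟨D, hD⟩ := isDefectGroup_exists (p := p) hF'b
  -- the defect group of `F'` contains `Q`
  have hQH : Q ≤ Q ⊔ Subgroup.centralizer (Q : Set G) := le_sup_left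
  haveI hQhn : (Q.subgroupOf (Q ⊔ Subgroup.centralizer (Q : Set G))).Normal :=
    Subgroup.Normal.subgroupOf hQn _
  have hQhD := normal_le_defect hMp (Q := Q.subgroupOf (Q ⊔ Subgroup.centralizer (Q : Set G)))
    hQp.comap_subtype hF'b hD
  have hQD : Q ≤ D.map (Q ⊔ Subgroup.centralizer (Q : Set G)).subtype := fun q hq =>
    ⟨⟨q, hQH hq⟩, hQhD (Subgroup.mem_subgroupOf.mpr hq), rfl⟩
  obtain ⟨-, hdefC⟩ := pIndex_defect_sub hMp hCH hHN hidx hf hst hF'b hF'c hD
  have hCP : IsDefectGroup p M f ((P ⊓ Subgroup.centralizer (Q : Set G)).subgroupOf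
      (Subgroup.centralizer (Q : Set G))) := by
    obtain ⟨x, -, hxD⟩ := exists_conj_defect_centralizer hMp hmax hle hf
    let Pd : BrauerPairIdx G → Prop := fun a => IsDefectGroup p M a.2
      ((P ⊓ Subgroup.centralizer (a.1 : Set G)).subgroupOf (Subgroup.centralizer (a.1 : Set G)))
    have h1 : Pd (cp x ⟨Q, f⟩) := hxD
    rw [cp_fixed (hG x).1 (hG x).2] at h1
    exact h1
  have hcard := card_defect_eq hMp hf hdefC hCP
  rw [card_subgroupOf_eq inf_le_right, card_subgroupOf_eq inf_le_right] at hcard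
  have hconj : F.IsConj Q Q :=
    ⟨conjHom Q 1, F.conj_mem hQP P.one_mem, by rw [range_conjHom, cq_one]⟩
  have hPCQ : P ⊓ Subgroup.centralizer (Q : Set G) ≤ Q := hcen.2 Q hconj
  have hsq : P ⊓ Subgroup.centralizer (Q : Set G) ≤
      D.map (Q ⊔ Subgroup.centralizer (Q : Set G)).subtype ⊓ Subgroup.centralizer (Q : Set G) :=
    le_inf (hPCQ.trans hQD) inf_le_right
  have heq := Subgroup.eq_of_le_of_card_ge hsq hcard.le
  have hDQ : ∀ d ∈ D, ((d : ↥(Q ⊔ Subgroup.centralizer (Q : Set G))) : G) ∈ Q := by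
    intro d hd
    obtain ⟨q, hq, c, hc, hqc⟩ := Subgroup.mem_sup_of_normal_left.mp d.2
    have hc1 : c ∈ D.map (Q ⊔ Subgroup.centralizer (Q : Set G)).subtype := by
      have h1 : c = q⁻¹ * (d : G) := by rw [← hqc]; group
      rw [h1]
      exact Subgroup.mul_mem _ (Subgroup.inv_mem _ (hQD hq)) ⟨d, hd, rfl⟩
    have hc2 : c ∈ P ⊓ Subgroup.centralizer (Q : Set G) := by
      rw [heq]
      exact ⟨hc1, hc⟩
    have h2 := Q.mul_mem hq (hPCQ hc2)
    rwa [hqc] at h2
  refine ⟨hF'b, fun R h hRh x hxN hxst hxr => ?_⟩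
  obtain ⟨z, hz⟩ := subConj_of_pair hMp hRh hD
  have hRQ : ∀ r ∈ R, ((r : ↥(Q ⊔ Subgroup.centralizer (Q : Set G))) : G) ∈ Q := by
    intro r hr
    have h1 := hDQ _ (hz r hr)
    have h2 := hQn.conj_mem _ h1 ((z : G)⁻¹)
    have h3 : ((z * r * z⁻¹ : ↥(Q ⊔ Subgroup.centralizer (Q : Set G))) : G) =
        (z : G) * r * (z : G)⁻¹ := rfl
    rw [h3] at h2
    simpa [mul_assoc] using h2
  obtain ⟨q, hq, c, hc, hqc⟩ := Subgroup.mem_sup_of_normal_left.mp x.2
  obtain ⟨k, hk⟩ := hQp ⟨q, hq⟩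
  have hk' : q ^ (p ^ k) = 1 := by
    have := congrArg Subtype.val hk
    simpa using this
  have hk'' : (⟨q, hQH hq⟩ : ↥(Q ⊔ Subgroup.centralizer (Q : Set G))) ^ (p ^ k) = 1 :=
    Subtype.ext (by simpa using hk')
  refine mem_centralizer_of_conj_eq hxr hxN hk'' (fun r hr => Subtype.ext ?_)
  show (x : G) * r * (x : G)⁻¹ = q * r * q⁻¹
  rw [← hqc]
  have hcr : c * (r : G) = r * c := ((Subgroup.mem_centralizer_iff.mp hc) _ (hRQ r hr)).symm
  calc q * c * (r : G) * (q * c)⁻¹ = q * (c * (r : G)) * c⁻¹ * q⁻¹ := by group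
    _ = q * ((r : G) * c) * c⁻¹ * q⁻¹ := by rw [hcr]
    _ = q * r * q⁻¹ := by group

end

end Cfsg.Agent.H22
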