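import Mathlib.GroupTheory.PGroup
import Mathlib.GroupTheory.Nilpotent
import Mathlib.GroupTheory.SpecificGroups.Cyclic
import Mathlib.Algebra.BigOperators.Group.Finset.Basic
import Mathlib.Data.Finset.Lattice.Fold

/-!
# A sign-reversing involution on normal chains of `p`-subgroups

For a nontrivial `p`-element `u`, the alternating sum over the chains of nontrivial `p`-subgroups
which are normal in their largest member and are normalized by `u`, of any function of the stabilizer
of the chain in `C_G(u)`, collapses to the single chain `{⟨u⟩}`.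
-/

set_option autoImplicit false
set_option linter.unusedSectionVars false
set_option linter.style.haveILetI false
set_option linter.unusedSimpArgs false

namespace Cfsg.Agent.H22

open Subgroup

universe u

section Normalizer

variable {G : Type u} [Group G]

theorem mem_normalizer_iff_map' {x : G} {K : Subgroup G} :
    x ∈ normalizer (K : Set G) ↔ K.map (MulAut.conj x).toMonoidHom = K := by
  rw [mem_normalizer_iff]
  constructor
  · intro h
    ext y
    constructor
    · rintro ⟨k, hk, rfl⟩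
      exact (h k).mp hk
    · intro hy
      refine ⟨x⁻¹ * y * x, (h _).mpr ?_, ?_⟩
      · show x * (x⁻¹ * y * x) * x⁻¹ ∈ K
        convert hy using 1
        group
      · show x * (x⁻¹ * y * x) * x⁻¹ = y
        group
  · intro h y
    constructor
    · intro hy
      have : (MulAut.conj x).toMonoidHom y ∈ K.map (MulAut.conj x).toMonoidHom := ⟨y, hy, rfl⟩
      rw [h] at this
      exact this
    · intro hy
      have hy' : x * y * x⁻¹ ∈ K.map (MulAut.conj x).toMonoidHom := by rw [h]; exact hy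
      obtain ⟨k, hk, hk'⟩ := hy'
      have : k = y := by
        have h2 : x * k * x⁻¹ = x * y * x⁻¹ := hk'
        exact mul_left_cancel (mul_right_cancel h2)
      rwa [← this]

theorem mem_normalizer_sup' {x : G} {A B : Subgroup G} (hA : x ∈ normalizer (A : Set G))
    (hB : x ∈ normalizer (B : Set G)) : x ∈ normalizer ((A ⊔ B : Subgroup G) : Set G) := by
  rw [mem_normalizer_iff_map'] at hA hB ⊢
  rw [Subgroup.map_sup, hA, hB]

theorem mem_normalizer_bot' (x : G) : x ∈ normalizer ((⊥ : Subgroup G) : Set G) := by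
  rw [mem_normalizer_iff_map', Subgroup.map_bot]

theorem mem_normalizer_finset_sup {x : G} (A : Finset (Subgroup G))
    (h : ∀ Q ∈ A, x ∈ normalizer ((Q : Subgroup G) : Set G)) :
    x ∈ normalizer ((A.sup id : Subgroup G) : Set G) := by
  classical
  induction A using Finset.induction_on with
  | empty => simpa using mem_normalizer_bot' x
  | insert a s _ ih =>
    rw [Finset.sup_insert]
    exact mem_normalizer_sup' (h a (Finset.mem_insert_self _ _))
      (ih fun Q hQ => h Q (Finset.mem_insert_of_mem hQ))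

theorem mem_normalizer_zpowers_of_comm {x u : G} (h : x * u = u * x) :
    x ∈ normalizer ((zpowers u : Subgroup G) : Set G) := by
  rw [mem_normalizer_iff_map', MonoidHom.map_zpowers]
  congr 1
  show x * u * x⁻¹ = u
  rw [h]
  group

/-- The normal closure of `u` in `T`. -/
def nclos (T : Subgroup G) (u : G) : Subgroup G :=
  closure {y | ∃ t ∈ T, y = t * u * t⁻¹}

theorem mem_nclos (T : Subgroup G) (u : G) : u ∈ nclos T u :=
  subset_closure ⟨1, T.one_mem, by group⟩

theorem nclos_le {T K : Subgroup G} {u : G} (hu : u ∈ K) (hT : T ≤ normalizer (K : Set G)) :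
    nclos T u ≤ K := by
  refine (closure_le _).mpr ?_
  rintro y ⟨t, ht, rfl⟩
  exact (mem_normalizer_iff.mp (hT ht) u).mp hu

theorem nclos_le_self {T : Subgroup G} {u : G} (hu : u ∈ T) : nclos T u ≤ T :=
  nclos_le hu le_normalizer

theorem mem_normalizer_nclos {T : Subgroup G} {u x : G} (hT : x ∈ normalizer (T : Set G))
    (hu : x * u = u * x) : x ∈ normalizer ((nclos T u : Subgroup G) : Set G) := by
  rw [mem_normalizer_iff_map']
  unfold nclos
  rw [MonoidHom.map_closure]
  congr 1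
  ext y
  constructor
  · rintro ⟨_, ⟨t, ht, rfl⟩, rfl⟩
    refine ⟨x * t * x⁻¹, (mem_normalizer_iff.mp hT t).mp ht, ?_⟩
    show x * (t * u * t⁻¹) * x⁻¹ = x * t * x⁻¹ * u * (x * t * x⁻¹)⁻¹
    have h1 : x * t * x⁻¹ * u = x * t * u * x⁻¹ := by
      have : x⁻¹ * u = u * x⁻¹ := by
        rw [eq_mul_inv_iff_mul_eq, mul_assoc, inv_mul_eq_iff_eq_mul, hu]
      rw [mul_assoc (x * t), this, ← mul_assoc]
    rw [h1]
    group
  · rintro ⟨t, ht, rfl⟩
    refine ⟨x⁻¹ * t * x * u * (x⁻¹ * t * x)⁻¹, ⟨x⁻¹ * t * x, ?_, rfl⟩, ?_⟩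
    · rw [mem_normalizer_iff] at hT
      apply (hT _).mpr
      convert ht using 1
      group
    · show x * (x⁻¹ * t * x * u * (x⁻¹ * t * x)⁻¹) * x⁻¹ = t * u * t⁻¹
      have h1 : x * u = u * x := hu
      have h2 : x⁻¹ * t⁻¹ * x * x⁻¹ = x⁻¹ * t⁻¹ := by group
      calc x * (x⁻¹ * t * x * u * (x⁻¹ * t * x)⁻¹) * x⁻¹
          = t * (x * u) * x⁻¹ * t⁻¹ * (x * x⁻¹) := by group
        _ = t * (u * x) * x⁻¹ * t⁻¹ * (x * x⁻¹) := by rw [h1]
        _ = t * u * t⁻¹ := by group

theorem nclos_normalizes {T : Subgroup G} {u : G} (hu : u ∈ T) :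
    T ≤ normalizer ((nclos T u : Subgroup G) : Set G) := by
  intro t ht
  rw [mem_normalizer_iff_map']
  unfold nclos
  rw [MonoidHom.map_closure]
  congr 1
  ext y
  constructor
  · rintro ⟨_, ⟨s, hs, rfl⟩, rfl⟩
    exact ⟨t * s, T.mul_mem ht hs, by show t * (s * u * s⁻¹) * t⁻¹ = _; group⟩
  · rintro ⟨s, hs, rfl⟩
    exact ⟨t⁻¹ * s * u * (t⁻¹ * s)⁻¹, ⟨t⁻¹ * s, T.mul_mem (T.inv_mem ht) hs, rfl⟩, by
      show t * (t⁻¹ * s * u * (t⁻¹ * s)⁻¹) * t⁻¹ = _
      group⟩

end Normalizer

section PGroup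

variable {G : Type u} [Group G] [Finite G] {p : ℕ} [hp : Fact p.Prime]

/-- A proper subgroup of a `p`-group lies in a normal proper subgroup. -/
theorem exists_normal_over {T Y : Subgroup G} (hT : IsPGroup p T) (hY : Y < T) :
    ∃ N₀ : Subgroup G, Y ≤ N₀ ∧ N₀ < T ∧ T ≤ normalizer (N₀ : Set G) := by
  classical
  haveI : Finite (Subgroup G) := inferInstance
  have hfin : ({K : Subgroup G | Y ≤ K ∧ K < T}).Finite := Set.toFinite _
  obtain ⟨N₀, hN₀⟩ := hfin.exists_maximal ⟨Y, le_rfl, hY⟩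
  refine ⟨N₀, hN₀.prop.1, hN₀.prop.2, ?_⟩
  have hN₀T : N₀ < T := hN₀.prop.2
  have hnil : Group.IsNilpotent T := hT.isNilpotent
  have hnc := Group.normalizerCondition_of_isNilpotent (G := T)
  have hH : N₀.subgroupOf T < ⊤ := by
    rw [lt_top_iff_ne_top]
    intro h
    have : T ≤ N₀ := subgroupOf_eq_top.mp h
    exact absurd hN₀T (not_lt_of_ge this)
  have h1 := hnc _ hH
  obtain ⟨-, t, ht, htn⟩ := SetLike.lt_iff_le_and_exists.mp h1
  set N₁ : Subgroup G := T ⊓ normalizer (N₀ : Set G) with hN₁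
  have htG : ((t : T) : G) ∈ normalizer (N₀ : Set G) := by
    rw [mem_normalizer_iff]
    intro h
    by_cases hh : h ∈ T
    · have := (mem_normalizer_iff.mp ht ⟨h, hh⟩)
      simpa [mem_subgroupOf] using this
    · constructor
      · intro h2
        exact absurd (hN₀T.le h2) hh
      · intro h2
        exfalso
        apply hh
        have h3 := hN₀T.le h2
        have := T.mul_mem (T.mul_mem (T.inv_mem t.2) h3) t.2
        convert this using 1
        group
  have hle : N₀ ≤ N₁ := le_inf hN₀T.le le_normalizer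
  have hlt : N₀ < N₁ := by
    refine lt_of_le_of_ne hle ?_
    intro h
    have : ((t : T) : G) ∈ N₁ := ⟨t.2, htG⟩
    rw [← h] at this
    exact htn (by simpa [mem_subgroupOf] using this)
  by_contra hne
  have hN₁T : N₁ < T := by
    refine lt_of_le_of_ne inf_le_left ?_
    intro h
    apply hne
    rw [← h]
    exact inf_le_right
  have := hN₀.le_of_ge ⟨hN₀.prop.1.trans hle, hN₁T⟩ hle
  exact absurd hlt (not_lt_of_ge this)

/-- If the normal closure of `u` and a normal subgroup generate `T`, then `u` and that subgroup do. -/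
theorem sup_zpowers_of_sup_nclos {T S : Subgroup G} {u : G} (hT : IsPGroup p T) (hST : S ≤ T)
    (hSn : T ≤ normalizer (S : Set G)) (hu : u ∈ T) (h : S ⊔ nclos T u = T) :
    S ⊔ zpowers u = T := by
  by_contra hne
  have hle : S ⊔ zpowers u ≤ T := sup_le hST ((zpowers_le).mpr hu)
  obtain ⟨N₀, h1, h2, h3⟩ := exists_normal_over hT (lt_of_le_of_ne hle hne)
  have hu0 : u ∈ N₀ := h1 (mem_sup_right (mem_zpowers u))
  have h4 : nclos T u ≤ N₀ := nclos_le hu0 h3
  have h5 : S ≤ N₀ := le_sup_left.trans h1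
  have h6 : T ≤ N₀ := by
    rw [← h]
    exact sup_le h5 h4
  exact absurd h2 (not_lt_of_ge h6)

theorem isPGroup_zpowers' {u : G} (hu : ∃ k : ℕ, orderOf u = p ^ k) :
    IsPGroup p (zpowers u : Subgroup G) := by
  obtain ⟨k, hk⟩ := hu
  rw [IsPGroup.iff_card, Nat.card_zpowers]
  exact ⟨k, hk⟩

end PGroup

section Chain

variable {G : Type u} [Group G] [Finite G] {p : ℕ} [hp : Fact p.Prime]

/-- The chains of the statement. -/
def GoodChain (p : ℕ) (s : Finset (Subgroup G)) : Prop :=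
  s.Nonempty ∧ (∀ Q ∈ s, ∀ R ∈ s, Q ≤ R ∨ R ≤ Q) ∧ (∀ Q ∈ s, Q ≠ ⊥ ∧ IsPGroup p Q) ∧
    ∃ T ∈ s, ∀ Q ∈ s, Q ≤ T ∧ T ≤ Subgroup.normalizer ((Q : Subgroup G) : Set G)

/-- The stabilizer of a chain. -/
abbrev chainN (s : Finset (Subgroup G)) : Subgroup G :=
  ⨅ Q ∈ s, Subgroup.normalizer ((Q : Subgroup G) : Set G)

theorem mem_chainN {s : Finset (Subgroup G)} {x : G} :
    x ∈ chainN s ↔ ∀ Q ∈ s, x ∈ Subgroup.normalizer ((Q : Subgroup G) : Set G) := by
  simp only [chainN, Subgroup.mem_iInf]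

theorem chain_sup_mem {s : Finset (Subgroup G)} (hne : s.Nonempty)
    (hc : ∀ Q ∈ s, ∀ R ∈ s, Q ≤ R ∨ R ≤ Q) : s.sup id ∈ s ∧ ∀ Q ∈ s, Q ≤ s.sup id := by
  classical
  obtain ⟨m, hm⟩ := s.exists_maximal hne
  have hm1 : m ∈ s := hm.prop
  have hall : ∀ x ∈ s, x ≤ m := by
    intro x hx
    rcases hc x hx m hm1 with h | h
    · exact h
    · exact hm.le_of_ge hx h
  have : s.sup id = m := le_antisymm (Finset.sup_le hall) (Finset.le_sup (f := id) hm1)
  rw [this]
  exact ⟨hm1, hall⟩

theorem good_top {s : Finset (Subgroup G)} (h : GoodChain p s) :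
    s.sup id ∈ s ∧ ∀ Q ∈ s, Q ≤ s.sup id ∧ s.sup id ≤ Subgroup.normalizer ((Q : Subgroup G) : Set G) := by
  obtain ⟨hne, hc, -, T, hT, hTall⟩ := h
  have : s.sup id = T := le_antisymm (Finset.sup_le fun Q hQ => (hTall Q hQ).1)
    (Finset.le_sup (f := id) hT)
  rw [this]
  exact ⟨hT, hTall⟩

open Classical in
/-- The vertex to be added or removed. -/
noncomputable def vtx (u : G) (s : Finset (Subgroup G)) : Subgroup G :=
  if u ∉ s.sup id then s.sup id ⊔ zpowers u
  else if ∃ Q ∈ s, u ∉ Q ∧ Q ⊔ zpowers u = s.sup id then s.sup id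
  else (s.filter (fun Q => ¬ nclos (s.sup id) u ≤ Q)).sup id ⊔ nclos (s.sup id) u

open Classical in
/-- The involution. -/
noncomputable def tauC (u : G) (s : Finset (Subgroup G)) : Finset (Subgroup G) :=
  if vtx u s ∈ s then s.erase (vtx u s) else insert (vtx u s) s

/-- The data of the involution. -/
structure TauOK (p : ℕ) (u : G) (s : Finset (Subgroup G)) : Prop where
  good : GoodChain p (tauC u s)
  memN : u ∈ chainN (tauC u s)
  vtx_eq : vtx u (tauC u s) = vtx u s
  ne_single : tauC u s ≠ {zpowers u}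
  normal : ∀ x, x ∈ chainN s → x * u = u * x → x ∈ Subgroup.normalizer ((vtx u s : Subgroup G) : Set G)

variable {u : G} {s : Finset (Subgroup G)}

theorem vtx_normal (hs : GoodChain p s) {x : G} (hx : x ∈ chainN s) (hxu : x * u = u * x) :
    x ∈ Subgroup.normalizer ((vtx u s : Subgroup G) : Set G) := by
  classical
  have hx' := mem_chainN.mp hx
  have hT := (good_top hs).1
  unfold vtx
  by_cases h1 : u ∈ s.sup id
  · rw [if_neg (not_not.mpr h1)]
    by_cases h2 : ∃ Q ∈ s, u ∉ Q ∧ Q ⊔ zpowers u = s.sup id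
    · rw [if_pos h2]
      exact hx' _ hT
    · rw [if_neg h2]
      refine mem_normalizer_sup' (mem_normalizer_finset_sup _ fun Q hQ =>
        hx' Q (Finset.mem_filter.mp hQ).1) (mem_normalizer_nclos (hx' _ hT) hxu)
  · rw [if_pos h1]
    exact mem_normalizer_sup' (hx' _ hT) (mem_normalizer_zpowers_of_comm hxu)

open Classical in
/-- The case `u ∉ T`. -/
theorem tau_caseA (hs : GoodChain p s) (hu : ∃ k : ℕ, orderOf u = p ^ k) (hu1 : u ≠ 1)
    (husN : u ∈ chainN s) (h1 : u ∉ s.sup id) : vtx u s = s.sup id ⊔ zpowers u ∧ vtx u s ∉ s ∧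
      GoodChain p (insert (vtx u s) s) ∧ u ∈ chainN (insert (vtx u s) s) ∧
      vtx u (insert (vtx u s) s) = vtx u s ∧ insert (vtx u s) s ≠ {zpowers u} := by
  classical
  obtain ⟨hT, hTall⟩ := good_top hs
  obtain ⟨hne, hc, hpg, -⟩ := id hs
  set T := s.sup id with hTdef
  have hv : vtx u s = T ⊔ zpowers u := by
    unfold vtx
    rw [if_pos h1]
  have hZ : zpowers u ≠ ⊥ := by
    intro h
    exact hu1 (zpowers_eq_bot.mp h)
  have husN' := mem_chainN.mp husN
  have hTv : T ≤ T ⊔ zpowers u := le_sup_left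
  have huv : u ∈ T ⊔ zpowers u := mem_sup_right (mem_zpowers u)
  have hvs : T ⊔ zpowers u ∉ s := by
    intro h
    have := (hTall _ h).1
    exact h1 (this huv)
  have hZN : ∀ Q ∈ s, zpowers u ≤ Subgroup.normalizer ((Q : Subgroup G) : Set G) := fun Q hQ =>
    (zpowers_le).mpr (husN' Q hQ)
  have hvN : ∀ Q ∈ s, T ⊔ zpowers u ≤ Subgroup.normalizer ((Q : Subgroup G) : Set G) := fun Q hQ =>
    sup_le (hTall Q hQ).2 (hZN Q hQ)
  have hTpg : IsPGroup p T := (hpg T hT).2
  have hvpg : IsPGroup p (T ⊔ zpowers u : Subgroup G) :=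
    IsPGroup.to_sup_of_normal_left' hTpg (isPGroup_zpowers' hu) (hZN T hT)
  have hgood : GoodChain p (insert (T ⊔ zpowers u) s) := by
    refine ⟨Finset.insert_nonempty _ _, ?_, ?_, T ⊔ zpowers u, Finset.mem_insert_self _ _, ?_⟩
    · intro Q hQ R hR
      rcases Finset.mem_insert.mp hQ with rfl | hQ'
      · rcases Finset.mem_insert.mp hR with rfl | hR'
        · exact Or.inl le_rfl
        · exact Or.inr ((hTall R hR').1.trans hTv)
      · rcases Finset.mem_insert.mp hR with rfl | hR'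
        · exact Or.inl ((hTall Q hQ').1.trans hTv)
        · exact hc Q hQ' R hR'
    · intro Q hQ
      rcases Finset.mem_insert.mp hQ with rfl | hQ'
      · exact ⟨fun h => hZ (le_bot_iff.mp (h ▸ le_sup_right)), hvpg⟩
      · exact hpg Q hQ'
    · intro Q hQ
      rcases Finset.mem_insert.mp hQ with rfl | hQ'
      · exact ⟨le_rfl, le_normalizer⟩
      · exact ⟨(hTall Q hQ').1.trans hTv, hvN Q hQ'⟩
  have hsup : (insert (T ⊔ zpowers u) s).sup id = T ⊔ zpowers u := by
    rw [Finset.sup_insert]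
    simp only [id]
    exact sup_eq_left.mpr hTv
  rw [hv]
  refine ⟨rfl, hvs, hgood, ?_, ?_, ?_⟩
  · rw [mem_chainN]
    intro Q hQ
    rcases Finset.mem_insert.mp hQ with rfl | hQ'
    · exact le_normalizer huv
    · exact husN' Q hQ'
  · unfold vtx
    rw [hsup, if_neg (not_not.mpr huv), if_pos]
    exact ⟨T, Finset.mem_insert_of_mem hT, h1, rfl⟩
  · intro h
    have h2 : T ∈ ({zpowers u} : Finset (Subgroup G)) := by
      rw [← h]
      exact Finset.mem_insert_of_mem hT
    have h3 : T = zpowers u := Finset.mem_singleton.mp h2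
    exact h1 (by rw [h3]; exact mem_zpowers u)

open Classical in
/-- The case of removing the top. -/
theorem tau_caseB (hs : GoodChain p s) (husN : u ∈ chainN s) (h1 : u ∈ s.sup id)
    (h2 : ∃ Q ∈ s, u ∉ Q ∧ Q ⊔ zpowers u = s.sup id) : vtx u s = s.sup id ∧ vtx u s ∈ s ∧
      GoodChain p (s.erase (vtx u s)) ∧ u ∈ chainN (s.erase (vtx u s)) ∧
      vtx u (s.erase (vtx u s)) = vtx u s ∧ s.erase (vtx u s) ≠ {zpowers u} := by
  classical
  obtain ⟨hT, hTall⟩ := good_top hs
  obtain ⟨hne, hc, hpg, -⟩ := id hs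
  set T := s.sup id with hTdef
  have hv : vtx u s = T := by
    unfold vtx
    rw [if_neg (not_not.mpr h1), if_pos h2]
  rw [hv]
  obtain ⟨Q₀, hQ₀, hQ₀u, hQ₀T⟩ := h2
  have hQ₀ne : Q₀ ≠ T := by
    rintro rfl
    exact hQ₀u h1
  have hQ₀e : Q₀ ∈ s.erase T := Finset.mem_erase.mpr ⟨hQ₀ne, hQ₀⟩
  have hne' : (s.erase T).Nonempty := ⟨Q₀, hQ₀e⟩
  have hc' : ∀ Q ∈ s.erase T, ∀ R ∈ s.erase T, Q ≤ R ∨ R ≤ Q := fun Q hQ R hR =>
    hc Q (Finset.mem_of_mem_erase hQ) R (Finset.mem_of_mem_erase hR)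
  obtain ⟨hT₁, hT₁all⟩ := chain_sup_mem hne' hc'
  set T₁ := (s.erase T).sup id with hT₁def
  have hT₁s : T₁ ∈ s := Finset.mem_of_mem_erase hT₁
  have hT₁T : T₁ ≤ T := (hTall _ hT₁s).1
  have hT₁ne : T₁ ≠ T := (Finset.mem_erase.mp hT₁).1
  have hu₁ : u ∉ T₁ := by
    intro h
    have h3 : Q₀ ⊔ zpowers u ≤ T₁ := sup_le (hT₁all _ hQ₀e) ((zpowers_le).mpr h)
    rw [hQ₀T] at h3
    exact hT₁ne (le_antisymm hT₁T h3)
  have hT₁Z : T₁ ⊔ zpowers u = T := by
    refine le_antisymm (sup_le hT₁T ((zpowers_le).mpr h1)) ?_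
    rw [← hQ₀T]
    exact sup_le_sup_right (hT₁all _ hQ₀e) _
  refine ⟨rfl, hT, ⟨hne', hc', fun Q hQ => hpg Q (Finset.mem_of_mem_erase hQ), T₁, hT₁, ?_⟩, ?_, ?_, ?_⟩
  · intro Q hQ
    exact ⟨hT₁all Q hQ, hT₁T.trans (hTall Q (Finset.mem_of_mem_erase hQ)).2⟩
  · rw [mem_chainN]
    intro Q hQ
    exact mem_chainN.mp husN Q (Finset.mem_of_mem_erase hQ)
  · unfold vtx
    rw [← hT₁def, if_pos hu₁]
    exact hT₁Z
  · intro h
    have h3 : T₁ ∈ ({zpowers u} : Finset (Subgroup G)) := by
      rw [← h]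
      exact hT₁
    have h4 : T₁ = zpowers u := Finset.mem_singleton.mp h3
    exact hu₁ (by rw [h4]; exact mem_zpowers u)

open Classical in
/-- The main case. -/
theorem tau_caseC (hs : GoodChain p s) (hu1 : u ≠ 1) (h1 : u ∈ s.sup id)
    (h2 : ¬ ∃ Q ∈ s, u ∉ Q ∧ Q ⊔ zpowers u = s.sup id) (hss : s ≠ {zpowers u}) :
    let v := vtx u s
    v = (s.filter (fun Q => ¬ nclos (s.sup id) u ≤ Q)).sup id ⊔ nclos (s.sup id) u ∧
      ((v ∈ s ∧ GoodChain p (s.erase v) ∧ u ∈ chainN (s.erase v) ∧ vtx u (s.erase v) = v ∧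
          s.erase v ≠ {zpowers u}) ∨
       (v ∉ s ∧ GoodChain p (insert v s) ∧ u ∈ chainN (insert v s) ∧ vtx u (insert v s) = v ∧
          insert v s ≠ {zpowers u})) := by
  classical
  obtain ⟨hT, hTall⟩ := good_top hs
  obtain ⟨hne, hc, hpg, -⟩ := id hs
  set T := s.sup id with hTdef
  set W := nclos T u with hW
  set A := s.filter (fun Q => ¬ W ≤ Q) with hA
  set S := A.sup id with hS
  have hv : vtx u s = S ⊔ W := by
    unfold vtx
    rw [if_neg (not_not.mpr h1), if_neg h2]
  have hWT : W ≤ T := nclos_le_self h1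
  have huW : u ∈ W := mem_nclos T u
  have hWN : T ≤ Subgroup.normalizer ((W : Subgroup G) : Set G) := nclos_normalizes h1
  have hAs : ∀ Q ∈ A, Q ∈ s := fun Q hQ => (Finset.mem_filter.mp hQ).1
  have hST : S ≤ T := Finset.sup_le fun Q hQ => (hTall Q (hAs Q hQ)).1
  have hSN : T ≤ Subgroup.normalizer ((S : Subgroup G) : Set G) := fun t ht =>
    mem_normalizer_finset_sup _ fun Q hQ => (hTall Q (hAs Q hQ)).2 ht
  have hvT : S ⊔ W ≤ T := sup_le hST hWT
  have hvN : T ≤ Subgroup.normalizer ((S ⊔ W : Subgroup G) : Set G) := fun t ht =>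
    mem_normalizer_sup' (hSN ht) (hWN ht)
  have hTpg : IsPGroup p T := (hpg T hT).2
  -- `T` is not `⟨u⟩`
  have hTZ : T ≠ zpowers u := by
    intro h
    apply hss
    ext Q
    rw [Finset.mem_singleton]
    constructor
    · intro hQ
      by_contra hne2
      have hQT : Q ≠ T := fun h3 => hne2 (h3.trans h)
      have hQu : u ∉ Q := by
        intro h3
        apply hQT
        apply le_antisymm (hTall Q hQ).1
        rw [h, zpowers_le]
        exact h3
      apply h2
      refine ⟨Q, hQ, hQu, ?_⟩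
      rw [← h]
      exact sup_eq_right.mpr (hTall Q hQ).1
    · rintro rfl
      rw [← h]
      exact hT
  -- the vertex is not the top
  have hvne : S ⊔ W ≠ T := by
    intro h
    have h3 := sup_zpowers_of_sup_nclos hTpg hST hSN h1 h
    by_cases hAe : A.Nonempty
    · have hc' : ∀ Q ∈ A, ∀ R ∈ A, Q ≤ R ∨ R ≤ Q := fun Q hQ R hR => hc Q (hAs Q hQ) R (hAs R hR)
      obtain ⟨hSA, -⟩ := chain_sup_mem hAe hc'
      have hSs : S ∈ s := hAs _ hSA
      have hSW : ¬ W ≤ S := (Finset.mem_filter.mp hSA).2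
      have huS : u ∉ S := by
        intro h4
        exact hSW (nclos_le h4 hSN)
      exact h2 ⟨S, hSs, huS, h3⟩
    · have hSb : S = ⊥ := by
        rw [hS, Finset.not_nonempty_iff_eq_empty.mp hAe]
        simp
      rw [hSb, bot_sup_eq] at h3
      exact hTZ h3.symm
  have hvbot : S ⊔ W ≠ ⊥ := by
    intro h
    have : W ≤ ⊥ := h ▸ le_sup_right
    have h4 : u ∈ (⊥ : Subgroup G) := this huW
    exact hu1 (mem_bot.mp h4)
  have hvpg : IsPGroup p (S ⊔ W : Subgroup G) := hTpg.to_le hvT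
  have hcomp : ∀ Q ∈ s, Q ≤ S ⊔ W ∨ S ⊔ W ≤ Q := by
    intro Q hQ
    by_cases hWQ : W ≤ Q
    · right
      refine sup_le (Finset.sup_le fun R hR => ?_) hWQ
      rcases hc R (hAs R hR) Q hQ with h4 | h4
      · exact h4
      · exact absurd (hWQ.trans h4) (Finset.mem_filter.mp hR).2
    · left
      have : Q ∈ A := Finset.mem_filter.mpr ⟨hQ, hWQ⟩
      exact (Finset.le_sup (f := id) this).trans le_sup_left
  have husN2 : u ∈ Subgroup.normalizer ((S ⊔ W : Subgroup G) : Set G) := hvN h1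
  have husN3 : ∀ Q ∈ s, u ∈ Subgroup.normalizer ((Q : Subgroup G) : Set G) := fun Q hQ =>
    (hTall Q hQ).2 h1
  -- the vertex of the new chain
  have hvtx : ∀ s' : Finset (Subgroup G), s'.sup id = T →
      (∀ Q, Q ∈ s' → Q ∈ s ∨ Q = S ⊔ W) → s'.filter (fun Q => ¬ W ≤ Q) = A →
      vtx u s' = S ⊔ W := by
    intro s' h4 h5 h6
    unfold vtx
    rw [h4, if_neg (not_not.mpr h1), if_neg]
    · rw [← hW, h6]
    · rintro ⟨Q, hQ, hQu, hQT⟩
      rcases h5 Q hQ with h7 | h7
      · exact h2 ⟨Q, h7, hQu, hQT⟩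
      · subst h7
        exact hQu (mem_sup_right huW)
  have hWv : W ≤ S ⊔ W := le_sup_right
  intro v
  have hvv : v = S ⊔ W := hv
  refine ⟨hv, ?_⟩
  rw [hvv]
  by_cases hvs : S ⊔ W ∈ s
  · left
    have hTe : T ∈ s.erase (S ⊔ W) := Finset.mem_erase.mpr ⟨hvne.symm, hT⟩
    have hsup : (s.erase (S ⊔ W)).sup id = T :=
      le_antisymm (Finset.sup_le fun Q hQ => (hTall Q (Finset.mem_of_mem_erase hQ)).1)
        (Finset.le_sup (f := id) hTe)
    refine ⟨hvs, ⟨⟨T, hTe⟩, fun Q hQ R hR => hc Q (Finset.mem_of_mem_erase hQ) R (Finset.mem_of_mem_erase hR),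
      fun Q hQ => hpg Q (Finset.mem_of_mem_erase hQ), T, hTe, fun Q hQ => hTall Q (Finset.mem_of_mem_erase hQ)⟩,
      mem_chainN.mpr fun Q hQ => husN3 Q (Finset.mem_of_mem_erase hQ), ?_, ?_⟩
    · refine hvtx _ hsup (fun Q hQ => Or.inl (Finset.mem_of_mem_erase hQ)) ?_
      ext Q
      simp only [hA, Finset.mem_filter, Finset.mem_erase]
      constructor
      · rintro ⟨⟨-, h4⟩, h5⟩
        exact ⟨h4, h5⟩
      · rintro ⟨h4, h5⟩
        refine ⟨⟨?_, h4⟩, h5⟩
        rintro rfl
        exact h5 hWv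
    · intro h
      have h3 : T ∈ ({zpowers u} : Finset (Subgroup G)) := by
        rw [← h]
        exact hTe
      exact hTZ (Finset.mem_singleton.mp h3)
  · right
    have hTe : T ∈ insert (S ⊔ W) s := Finset.mem_insert_of_mem hT
    have hsup : (insert (S ⊔ W) s).sup id = T := by
      rw [Finset.sup_insert]
      simp only [id]
      exact sup_eq_right.mpr hvT
    refine ⟨hvs, ⟨⟨T, hTe⟩, ?_, ?_, T, hTe, ?_⟩, ?_, ?_, ?_⟩
    · intro Q hQ R hR
      rcases Finset.mem_insert.mp hQ with rfl | hQ'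
      · rcases Finset.mem_insert.mp hR with rfl | hR'
        · exact Or.inl le_rfl
        · exact (hcomp R hR').symm
      · rcases Finset.mem_insert.mp hR with rfl | hR'
        · exact hcomp Q hQ'
        · exact hc Q hQ' R hR'
    · intro Q hQ
      rcases Finset.mem_insert.mp hQ with rfl | hQ'
      · exact ⟨hvbot, hvpg⟩
      · exact hpg Q hQ'
    · intro Q hQ
      rcases Finset.mem_insert.mp hQ with rfl | hQ'
      · exact ⟨hvT, hvN⟩
      · exact hTall Q hQ'
    · rw [mem_chainN]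
      intro Q hQ
      rcases Finset.mem_insert.mp hQ with rfl | hQ'
      · exact husN2
      · exact husN3 Q hQ'
    · refine hvtx _ hsup (fun Q hQ => ?_) ?_
      · rcases Finset.mem_insert.mp hQ with h4 | h4
        · exact Or.inr h4
        · exact Or.inl h4
      · ext Q
        simp only [hA, Finset.mem_filter, Finset.mem_insert]
        constructor
        · rintro ⟨h4 | h4, h5⟩
          · subst h4
            exact absurd hWv h5
          · exact ⟨h4, h5⟩
        · rintro ⟨h4, h5⟩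
          exact ⟨Or.inr h4, h5⟩
    · intro h
      have h3 : T ∈ ({zpowers u} : Finset (Subgroup G)) := by
        rw [← h]
        exact hTe
      exact hTZ (Finset.mem_singleton.mp h3)

open Classical in
/-- All the properties of the involution. -/
theorem tau_props (hs : GoodChain p s) (hu : ∃ k : ℕ, orderOf u = p ^ k) (hu1 : u ≠ 1)
    (husN : u ∈ chainN s) (hss : s ≠ {zpowers u}) :
    GoodChain p (tauC u s) ∧ u ∈ chainN (tauC u s) ∧ vtx u (tauC u s) = vtx u s ∧
      tauC u s ≠ {zpowers u} ∧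
      ((vtx u s ∈ s ∧ tauC u s = s.erase (vtx u s)) ∨ (vtx u s ∉ s ∧ tauC u s = insert (vtx u s) s)) := by
  classical
  by_cases h1 : u ∈ s.sup id
  · by_cases h2 : ∃ Q ∈ s, u ∉ Q ∧ Q ⊔ zpowers u = s.sup id
    · obtain ⟨-, h3, h4, h5, h6, h7⟩ := tau_caseB hs husN h1 h2
      have h8 : tauC u s = s.erase (vtx u s) := by
        unfold tauC
        rw [if_pos h3]
      rw [h8]
      exact ⟨h4, h5, h6, h7, Or.inl ⟨h3, rfl⟩⟩
    · obtain ⟨-, h3⟩ := tau_caseC hs hu1 h1 h2 hss
      rcases h3 with ⟨h3, h4, h5, h6, h7⟩ | ⟨h3, h4, h5, h6, h7⟩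
      · have h8 : tauC u s = s.erase (vtx u s) := by
          unfold tauC
          rw [if_pos h3]
        rw [h8]
        exact ⟨h4, h5, h6, h7, Or.inl ⟨h3, rfl⟩⟩
      · have h8 : tauC u s = insert (vtx u s) s := by
          unfold tauC
          rw [if_neg h3]
        rw [h8]
        exact ⟨h4, h5, h6, h7, Or.inr ⟨h3, rfl⟩⟩
  · obtain ⟨-, h3, h4, h5, h6, h7⟩ := tau_caseA hs hu hu1 husN h1
    have h8 : tauC u s = insert (vtx u s) s := by
      unfold tauC
      rw [if_neg h3]
    rw [h8]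
    exact ⟨h4, h5, h6, h7, Or.inr ⟨h3, rfl⟩⟩

/-- The alternating sum collapses. -/
theorem chain_cancel (𝓢 : Finset (Finset (Subgroup G)))
    (h𝓢 : ∀ s, s ∈ 𝓢 ↔ GoodChain p s ∧ u ∈ chainN s)
    (hu : ∃ k : ℕ, orderOf u = p ^ k) (hu1 : u ≠ 1) (Λ : Subgroup G → ℤ) :
    ∑ s ∈ 𝓢,
        (-1 : ℤ) ^ (s.card - 1) * Λ (chainN s ⊓ Subgroup.centralizer ({u} : Set G)) =
      Λ (Subgroup.centralizer ({u} : Set G)) := by
  classical
  have hZne : (zpowers u : Subgroup G) ≠ ⊥ := fun h => hu1 (zpowers_eq_bot.mp h)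
  have hCZ : Subgroup.centralizer ({u} : Set G) ≤ Subgroup.normalizer ((zpowers u : Subgroup G) : Set G) := by
    intro x hx
    apply mem_normalizer_zpowers_of_comm
    have := Subgroup.mem_centralizer_singleton_iff.mp hx
    exact this
  have hs₀ : ({zpowers u} : Finset (Subgroup G)) ∈ 𝓢 := by
    rw [h𝓢]
    refine ⟨⟨Finset.singleton_nonempty _, ?_, ?_, zpowers u, Finset.mem_singleton_self _, ?_⟩, ?_⟩
    · intro Q hQ R hR
      rw [Finset.mem_singleton.mp hQ, Finset.mem_singleton.mp hR]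
      exact Or.inl le_rfl
    · intro Q hQ
      rw [Finset.mem_singleton.mp hQ]
      exact ⟨hZne, isPGroup_zpowers' hu⟩
    · intro Q hQ
      rw [Finset.mem_singleton.mp hQ]
      exact ⟨le_rfl, le_normalizer⟩
    · rw [mem_chainN]
      intro Q hQ
      rw [Finset.mem_singleton.mp hQ]
      exact le_normalizer (mem_zpowers u)
  rw [← Finset.add_sum_erase _ _ hs₀]
  have h0 : ∑ s ∈ 𝓢.erase {zpowers u}, (-1 : ℤ) ^ (s.card - 1) *
      Λ (chainN s ⊓ Subgroup.centralizer ({u} : Set G)) = 0 := by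
    have hmem : ∀ s ∈ 𝓢.erase {zpowers u}, GoodChain p s ∧ u ∈ chainN s ∧ s ≠ {zpowers u} := by
      intro s hs
      have h1 := Finset.mem_erase.mp hs
      have h2 := (h𝓢 s).mp h1.2
      exact ⟨h2.1, h2.2, h1.1⟩
    have hprops := fun s (hs : s ∈ 𝓢.erase {zpowers u}) =>
      tau_props (hmem s hs).1 hu hu1 (hmem s hs).2.1 (hmem s hs).2.2
    refine Finset.sum_involution (fun s _ => tauC u s) ?_ ?_ ?_ ?_
    · intro s hs
      obtain ⟨h1, h2, h3, h4, h5⟩ := hprops s hs
      obtain ⟨hg, hN, hne⟩ := hmem s hs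
      -- the stabilizers agree
      have hstab : chainN (tauC u s) ⊓ Subgroup.centralizer ({u} : Set G) =
          chainN s ⊓ Subgroup.centralizer ({u} : Set G) := by
        apply le_antisymm
        · intro x hx
          obtain ⟨hx1, hx2⟩ := Subgroup.mem_inf.mp hx
          refine Subgroup.mem_inf.mpr ⟨?_, hx2⟩
          have hxu : x * u = u * x := Subgroup.mem_centralizer_singleton_iff.mp hx2
          rcases h5 with ⟨h6, h7⟩ | ⟨h6, h7⟩
          · rw [mem_chainN]
            intro Q hQ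
            by_cases hQv : Q = vtx u s
            · subst hQv
              have := vtx_normal h1 hx1 hxu
              rwa [h3] at this
            · exact mem_chainN.mp hx1 Q (by rw [h7]; exact Finset.mem_erase.mpr ⟨hQv, hQ⟩)
          · rw [mem_chainN]
            intro Q hQ
            exact mem_chainN.mp hx1 Q (by rw [h7]; exact Finset.mem_insert_of_mem hQ)
        · intro x hx
          obtain ⟨hx1, hx2⟩ := Subgroup.mem_inf.mp hx
          refine Subgroup.mem_inf.mpr ⟨?_, hx2⟩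
          have hxu : x * u = u * x := Subgroup.mem_centralizer_singleton_iff.mp hx2
          rcases h5 with ⟨h6, h7⟩ | ⟨h6, h7⟩
          · rw [mem_chainN]
            intro Q hQ
            rw [h7] at hQ
            exact mem_chainN.mp hx1 Q (Finset.mem_of_mem_erase hQ)
          · rw [mem_chainN]
            intro Q hQ
            rw [h7] at hQ
            rcases Finset.mem_insert.mp hQ with rfl | hQ'
            · exact vtx_normal hg hx1 hxu
            · exact mem_chainN.mp hx1 Q hQ'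
      rw [hstab]
      have hscard : 0 < s.card := Finset.card_pos.mpr hg.1
      have hsign : (-1 : ℤ) ^ ((tauC u s).card - 1) = -(-1 : ℤ) ^ (s.card - 1) := by
        rcases h5 with ⟨h6, h7⟩ | ⟨h6, h7⟩
        · have hcard1 : 0 < (tauC u s).card := Finset.card_pos.mpr h1.1
          rw [h7] at hcard1 ⊢
          rw [Finset.card_erase_of_mem h6] at hcard1 ⊢
          have : s.card - 1 = s.card - 1 - 1 + 1 := by omega
          rw [this, pow_succ]
          simp
        · rw [h7, Finset.card_insert_of_notMem h6]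
          have : s.card + 1 - 1 = s.card - 1 + 1 := by omega
          rw [this, pow_succ]
          simp
      rw [hsign]
      ring
    · intro s hs _ h
      obtain ⟨h1, h2, h3, h4, h5⟩ := hprops s hs
      rcases h5 with ⟨h6, h7⟩ | ⟨h6, h7⟩
      · rw [h7] at h
        have : vtx u s ∉ s.erase (vtx u s) := Finset.notMem_erase _ _
        rw [h] at this
        exact this h6
      · rw [h7] at h
        have : vtx u s ∈ insert (vtx u s) s := Finset.mem_insert_self _ _
        rw [h] at this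
        exact h6 this
    · intro s hs
      obtain ⟨h1, h2, h3, h4, h5⟩ := hprops s hs
      refine Finset.mem_erase.mpr ⟨h4, ?_⟩
      rw [h𝓢]
      exact ⟨h1, h2⟩
    · intro s hs
      obtain ⟨h1, h2, h3, h4, h5⟩ := hprops s hs
      show tauC u (tauC u s) = s
      unfold tauC at h3 ⊢
      rcases h5 with ⟨h6, h7⟩ | ⟨h6, h7⟩
      · have h8 : tauC u s = s.erase (vtx u s) := h7
        unfold tauC at h8
        rw [h8] at h3 ⊢
        rw [h3, if_neg (Finset.notMem_erase _ _)]
        exact Finset.insert_erase h6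
      · have h8 : tauC u s = insert (vtx u s) s := h7
        unfold tauC at h8
        rw [h8] at h3 ⊢
        rw [h3, if_pos (Finset.mem_insert_self _ _)]
        exact Finset.erase_insert h6
  rw [h0, add_zero, Finset.card_singleton]
  have hinf : chainN ({zpowers u} : Finset (Subgroup G)) ⊓ Subgroup.centralizer ({u} : Set G) =
      Subgroup.centralizer ({u} : Set G) := by
    apply inf_eq_right.mpr
    intro x hx
    rw [mem_chainN]
    intro Q hQ
    rw [Finset.mem_singleton.mp hQ]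
    exact hCZ hx
  rw [hinf]
  simp

end Chain

end Cfsg.Agent.H22
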