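import Cfsg.Agent.Lib.H22.KlC
import Mathlib.GroupTheory.SpecificGroups.KleinFour

/-!
# Blocks with Klein four defect groups
-/

set_option autoImplicit false
set_option linter.unusedSectionVars false
set_option linter.style.haveILetI false
set_option linter.unusedSimpArgs false

namespace Cfsg.Agent.H22

open Cfsg Cfsg.Agent.H21 Module
open scoped ComplexConjugate Pointwise

universe u

section

variable {G : Type u} [Group G] [Finite G] {M : Ideal AlgInt} [hM : M.IsPrime]
variable {p : ℕ} [hp : Fact p.Prime]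

/-- The subsection `(x, b)` is conjugate to a subsection at `u` below `(P, e)`. -/
def RelS (p : ℕ) (M : Ideal AlgInt) (P : Subgroup G)
    (e : Set (IrrCharacter (Subgroup.centralizer (P : Set G)))) (x : G)
    (b : Set (IrrCharacter (Subgroup.centralizer ({x} : Set G)))) (u : G) : Prop :=
  ∃ g, g * x * g⁻¹ = u ∧
    Relation.ReflTransGen (NormalSubpairRel p M) (cp g (pairOf x b)) ⟨P, e⟩

omit hM hp in
theorem RelS.isConj {P : Subgroup G} {e : Set (IrrCharacter (Subgroup.centralizer (P : Set G)))}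
    {x u : G} {b : Set (IrrCharacter (Subgroup.centralizer ({x} : Set G)))} (h : RelS p M P e x b u) :
    IsConj x u := by
  obtain ⟨g, hg, -⟩ := h
  exact isConj_iff.mpr ⟨g, hg⟩

/-- Every subsection of `B` is conjugate into the maximal pair. -/
theorem relS_exists (hMp : IsPModular p M) {B : Set (IrrCharacter G)} {P : Subgroup G}
    {e : Set (IrrCharacter (Subgroup.centralizer (P : Set G)))}
    (hmax : IsMaximalBrauerPair p M B P e) {x : G} {k : ℕ} (hx : orderOf x = p ^ k)
    {b : Set (IrrCharacter (Subgroup.centralizer ({x} : Set G)))}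
    (hind : IsInducedBlock M (Subgroup.centralizer ({x} : Set G)) b B) :
    ∃ u ∈ P, RelS p M P e x b u := by
  obtain ⟨g, hg⟩ := exists_conj_subpairLE hMp hmax (pairOf_isPairOf hMp hx hind)
  have hg' : Relation.ReflTransGen (NormalSubpairRel p M) (cp g (pairOf x b)) ⟨P, e⟩ := hg
  refine ⟨g * x * g⁻¹, ?_, g, rfl, hg'⟩
  have h1 : cq g (Subgroup.zpowers x) ≤ P := chain_le hg'
  exact h1 (conj_mem_cq (Subgroup.mem_zpowers x))

/-- Two blocks related to the same element are equal. -/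
theorem relS_unique (hMp : IsPModular p M) {P : Subgroup G}
    {e : Set (IrrCharacter (Subgroup.centralizer (P : Set G)))} (hPe : IsBrauerPair p M P e)
    {x u : G} {b b' : Set (IrrCharacter (Subgroup.centralizer ({x} : Set G)))}
    (h : RelS p M P e x b u) (h' : RelS p M P e x b' u) : b = b' := by
  obtain ⟨g, hg, hc⟩ := h
  obtain ⟨g', hg', hc'⟩ := h'
  have h1 : cp g (pairOf x b) = cp g' (pairOf x b') := by
    apply chain_unique hMp hPe hc hc'
    rw [cp_pairOf_fst, cp_pairOf_fst, hg, hg']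
  have h2 : cp (g'⁻¹ * g) (pairOf x b) = pairOf x b' := by
    rw [← cp_cp, h1, cp_inv_cp]
  have h3 : g'⁻¹ * g ∈ Subgroup.centralizer ({x} : Set G) := by
    rw [Subgroup.mem_centralizer_singleton_iff]
    have h4 : g * x * g⁻¹ = g' * x * g'⁻¹ := hg.trans hg'.symm
    calc g'⁻¹ * g * x = g'⁻¹ * (g * x * g⁻¹) * g := by group
      _ = g'⁻¹ * (g' * x * g'⁻¹) * g := by rw [h4]
      _ = x * (g'⁻¹ * g) := by group
  rw [cp_pairOf_fixed h3] at h2
  exact pairOf_inj h2

/-- Every element of `P` is attained. -/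
theorem relS_of_conj (hMp : IsPModular p M) {B : Set (IrrCharacter G)} {P : Subgroup G}
    {e : Set (IrrCharacter (Subgroup.centralizer (P : Set G)))}
    (hmax : IsMaximalBrauerPair p M B P e) {u g x : G} (hu : u ∈ P) (hg : g * x * g⁻¹ = u) :
    ∃ b, IsInducedBlock M (Subgroup.centralizer ({x} : Set G)) b B ∧ RelS p M P e x b u := by
  have hPe := (isBrauerPairOf_iff.mp hmax.1).1
  obtain ⟨f, hf, hle⟩ := exists_subpairLE hMp hPe (Subgroup.zpowers u) (Subgroup.zpowers_le.mpr hu)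
  set a : BrauerPairIdx G := cp g⁻¹ ⟨Subgroup.zpowers u, f⟩ with ha
  have ha1 : a.1 = Subgroup.zpowers x := by
    show (Subgroup.zpowers u).map (MulAut.conj g⁻¹).toMonoidHom = _
    rw [MonoidHom.map_zpowers]
    congr 1
    show g⁻¹ * u * g⁻¹⁻¹ = x
    rw [← hg]
    group
  obtain ⟨b, hb⟩ := exists_pairOf ha1
  have h1 : IsBrauerPairOf p M B (Subgroup.zpowers u) f :=
    (isBrauerPairOf_iff_of_subpairLE hMp hf hle).mp hmax.1
  have h2 : IsBrauerPairOf p M B a.1 a.2 := isBrauerPairOf_conj g⁻¹ h1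
  refine ⟨b, ?_, g, hg, ?_⟩
  · rw [← hb] at h2
    exact induced_of_pairOf hMp h2
  · rw [hb, ha, cp_cp_inv]
    exact hle

/-- Two elements related to one subsection are conjugate under the inertial group. -/
theorem relS_T (hMp : IsPModular p M) {B : Set (IrrCharacter G)} {P : Subgroup G}
    {e : Set (IrrCharacter (Subgroup.centralizer (P : Set G)))}
    (hmax : IsMaximalBrauerPair p M B P e) (hab : ∀ x ∈ P, ∀ y ∈ P, x * y = y * x) {x u v : G}
    {b : Set (IrrCharacter (Subgroup.centralizer ({x} : Set G)))} (h : RelS p M P e x b u)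
    (h' : RelS p M P e x b v) :
    ∃ τ, (τ ∈ Subgroup.normalizer (P : Set G) ∧
      StabilizesBlock (Subgroup.centralizer (P : Set G)) e τ) ∧ τ * u * τ⁻¹ = v := by
  obtain ⟨g₁, hg₁, hc₁⟩ := h
  obtain ⟨g₂, hg₂, hc₂⟩ := h'
  set a₁ := cp g₁ (pairOf x b) with ha₁
  have h1 : cp (g₂ * g₁⁻¹) a₁ = cp g₂ (pairOf x b) := by
    rw [ha₁, cp_cp]
    congr 1
    group
  have hle : SubpairLE p M a₁.1 a₁.2 P e := hc₁
  have hle' : Relation.ReflTransGen (NormalSubpairRel p M) (cp (g₂ * g₁⁻¹) ⟨a₁.1, a₁.2⟩) ⟨P, e⟩ := by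
    have : (⟨a₁.1, a₁.2⟩ : BrauerPairIdx G) = a₁ := rfl
    rw [this, h1]
    exact hc₂
  obtain ⟨c, hc, hτ⟩ := exists_T_of_conj hMp hmax hab hle hle'
  refine ⟨c * (g₂ * g₁⁻¹), hτ, ?_⟩
  have hv : (g₂ * g₁⁻¹) * u * (g₂ * g₁⁻¹)⁻¹ = v := by
    rw [← hg₁, ← hg₂]
    group
  have hvm : v ∈ cq (g₂ * g₁⁻¹) a₁.1 := by
    rw [← hv]
    apply conj_mem_cq
    show u ∈ cq g₁ (pairOf x b).1
    rw [← hg₁]
    exact conj_mem_cq (Subgroup.mem_zpowers x)
  have hcv : c * v = v * c := ((Subgroup.mem_centralizer_iff.mp hc) v hvm).symm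
  calc c * (g₂ * g₁⁻¹) * u * (c * (g₂ * g₁⁻¹))⁻¹ =
      c * ((g₂ * g₁⁻¹) * u * (g₂ * g₁⁻¹)⁻¹) * c⁻¹ := by group
    _ = c * v * c⁻¹ := by rw [hv]
    _ = v := by rw [hcv]; group

/-- The inertial group moves the element. -/
theorem relS_conj_T {P : Subgroup G} {e : Set (IrrCharacter (Subgroup.centralizer (P : Set G)))}
    {x u τ : G} {b : Set (IrrCharacter (Subgroup.centralizer ({x} : Set G)))}
    (h : RelS p M P e x b u) (hτ : τ ∈ Subgroup.normalizer (P : Set G))
    (hτ' : StabilizesBlock (Subgroup.centralizer (P : Set G)) e τ) :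
    RelS p M P e x b (τ * u * τ⁻¹) := by
  obtain ⟨g, hg, hc⟩ := h
  refine ⟨τ * g, ?_, ?_⟩
  · rw [← hg]
    group
  · have h1 := chain_conj τ hc
    rw [cp_cp, cp_fixed hτ hτ'] at h1
    exact h1

/-- The defect of a subsection related to the maximal pair. -/
theorem relS_defect (hMp : IsPModular p M) {B : Set (IrrCharacter G)} {P : Subgroup G}
    {e : Set (IrrCharacter (Subgroup.centralizer (P : Set G)))}
    (hmax : IsMaximalBrauerPair p M B P e) (hab : ∀ x ∈ P, ∀ y ∈ P, x * y = y * x) {x u : G}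
    {b : Set (IrrCharacter (Subgroup.centralizer ({x} : Set G)))} (h : RelS p M P e x b u) :
    blockDefect p b = blockDefect p B := by
  obtain ⟨g, -, hc⟩ := h
  have hle : SubpairLE p M (cp g (pairOf x b)).1 (cp g (pairOf x b)).2 P e := hc
  have h1 := chain_defect_eq hMp hmax hab hle
  rw [← h1]
  show blockDefect p b = blockDefect p (conjBlock (pairOf x b).1 g (pairOf x b).2)
  rw [conjBlock_eq, blockDefect_image]
  show blockDefect p b = blockDefect p (trB (centralizer_zpowers x).symm b)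
  rw [trB_defect]

end

section Main

variable {G : Type u} [Group G] [Finite G] {M : Ideal AlgInt} [hMp : M.IsPrime]

theorem mem_indBlocks' {x : G} {B : Set (IrrCharacter G)}
    {b : Set (IrrCharacter (Subgroup.centralizer ({x} : Set G)))} :
    b ∈ indBlocks M x B ↔ IsInducedBlock M (Subgroup.centralizer ({x} : Set G)) b B := by
  classical
  unfold indBlocks
  simp only [Finset.mem_filter, mem_blocksF]
  exact ⟨fun h => h.2, fun h => ⟨h.1, h⟩⟩

/-- The action of the inertial group on the involutions of the four-group. -/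
noncomputable def rhoT {P T : Subgroup G} (hTN : T ≤ Subgroup.normalizer (P : Set G)) :
    T →* Equiv.Perm {u : G // u ∈ P ∧ u ≠ 1} :=
  MonoidHom.mk' (fun τ =>
    { toFun := fun u => ⟨(τ : G) * (u : G) * (τ : G)⁻¹,
        (Subgroup.mem_normalizer_iff.mp (hTN τ.2) _).mp u.2.1,
        fun h => u.2.2 (by
          have h1 : (τ : G)⁻¹ * ((τ : G) * (u : G) * (τ : G)⁻¹) * (τ : G) = 1 := by
            rw [h]
            group
          have h2 : (τ : G)⁻¹ * ((τ : G) * (u : G) * (τ : G)⁻¹) * (τ : G) = (u : G) := by group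
          exact h2.symm.trans h1)⟩
      invFun := fun u => ⟨(τ : G)⁻¹ * (u : G) * (τ : G),
        by
          have h1 := (Subgroup.mem_normalizer_iff.mp (hTN (T.inv_mem τ.2)) (u : G)).mp u.2.1
          simpa using h1,
        fun h => u.2.2 (by
          have h1 : (τ : G) * ((τ : G)⁻¹ * (u : G) * (τ : G)) * (τ : G)⁻¹ = 1 := by
            rw [h]
            group
          have h2 : (τ : G) * ((τ : G)⁻¹ * (u : G) * (τ : G)) * (τ : G)⁻¹ = (u : G) := by group
          exact h2.symm.trans h1)⟩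
      left_inv := fun u => Subtype.ext (by show _ = (u : G); group)
      right_inv := fun u => Subtype.ext (by show _ = (u : G); group) })
    (fun τ σ => by
      ext u
      show ((τ * σ : T) : G) * (u : G) * ((τ * σ : T) : G)⁻¹ = (τ : G) * ((σ : G) * (u : G) * (σ : G)⁻¹) * (τ : G)⁻¹
      push_cast
      group)

omit hMp in
theorem rhoT_apply {P T : Subgroup G} (hTN : T ≤ Subgroup.normalizer (P : Set G)) (τ : T)
    (u : {u : G // u ∈ P ∧ u ≠ 1}) : ((rhoT hTN τ u : {u : G // u ∈ P ∧ u ≠ 1}) : G) = (τ : G) * (u : G) * (τ : G)⁻¹ := rfl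

omit hMp in
/-- The kernel of the action on a group of order four. -/
theorem ker_rhoT {P T : Subgroup G} (hTN : T ≤ Subgroup.normalizer (P : Set G)) :
    (rhoT hTN).ker = (Subgroup.centralizer (P : Set G)).subgroupOf T := by
  ext τ
  rw [MonoidHom.mem_ker, Subgroup.mem_subgroupOf, Subgroup.mem_centralizer_iff]
  constructor
  · intro h u hu
    by_cases hu1 : u = 1
    · rw [hu1, one_mul, mul_one]
    · have h1 := congrArg (fun σ : Equiv.Perm {u : G // u ∈ P ∧ u ≠ 1} => ((σ ⟨u, hu, hu1⟩ : {u : G // u ∈ P ∧ u ≠ 1}) : G)) h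
      have h2 : (τ : G) * u * (τ : G)⁻¹ = u := h1
      calc u * (τ : G) = (τ : G) * u * (τ : G)⁻¹ * (τ : G) := by rw [h2]
        _ = (τ : G) * u := by group
  · intro h
    ext u
    show (τ : G) * (u : G) * (τ : G)⁻¹ = (u : G)
    rw [← h (u : G) u.2.1]
    group

omit hMp in
/-- A group of order three acting faithfully on three points acts transitively. -/
theorem transitive_of_card_three {V : Type*} [Finite V] (hV : Nat.card V = 3) (R : Subgroup (Equiv.Perm V))
    (hR : Nat.card R = 3) (u v : V) : ∃ σ ∈ R, σ u = v := by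
  classical
  obtain ⟨σ, hσ⟩ : ∃ σ : R, σ ≠ 1 := by
    by_contra hcon
    push Not at hcon
    haveI : Subsingleton R := ⟨fun a b => by rw [hcon a, hcon b]⟩
    have := Nat.card_of_subsingleton (1 : R)
    omega
  obtain ⟨u₀, hu₀⟩ : ∃ u₀, (σ : Equiv.Perm V) u₀ ≠ u₀ := by
    by_contra hcon
    push Not at hcon
    apply hσ
    apply Subtype.ext
    ext a
    exact hcon a
  have h1 : (MulAction.stabilizer R u₀).index = (MulAction.orbit R u₀).ncard :=
    MulAction.index_stabilizer R u₀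
  have h2 : (MulAction.stabilizer R u₀).index ∣ 3 := by
    rw [← hR]
    exact Subgroup.index_dvd_card _
  have h3 : 2 ≤ (MulAction.orbit R u₀).ncard := by
    have hmem1 : u₀ ∈ MulAction.orbit R u₀ := MulAction.mem_orbit_self u₀
    have hmem2 : (σ : Equiv.Perm V) u₀ ∈ MulAction.orbit R u₀ := ⟨σ, rfl⟩
    have hs : ({u₀, (σ : Equiv.Perm V) u₀} : Set V) ⊆ MulAction.orbit R u₀ := by
      rintro a (rfl | rfl)
      · exact hmem1
      · exact hmem2
    have h4 := Set.ncard_le_ncard hs (Set.toFinite _)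
    rw [Set.ncard_pair (Ne.symm hu₀)] at h4
    exact h4
  have h4 : (MulAction.orbit R u₀).ncard = 3 := by
    rw [← h1] at h3 ⊢
    have h5 := Nat.le_of_dvd (by norm_num) h2
    interval_cases hi : (MulAction.stabilizer R u₀).index
    · omega
    · omega
  have h5 : MulAction.orbit R u₀ = Set.univ := by
    apply Set.eq_of_subset_of_ncard_le (Set.subset_univ _)
    rw [Set.ncard_univ, h4, hV]
  have hu : u ∈ MulAction.orbit R u₀ := by rw [h5]; exact Set.mem_univ _
  have hv : v ∈ MulAction.orbit R u₀ := by rw [h5]; exact Set.mem_univ _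
  obtain ⟨σ₁, hσ₁⟩ := hu
  obtain ⟨σ₂, hσ₂⟩ := hv
  refine ⟨(σ₂ * σ₁⁻¹ : R), (σ₂ * σ₁⁻¹ : R).2, ?_⟩
  show ((σ₂ : Equiv.Perm V) * (σ₁ : Equiv.Perm V)⁻¹) u = v
  rw [← hσ₂, ← hσ₁]
  show (σ₂ : Equiv.Perm V) ((σ₁ : Equiv.Perm V)⁻¹ ((σ₁ : Equiv.Perm V) u₀)) = (σ₂ : Equiv.Perm V) u₀
  simp

/-- **Blocks with Klein four defect groups.** -/
theorem klein_block_main (hM : IsPModular 2 M) {B : Set (IrrCharacter G)} (hB : IsPBlock M B)
    {P : Subgroup G} (hPD : IsDefectGroup 2 M B P) (hV : IsKleinFour P)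
    {c : Set (IrrCharacter (Subgroup.centralizer (P : Set G)))}
    (hc : IsInducedBlock M (Subgroup.centralizer (P : Set G)) c B) {T : Subgroup G}
    (hT : ∀ g : G, g ∈ T ↔ (g ∈ Subgroup.normalizer (P : Set G) ∧
      StabilizesBlock (Subgroup.centralizer (P : Set G)) c g)) {e : ℕ}
    (he : (Subgroup.centralizer (P : Set G)).relIndex T = e) :
    (e = 1 ∨ e = 3) ∧ Nat.card B = 4 ∧ blockRank 2 B = e := by
  classical
  haveI : Fact (Nat.Prime 2) := ⟨Nat.prime_two⟩
  have hmax := maximal_of_induced_defect hM hPD hc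
  have hPe := (isBrauerPairOf_iff.mp hmax.1).1
  have hcardP : Nat.card P = 4 := IsKleinFour.card_four
  have hexp : ∀ u ∈ P, u * u = 1 := by
    intro u hu
    have h1 : (⟨u, hu⟩ : P) * ⟨u, hu⟩ = 1 := IsKleinFour.mul_self _
    exact congrArg Subtype.val h1
  have hab : ∀ x ∈ P, ∀ y ∈ P, x * y = y * x := by
    intro x hx y hy
    have h1 := hexp x hx
    have h2 := hexp y hy
    have h3 := hexp (x * y) (P.mul_mem hx hy)
    have hxi : x⁻¹ = x := inv_eq_of_mul_eq_one_left h1
    have hyi : y⁻¹ = y := inv_eq_of_mul_eq_one_left h2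
    have h4 : x * y = (x * y)⁻¹ := (inv_eq_of_mul_eq_one_left h3).symm
    rw [h4, mul_inv_rev, hxi, hyi]
  have hdB : blockDefect 2 B = 2 := by
    have h1 := card_defect hM hB hPD
    rw [hcardP] at h1
    have h2 : (2 : ℕ) ^ 2 = 2 ^ blockDefect 2 B := by omega
    exact (Nat.pow_right_injective (le_refl 2) h2).symm
  have hTN : T ≤ Subgroup.normalizer (P : Set G) := fun t ht => ((hT t).mp ht).1
  have hPC : P ≤ Subgroup.centralizer (P : Set G) := by
    intro a ha
    rw [Subgroup.mem_centralizer_iff]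
    intro q hq
    exact hab q hq a ha
  -- the involutions of `P`
  let V' := {u : G // u ∈ P ∧ u ≠ 1}
  have hV'card : Nat.card V' = 3 := by
    have h1 : V' ≃ {u : P // u ≠ 1} :=
      { toFun := fun u => ⟨⟨u, u.2.1⟩, fun h => u.2.2 (congrArg Subtype.val h)⟩
        invFun := fun u => ⟨u.1, u.1.2, fun h => u.2 (Subtype.ext h)⟩
        left_inv := fun u => rfl
        right_inv := fun u => rfl }
    rw [Nat.card_congr h1]
    have h2 : Nat.card {u : P // u ≠ 1} = Nat.card P - 1 := by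
      rw [Nat.card_eq_fintype_card, Nat.card_eq_fintype_card]
      have h3 := Fintype.card_subtype_compl (fun u : P => u = 1)
      rw [Fintype.card_subtype_eq] at h3
      convert h3
    rw [h2, hcardP]
  obtain ⟨u₀, hu₀P, hu₀1⟩ : ∃ u ∈ P, u ≠ 1 := by
    have h1 : 0 < Nat.card V' := by omega
    haveI := (Nat.card_pos_iff.mp h1).1
    obtain ⟨u⟩ := (inferInstance : Nonempty V')
    exact ⟨u.1, u.2.1, u.2.2⟩
  have hord : ∀ u ∈ P, u ≠ 1 → orderOf u = 2 := by
    intro u hu hu1
    apply orderOf_eq_prime _ hu1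
    rw [sq]
    exact hexp u hu
  -- the inertial index
  have hedvd : e ∣ 6 := by
    have h1 := Subgroup.index_ker (rhoT hTN)
    rw [ker_rhoT] at h1
    have h2 : (Subgroup.centralizer (P : Set G)).relIndex T = ((Subgroup.centralizer (P : Set G)).subgroupOf T).index := rfl
    rw [← he, h2, h1]
    have h3 := Subgroup.card_subgroup_dvd_card (rhoT hTN).range
    rw [Nat.card_perm, hV'card] at h3
    exact h3
  have heodd : ¬ 2 ∣ e := by
    have h1 := inertial_p_index hM hmax hT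
    have h2 : P ⊔ Subgroup.centralizer (P : Set G) = Subgroup.centralizer (P : Set G) := sup_eq_right.mpr hPC
    rw [h2] at h1
    rw [← he]
    exact h1
  have hecases : e = 1 ∨ e = 3 := by
    have h1 := Nat.le_of_dvd (by norm_num) hedvd
    interval_cases e <;> omega
  refine ⟨hecases, ?_⟩
  -- the number of characters
  have hcard : Nat.card B = 4 := by
    obtain ⟨b₀, hb₀, hR₀⟩ := relS_of_conj hM hmax (g := 1) (x := u₀) hu₀P (by simp)
    have hd₀ := relS_defect hM hmax hab hR₀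
    exact card_block_klein hM (hord u₀ hu₀P hu₀1) hb₀ (hd₀.trans hdB) hdB
  refine ⟨hcard, ?_⟩
  -- the count
  obtain ⟨X, hX, hXrep⟩ := exists_reps (G := G) 2
  have hcount := card_block_eq hM hB X hX hXrep
  have h1X : (1 : G) ∈ X := by
    obtain ⟨x, ⟨hx, hxc⟩, -⟩ := hXrep 1 ⟨0, by simp⟩
    have : x = 1 := isConj_one_right.mp hxc
    rwa [this] at hx
  rw [← Finset.add_sum_erase _ _ h1X, sum_indBlocks_one hB, hcard] at hcount
  -- the subsections
  have hsub : ∀ x ∈ X.erase 1, ∀ b ∈ indBlocks M x B, ∃ u, (u ∈ P ∧ u ≠ 1) ∧ RelS 2 M P c x b u := by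
    intro x hx b hb
    obtain ⟨hx1, hxX⟩ := Finset.mem_erase.mp hx
    obtain ⟨k, hk⟩ := hX x hxX
    obtain ⟨u, hu, hR⟩ := relS_exists hM hmax hk (mem_indBlocks'.mp hb)
    refine ⟨u, ⟨hu, ?_⟩, hR⟩
    rintro rfl
    exact hx1 (isConj_one_right.mp hR.isConj.symm)
  have hrank : ∀ x ∈ X.erase 1, ∀ b ∈ indBlocks M x B, blockRank 2 b = 1 := by
    intro x hx b hb
    obtain ⟨u, ⟨hu, hu1⟩, hR⟩ := hsub x hx b hb
    have h1 := hord u hu hu1
    have h2 : orderOf x = 2 := by
      obtain ⟨g, hg, -⟩ := hR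
      rw [← h1, ← hg]
      exact (orderOf_conj g x).symm
    have h3 := relS_defect hM hmax hab hR
    exact (klein_section hM h2 (mem_indBlocks'.mp hb).1 (h3.trans hdB)).1
  set Sg : Finset (Σ x : G, Set (IrrCharacter (Subgroup.centralizer ({x} : Set G)))) :=
    (X.erase 1).sigma (fun x => indBlocks M x B) with hSg
  have hsum : ∑ x ∈ X.erase 1, ∑ b ∈ indBlocks M x B, blockRank 2 b = Sg.card := by
    rw [hSg, Finset.card_sigma]
    refine Finset.sum_congr rfl fun x hx => ?_
    rw [Finset.sum_congr rfl (hrank x hx), Finset.sum_const, smul_eq_mul, mul_one]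
  rw [hsum] at hcount
  -- uniqueness
  have huniq : ∀ w ∈ Sg, ∀ w' ∈ Sg, ∀ u, RelS 2 M P c w.1 w.2 u → RelS 2 M P c w'.1 w'.2 u → w = w' := by
    rintro ⟨x, b⟩ hw ⟨x', b'⟩ hw' u hR hR'
    obtain ⟨hx, -⟩ := Finset.mem_sigma.mp hw
    obtain ⟨hx', -⟩ := Finset.mem_sigma.mp hw'
    have hxX := (Finset.mem_erase.mp hx).2
    have hxX' := (Finset.mem_erase.mp hx').2
    have hconj : IsConj x x' := hR.isConj.trans hR'.isConj.symm
    have hxx : x = x' := by
      obtain ⟨k, hk⟩ := hX x hxX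
      exact (hXrep x ⟨k, hk⟩).unique ⟨hxX, IsConj.refl x⟩ ⟨hxX', hconj⟩
    subst hxx
    have : b = b' := relS_unique hM hPe hR hR'
    rw [this]
  -- existence
  have hex : ∀ u, u ∈ P → u ≠ 1 → ∃ w ∈ Sg, RelS 2 M P c w.1 w.2 u := by
    intro u hu hu1
    obtain ⟨x, ⟨hxX, hxc⟩, -⟩ := hXrep u ⟨1, by rw [pow_one]; exact hord u hu hu1⟩
    obtain ⟨g, hg⟩ := isConj_iff.mp hxc.symm
    have hx1 : x ≠ 1 := by
      rintro rfl
      exact hu1 (isConj_one_right.mp hxc.symm)
    obtain ⟨b, hb, hR⟩ := relS_of_conj hM hmax hu hg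
    refine ⟨⟨x, b⟩, ?_, hR⟩
    exact Finset.mem_sigma.mpr ⟨Finset.mem_erase.mpr ⟨hx1, hxX⟩, mem_indBlocks'.mpr hb⟩
  rcases hecases with h1 | h3
  · -- `e = 1`: the three involutions give three subsections
    rw [h1]
    have hTC : T ≤ Subgroup.centralizer (P : Set G) := by
      apply Subgroup.relIndex_eq_one.mp
      rw [he, h1]
    have hSgcard : Sg.card = 3 := by
      have hex' : ∀ w ∈ Sg, ∃ u, (u ∈ P ∧ u ≠ 1) ∧ RelS 2 M P c w.1 w.2 u := by
        intro w hw
        obtain ⟨hx, hb⟩ := Finset.mem_sigma.mp hw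
        exact hsub w.1 hx w.2 hb
      choose! Ψ hΨ using hex'
      set VF : Finset G := Finset.univ.filter (fun u => u ∈ P ∧ u ≠ 1) with hVF
      have hVFcard : VF.card = 3 := by
        rw [← hV'card, Nat.card_eq_fintype_card, Fintype.card_subtype]
      rw [← hVFcard]
      refine Finset.card_bij (fun w _ => Ψ w) ?_ ?_ ?_
      · intro w hw
        exact Finset.mem_filter.mpr ⟨Finset.mem_univ _, (hΨ w hw).1⟩
      · intro w hw w' hw' h
        apply huniq w hw w' hw' (Ψ w) (hΨ w hw).2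
        rw [h]
        exact (hΨ w' hw').2
      · intro u hu
        obtain ⟨-, huP, hu1⟩ := Finset.mem_filter.mp hu
        obtain ⟨w, hw, hR⟩ := hex u huP hu1
        refine ⟨w, hw, ?_⟩
        obtain ⟨τ, hτ, hτe⟩ := relS_T hM hmax hab (hΨ w hw).2 hR
        have hτC : τ ∈ Subgroup.centralizer (P : Set G) := hTC ((hT τ).mpr hτ)
        have h2 := (Subgroup.mem_centralizer_iff.mp hτC) _ (hΨ w hw).1.1
        show Ψ w = u
        rw [← hτe, ← h2]
        group
    omega
  · -- `e = 3`: the three involutions are conjugate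
    rw [h3]
    have hRcard : Nat.card (rhoT hTN).range = 3 := by
      have h4 := Subgroup.index_ker (rhoT hTN)
      rw [ker_rhoT] at h4
      have h2 : (Subgroup.centralizer (P : Set G)).relIndex T = ((Subgroup.centralizer (P : Set G)).subgroupOf T).index := rfl
      rw [← h4, ← h2, he, h3]
    have htrans : ∀ u v : V', ∃ τ : T, rhoT hTN τ u = v := by
      intro u v
      obtain ⟨σ, ⟨τ, rfl⟩, hσ⟩ := transitive_of_card_three hV'card (rhoT hTN).range hRcard u v
      exact ⟨τ, hσ⟩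
    obtain ⟨w₀, hw₀, hR₀⟩ := hex u₀ hu₀P hu₀1
    have hSgcard : Sg.card = 1 := by
      rw [Finset.card_eq_one]
      refine ⟨w₀, ?_⟩
      ext w
      rw [Finset.mem_singleton]
      constructor
      · intro hw
        obtain ⟨hx, hb⟩ := Finset.mem_sigma.mp hw
        obtain ⟨u, ⟨hu, hu1⟩, hR⟩ := hsub w.1 hx w.2 hb
        obtain ⟨τ, hτ⟩ := htrans ⟨u, hu, hu1⟩ ⟨u₀, hu₀P, hu₀1⟩
        have h5 : (τ : G) * u * (τ : G)⁻¹ = u₀ := congrArg Subtype.val hτ
        have h6 := relS_conj_T hR ((hT τ).mp τ.2).1 ((hT τ).mp τ.2).2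
        rw [h5] at h6
        exact huniq w hw w₀ hw₀ u₀ h6 hR₀
      · rintro rfl
        exact hw₀
    omega

end Main

end Cfsg.Agent.H22
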