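import Cfsg.Agent.Lib.H22.KlE

/-!
# The columns of a block with Klein four defect groups
-/

set_option autoImplicit false
set_option linter.unusedSectionVars false
set_option linter.style.haveILetI false
set_option linter.unusedSimpArgs false

namespace Cfsg.Agent.H22

open Cfsg Cfsg.Agent.H21 Module
open scoped ComplexConjugate Pointwise

universe u

section Col

variable {G : Type u} [Group G] [Finite G] {p : ℕ} [hp : Fact p.Prime] {M : Ideal AlgInt}
  [hMp : M.IsPrime]

/-- Column orthogonality between a subsection and a section with a different `p`-element. -/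
theorem section_column_orth (hM : IsPModular p M) {g x z : G} {k : ℕ} (hk : orderOf z = p ^ k)
    (hg : IsPPart p g x) (hne : ¬ IsConj x z)
    {b : Set (IrrCharacter (Subgroup.centralizer ({z} : Set G)))} (hb' : IsPBlock M b)
    {t' : Subgroup.centralizer ({z} : Set G)} (ht' : ¬ p ∣ orderOf t') :
    ∑ χ : IrrCharacter G, blockPart b (fun c : Subgroup.centralizer ({z} : Set G) => χ.1 (z * (c : G))) t' *
      conj (χ.1 g) = 0 := by
  classical
  set Z : Subgroup.centralizer ({z} : Set G) → ℂ := fun c => ∑ ψ : IrrCharacter (Subgroup.centralizer ({z} : Set G)), eB b ψ * (ψ.1 t' * conj (ψ.1 c)) with hZ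
  have h3 : ∀ χ : IrrCharacter G,
      blockPart b (fun c : Subgroup.centralizer ({z} : Set G) => χ.1 (z * (c : G))) t' =
      (Nat.card (Subgroup.centralizer ({z} : Set G)) : ℂ)⁻¹ * ∑ c : Subgroup.centralizer ({z} : Set G), χ.1 (z * (c : G)) * Z c := by
    intro χ
    rw [blockPart_eq]
    unfold classInner
    simp only [hZ, Finset.mul_sum, Finset.sum_mul]
    rw [Finset.sum_comm]
    refine Finset.sum_congr rfl fun ψ _ => ?_
    refine Finset.sum_congr rfl fun c _ => ?_
    ring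
  have h4 : ∀ c : Subgroup.centralizer ({z} : Set G), Z c * ∑ χ : IrrCharacter G, χ.1 (z * (c : G)) * conj (χ.1 g) = 0 := by
    intro c
    by_cases hcp : p ∣ orderOf c
    · have : Z c = 0 := block_orth_regular_singular hM hb' ht' hcp
      rw [this, zero_mul]
    · have hnc : ¬ IsConj (z * (c : G)) g := by
        intro hcj
        obtain ⟨u, rfl⟩ := isConj_iff.mp hcj
        have hp1 : IsPPart p (z * (c : G)) z := by
          refine ⟨c, rfl, ?_, ⟨k, hk⟩, ?_⟩
          · exact (Subgroup.mem_centralizer_singleton_iff.mp c.2).symm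
          · rwa [Subgroup.orderOf_coe]
        have hp2 := isPPart_conj hp1 u
        have := pPart_unique hg hp2
        apply hne
        rw [this]
        exact (isConj_iff.mpr ⟨u, rfl⟩).symm
      rw [column_orthogonality_of_not_isConj hnc, mul_zero]
  refine (Finset.sum_congr rfl fun χ _ => by rw [h3 χ]).trans ?_
  have h5 : ∑ χ : IrrCharacter G, (Nat.card (Subgroup.centralizer ({z} : Set G)) : ℂ)⁻¹ * (∑ c : Subgroup.centralizer ({z} : Set G), χ.1 (z * (c : G)) * Z c) * conj (χ.1 g)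
      = (Nat.card (Subgroup.centralizer ({z} : Set G)) : ℂ)⁻¹ * ∑ c : Subgroup.centralizer ({z} : Set G), Z c * ∑ χ : IrrCharacter G, χ.1 (z * (c : G)) * conj (χ.1 g) := by
    simp only [Finset.mul_sum, Finset.sum_mul]
    rw [Finset.sum_comm]
    refine Finset.sum_congr rfl fun c _ => ?_
    refine Finset.sum_congr rfl fun χ _ => ?_
    ring
  rw [h5]
  simp only [h4, Finset.sum_const_zero, mul_zero]

theorem card_centralizer_conj (u g : G) :
    Nat.card (Subgroup.centralizer ({u * g * u⁻¹} : Set G)) = Nat.card (Subgroup.centralizer ({g} : Set G)) := by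
  have h1 := index_centralizer_map (MulAut.conj u) g
  have h2 : MulAut.conj u g = u * g * u⁻¹ := rfl
  rw [h2] at h1
  have h3 := (Subgroup.centralizer ({u * g * u⁻¹} : Set G)).card_mul_index
  have h4 := (Subgroup.centralizer ({g} : Set G)).card_mul_index
  rw [h1] at h3
  have h5 : (Subgroup.centralizer ({g} : Set G)).index ≠ 0 := Subgroup.index_ne_zero_of_finite
  exact Nat.eq_of_mul_eq_mul_right (Nat.pos_of_ne_zero h5) (h3.trans h4.symm)

variable {y : G}

/-- The integers of a section at an involution, for a block of defect two with four characters. -/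
theorem klein_section2 (hM : IsPModular 2 M) (hy : orderOf y = 2)
    {b : Set (IrrCharacter (Subgroup.centralizer ({y} : Set G)))} {B : Set (IrrCharacter G)}
    (hind : IsInducedBlock M (Subgroup.centralizer ({y} : Set G)) b B)
    (hd : blockDefect 2 b = 2) (hdB : blockDefect 2 B = 2) (hcard : Nat.card B = 4) :
    ∃ (d : IrrCharacter G → ℤ) (θ : Subgroup.centralizer ({y} : Set G) → ℂ),
      (∀ χ, secR 2 y b χ = (d χ : ℂ) • θ) ∧ (∀ χ, χ ∉ B → d χ = 0) ∧
      (∀ χ ∈ B, d χ = 1 ∨ d χ = -1) ∧ (∀ s, MemLocalRing M (θ s)) ∧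
      (∀ s, ¬ 2 ∣ orderOf s → MemLocalRing M (4 * θ s /
        (Nat.card (Subgroup.centralizer ({s} : Set (Subgroup.centralizer ({y} : Set G)))) : ℂ))) ∧
      ∀ g, ¬ 2 ∣ orderOf g → ∑ χ : IrrCharacter G, (d χ : ℂ) * conj (χ.1 g) = 0 := by
  classical
  haveI : Fact (Nat.Prime 2) := ⟨Nat.prime_two⟩
  have hb := hind.1
  have hB := hind.2.1
  obtain ⟨hr1, hc4, d, θ, hsec, hθ1, hmE, hval⟩ := klein_section_full hM hy hb hd
  have hy' : orderOf y = 2 ^ 1 := by rw [hy, pow_one]
  have hy1 : y ≠ 1 := by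
    rintro rfl
    simp at hy
  have hz0 : ∀ χ ∈ B, (charDegree χ.1).factorization 2 = minExp 2 B := by
    intro χ hχ
    by_contra hne
    have h1 := (positive_height_bounds hM hB hχ hne).2.1
    omega
  -- the sum of squares
  have h1 := sum_mE_normSq hM hy' (2 ^ blockDefect 2 b) hb
  simp only [hmE] at h1
  have h2 : ∀ χ ψ : IrrCharacter G, ((d χ * d ψ : ℤ) : ℂ) * conj ((d χ * d ψ : ℤ) : ℂ) =
      (((d χ) ^ 2 * (d ψ) ^ 2 : ℤ) : ℂ) := by
    intro χ ψ
    rw [map_intCast]
    push_cast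
    ring
  simp only [h2] at h1
  rw [hr1, hd] at h1
  have h3 : (∑ χ : IrrCharacter G, d χ ^ 2) ^ 2 = 16 := by
    have h4 : (((∑ χ : IrrCharacter G, d χ ^ 2) ^ 2 : ℤ) : ℂ) = ((16 : ℤ) : ℂ) := by
      rw [sq, Finset.sum_mul_sum]
      push_cast at h1 ⊢
      rw [h1]
    exact_mod_cast h4
  have h5 : ∑ χ : IrrCharacter G, d χ ^ 2 = 4 := by
    have h6 : 0 ≤ ∑ χ : IrrCharacter G, d χ ^ 2 := Finset.sum_nonneg fun χ _ => sq_nonneg _
    nlinarith
  -- vanishing off `B`
  have h6 : ∀ χ, χ ∉ B → d χ = 0 := by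
    intro χ hχ
    have hnot : ¬ IsInducedBlock M (Subgroup.centralizer ({y} : Set G)) b (blockOf M χ.1) := by
      intro h
      have h7 := induced_unique hind h
      apply hχ
      rw [h7]
      exact self_mem_blockOf χ
    have h8 := second_main hM hy' (isBlock_blockOf χ) (self_mem_blockOf χ) hb hnot 1 (by simp)
    have h9 := congrFun (hsec χ) 1
    rw [secR_of_reg b χ (by simp : ¬ 2 ∣ orderOf (1 : Subgroup.centralizer ({y} : Set G))),
      Pi.smul_apply, smul_eq_mul] at h9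
    have h10 : blockPart b (secF y χ) 1 = 0 := h8
    rw [h10] at h9
    have h11 : (d χ : ℂ) = 0 := by
      rcases mul_eq_zero.mp h9.symm with h | h
      · exact h
      · exact absurd h hθ1
    exact_mod_cast h11
  have hodd : ∀ χ ∈ B, Odd (d χ) := by
    intro χ hχ
    have h7 := mE_not_mli hM hy' hind (hd.trans hdB.symm) hχ hχ (hz0 χ hχ) (hz0 χ hχ)
    rw [hmE] at h7
    rw [← Int.not_even_iff_odd, even_iff_two_dvd]
    intro hdv
    apply h7
    rw [mli_intCast_iff hM]
    exact Dvd.dvd.mul_left hdv _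
  set F : Finset (IrrCharacter G) := (Set.toFinite B).toFinset with hF
  have hFm : ∀ χ, χ ∈ F ↔ χ ∈ B := fun χ => Set.Finite.mem_toFinset _
  have hFcard : F.card = 4 := by
    rw [← hcard, Nat.card_eq_card_finite_toFinset]
  have hsumF : ∑ χ ∈ F, d χ ^ 2 = 4 := by
    rw [← h5]
    refine Finset.sum_subset (Finset.subset_univ _) fun χ _ hχ => ?_
    rw [h6 χ (fun h => hχ ((hFm χ).mpr h))]
    norm_num
  have hsq : ∀ χ ∈ F, d χ ^ 2 = 1 := by
    have h7 : ∑ χ ∈ F, (d χ ^ 2 - 1) = 0 := by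
      rw [Finset.sum_sub_distrib, hsumF]
      simp [hFcard]
    have h8 := (Finset.sum_eq_zero_iff_of_nonneg (fun χ hχ => by
      obtain ⟨k, hk⟩ := hodd χ ((hFm χ).mp hχ)
      have : 1 ≤ d χ ^ 2 := by
        rw [hk]
        have h3 : 0 ≤ k * (k + 1) := by
          rcases le_or_gt 0 k with h | h
          · positivity
          · nlinarith
        nlinarith
      omega)).mp h7
    intro χ hχ
    have := h8 χ hχ
    omega
  obtain ⟨ξ₀, hξ₀⟩ := block_nonempty hb
  have hθval : θ = rp 2 ξ₀.1 := (hval ξ₀ hξ₀).symm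
  -- the sum of the block
  have hbsum : ∀ s, ¬ 2 ∣ orderOf s → ∑ ξ : IrrCharacter (Subgroup.centralizer ({y} : Set G)), eB b ξ * ξ.1 s = 4 * θ s := by
    intro s hs
    set Fb : Finset (IrrCharacter (Subgroup.centralizer ({y} : Set G))) := (Set.toFinite b).toFinset with hFb
    have hFbm : ∀ χ, χ ∈ Fb ↔ χ ∈ b := fun χ => Set.Finite.mem_toFinset _
    have hFbcard : Fb.card = 4 := by
      rw [← hc4, Nat.card_eq_card_finite_toFinset]
    have h7 : ∑ ξ : IrrCharacter (Subgroup.centralizer ({y} : Set G)), eB b ξ * ξ.1 s = ∑ ξ ∈ Fb, θ s := by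
      rw [← Finset.sum_subset (Finset.subset_univ Fb) (fun ξ _ hξ => by
        rw [eB_apply_not_mem (fun h => hξ ((hFbm ξ).mpr h)), zero_mul])]
      refine Finset.sum_congr rfl fun ξ hξ => ?_
      have h8 := (hFbm ξ).mp hξ
      rw [eB_apply_mem h8, one_mul, ← hval ξ h8, rp_of_reg _ hs]
    rw [h7, Finset.sum_const, hFbcard]
    simp
  have hvan : ∀ c, 2 ∣ orderOf c → ∑ ξ : IrrCharacter (Subgroup.centralizer ({y} : Set G)), eB b ξ * ξ.1 c = 0 := by
    intro c hc
    have hc' : 2 ∣ orderOf c⁻¹ := by rwa [orderOf_inv]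
    have h7 : ∑ ψ : IrrCharacter (Subgroup.centralizer ({y} : Set G)),
        eB b ψ * (ψ.1 1 * conj (ψ.1 c⁻¹)) = 0 :=
      block_orth_regular_singular hM hb (by simp) hc'
    have h8 : ∀ ψ : IrrCharacter (Subgroup.centralizer ({y} : Set G)),
        eB b ψ * (ψ.1 1 * conj (ψ.1 c⁻¹)) = θ 1 * (eB b ψ * ψ.1 c) := by
      intro ψ
      by_cases hψ : ψ ∈ b
      · rw [eB_apply_mem hψ, ← hval ψ hψ, rp_of_reg _ (by simp), irr_inv', Complex.conj_conj]
        ring
      · rw [eB_apply_not_mem hψ]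
        ring
    simp only [h8] at h7
    rw [← Finset.mul_sum] at h7
    rcases mul_eq_zero.mp h7 with h | h
    · exact absurd h hθ1
    · exact h
  refine ⟨d, θ, hsec, h6, ?_, ?_, ?_, ?_⟩
  · intro χ hχ
    have h7 := hsq χ ((hFm χ).mpr hχ)
    have : (d χ - 1) * (d χ + 1) = 0 := by linear_combination h7
    rcases mul_eq_zero.mp this with h | h
    · left; omega
    · right; omega
  · intro s
    rw [hθval]
    unfold rp
    split_ifs
    · exact mlr_zero
    · exact mlr_of_isIntegral (irr_isIntegral' ξ₀ s)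
  · intro s hs
    rw [← hbsum s hs]
    refine fourier_local hM (fun c => ∑ ξ : IrrCharacter (Subgroup.centralizer ({y} : Set G)), eB b ξ * ξ.1 c)
      (eB b) (fun χ => ?_) (fun _ => rfl) hvan hs
    by_cases h : χ ∈ b
    · rw [eB_apply_mem h]
      exact mlr_one
    · rw [eB_apply_not_mem h]
      exact mlr_zero
  · intro g hg
    have hpart : IsPPart 2 g 1 := ⟨g, one_mul g, Commute.one_left g, ⟨0, by simp⟩, hg⟩
    have hne : ¬ IsConj (1 : G) y := fun h => hy1 (isConj_one_right.mp h)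
    have h7 := section_column_orth hM hy' hpart hne hb
      (t' := (1 : Subgroup.centralizer ({y} : Set G))) (by simp)
    have h8 : ∀ χ : IrrCharacter G, blockPart b (fun c : Subgroup.centralizer ({y} : Set G) => χ.1 (y * (c : G))) 1 *
        conj (χ.1 g) = θ 1 * ((d χ : ℂ) * conj (χ.1 g)) := by
      intro χ
      have h9 := congrFun (hsec χ) 1
      rw [secR_of_reg b χ (by simp : ¬ 2 ∣ orderOf (1 : Subgroup.centralizer ({y} : Set G))),
        Pi.smul_apply, smul_eq_mul] at h9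
      have h10 : blockPart b (fun c : Subgroup.centralizer ({y} : Set G) => χ.1 (y * (c : G))) 1 =
          (d χ : ℂ) * θ 1 := h9
      rw [h10]
      ring
    simp only [h8] at h7
    rw [← Finset.mul_sum] at h7
    rcases mul_eq_zero.mp h7 with h | h
    · exact absurd h hθ1
    · exact h

end Col

section Rep

variable {G : Type u} [Group G] [Finite G] {M : Ideal AlgInt} [hMp : M.IsPrime]

/-- A representation of the values at a singular element in terms of columns. -/
def KRep (M : Ideal AlgInt) (B : Set (IrrCharacter G)) (D : Set (IrrCharacter G → ℤ)) (g : G) : Prop :=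
  ∃ (ι : Type u) (_ : Fintype ι) (d : ι → IrrCharacter G → ℤ) (w : ι → ℂ),
    (∀ χ ∈ B, χ.1 g = ∑ i, (d i χ : ℂ) * w i) ∧ (∀ i, d i ∈ D) ∧ (∀ i, MemLocalRing M (w i)) ∧
    ∀ i, MemLocalRing M (4 * w i / (Nat.card (Subgroup.centralizer ({g} : Set G)) : ℂ))

/-- **The columns of a block with Klein four defect groups.** -/
theorem klein_rep (hM : IsPModular 2 M) {B : Set (IrrCharacter G)} (hB : IsPBlock M B)
    {P : Subgroup G} (hPD : IsDefectGroup 2 M B P) (hV : IsKleinFour P)
    {c : Set (IrrCharacter (Subgroup.centralizer (P : Set G)))}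
    (hmax : IsMaximalBrauerPair 2 M B P c) {T : Subgroup G}
    (hT : ∀ g : G, g ∈ T ↔ (g ∈ Subgroup.normalizer (P : Set G) ∧
      StabilizesBlock (Subgroup.centralizer (P : Set G)) c g)) {e : ℕ}
    (he : (Subgroup.centralizer (P : Set G)).relIndex T = e) :
    (e = 1 ∨ e = 3) ∧ Nat.card B = 4 ∧ blockRank 2 B = e ∧ blockDefect 2 B = 2 ∧
      ∃ D : Set (IrrCharacter G → ℤ), D.Nonempty ∧ (∀ d ∈ D, ∀ χ, χ ∉ B → d χ = 0) ∧
        (∀ d ∈ D, ∀ χ ∈ B, d χ = 1 ∨ d χ = -1) ∧
        (∀ d ∈ D, ∀ g, ¬ 2 ∣ orderOf g → ∑ χ : IrrCharacter G, (d χ : ℂ) * conj (χ.1 g) = 0) ∧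
        (∀ g, 2 ∣ orderOf g → KRep M B D g) ∧ (e = 3 → ∀ d ∈ D, ∀ d' ∈ D, d = d') := by
  classical
  haveI : Fact (Nat.Prime 2) := ⟨Nat.prime_two⟩
  have hc := induced_of_brauerPairOf hM hmax.1
  obtain ⟨he13, hcard, hl⟩ := klein_block_main hM hB hPD hV hc hT he
  have hPe := (isBrauerPairOf_iff.mp hmax.1).1
  have hcardP : Nat.card P = 4 := IsKleinFour.card_four
  have hexp : ∀ u ∈ P, u * u = 1 := by
    intro u hu
    have h1 : (⟨u, hu⟩ : P) * ⟨u, hu⟩ = 1 := IsKleinFour.mul_self _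
    exact congrArg Subtype.val h1
  have hab : ∀ x ∈ P, ∀ y ∈ P, x * y = y * x := by
    intro x hx y hy
    have h1 := hexp x hx
    have h2 := hexp y hy
    have h3 := hexp (x * y) (P.mul_mem hx hy)
    have hxi : x⁻¹ = x := inv_eq_of_mul_eq_one_left h1
    have hyi : y⁻¹ = y := inv_eq_of_mul_eq_one_left h2
    have h4 : x * y = (x * y)⁻¹ := (inv_eq_of_mul_eq_one_left h3).symm
    rw [h4, mul_inv_rev, hxi, hyi]
  have hdB : blockDefect 2 B = 2 := by
    have h1 := card_defect hM hB hPD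
    rw [hcardP] at h1
    have h2 : (2 : ℕ) ^ 2 = 2 ^ blockDefect 2 B := by omega
    exact (Nat.pow_right_injective (le_refl 2) h2).symm
  have hord : ∀ u ∈ P, u ≠ 1 → orderOf u = 2 := by
    intro u hu hu1
    apply orderOf_eq_prime _ hu1
    rw [sq]
    exact hexp u hu
  obtain ⟨X, hX, hXrep⟩ := exists_reps (G := G) 2
  have hcount := card_block_eq hM hB X hX hXrep
  have h1X : (1 : G) ∈ X := by
    obtain ⟨x, ⟨hx, hxc⟩, -⟩ := hXrep 1 ⟨0, by simp⟩
    have : x = 1 := isConj_one_right.mp hxc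
    rwa [this] at hx
  rw [← Finset.add_sum_erase _ _ h1X, sum_indBlocks_one hB, hcard] at hcount
  have hsub : ∀ x ∈ X.erase 1, ∀ b ∈ indBlocks M x B,
      orderOf x = 2 ∧ blockDefect 2 b = 2 := by
    intro x hx b hb
    obtain ⟨hx1, hxX⟩ := Finset.mem_erase.mp hx
    obtain ⟨k, hk⟩ := hX x hxX
    obtain ⟨u, hu, hR⟩ := relS_exists hM hmax hk (mem_indBlocks'.mp hb)
    have hu1 : u ≠ 1 := by
      rintro rfl
      exact hx1 (isConj_one_right.mp hR.isConj.symm)
    have h1 := hord u hu hu1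
    have h2 : orderOf x = 2 := by
      obtain ⟨g, hg, -⟩ := hR
      rw [← h1, ← hg]
      exact (orderOf_conj g x).symm
    exact ⟨h2, (relS_defect hM hmax hab hR).trans hdB⟩
  have hrank : ∀ x ∈ X.erase 1, ∀ b ∈ indBlocks M x B, blockRank 2 b = 1 := by
    intro x hx b hb
    obtain ⟨h2, h3⟩ := hsub x hx b hb
    exact (klein_section hM h2 (mem_indBlocks'.mp hb).1 h3).1
  set Sg : Finset (Σ x : G, Set (IrrCharacter (Subgroup.centralizer ({x} : Set G)))) :=
    (X.erase 1).sigma (fun x => indBlocks M x B) with hSg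
  have hsum : ∑ x ∈ X.erase 1, ∑ b ∈ indBlocks M x B, blockRank 2 b = Sg.card := by
    rw [hSg, Finset.card_sigma]
    refine Finset.sum_congr rfl fun x hx => ?_
    rw [Finset.sum_congr rfl (hrank x hx), Finset.sum_const, smul_eq_mul, mul_one]
  rw [hsum] at hcount
  have hdata : ∀ x ∈ X.erase 1, ∀ b ∈ indBlocks M x B,
      ∃ (d : IrrCharacter G → ℤ) (θ : Subgroup.centralizer ({x} : Set G) → ℂ),
      (∀ χ, secR 2 x b χ = (d χ : ℂ) • θ) ∧ (∀ χ, χ ∉ B → d χ = 0) ∧
      (∀ χ ∈ B, d χ = 1 ∨ d χ = -1) ∧ (∀ s, MemLocalRing M (θ s)) ∧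
      (∀ s, ¬ 2 ∣ orderOf s → MemLocalRing M (4 * θ s /
        (Nat.card (Subgroup.centralizer ({s} : Set (Subgroup.centralizer ({x} : Set G)))) : ℂ))) ∧
      ∀ g, ¬ 2 ∣ orderOf g → ∑ χ : IrrCharacter G, (d χ : ℂ) * conj (χ.1 g) = 0 := by
    intro x hx b hb
    obtain ⟨h2, h3⟩ := hsub x hx b hb
    exact klein_section2 hM h2 (mem_indBlocks'.mp hb) h3 hdB hcard
  choose! dF θF hF1 hF2 hF3 hF4 hF5 hF6 using hdata
  refine ⟨he13, hcard, hl, hdB, {d | ∃ x ∈ X.erase 1, ∃ b ∈ indBlocks M x B, d = dF x b}, ?_, ?_, ?_, ?_, ?_, ?_⟩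
  · -- nonempty
    obtain ⟨u₀, hu₀P, hu₀1⟩ : ∃ u ∈ P, u ≠ 1 := by
      by_contra hcon
      push Not at hcon
      have h1 : P = ⊥ := by
        rw [eq_bot_iff]
        intro u hu
        exact hcon u hu
      rw [h1] at hcardP
      simp at hcardP
    obtain ⟨x, ⟨hxX, hxc⟩, -⟩ := hXrep u₀ ⟨1, by rw [pow_one]; exact hord u₀ hu₀P hu₀1⟩
    obtain ⟨g, hg⟩ := isConj_iff.mp hxc.symm
    have hx1 : x ≠ 1 := by
      rintro rfl
      exact hu₀1 (isConj_one_right.mp hxc.symm)
    obtain ⟨b, hb, -⟩ := relS_of_conj hM hmax hu₀P hg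
    exact ⟨_, x, Finset.mem_erase.mpr ⟨hx1, hxX⟩, b, mem_indBlocks'.mpr hb, rfl⟩
  · rintro _ ⟨x, hx, b, hb, rfl⟩ χ hχ
    exact hF2 x hx b hb χ hχ
  · rintro _ ⟨x, hx, b, hb, rfl⟩ χ hχ
    exact hF3 x hx b hb χ hχ
  · rintro _ ⟨x, hx, b, hb, rfl⟩ g hg
    exact hF6 x hx b hb g hg
  · -- the representation
    intro g hg
    obtain ⟨z, s, hzs, hcomm, ⟨k, hk⟩, hs⟩ := exists_pPart (p := 2) g
    have hz1 : z ≠ 1 := by
      rintro rfl
      rw [one_mul] at hzs
      rw [← hzs] at hg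
      exact hs hg
    obtain ⟨x, ⟨hxX, hxc⟩, -⟩ := hXrep z ⟨k, hk⟩
    obtain ⟨u, hu⟩ := isConj_iff.mp hxc
    have hx1 : x ≠ 1 := by
      rintro rfl
      exact hz1 (isConj_one_right.mp hxc.symm)
    have hxE : x ∈ X.erase 1 := Finset.mem_erase.mpr ⟨hx1, hxX⟩
    obtain ⟨k', hk'⟩ := hX x hxX
    have hs'C : u * s * u⁻¹ ∈ Subgroup.centralizer ({x} : Set G) := by
      rw [Subgroup.mem_centralizer_singleton_iff, ← hu]
      have h1 : z * s = s * z := hcomm.eq
      calc u * s * u⁻¹ * (u * z * u⁻¹) = u * (s * z) * u⁻¹ := by group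
        _ = u * (z * s) * u⁻¹ := by rw [h1]
        _ = u * z * u⁻¹ * (u * s * u⁻¹) := by group
    set t : Subgroup.centralizer ({x} : Set G) := ⟨u * s * u⁻¹, hs'C⟩ with ht
    have htreg : ¬ 2 ∣ orderOf t := by
      rw [ht, Subgroup.orderOf_mk, orderOf_conj]
      exact hs
    have hgt : u * g * u⁻¹ = x * (t : G) := by
      show u * g * u⁻¹ = x * (u * s * u⁻¹)
      calc u * g * u⁻¹ = (u * z * u⁻¹) * (u * s * u⁻¹) := by
            rw [← hzs]
            group
        _ = x * (u * s * u⁻¹) := by rw [hu]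
    refine ⟨↥(indBlocks M x B), inferInstance, fun b => dF x b.1, fun b => θF x b.1 t, ?_, ?_, ?_, ?_⟩
    · intro χ hχ
      have h1 : χ.1 g = χ.1 (x * (t : G)) := by
        rw [← hgt]
        exact (irr_conj' χ g u).symm
      have h2 := sum_induced_blockPart hM hk' hB χ t htreg
      rw [eB_apply_mem hχ, one_mul] at h2
      rw [h1, ← h2]
      have h3 : (blocksF M (Subgroup.centralizer ({x} : Set G))).filter
          (fun b => IsInducedBlock M (Subgroup.centralizer ({x} : Set G)) b B) = indBlocks M x B := rfl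
      rw [h3, ← Finset.sum_coe_sort]
      refine Finset.sum_congr (by ext; simp) fun b _ => ?_
      have h4 := congrFun (hF1 x hxE b.1 b.2 χ) t
      rw [secR_of_reg b.1 χ htreg, Pi.smul_apply, smul_eq_mul] at h4
      exact h4
    · intro b
      exact ⟨x, hxE, b.1, b.2, rfl⟩
    · intro b
      exact hF4 x hxE b.1 b.2 t
    · intro b
      have h1 := hF5 x hxE b.1 b.2 t htreg
      have h2 : Nat.card (Subgroup.centralizer ({g} : Set G)) =
          Nat.card (Subgroup.centralizer ({t} : Set (Subgroup.centralizer ({x} : Set G)))) := by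
        rw [← card_centralizer_conj u g, hgt]
        exact card_centralizer_mul hk' htreg
      rw [h2]
      exact h1
  · -- uniqueness for `e = 3`
    rintro h3 _ ⟨x, hx, b, hb, rfl⟩ _ ⟨x', hx', b', hb', rfl⟩
    have hSgcard : Sg.card = 1 := by omega
    rw [Finset.card_eq_one] at hSgcard
    obtain ⟨w, hw⟩ := hSgcard
    have h1 : (⟨x, b⟩ : Σ x : G, Set (IrrCharacter (Subgroup.centralizer ({x} : Set G)))) ∈ Sg :=
      Finset.mem_sigma.mpr ⟨hx, hb⟩
    have h2 : (⟨x', b'⟩ : Σ x : G, Set (IrrCharacter (Subgroup.centralizer ({x} : Set G)))) ∈ Sg :=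
      Finset.mem_sigma.mpr ⟨hx', hb'⟩
    rw [hw, Finset.mem_singleton] at h1 h2
    have h4 := h1.trans h2.symm
    cases h4
    rfl

end Rep

end Cfsg.Agent.H22
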