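import Cfsg.Agent.Lib.H22.ChainA
import Cfsg.Agent.Lib.H22.KlD
import Cfsg.Agent.Lib.H22.KlF
import Cfsg.Agent.Lib.H21.PairDefect
import Cfsg.Agent.Lib.H21.Subsec

/-!
# Counting the characters of unions of blocks by subsections, and the chain formula
-/

set_option autoImplicit false
set_option linter.unusedSectionVars false
set_option linter.style.haveILetI false
set_option linter.unusedSimpArgs false

namespace Cfsg.Agent.H22

open Cfsg Cfsg.Agent.H21 Module
open scoped ComplexConjugate ComplexOrder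

universe u

section Union

variable {G : Type u} [Group G] [Finite G] {p : ℕ} [hp : Fact p.Prime] {M : Ideal AlgInt} [hMp : M.IsPrime]

/-- The rank formula, for any set of characters orthogonal to the singular classes. -/
theorem card_mul_rank_of {S : Set (IrrCharacter G)}
    (hS : ∀ x y : G, ¬ p ∣ orderOf x → p ∣ orderOf y → blockKernel S x y = 0) :
    (Nat.card G : ℂ) * (blockRank p S : ℂ)
      = ∑ x : G, ∑ χ : IrrCharacter G, eB S χ *
          (pRegularPart p χ.1 x * conj (pRegularPart p χ.1 x)) := by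
  classical
  haveI : Fintype S := Fintype.ofFinite _
  let W : Matrix G S ℂ := Matrix.of fun x χ => pRegularPart p χ.1.1 x
  let A : Matrix G G ℂ := W * W.conjTranspose
  have hAapply : ∀ x y, A x y = ∑ χ : IrrCharacter G, eB S χ *
      (pRegularPart p χ.1 x * conj (pRegularPart p χ.1 y)) := by
    intro x y
    simp only [A, W, Matrix.mul_apply, Matrix.conjTranspose_apply, Matrix.of_apply]
    exact sum_coe_block S (fun χ => pRegularPart p χ.1 x * conj (pRegularPart p χ.1 y))
  have hAK : ∀ x y, A x y = (if p ∣ orderOf x then 0 else if p ∣ orderOf y then 0 else blockKernel S x y) := by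
    intro x y
    rw [hAapply]
    split_ifs with h1 h2
    · simp [pRegularPart_of_singular p _ h1]
    · simp [pRegularPart_of_singular p _ h2]
    · simp only [pRegularPart_of_regular p _ h1, pRegularPart_of_regular p _ h2, blockKernel]
  have hrk : A.rank = blockRank p S := by
    simp only [A]
    rw [Matrix.rank_self_mul_conjTranspose, Matrix.rank_eq_finrank_span_cols]
    unfold blockRank
    have hset : Set.range W.col = (fun χ : IrrCharacter G => pRegularPart p χ.1) '' S := by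
      ext f
      constructor
      · rintro ⟨χ, rfl⟩
        exact ⟨χ.1, χ.2, rfl⟩
      · rintro ⟨χ, hχ, rfl⟩
        exact ⟨⟨χ, hχ⟩, rfl⟩
    rw [hset]
  have hAA : A * A = (Nat.card G : ℂ) • A := by
    ext x z
    rw [Matrix.mul_apply, Matrix.smul_apply, smul_eq_mul]
    by_cases hx : p ∣ orderOf x
    · rw [hAK x z, if_pos hx, mul_zero]
      refine Finset.sum_eq_zero fun y _ => ?_
      rw [hAK x y, if_pos hx, zero_mul]
    · by_cases hz : p ∣ orderOf z
      · rw [hAK x z, if_neg hx, if_pos hz, mul_zero]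
        refine Finset.sum_eq_zero fun y _ => ?_
        rw [hAK y z]
        simp [hz]
      · rw [hAK x z, if_neg hx, if_neg hz, ← sum_blockKernel_mul]
        refine Finset.sum_congr rfl fun y _ => ?_
        rw [hAK x y, hAK y z, if_neg hx]
        by_cases hy : p ∣ orderOf y
        · rw [if_pos hy, if_pos hy, zero_mul]
          have : blockKernel S x y = 0 := hS x y hx hy
          rw [this, zero_mul]
        · rw [if_neg hy, if_neg hy, if_neg hz]
  have h1 := rank_mul_eq_trace A (Nat.card G : ℂ) card_ne_zero_C hAA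
  rw [hrk] at h1
  rw [mul_comm, h1]
  unfold Matrix.trace
  refine Finset.sum_congr rfl fun x _ => ?_
  rw [Matrix.diag_apply, hAapply]

theorem eB_union {𝓑 : Finset (Set (IrrCharacter G))} (h𝓑 : ∀ β ∈ 𝓑, IsPBlock M β)
    {S : Set (IrrCharacter G)} (hS : ∀ ψ, ψ ∈ S ↔ ∃ β ∈ 𝓑, ψ ∈ β) (χ : IrrCharacter G) :
    eB S χ = ∑ β ∈ 𝓑, eB β χ := by
  classical
  by_cases hχ : χ ∈ S
  · obtain ⟨β₀, hβ₀, hχβ₀⟩ := (hS χ).mp hχ
    rw [eB_apply_mem hχ, Finset.sum_eq_single β₀]
    · rw [eB_apply_mem hχβ₀]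
    · intro β hβ hne
      apply eB_apply_not_mem
      intro hχβ
      apply hne
      rw [block_eq_of_mem (h𝓑 β hβ) hχβ, ← block_eq_of_mem (h𝓑 β₀ hβ₀) hχβ₀]
    · intro h
      exact absurd hβ₀ h
  · rw [eB_apply_not_mem hχ]
    symm
    refine Finset.sum_eq_zero fun β hβ => ?_
    apply eB_apply_not_mem
    intro hχβ
    exact hχ ((hS χ).mpr ⟨β, hβ, hχβ⟩)

theorem card_eq_sum_eB (B' : Set (IrrCharacter G)) :
    (Nat.card B' : ℂ) = ∑ χ : IrrCharacter G, eB B' χ := by
  have h2 := sum_coe_block B' (fun _ => (1 : ℂ))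
  simp only [Finset.sum_const, mul_one, Finset.card_univ, nsmul_eq_mul] at h2
  rw [Nat.card_eq_fintype_card]
  exact h2

theorem card_union {𝓑 : Finset (Set (IrrCharacter G))} (h𝓑 : ∀ β ∈ 𝓑, IsPBlock M β)
    {S : Set (IrrCharacter G)} (hS : ∀ ψ, ψ ∈ S ↔ ∃ β ∈ 𝓑, ψ ∈ β) :
    Nat.card S = ∑ β ∈ 𝓑, Nat.card β := by
  have h : ((Nat.card S : ℕ) : ℂ) = ((∑ β ∈ 𝓑, Nat.card β : ℕ) : ℂ) := by
    push_cast
    simp only [card_eq_sum_eB, eB_union h𝓑 hS]
    rw [Finset.sum_comm]
  exact_mod_cast h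

theorem rank_union (hM : IsPModular p M) {𝓑 : Finset (Set (IrrCharacter G))} (h𝓑 : ∀ β ∈ 𝓑, IsPBlock M β)
    {S : Set (IrrCharacter G)} (hS : ∀ ψ, ψ ∈ S ↔ ∃ β ∈ 𝓑, ψ ∈ β) :
    blockRank p S = ∑ β ∈ 𝓑, blockRank p β := by
  have hker : ∀ x y : G, blockKernel S x y = ∑ β ∈ 𝓑, blockKernel β x y := by
    intro x y
    unfold blockKernel
    simp only [eB_union h𝓑 hS, Finset.sum_mul]
    rw [Finset.sum_comm]
  have h1 := card_mul_rank_of (p := p) (S := S) (fun x y hx hy => by
    rw [hker]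
    exact Finset.sum_eq_zero fun β hβ => block_orth_regular_singular hM (h𝓑 β hβ) hx hy)
  have h2 : (Nat.card G : ℂ) * ((∑ β ∈ 𝓑, blockRank p β : ℕ) : ℂ) =
      (Nat.card G : ℂ) * (blockRank p S : ℂ) := by
    rw [h1]
    push_cast
    rw [Finset.mul_sum]
    rw [Finset.sum_congr rfl fun β hβ => card_mul_blockRank hM (h𝓑 β hβ)]
    rw [Finset.sum_comm]
    refine Finset.sum_congr rfl fun x _ => ?_
    rw [Finset.sum_comm]
    refine Finset.sum_congr rfl fun χ _ => ?_
    rw [← Finset.sum_mul, eB_union h𝓑 hS]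
  have h3 := mul_left_cancel₀ card_ne_zero_C h2
  exact_mod_cast h3.symm

/-- Conjugation of centralizers. -/
def cIso (g x : G) : Subgroup.centralizer ({x} : Set G) ≃* Subgroup.centralizer ({g * x * g⁻¹} : Set G) where
  toFun h := ⟨g * h * g⁻¹, by
    have hh := Subgroup.mem_centralizer_singleton_iff.mp h.2
    rw [Subgroup.mem_centralizer_singleton_iff]
    calc g * h.1 * g⁻¹ * (g * x * g⁻¹) = g * (h.1 * x) * g⁻¹ := by group
      _ = g * (x * h.1) * g⁻¹ := by rw [hh]
      _ = _ := by group⟩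
  invFun h := ⟨g⁻¹ * h * g, by
    have hh := Subgroup.mem_centralizer_singleton_iff.mp h.2
    rw [Subgroup.mem_centralizer_singleton_iff]
    have h2 : h.1 * (g * x * g⁻¹) = g * x * g⁻¹ * h.1 := hh
    calc g⁻¹ * h.1 * g * x = g⁻¹ * (h.1 * (g * x * g⁻¹)) * g := by group
      _ = g⁻¹ * (g * x * g⁻¹ * h.1) * g := by rw [h2]
      _ = _ := by group⟩
  left_inv h := Subtype.ext (by
    show g⁻¹ * (g * h.1 * g⁻¹) * g = h.1
    group)
  right_inv h := Subtype.ext (by
    show g * (g⁻¹ * h.1 * g) * g⁻¹ = h.1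
    group)
  map_mul' h k := Subtype.ext (by
    show g * (h.1 * k.1) * g⁻¹ = g * h.1 * g⁻¹ * (g * k.1 * g⁻¹)
    group)

theorem cIso_coe (g x : G) (h : Subgroup.centralizer ({x} : Set G)) :
    ((cIso g x h : Subgroup.centralizer ({g * x * g⁻¹} : Set G)) : G) = g * h * g⁻¹ := rfl

theorem cIso_symm_coe (g x : G) (h : Subgroup.centralizer ({g * x * g⁻¹} : Set G)) :
    (((cIso g x).symm h : Subgroup.centralizer ({x} : Set G)) : G) = g⁻¹ * h * g := rfl

omit hp hMp in
/-- Transport of induction of blocks along conjugation. -/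
theorem induced_of_conj_iso {H K : Subgroup G} (g : G) (φ : H ≃* K)
    (hφ : ∀ h : H, ((φ h : K) : G) = g * h * g⁻¹) {b : Set (IrrCharacter H)} {B : Set (IrrCharacter G)}
    (hi : IsInducedBlock M H b B) : IsInducedBlock M K (irrMap φ '' b) B := by
  refine ⟨isPBlock_image φ hi.1, hi.2.1, ?_⟩
  rintro _ ⟨ξ, hξ, rfl⟩ χ hχ y
  have h1 : inducedCentralChar K (irrMap φ ξ).1 y = inducedCentralChar H ξ.1 y := by
    unfold inducedCentralChar
    symm
    refine finsum_mem_eq_of_bijOn φ ?_ ?_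
    · refine ⟨?_, φ.injective.injOn, ?_⟩
      · intro h hh
        have hh' : IsConj y (h : G) := hh
        show IsConj y ((φ h : K) : G)
        rw [hφ]
        exact hh'.trans (isConj_iff.mpr ⟨g, rfl⟩)
      · intro k hk
        have hk' : IsConj y (k : G) := hk
        refine ⟨φ.symm k, ?_, φ.apply_symm_apply k⟩
        show IsConj y ((φ.symm k : H) : G)
        have h2 := hφ (φ.symm k)
        rw [φ.apply_symm_apply] at h2
        refine hk'.trans ?_
        rw [h2]
        exact (isConj_iff.mpr ⟨g, rfl⟩ : IsConj ((φ.symm k : H) : G) _).symm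
    · intro h _
      rw [irrMap_apply', ← map_one φ, irrMap_apply']
  rw [h1]
  exact hi.2.2 ξ hξ χ hχ y

theorem sum_indBlocks_conj (g x : G) (β : Set (IrrCharacter G)) :
    ∑ b ∈ indBlocks M (g * x * g⁻¹) β, (blockRank p b : ℤ) =
      ∑ b ∈ indBlocks M x β, (blockRank p b : ℤ) := by
  classical
  symm
  refine Finset.sum_nbij' (fun b => irrMap (cIso g x) '' b) (fun b => irrMap (cIso g x).symm '' b)
    ?_ ?_ ?_ ?_ ?_
  · intro b hb
    rw [mem_indBlocks'] at hb ⊢
    exact induced_of_conj_iso g _ (cIso_coe g x) hb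
  · intro b hb
    rw [mem_indBlocks'] at hb ⊢
    refine induced_of_conj_iso g⁻¹ _ ?_ hb
    intro h
    rw [cIso_symm_coe, inv_inv]
  · intro b _
    rw [Set.image_image]
    simp only [irrMap_symm_irrMap, Set.image_id']
  · intro b _
    rw [Set.image_image]
    simp only [irrMap_irrMap_symm, Set.image_id']
  · intro b _
    rw [blockRank_image]

/-- **The count of characters minus rank for a union of blocks.** -/
theorem core_count (hM : IsPModular p M) {𝓑 : Finset (Set (IrrCharacter G))}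
    (h𝓑 : ∀ β ∈ 𝓑, IsPBlock M β) {S : Set (IrrCharacter G)} (hS : ∀ ψ, ψ ∈ S ↔ ∃ β ∈ 𝓑, ψ ∈ β)
    (𝓟 : Finset G) (h𝓟 : ∀ u, u ∈ 𝓟 ↔ (∃ k : ℕ, orderOf u = p ^ k) ∧ u ≠ 1) :
    (Nat.card G : ℤ) * ((Nat.card S : ℤ) - (blockRank p S : ℤ)) =
      ∑ u ∈ 𝓟, (Nat.card (Subgroup.centralizer ({u} : Set G)) : ℤ) *
        ∑ β ∈ 𝓑, ∑ b ∈ indBlocks M u β, (blockRank p b : ℤ) := by
  classical
  obtain ⟨X, hX, hXrep⟩ := exists_reps (G := G) p
  have h1X : (1 : G) ∈ X := by
    obtain ⟨x, ⟨hxX, h1x⟩, -⟩ := hXrep 1 ⟨0, by simp⟩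
    have : x = 1 := (isConj_one_right.mp h1x)
    rwa [this] at hxX
  set F : G → ℤ := fun u => ∑ β ∈ 𝓑, ∑ b ∈ indBlocks M u β, (blockRank p b : ℤ) with hF
  have hcard : (Nat.card S : ℤ) = ∑ x ∈ X, F x := by
    rw [card_union h𝓑 hS]
    push_cast
    have h0 : ∀ β ∈ 𝓑, (Nat.card β : ℤ) = ∑ x ∈ X, ∑ b ∈ indBlocks M x β, (blockRank p b : ℤ) := by
      intro β hβ
      rw [card_block_eq hM (h𝓑 β hβ) X hX hXrep]
      push_cast
      rfl
    rw [Finset.sum_congr rfl h0, Finset.sum_comm]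
  have hrank : (blockRank p S : ℤ) = F 1 := by
    rw [rank_union hM h𝓑 hS]
    push_cast
    refine Finset.sum_congr rfl fun β hβ => ?_
    rw [← sum_indBlocks_one (h𝓑 β hβ)]
    push_cast
    rfl
  have hdiff : (Nat.card S : ℤ) - (blockRank p S : ℤ) = ∑ x ∈ X.erase 1, F x := by
    rw [hcard, hrank, ← Finset.add_sum_erase X F h1X]
    ring
  have hFconj : ∀ g x : G, F (g * x * g⁻¹) = F x := by
    intro g x
    exact Finset.sum_congr rfl fun β _ => sum_indBlocks_conj g x β
  have horb : ∀ x : G, (Nat.card G : ℤ) * F x =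
      ∑ u ∈ Finset.univ.filter (fun u : G => IsConj u x),
        (Nat.card (Subgroup.centralizer ({u} : Set G)) : ℤ) * F u := by
    intro x
    have h1 : ∀ u ∈ Finset.univ.filter (fun u : G => IsConj u x),
        (Nat.card (Subgroup.centralizer ({u} : Set G)) : ℤ) * F u =
          (Nat.card (Subgroup.centralizer ({x} : Set G)) : ℤ) * F x := by
      intro u hu
      obtain ⟨c, hc⟩ := isConj_iff.mp (Finset.mem_filter.mp hu).2.symm
      rw [← hc, card_centralizer_conj, hFconj]
    rw [Finset.sum_congr rfl h1, Finset.sum_const, nsmul_eq_mul]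
    have h2 : (Finset.univ.filter (fun u : G => IsConj u x)).card =
        (Subgroup.centralizer ({x} : Set G)).index := by
      rw [← card_isConj_eq_index x, Nat.card_eq_fintype_card, Fintype.card_subtype]
    rw [h2, ← mul_assoc]
    have h3 := (Subgroup.centralizer ({x} : Set G)).card_mul_index
    have h4 : ((Subgroup.centralizer ({x} : Set G)).index : ℤ) *
        (Nat.card (Subgroup.centralizer ({x} : Set G)) : ℤ) = (Nat.card G : ℤ) := by
      rw [mul_comm]
      exact_mod_cast h3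
    rw [h4]
  rw [hdiff, Finset.mul_sum, Finset.sum_congr rfl fun x _ => horb x]
  have hpart : 𝓟 = (X.erase 1).biUnion (fun x => Finset.univ.filter (fun u : G => IsConj u x)) := by
    ext u
    simp only [h𝓟, Finset.mem_biUnion, Finset.mem_erase, Finset.mem_filter, Finset.mem_univ, true_and]
    constructor
    · rintro ⟨hu, hu1⟩
      obtain ⟨x, ⟨hxX, hux⟩, -⟩ := hXrep u hu
      refine ⟨x, ⟨?_, hxX⟩, hux⟩
      rintro rfl
      exact hu1 (isConj_one_left.mp hux)
    · rintro ⟨x, ⟨hx1, hxX⟩, hux⟩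
      obtain ⟨k, hk⟩ := hX x hxX
      refine ⟨⟨k, ?_⟩, ?_⟩
      · obtain ⟨c, hc⟩ := isConj_iff.mp hux
        rw [← hk, ← hc]
        exact (orderOf_conj c u).symm
      · rintro rfl
        exact hx1 (isConj_one_right.mp hux)
  rw [hpart, Finset.sum_biUnion]
  intro x hx y hy hne
  simp only [Function.onFun, Finset.disjoint_left]
  intro u hu hu'
  apply hne
  have hxX := Finset.mem_of_mem_erase hx
  have hyX := Finset.mem_of_mem_erase hy
  obtain ⟨k, hk⟩ := hX x hxX
  have hux := (Finset.mem_filter.mp hu).2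
  have huy := (Finset.mem_filter.mp hu').2
  have hord : ∃ k : ℕ, orderOf u = p ^ k := by
    refine ⟨k, ?_⟩
    obtain ⟨c, hc⟩ := isConj_iff.mp hux
    rw [← hk, ← hc]
    exact (orderOf_conj c u).symm
  exact (hXrep u hord).unique ⟨hxX, hux⟩ ⟨hyX, huy⟩

end Union

end Cfsg.Agent.H22
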