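import Cfsg.Agent.Lib.H22.ChainB

/-!
# The alternating chain sum for `k(b) - l(b)`
-/

set_option autoImplicit false
set_option linter.unusedSectionVars false
set_option linter.style.haveILetI false
set_option linter.unusedSimpArgs false

namespace Cfsg.Agent.H22

open Cfsg Cfsg.Agent.H21 Module
open scoped ComplexConjugate ComplexOrder

universe u

section

variable {G : Type u} [Group G] [Finite G] {p : ℕ} [hp : Fact p.Prime] {M : Ideal AlgInt} [hMp : M.IsPrime]

open Classical in
/-- The sum of the ranks of the blocks of `K` inducing `b`. -/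
noncomputable def lK (M : Ideal AlgInt) [M.IsPrime] (p : ℕ) (b : Set (IrrCharacter G)) (K : Subgroup G) : ℤ :=
  ∑ β ∈ blocksF M K, if IsInducedBlock M K β b then (blockRank p β : ℤ) else 0

theorem lK_centralizer (b : Set (IrrCharacter G)) (u : G) :
    lK M p b (Subgroup.centralizer ({u} : Set G)) = ∑ b' ∈ indBlocks M u b, (blockRank p b' : ℤ) := by
  classical
  unfold lK indBlocks
  rw [Finset.sum_filter]

theorem centralizer_eq_subgroupOf (H : Subgroup G) (x : H) :
    Subgroup.centralizer ({x} : Set H) =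
      (H ⊓ Subgroup.centralizer ({(x : G)} : Set G)).subgroupOf H := by
  ext y
  simp only [Subgroup.mem_subgroupOf, Subgroup.mem_inf, Subgroup.mem_centralizer_singleton_iff,
    y.2, true_and]
  constructor
  · intro h
    have := congrArg Subtype.val h
    simpa using this
  · intro h
    exact Subtype.ext (by simpa using h)

theorem induced_transport_centr (hM : IsPModular p M) {H : Subgroup G} {b : Set (IrrCharacter G)}
    (x : H) (hKH : H ⊓ Subgroup.centralizer ({(x : G)} : Set G) ≤ H)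
    {b' : Set (IrrCharacter (Subgroup.centralizer ({x} : Set H)))} (hb' : IsPBlock M b')
    {β : Set (IrrCharacter H)} (h1 : IsInducedBlock M (Subgroup.centralizer ({x} : Set H)) b' β)
    (h2 : IsInducedBlock M H β b) :
    IsInducedBlock M (H ⊓ Subgroup.centralizer ({(x : G)} : Set G))
      (irrMap (Subgroup.subgroupOfEquivOfLe hKH) '' (trB (centralizer_eq_subgroupOf H x) b')) b := by
  have hA := centralizer_eq_subgroupOf H x
  have h3 := trB_induced hA h1
  refine induced_trans hKH ?_ ?_ h2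
  · exact isPBlock_image _ h3.1
  · rw [Set.image_image]
    simp only [irrMap_symm_irrMap, Set.image_id']
    exact h3

open Classical in
/-- Comparison of the two counts. -/
theorem sum_ind_eq_lK (hM : IsPModular p M) {H : Subgroup G} (b : Set (IrrCharacter G))
    (hdef : ∀ β : Set (IrrCharacter H), IsPBlock M β → InducedBlockDefined M H β)
    (x : H) {k : ℕ} (hx : orderOf x = p ^ k) :
    ∑ β ∈ (blocksF M H).filter (fun β => IsInducedBlock M H β b),
        ∑ b' ∈ indBlocks M x β, (blockRank p b' : ℤ) =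
      lK M p b (H ⊓ Subgroup.centralizer ({(x : G)} : Set G)) := by
  classical
  have hKH : H ⊓ Subgroup.centralizer ({(x : G)} : Set G) ≤ H := inf_le_left
  have hA := centralizer_eq_subgroupOf H x
  set K := H ⊓ Subgroup.centralizer ({(x : G)} : Set G) with hK
  let Φ : Set (IrrCharacter (Subgroup.centralizer ({x} : Set H))) → Set (IrrCharacter K) :=
    fun b' => irrMap (Subgroup.subgroupOfEquivOfLe hKH) '' (trB hA b')
  let Ψ : Set (IrrCharacter K) → Set (IrrCharacter (Subgroup.centralizer ({x} : Set H))) :=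
    fun c => trB hA.symm (irrMap (Subgroup.subgroupOfEquivOfLe hKH).symm '' c)
  have hΦΨ : ∀ c, Φ (Ψ c) = c := by
    intro c
    simp only [Φ, Ψ]
    rw [trB_trB', Set.image_image]
    simp only [irrMap_irrMap_symm, Set.image_id']
  have hΨΦ : ∀ c, Ψ (Φ c) = c := by
    intro c
    simp only [Φ, Ψ]
    rw [Set.image_image]
    simp only [irrMap_symm_irrMap, Set.image_id']
    exact trB_trB hA c
  have hrk : ∀ c, blockRank p (Φ c) = blockRank p c := by
    intro c
    simp only [Φ]
    rw [blockRank_image, trB_rank]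
  have hΦb : ∀ c, IsPBlock M c → IsPBlock M (Φ c) := by
    intro c hc
    exact isPBlock_image _ (by
      unfold trB
      exact isPBlock_image _ hc)
  have hΨb : ∀ c, IsPBlock M c → IsPBlock M (Ψ c) := by
    intro c hc
    simp only [Ψ]
    unfold trB
    exact isPBlock_image _ (isPBlock_image _ hc)
  -- the key equivalence
  have hE : ∀ b', IsPBlock M b' →
      ((∃ β ∈ (blocksF M H).filter (fun β => IsInducedBlock M H β b),
        IsInducedBlock M (Subgroup.centralizer ({x} : Set H)) b' β) ↔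
        IsInducedBlock M K (Φ b') b) := by
    intro b' hb'
    constructor
    · rintro ⟨β, hβ, h1⟩
      exact induced_transport_centr hM x hKH hb' h1 (Finset.mem_filter.mp hβ).2
    · intro h
      obtain ⟨β, hβ⟩ := exists_induced_centralizer_elem hM hx hb'
      obtain ⟨B', hB'⟩ := hdef β hβ.2.1
      have h3 := induced_transport_centr hM x hKH hb' hβ hB'
      have h4 : B' = b := induced_unique h3 h
      subst h4
      exact ⟨β, Finset.mem_filter.mpr ⟨mem_blocksF.mpr hβ.2.1, hB'⟩, hβ⟩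
  unfold indBlocks lK
  rw [Finset.sum_filter]
  have hpush : ∀ β ∈ blocksF M H, (if IsInducedBlock M H β b then
        ∑ b' ∈ (blocksF M (Subgroup.centralizer ({x} : Set H))).filter
          (fun c => IsInducedBlock M (Subgroup.centralizer ({x} : Set H)) c β), (blockRank p b' : ℤ) else 0) =
      ∑ b' ∈ blocksF M (Subgroup.centralizer ({x} : Set H)), if IsInducedBlock M H β b then
          (if IsInducedBlock M (Subgroup.centralizer ({x} : Set H)) b' β then (blockRank p b' : ℤ) else 0) else 0 := by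
    intro β _
    rw [Finset.sum_filter]
    by_cases h : IsInducedBlock M H β b
    · simp only [if_pos h]
    · simp only [if_neg h, Finset.sum_const_zero]
  rw [Finset.sum_congr rfl hpush, Finset.sum_comm]
  have hstep : ∀ b' ∈ blocksF M (Subgroup.centralizer ({x} : Set H)),
      (∑ β ∈ blocksF M H, if IsInducedBlock M H β b then
          (if IsInducedBlock M (Subgroup.centralizer ({x} : Set H)) b' β then (blockRank p b' : ℤ) else 0) else 0) =
        if IsInducedBlock M K (Φ b') b then (blockRank p (Φ b') : ℤ) else 0 := by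
    intro b' hb'
    have hb'' := mem_blocksF.mp hb'
    rw [hrk]
    by_cases hc : IsInducedBlock M K (Φ b') b
    · rw [if_pos hc]
      obtain ⟨β, hβ, h1⟩ := (hE b' hb'').mpr hc
      rw [Finset.sum_eq_single β]
      · rw [if_pos (Finset.mem_filter.mp hβ).2, if_pos h1]
      · intro β' _ hne
        by_cases h2 : IsInducedBlock M H β' b
        · rw [if_pos h2, if_neg]
          intro h3
          exact hne (induced_unique h3 h1)
        · rw [if_neg h2]
      · intro h
        exact absurd (Finset.mem_filter.mp hβ).1 h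
    · rw [if_neg hc]
      refine Finset.sum_eq_zero fun β hβ => ?_
      by_cases h2 : IsInducedBlock M H β b
      · rw [if_pos h2, if_neg]
        intro h3
        exact hc ((hE b' hb'').mp ⟨β, Finset.mem_filter.mpr ⟨hβ, h2⟩, h3⟩)
      · rw [if_neg h2]
  rw [Finset.sum_congr rfl hstep]
  refine Finset.sum_nbij' Φ Ψ ?_ ?_ (fun c _ => hΨΦ c) (fun c _ => hΦΨ c) (fun c _ => rfl)
  · intro c hc
    exact mem_blocksF.mpr (hΦb c (mem_blocksF.mp hc))
  · intro c hc
    exact mem_blocksF.mpr (hΨb c (mem_blocksF.mp hc))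

open Classical in
/-- The term of the chain sum, as a sum over `p`-elements. -/
theorem chain_term (hM : IsPModular p M) {H : Subgroup G} (b : Set (IrrCharacter G))
    (hdef : ∀ β : Set (IrrCharacter H), IsPBlock M β → InducedBlockDefined M H β)
    (𝓟 : Finset G) (h𝓟 : ∀ u, u ∈ 𝓟 ↔ (∃ k : ℕ, orderOf u = p ^ k) ∧ u ≠ 1) :
    (Nat.card H : ℤ) * ((Nat.card {ψ : IrrCharacter H | ∃ β : Set (IrrCharacter H), ψ ∈ β ∧ IsInducedBlock M H β b} : ℤ) -
        (blockRank p {ψ : IrrCharacter H | ∃ β : Set (IrrCharacter H), ψ ∈ β ∧ IsInducedBlock M H β b} : ℤ)) =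
      ∑ u ∈ 𝓟, if u ∈ H then
        (Nat.card (H ⊓ Subgroup.centralizer ({u} : Set G) : Subgroup G) : ℤ) *
          lK M p b (H ⊓ Subgroup.centralizer ({u} : Set G)) else 0 := by
  classical
  have h𝓑 : ∀ β ∈ (blocksF M H).filter (fun β => IsInducedBlock M H β b), IsPBlock M β :=
    fun β hβ => mem_blocksF.mp (Finset.mem_filter.mp hβ).1
  have hS : ∀ ψ : IrrCharacter H, ψ ∈ {ψ : IrrCharacter H | ∃ β : Set (IrrCharacter H), ψ ∈ β ∧ IsInducedBlock M H β b} ↔
      ∃ β ∈ (blocksF M H).filter (fun β => IsInducedBlock M H β b), ψ ∈ β := by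
    intro ψ
    constructor
    · rintro ⟨β, h1, h2⟩
      exact ⟨β, Finset.mem_filter.mpr ⟨mem_blocksF.mpr h2.1, h2⟩, h1⟩
    · rintro ⟨β, h1, h2⟩
      exact ⟨β, h2, (Finset.mem_filter.mp h1).2⟩
  let 𝓠 : Finset H := Finset.univ.filter (fun u : H => (∃ k : ℕ, orderOf u = p ^ k) ∧ u ≠ 1)
  have h𝓠 : ∀ u : H, u ∈ 𝓠 ↔ (∃ k : ℕ, orderOf u = p ^ k) ∧ u ≠ 1 := by
    intro u
    simp [𝓠]
  rw [core_count hM h𝓑 hS 𝓠 h𝓠, ← Finset.sum_filter]
  refine Finset.sum_nbij (fun x : H => (x : G)) ?_ ?_ ?_ ?_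
  · intro x hx
    obtain ⟨⟨k, hk⟩, hx1⟩ := (h𝓠 x).mp hx
    refine Finset.mem_filter.mpr ⟨(h𝓟 _).mpr ⟨⟨k, ?_⟩, ?_⟩, x.2⟩
    · rw [Subgroup.orderOf_coe]
      exact hk
    · intro h
      exact hx1 (Subtype.ext h)
  · intro x _ y _ h
    exact Subtype.ext h
  · intro u hu
    obtain ⟨hu1, huH⟩ := Finset.mem_filter.mp hu
    obtain ⟨⟨k, hk⟩, hu2⟩ := (h𝓟 u).mp hu1
    refine ⟨⟨u, huH⟩, ?_, rfl⟩
    refine (h𝓠 _).mpr ⟨⟨k, ?_⟩, ?_⟩
    · rw [Subgroup.orderOf_mk]
      exact hk
    · intro h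
      exact hu2 (congrArg Subtype.val h)
  · intro x hx
    obtain ⟨⟨k, hk⟩, hx1⟩ := (h𝓠 x).mp hx
    rw [sum_ind_eq_lK hM b hdef x hk]
    congr 2
    have hA := centralizer_eq_subgroupOf H x
    rw [hA]
    exact Nat.card_congr (Subgroup.subgroupOfEquivOfLe inf_le_left).toEquiv

theorem hdef_of_good (hM : IsPModular p M) {s : Finset (Subgroup G)} (hs : GoodChain p s) :
    ∀ β : Set (IrrCharacter (chainN s)), IsPBlock M β → InducedBlockDefined M (chainN s) β := by
  intro β hβ
  obtain ⟨hT, hTall⟩ := good_top hs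
  refine exists_induced_between (P := s.sup id) ?_ hM (hs.2.2.1 _ hT).2 ?_ ?_ hβ
  · intro y hy
    refine mem_chainN.mpr fun Q hQ => ?_
    intro z
    have hzQ : ∀ z ∈ Q, y * z * y⁻¹ = z := by
      intro z hz
      have h1 := (hTall Q hQ).1 hz
      have h2 := Subgroup.mem_centralizer_iff.mp hy z h1
      rw [← h2]
      group
    constructor
    · intro hz
      rw [hzQ z hz]
      exact hz
    · intro hz
      have h5 := Subgroup.mem_centralizer_iff.mp hy (y * z * y⁻¹) ((hTall Q hQ).1 hz)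
      have h7 : y * z = y * (y * z * y⁻¹) := by
        rw [← h5]
        group
      have h6 : y * z * y⁻¹ = z := (mul_left_cancel h7).symm
      rwa [h6] at hz
  · intro y hy
    exact mem_chainN.mpr fun Q hQ => (hTall Q hQ).2 hy
  · intro y hy
    exact mem_chainN.mp hy _ hT

/-- **The alternating chain sum.** -/
theorem chain_sum_main (hM : IsPModular p M) {b : Set (IrrCharacter G)} (hb : IsPBlock M b)
    (𝓣 : Finset (Finset (Subgroup G))) (h𝓣 : ∀ s, s ∈ 𝓣 ↔ GoodChain p s) :
    (Nat.card G : ℤ) * ((Nat.card b : ℤ) - (blockRank p b : ℤ)) =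
      ∑ s ∈ 𝓣, (-1 : ℤ) ^ (s.card - 1) * (Nat.card (chainN s) : ℤ) *
        ((Nat.card {ψ : IrrCharacter (chainN s) | ∃ β : Set (IrrCharacter (chainN s)), ψ ∈ β ∧ IsInducedBlock M (chainN s) β b} : ℤ) -
        (blockRank p {ψ : IrrCharacter (chainN s) | ∃ β : Set (IrrCharacter (chainN s)), ψ ∈ β ∧ IsInducedBlock M (chainN s) β b} : ℤ)) := by
  classical
  let 𝓟 : Finset G := Finset.univ.filter (fun u : G => (∃ k : ℕ, orderOf u = p ^ k) ∧ u ≠ 1)
  have h𝓟 : ∀ u : G, u ∈ 𝓟 ↔ (∃ k : ℕ, orderOf u = p ^ k) ∧ u ≠ 1 := by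
    intro u
    simp [𝓟]
  let Λ : Subgroup G → ℤ := fun K => (Nat.card K : ℤ) * lK M p b K
  have hterm : ∀ s ∈ 𝓣, (-1 : ℤ) ^ (s.card - 1) * (Nat.card (chainN s) : ℤ) *
        ((Nat.card {ψ : IrrCharacter (chainN s) | ∃ β : Set (IrrCharacter (chainN s)), ψ ∈ β ∧ IsInducedBlock M (chainN s) β b} : ℤ) -
        (blockRank p {ψ : IrrCharacter (chainN s) | ∃ β : Set (IrrCharacter (chainN s)), ψ ∈ β ∧ IsInducedBlock M (chainN s) β b} : ℤ)) =
      ∑ u ∈ 𝓟, if u ∈ chainN s then
        (-1 : ℤ) ^ (s.card - 1) * Λ (chainN s ⊓ Subgroup.centralizer ({u} : Set G)) else 0 := by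
    intro s hs
    rw [mul_assoc, chain_term hM b (hdef_of_good hM ((h𝓣 s).mp hs)) 𝓟 h𝓟, Finset.mul_sum]
    refine Finset.sum_congr rfl fun u _ => ?_
    by_cases hu : u ∈ chainN s
    · rw [if_pos hu, if_pos hu]
    · rw [if_neg hu, if_neg hu, mul_zero]
  rw [Finset.sum_congr rfl hterm, Finset.sum_comm]
  have hcancel : ∀ u ∈ 𝓟, (∑ s ∈ 𝓣, if u ∈ chainN s then
        (-1 : ℤ) ^ (s.card - 1) * Λ (chainN s ⊓ Subgroup.centralizer ({u} : Set G)) else 0) =
      Λ (Subgroup.centralizer ({u} : Set G)) := by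
    intro u hu
    obtain ⟨hu1, hu2⟩ := (h𝓟 u).mp hu
    rw [← Finset.sum_filter]
    refine chain_cancel (p := p) _ ?_ hu1 hu2 Λ
    intro s
    rw [Finset.mem_filter, h𝓣]
  rw [Finset.sum_congr rfl hcancel]
  -- the left-hand side
  have hS : ∀ ψ : IrrCharacter G, ψ ∈ b ↔ ∃ β ∈ ({b} : Finset (Set (IrrCharacter G))), ψ ∈ β := by
    intro ψ
    simp
  have h0 := core_count hM (𝓑 := {b}) (fun β hβ => by
    rw [Finset.mem_singleton] at hβ
    rw [hβ]
    exact hb) hS 𝓟 h𝓟
  rw [h0]
  refine Finset.sum_congr rfl fun u _ => ?_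
  simp only [Λ]
  rw [Finset.sum_singleton, lK_centralizer]

end

end Cfsg.Agent.H22
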