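import Cfsg.Agent.Lib.H21.Second4
import Cfsg.Agent.Lib.H21.Subsec3

/-! # Inner products of columns of the principal block on `p`-elements -/

set_option autoImplicit false
set_option linter.unusedSectionVars false
set_option linter.style.haveILetI false
set_option linter.unusedSimpArgs false

namespace Cfsg.Agent.H22

open Cfsg Cfsg.Agent.H21 Module
open scoped ComplexConjugate Pointwise

universe u

section

variable {G : Type u} [Group G] [Finite G] {p : ℕ} [hp : Fact p.Prime] {M : Ideal AlgInt}
  [hMp : M.IsPrime]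

open Classical in
/-- Column orthogonality of the principal block at two `p`-elements. -/
theorem principal_column_pair (hM : IsPModular p M) {a b : G} {k l : ℕ} (ha : orderOf a = p ^ k)
    (hb : orderOf b = p ^ l) :
    ∑ χ : IrrCharacter G, eB (principalBlock M G) χ * (χ.1 a * conj (χ.1 b)) =
      if IsConj b a then
        ∑ ψ : IrrCharacter (Subgroup.centralizer ({b} : Set G)),
          eB (principalBlock M (Subgroup.centralizer ({b} : Set G))) ψ * (ψ.1 1 * conj (ψ.1 1))
      else 0 := by
  split_ifs with hc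
  · obtain ⟨c, hc⟩ := isConj_iff.1 hc
    have h1 : ∀ χ : IrrCharacter G, χ.1 a = χ.1 b := by
      intro χ
      rw [← hc]
      exact isCharacter_conj (isCharacter_of_irr χ.2) b c
    simp only [h1]
    have h2 := principal_section_norm hM hb (1 : Subgroup.centralizer ({b} : Set G))
      (by simpa using hp.out.one_lt.ne')
    simpa using h2
  · exact block_orth_sections hM
      (⟨1, mul_one _, Commute.one_right _, ⟨l, hb⟩, by simpa using hp.out.one_lt.ne'⟩)
      (⟨1, mul_one _, Commute.one_right _, ⟨k, ha⟩, by simpa using hp.out.one_lt.ne'⟩)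
      hc principalBlock_isBlock

open Classical in
/-- Fibers of conjugation. -/
theorem sum_conj_fiber {P N : Subgroup G} (hNN : N ≤ Subgroup.normalizer (P : Set G))
    (v : P) (hfus : ∀ g : G, g * (v : G) * g⁻¹ ∈ (P : Set G) →
      ∃ n ∈ N, n * (v : G) * n⁻¹ = g * (v : G) * g⁻¹) (η : P → ℂ) [Fintype P] [Fintype N] :
    ∑ x : N, extendByZero P η ((x : G) * (v : G) * (x : G)⁻¹) =
      ∑ v' : P, (if IsConj (v : G) (v' : G) then
        ((Nat.card ↥(N ⊓ Subgroup.centralizer ({(v : G)} : Set G)) : ℕ) : ℂ) else 0) * η v' := by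
  classical
  have hmem : ∀ x : N, (x : G) * (v : G) * (x : G)⁻¹ ∈ P := by
    intro x
    have := hNN x.2
    rw [Subgroup.mem_normalizer_iff] at this
    exact (this _).1 v.2
  let g : N → P := fun x => ⟨_, hmem x⟩
  have h1 : ∀ x : N, extendByZero P η ((x : G) * (v : G) * (x : G)⁻¹) = η (g x) := by
    intro x
    exact extendByZero_coe P η (g x)
  simp only [h1]
  rw [← Finset.sum_fiberwise Finset.univ g (fun x => η (g x))]
  refine Finset.sum_congr rfl fun v' _ => ?_
  have h2 : ∀ x ∈ Finset.univ.filter (fun x : N => g x = v'), η (g x) = η v' := by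
    intro x hx
    rw [(Finset.mem_filter.1 hx).2]
  rw [Finset.sum_congr rfl h2, Finset.sum_const, nsmul_eq_mul]
  congr 1
  split_ifs with hc
  · congr 1
    obtain ⟨c, hc⟩ := isConj_iff.1 hc
    obtain ⟨n, hn, hnc⟩ := hfus c (by rw [hc]; exact v'.2)
    rw [hc] at hnc
    rw [← Fintype.card_subtype, ← Nat.card_eq_fintype_card]
    refine Nat.card_congr ⟨fun x => ⟨n⁻¹ * x.1.1, ?_, ?_⟩, fun y => ⟨⟨n * y.1, N.mul_mem hn y.2.1⟩, ?_⟩,
      ?_, ?_⟩
    · exact N.mul_mem (N.inv_mem hn) x.1.2
    · have hx : (x.1 : G) * (v : G) * (x.1 : G)⁻¹ = v' := congrArg Subtype.val x.2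
      refine Subgroup.mem_centralizer_singleton_iff.2 ?_
      rw [← hnc] at hx
      calc n⁻¹ * (x.1 : G) * (v : G) = n⁻¹ * ((x.1 : G) * (v : G) * (x.1 : G)⁻¹) * (x.1 : G) := by group
        _ = n⁻¹ * (n * v * n⁻¹) * (x.1 : G) := by rw [hx]
        _ = (v : G) * (n⁻¹ * (x.1 : G)) := by group
    · apply Subtype.ext
      have hy := Subgroup.mem_centralizer_singleton_iff.1 y.2.2
      show n * (y.1 : G) * (v : G) * (n * (y.1 : G))⁻¹ = v'
      rw [← hnc]
      calc n * (y.1 : G) * (v : G) * (n * (y.1 : G))⁻¹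
          = n * ((y.1 : G) * (v : G)) * (y.1 : G)⁻¹ * n⁻¹ := by group
        _ = n * ((v : G) * (y.1 : G)) * (y.1 : G)⁻¹ * n⁻¹ := by rw [hy]
        _ = n * v * n⁻¹ := by group
    · intro x
      apply Subtype.ext; apply Subtype.ext
      simp
    · intro y
      apply Subtype.ext
      simp
  · rw [Finset.card_eq_zero.2, Nat.cast_zero]
    rw [Finset.filter_eq_empty_iff]
    intro x _ hx
    apply hc
    rw [isConj_iff]
    exact ⟨x, congrArg Subtype.val hx⟩

end

end Cfsg.Agent.H22
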