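import Cfsg.Agent.Lib.H22.HtBdD
import Cfsg.Agent.Lib.H22.ZTransfer
import Cfsg.Agent.Lib.H21.KnorrCover
import Cfsg.Agent.Lib.H21.CanonicalBlock
import Cfsg.Agent.Lib.H06.CharGallagher
import Cfsg.Agent.Lib.H10.CharGen
import Cfsg.Agent.Lib.H21.CharLinear

/-!
# Blocks covering a stable block of a normal subgroup of `p`-power index, abelian defect
-/

set_option autoImplicit false
set_option linter.unusedSectionVars false
set_option linter.style.haveILetI false
set_option linter.unusedSimpArgs false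
set_option linter.unusedVariables false

namespace Cfsg.Agent.H22

open Cfsg Cfsg.Agent.H21 Module
open scoped ComplexConjugate

universe u

section

variable {G : Type u} [Group G] [Finite G]
variable {p : ℕ} [hp : Fact p.Prime] {M : Ideal AlgInt} [hMp : M.IsPrime]

/-- A multiplicative function which is trivial on `p`-regular elements and nontrivial on an
element of an abelian defect group cannot fix a character of the block. -/
theorem twist_ne_of_abelian (hM : IsPModular p M) {B : Set (IrrCharacter G)} (hB : IsPBlock M B)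
    {P : Subgroup G} (hPD : IsDefectGroup p M B P) (hPab : ∀ x ∈ P, ∀ y ∈ P, x * y = y * x)
    {f : G → ℂ} (hf : ∀ a b, f (a * b) = f a * f b)
    (hreg : ∀ s : G, ¬ p ∣ orderOf s → f s = 1) {x : G} (hxP : x ∈ P) (hx : f x ≠ 1)
    {χ : IrrCharacter G} (hχ : χ ∈ B) : (fun g => f g * χ.1 g) ≠ χ.1 := by
  classical
  intro heq
  obtain ⟨e, hmax⟩ := exists_maximal_on_defect hM hPD hB
  have hPp : IsPGroup p P := defect_isPGroup hPD
  obtain ⟨k, hk⟩ : ∃ k, orderOf x = p ^ k := by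
    obtain ⟨k, hk⟩ := (IsPGroup.iff_orderOf.mp hPp) ⟨x, hxP⟩
    exact ⟨k, by rw [← hk, Subgroup.orderOf_mk]⟩
  obtain ⟨β, hind, hS⟩ := relS_of_conj hM hmax hxP (g := 1) (x := x) (by simp)
  have hdef := relS_defect_cent hM hmax (u := x) (fun y hy => hPab y hy x hxP) hS
  obtain ⟨ξ, hξ, hne⟩ := exists_eta_ne hM hk hind hdef hχ
  have h0 : ∃ c : Subgroup.centralizer ({x} : Set G), rp p (secF x χ) c ≠ 0 := by
    by_contra hcon
    push Not at hcon
    apply hne
    unfold etaF classInner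
    simp [hcon]
  obtain ⟨c, hc⟩ := h0
  have hcreg : ¬ p ∣ orderOf (c : G) := by
    intro hd
    apply hc
    apply rp_of_sing
    rwa [Subgroup.orderOf_coe] at hd
  have hcv : χ.1 (x * c) ≠ 0 := by
    intro h
    apply hc
    rw [rp_of_reg]
    · exact h
    · rwa [Subgroup.orderOf_coe] at hcreg
  have h1 := congrFun heq (x * c)
  simp only [hf, hreg _ hcreg, mul_one] at h1
  have h2 : f x = 1 := by
    have : (f x - 1) * χ.1 (x * c) = 0 := by linear_combination h1
    rcases mul_eq_zero.mp this with h | h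
    · linear_combination h
    · exact absurd h hcv
  exact hx h2

open Classical in
/-- Column orthogonality in a commutative quotient. -/
theorem sum_irr_quot {N : Subgroup G} [hN : N.Normal] (hQ : ∀ a b : G ⧸ N, a * b = b * a) (g : G) :
    ∑ τ : IrrCharacter (G ⧸ N), τ.1 (g : G ⧸ N) * conj (τ.1 1) =
      if g ∈ N then (N.index : ℂ) else 0 := by
  classical
  split_ifs with hg
  · have h1 : (g : G ⧸ N) = 1 := (QuotientGroup.eq_one_iff g).mpr hg
    rw [h1, column_orthogonality_of_isConj (IsConj.refl _)]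
    have h2 : Subgroup.centralizer ({1} : Set (G ⧸ N)) = ⊤ := by
      ext a
      simp [Subgroup.mem_centralizer_iff]
    rw [h2, Subgroup.card_top, ← Subgroup.index_eq_card]
  · apply column_orthogonality_of_not_isConj
    intro hc
    rw [isConj_one_left] at hc
    exact hg ((QuotientGroup.eq_one_iff g).mp hc)

theorem inner_res_self_of_free {N : Subgroup G} [hN : N.Normal] (hQ : ∀ a b : G ⧸ N, a * b = b * a)
    {χ : IrrCharacter G}
    (hfree : ∀ τ : IrrCharacter (G ⧸ N), τ ≠ oneIrr _ →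
      (fun g : G => τ.1 (g : G ⧸ N) * χ.1 g) ≠ χ.1) :
    classInner (fun n : N => χ.1 n) (fun n : N => χ.1 n) = 1 := by
  classical
  have hG0 : (Nat.card G : ℂ) ≠ 0 := Nat.cast_ne_zero.mpr Nat.card_pos.ne'
  have hτ : ∀ τ : IrrCharacter (G ⧸ N),
      ∑ g : G, τ.1 (g : G ⧸ N) * χ.1 g * conj (χ.1 g) =
        if τ = oneIrr _ then (Nat.card G : ℂ) else 0 := by
    intro τ
    have hdeg := irr_degree_one_of_comm hQ τ.2
    have hl : IsCharacter G (τ.1 ∘ QuotientGroup.mk' N) :=
      isCharacter_comp _ (isCharacter_of_irr τ)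
    have hdeg' : charDegree (τ.1 ∘ QuotientGroup.mk' N) = 1 := by
      have : charDegree (τ.1 ∘ QuotientGroup.mk' N) = charDegree τ.1 := by
        simp [charDegree]
      rw [this, hdeg]
    have hi := H06.classInner_irr_fun (H06.isIrr_linear_mul χ.2 hl hdeg') χ.2
    unfold classInner at hi
    split_ifs with h
    · subst h
      have h2 := classInner_self_irr χ
      unfold classInner at h2
      have h3 : ∑ g : G, χ.1 g * conj (χ.1 g) = (Nat.card G : ℂ) := by
        field_simp at h2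
        linear_combination h2
      rw [← h3]
      refine Finset.sum_congr rfl fun g _ => ?_
      simp [oneIrr]
    · have hne : (fun t : G => (τ.1 ∘ QuotientGroup.mk' N) t * χ.1 t) ≠ χ.1 := hfree τ h
      rw [if_neg hne] at hi
      have h3 : ∑ g : G, (τ.1 ∘ QuotientGroup.mk' N) g * χ.1 g * conj (χ.1 g) = 0 := by
        rcases mul_eq_zero.mp hi with h4 | h4
        · exact absurd h4 (inv_ne_zero hG0)
        · exact h4
      exact h3
  have hS : ∑ τ : IrrCharacter (G ⧸ N), conj (τ.1 1) *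
      ∑ g : G, τ.1 (g : G ⧸ N) * χ.1 g * conj (χ.1 g) = (Nat.card G : ℂ) := by
    simp only [hτ, mul_ite, mul_zero]
    rw [Finset.sum_ite_eq' Finset.univ (oneIrr (G ⧸ N))]
    simp [oneIrr]
  have hS2 : ∑ τ : IrrCharacter (G ⧸ N), conj (τ.1 1) *
      ∑ g : G, τ.1 (g : G ⧸ N) * χ.1 g * conj (χ.1 g) =
        ∑ g : G, (χ.1 g * conj (χ.1 g)) * (if g ∈ N then (N.index : ℂ) else 0) := by
    simp only [Finset.mul_sum]
    rw [Finset.sum_comm]
    refine Finset.sum_congr rfl fun g _ => ?_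
    rw [← sum_irr_quot hQ g, Finset.mul_sum]
    refine Finset.sum_congr rfl fun τ _ => ?_
    ring
  have hS3 : ∑ g : G, (χ.1 g * conj (χ.1 g)) * (if g ∈ N then (N.index : ℂ) else 0) =
      (N.index : ℂ) * ∑ n : N, χ.1 n * conj (χ.1 n) := by
    rw [Finset.mul_sum]
    have : ∀ g : G, (χ.1 g * conj (χ.1 g)) * (if g ∈ N then (N.index : ℂ) else 0) =
        if g ∈ N then (N.index : ℂ) * (χ.1 g * conj (χ.1 g)) else 0 := by
      intro g
      split_ifs <;> ring
    simp only [this]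
    rw [← Finset.sum_filter]
    exact Finset.sum_subtype (p := (· ∈ N)) _ (by simp) _
  have hcard : (Nat.card G : ℂ) = (Nat.card N : ℂ) * (N.index : ℂ) := by
    rw [← Nat.cast_mul, Subgroup.card_mul_index]
  have hN0 : (Nat.card N : ℂ) ≠ 0 := Nat.cast_ne_zero.mpr Nat.card_pos.ne'
  have hI0 : (N.index : ℂ) ≠ 0 := Nat.cast_ne_zero.mpr Subgroup.index_ne_zero_of_finite
  unfold classInner
  have h5 : (N.index : ℂ) * ∑ n : N, χ.1 n * conj (χ.1 n) = (Nat.card N : ℂ) * (N.index : ℂ) := by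
    rw [← hS3, ← hS2, hS, hcard]
  have h6 : ∑ n : N, χ.1 n * conj (χ.1 n) = (Nat.card N : ℂ) := by
    apply mul_left_cancel₀ hI0
    rw [h5]
    ring
  rw [h6]
  field_simp

/-- Extension by zero, as a linear map. -/
noncomputable def extZ (N : Subgroup G) : (N → ℂ) →ₗ[ℂ] (G → ℂ) := by
  classical
  exact
  { toFun := fun f g => if h : g ∈ N then f ⟨g, h⟩ else 0
    map_add' := by
      intro f f'
      funext g
      by_cases h : g ∈ N <;> simp [h]
    map_smul' := by
      intro c f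
      funext g
      by_cases h : g ∈ N <;> simp [h] }

theorem extZ_apply_mem (N : Subgroup G) (f : N → ℂ) (n : N) : extZ N f (n : G) = f n := by
  classical
  show (if h : (n : G) ∈ N then f ⟨n, h⟩ else 0) = f n
  rw [dif_pos n.2]

theorem extZ_apply_not_mem (N : Subgroup G) (f : N → ℂ) {g : G} (hg : g ∉ N) : extZ N f g = 0 := by
  classical
  show (if h : g ∈ N then f ⟨g, h⟩ else 0) = 0
  rw [dif_neg hg]

theorem extZ_injective (N : Subgroup G) : Function.Injective (extZ N) := by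
  intro f f' h
  funext n
  rw [← extZ_apply_mem N f n, ← extZ_apply_mem N f' n, h]

theorem extZ_pRegularPart {N : Subgroup G} [hN : N.Normal] (hNi : ∃ k : ℕ, N.index = p ^ k)
    {χ : IrrCharacter G} {θ : IrrCharacter N} (h : ∀ n : N, χ.1 n = θ.1 n) :
    pRegularPart p χ.1 = extZ N (pRegularPart p θ.1) := by
  classical
  funext g
  by_cases hg : g ∈ N
  · have e := extZ_apply_mem N (pRegularPart p θ.1) ⟨g, hg⟩
    simp only at e
    rw [e]
    unfold pRegularPart
    have hr : IsPRegular p g ↔ IsPRegular p (⟨g, hg⟩ : N) := by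
      unfold IsPRegular
      rw [Subgroup.orderOf_mk]
    by_cases h1 : IsPRegular p g
    · rw [if_pos h1, if_pos (hr.mp h1)]
      exact h ⟨g, hg⟩
    · rw [if_neg h1, if_neg (fun h2 => h1 (hr.mpr h2))]
  · rw [extZ_apply_not_mem N _ hg]
    unfold pRegularPart
    have h1 : ¬ IsPRegular p g := fun h2 => h2 (dvd_orderOf_of_not_mem hNi hg)
    rw [if_neg h1]

/-- The main theorem on covering blocks with abelian defect group. -/
theorem cover_abelian_main (hM : IsPModular p M) {N : Subgroup G} [hN : N.Normal]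
    (hNi : ∃ k : ℕ, N.index = p ^ k) {b : Set (IrrCharacter N)} (hb : IsPBlock M b)
    (hinv : ∀ t : G, ∀ θ ∈ b, conjIrr N t θ ∈ b) {B : Set (IrrCharacter G)} (hB : IsPBlock M B)
    (hcov : ∃ χ ∈ B, ∃ θ ∈ b, ∑ n : N, conj (θ.1 n) * χ.1 n ≠ 0) {P : Subgroup G}
    (hPD : IsDefectGroup p M B P) (hPab : ∀ x ∈ P, ∀ y ∈ P, x * y = y * x) :
    N ⊔ P = ⊤ ∧ IsDefectGroup p M b ((P ⊓ N).subgroupOf N) ∧
      (∀ χ ∈ B, ∃ θ ∈ b, ∀ n : N, (χ : G → ℂ) n = (θ : N → ℂ) n) ∧
      (∀ θ ∈ b, Nat.card {χ : IrrCharacter G // χ ∈ B ∧ ∀ n : N, (χ : G → ℂ) n = (θ : N → ℂ) n} =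
        N.index) ∧
      Nat.card B = N.index * Nat.card b ∧ blockRank p B = blockRank p b := by
  classical
  have huniq : ∀ B' : Set (IrrCharacter G), IsPBlock M B' →
      (∃ χ ∈ B', ∃ θ ∈ b, ∑ n : N, conj (θ.1 n) * χ.1 n ≠ 0) → B' = B := by
    intro B' hB' hc
    exact (existsUnique_cover_pIndex (G := G) hM hNi hb).unique ⟨hB', hc⟩ ⟨hB, hcov⟩
  obtain ⟨h1, h2, -⟩ := knorr_main hM hb hinv hB hcov
    (fun B' hB' hc => by rw [huniq B' hB' hc]) hPD
  have hsup : N ⊔ P = ⊤ := by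
    obtain ⟨k, hk⟩ := hNi
    have hd : (P ⊔ N).index ∣ p ^ k := by
      rw [← hk]
      exact Subgroup.index_dvd_of_le le_sup_right
    have hone : (P ⊔ N).index = 1 := by
      obtain ⟨j, -, hj⟩ := (Nat.dvd_prime_pow hp.out).mp hd
      rcases j with _ | j
      · simpa using hj
      · exact absurd (hj ▸ dvd_pow_self p (Nat.succ_ne_zero j)) h1
    rw [sup_comm]
    exact Subgroup.index_eq_one.mp hone
  have hlift : ∀ q : G ⧸ N, ∃ x ∈ P, (x : G ⧸ N) = q := by
    intro q
    obtain ⟨g, rfl⟩ := QuotientGroup.mk_surjective q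
    have hg : g ∈ N ⊔ P := by rw [hsup]; exact Subgroup.mem_top g
    have hg' : g ∈ ((N ⊔ P : Subgroup G) : Set G) := hg
    rw [Subgroup.normal_mul] at hg'
    obtain ⟨y, hy, z, hz, rfl⟩ := Set.mem_mul.mp hg'
    refine ⟨z, hz, ?_⟩
    rw [QuotientGroup.mk_mul, (QuotientGroup.eq_one_iff y).mpr hy, one_mul]
  have hQ : ∀ a c : G ⧸ N, a * c = c * a := by
    intro a c
    obtain ⟨x, hx, rfl⟩ := hlift a
    obtain ⟨y, hy, rfl⟩ := hlift c
    rw [← QuotientGroup.mk_mul, ← QuotientGroup.mk_mul, hPab x hx y hy]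
  have hfree : ∀ χ ∈ B, ∀ τ : IrrCharacter (G ⧸ N), τ ≠ oneIrr _ →
      (fun g : G => τ.1 (g : G ⧸ N) * χ.1 g) ≠ χ.1 := by
    intro χ hχ τ hτ
    have hdeg := irr_degree_one_of_comm hQ τ.2
    have hchar := isCharacter_of_irr τ
    have hτ' : τ.1 ≠ fun _ => (1 : ℂ) := fun h => hτ (Subtype.ext h)
    obtain ⟨q, hq⟩ : ∃ q, τ.1 q ≠ 1 := by
      by_contra hcon
      push Not at hcon
      exact hτ' (funext hcon)
    obtain ⟨x, hx, rfl⟩ := hlift q
    refine twist_ne_of_abelian hM hB hPD hPab (f := fun g : G => τ.1 (g : G ⧸ N)) ?_ ?_ hx hq hχ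
    · intro a c
      show τ.1 ((a * c : G) : G ⧸ N) = _
      rw [QuotientGroup.mk_mul]
      exact linear_mul hchar hdeg _ _
    · intro s hs
      have hsN : s ∈ N := by
        by_contra hn
        exact hs (dvd_orderOf_of_not_mem hNi hn)
      show τ.1 (s : G ⧸ N) = 1
      rw [(QuotientGroup.eq_one_iff s).mpr hsN]
      exact linear_one hchar hdeg
  have hresIrr : ∀ χ ∈ B, IsIrrCharacter N (fun n : N => χ.1 n) := by
    intro χ hχ
    exact isIrrCharacter_of_inner_self_eq_one (isCharacter_restrict N (isCharacter_of_irr χ))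
      (inner_res_self_of_free hQ (hfree χ hχ))
  have hres_of_ne : ∀ χ ∈ B, ∀ θ : IrrCharacter N, ∑ n : N, conj (θ.1 n) * χ.1 n ≠ 0 →
      ∀ n : N, χ.1 n = θ.1 n := by
    intro χ hχ θ hne
    have h3 : classInner (fun n : N => χ.1 n) θ.1 ≠ 0 := (inner_ne_iff _ _).mpr hne
    have h4 := H06.classInner_irr_fun (hresIrr χ hχ) θ.2
    rw [h4] at h3
    have h5 : (fun n : N => χ.1 n) = θ.1 := by
      by_contra hcon
      exact h3 (if_neg hcon)
    exact fun n => congrFun h5 n
  have hover : ∀ χ ∈ B, ∃ θ ∈ b, ∀ n : N, χ.1 n = θ.1 n := by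
    intro χ hχ
    obtain ⟨ξ, hξ, hc⟩ := exists_over_of_cover hb hB hcov hχ
    exact ⟨ξ, hξ, hres_of_ne χ hχ ξ hc⟩
  have habove : ∀ θ ∈ b, ∃ χ ∈ B, ∀ n : N, χ.1 n = θ.1 n := by
    intro θ hθ
    obtain ⟨χ, hχ⟩ := exists_above (G := G) θ
    have hχB : χ ∈ B := by
      have := huniq (blockOf M χ.1) (isBlock_blockOf χ) ⟨χ, self_mem_blockOf χ, θ, hθ, hχ⟩
      rw [← this]
      exact self_mem_blockOf χ
    exact ⟨χ, hχB, hres_of_ne χ hχB θ hχ⟩
  have hcount : ∀ θ ∈ b, Nat.card {χ : IrrCharacter G //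
      χ ∈ B ∧ ∀ n : N, (χ : G → ℂ) n = (θ : N → ℂ) n} = N.index := by
    intro θ hθ
    obtain ⟨χ₀, hχ₀, h0⟩ := habove θ hθ
    have hT : ∀ g : G, g ∈ (⊤ : Subgroup G) ↔ ∀ h : N, θ.1 ⟨g * h * g⁻¹, hN.conj_mem h h.2 g⟩ = θ.1 h := by
      intro g
      refine ⟨fun _ h => ?_, fun _ => Subgroup.mem_top g⟩
      rw [← h0, ← h0]
      exact (isClassFunction_of_isCharacter (isCharacter_of_irr χ₀)) _ _
    obtain ⟨m, hm1, hm2⟩ := sum_mult_sq (H := N) (T := ⊤) le_top hT
    have hm : ∀ χ : IrrCharacter G, m χ = if (χ ∈ B ∧ ∀ n : N, (χ : G → ℂ) n = (θ : N → ℂ) n) then 1 else 0 := by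
      intro χ
      split_ifs with hc
      · have h3 := hm1 χ
        have h4 : (fun n : N => χ.1 n) = θ.1 := funext hc.2
        rw [h4, H06.classInner_irr_self θ.2] at h3
        exact_mod_cast h3.symm
      · by_contra hm0
        apply hc
        have h3 : classInner (fun n : N => χ.1 n) θ.1 ≠ 0 := by
          rw [hm1]
          exact Nat.cast_ne_zero.mpr hm0
        have h4 : ∑ n : N, conj (θ.1 n) * χ.1 n ≠ 0 := (inner_ne_iff _ _).mp h3
        have hχB : χ ∈ B := by
          have := huniq (blockOf M χ.1) (isBlock_blockOf χ) ⟨χ, self_mem_blockOf χ, θ, hθ, h4⟩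
          rw [← this]
          exact self_mem_blockOf χ
        exact ⟨hχB, hres_of_ne χ hχB θ h4⟩
    rw [Subgroup.relIndex_top_right] at hm2
    rw [← hm2, Nat.card_eq_fintype_card, Fintype.card_subtype]
    simp only [hm]
    rw [Finset.card_filter]
    refine Finset.sum_congr rfl fun χ _ => ?_
    split_ifs <;> simp
  refine ⟨hsup, h2, hover, hcount, ?_, ?_⟩
  · choose φ hφ1 hφ2 using (fun χ : B => hover χ.1 χ.2)
    let φ' : B → b := fun χ => ⟨φ χ, hφ1 χ⟩
    have e1 : Nat.card B = Nat.card (Σ θ : b, {χ : B // φ' χ = θ}) :=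
      Nat.card_congr (Equiv.sigmaFiberEquiv φ').symm
    have e2 : ∀ θ : b, Nat.card {χ : B // φ' χ = θ} = N.index := by
      intro θ
      rw [← hcount θ.1 θ.2]
      refine Nat.card_congr ⟨fun χ => ⟨χ.1.1, χ.1.2, ?_⟩, fun χ => ⟨⟨χ.1, χ.2.1⟩, ?_⟩, ?_, ?_⟩
      · intro n
        rw [hφ2 χ.1 n]
        have : φ χ.1 = θ.1 := congrArg Subtype.val χ.2
        rw [this]
      · apply Subtype.ext
        apply Subtype.ext
        funext n
        show (φ ⟨χ.1, χ.2.1⟩).1 n = θ.1.1 n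
        rw [← hφ2 ⟨χ.1, χ.2.1⟩ n, χ.2.2 n]
      · intro χ
        rfl
      · intro χ
        rfl
    haveI : Fintype b := Fintype.ofFinite _
    rw [e1, Nat.card_sigma]
    simp only [e2, Finset.sum_const, Finset.card_univ, smul_eq_mul]
    rw [Nat.card_eq_fintype_card, mul_comm]
  · unfold blockRank
    have himg : (fun χ : IrrCharacter G => pRegularPart p (χ : G → ℂ)) '' B =
        (extZ N) '' ((fun θ : IrrCharacter N => pRegularPart p (θ : N → ℂ)) '' b) := by
      ext f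
      constructor
      · rintro ⟨χ, hχ, rfl⟩
        obtain ⟨θ, hθ, h⟩ := hover χ hχ
        exact ⟨_, ⟨θ, hθ, rfl⟩, (extZ_pRegularPart hNi h).symm⟩
      · rintro ⟨_, ⟨θ, hθ, rfl⟩, rfl⟩
        obtain ⟨χ, hχ, h⟩ := habove θ hθ
        exact ⟨χ, hχ, extZ_pRegularPart hNi h⟩
    rw [himg, ← Submodule.map_span]
    exact (LinearEquiv.finrank_eq (Submodule.equivMapOfInjective (extZ N) (extZ_injective N) _)).symm

end

end Cfsg.Agent.H22
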