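import Cfsg.Agent.Lib.H22.DCentGen
import Cfsg.Agent.Lib.H22.PPProd
import Cfsg.Agent.Lib.H22.KnorrStab
import Cfsg.Agent.Lib.H21.MinMax
import Cfsg.Agent.Lib.H01.Frobenius
import Cfsg.Agent.Lib.H22.DefectZero
import Cfsg.Agent.Lib.H21.BlockRankC

/-!
# Blocks whose defect group `D` satisfies `G = D C_G(D)`
-/

set_option autoImplicit false
set_option linter.unusedSectionVars false
set_option linter.style.haveILetI false
set_option linter.unusedSimpArgs false

namespace Cfsg.Agent.H22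

open Cfsg Cfsg.Agent.H21 Cfsg.Agent.H06
open scoped ComplexConjugate

universe u

attribute [-instance] Cfsg.Agent.H22.fintypeOfFiniteH22

section

variable {G : Type u} [Group G] {D : Subgroup G}

theorem dc_normal (hG : D ⊔ Subgroup.centralizer (D : Set G) = ⊤) : D.Normal := by
  have h1 : D ≤ Subgroup.normalizer (D : Set G) := by
    intro d hd
    rw [Subgroup.mem_normalizer_iff]
    intro h
    constructor
    · intro hh
      exact D.mul_mem (D.mul_mem hd hh) (D.inv_mem hd)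
    · intro hh
      have := D.mul_mem (D.mul_mem (D.inv_mem hd) hh) hd
      simpa [mul_assoc] using this
  have h2 : Subgroup.centralizer (D : Set G) ≤ Subgroup.normalizer (D : Set G) := by
    intro c hc
    rw [Subgroup.mem_normalizer_iff]
    intro h
    constructor
    · intro hh
      have h3 := Subgroup.mem_centralizer_iff.mp hc h hh
      rw [← h3]
      simpa using hh
    · intro hh
      have h3 := Subgroup.mem_centralizer_iff.mp hc _ hh
      have h5 : c * h * c⁻¹ * c = c * h := by group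
      rw [h5] at h3
      have h4 : h = c * h * c⁻¹ := mul_left_cancel h3
      rw [h4]
      exact hh
  have h3 : Subgroup.normalizer (D : Set G) = ⊤ := by
    rw [eq_top_iff, ← hG]
    exact sup_le h1 h2
  refine ⟨fun n hn g => ?_⟩
  have h4 : g ∈ Subgroup.normalizer (D : Set G) := by rw [h3]; trivial
  exact (Subgroup.mem_normalizer_iff.mp h4 n).mp hn


theorem dc_exists (hG : D ⊔ Subgroup.centralizer (D : Set G) = ⊤) (g : G) :
    ∃ d ∈ D, ∃ c ∈ Subgroup.centralizer (D : Set G), d * c = g := by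
  haveI := dc_normal hG
  have h : g ∈ D ⊔ Subgroup.centralizer (D : Set G) := by rw [hG]; trivial
  exact Subgroup.mem_sup_of_normal_left.mp h

/-- Conjugation by `g` on `D` is inner. -/
theorem dc_conj_inner (hG : D ⊔ Subgroup.centralizer (D : Set G) = ⊤) (g : G) :
    ∃ d ∈ D, ∀ y ∈ D, g * y * g⁻¹ = d * y * d⁻¹ := by
  obtain ⟨d, hd, c, hc, rfl⟩ := dc_exists hG g
  refine ⟨d, hd, fun y hy => ?_⟩
  have h1 := Subgroup.mem_centralizer_iff.mp hc y hy
  calc d * c * y * (d * c)⁻¹ = d * (c * y) * c⁻¹ * d⁻¹ := by group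
    _ = d * (y * c) * c⁻¹ * d⁻¹ := by rw [h1]
    _ = d * y * d⁻¹ := by group

/-- A class function on `D` is invariant under `G`. -/
theorem dc_inv (hG : D ⊔ Subgroup.centralizer (D : Set G) = ⊤) {ζ : D → ℂ} (hζ : IsClassFunction D ζ)
    (g : G) (y : D) (hm : g * (y : G) * g⁻¹ ∈ D) : ζ ⟨g * y * g⁻¹, hm⟩ = ζ y := by
  obtain ⟨d, hd, h⟩ := dc_conj_inner hG g
  have h1 := hζ y ⟨d, hd⟩
  rw [← h1]
  congr 1
  apply Subtype.ext
  simp only [Subgroup.coe_mul, Subgroup.coe_inv]
  exact h y y.2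

variable [Finite G] {p : ℕ} [hp : Fact p.Prime]

/-- `p`-regular elements centralize `D`. -/
theorem dc_reg (hD : IsPGroup p D) (hG : D ⊔ Subgroup.centralizer (D : Set G) = ⊤) {x : G}
    (hx : ¬ p ∣ orderOf x) : x ∈ Subgroup.centralizer (D : Set G) := by
  haveI := dc_normal hG
  rw [Subgroup.mem_centralizer_iff]
  intro y hy
  obtain ⟨d, hd, hc⟩ := dc_conj_inner hG x
  obtain ⟨k, hk⟩ := orderOf_of_pGroup hD hd
  have hpow : ∀ j : ℕ, ∀ w ∈ D, x ^ j * w * (x ^ j)⁻¹ = d ^ j * w * (d ^ j)⁻¹ := by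
    intro j
    induction j with
    | zero => intro w _; simp
    | succ j ih =>
      intro w hw
      have h1 : x * w * x⁻¹ ∈ D := by
        rw [hc w hw]
        exact ‹D.Normal›.conj_mem w hw d
      calc x ^ (j + 1) * w * (x ^ (j + 1))⁻¹ = x ^ j * (x * w * x⁻¹) * (x ^ j)⁻¹ := by
            rw [pow_succ]; group
        _ = d ^ j * (x * w * x⁻¹) * (d ^ j)⁻¹ := ih _ h1
        _ = d ^ j * (d * w * d⁻¹) * (d ^ j)⁻¹ := by rw [hc w hw]
        _ = d ^ (j + 1) * w * (d ^ (j + 1))⁻¹ := by rw [pow_succ]; group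
  have h2 : x ^ (p ^ k) * y * (x ^ (p ^ k))⁻¹ = y := by
    rw [hpow _ y hy, ← hk, pow_orderOf_eq_one]
    simp
  have hcop : (p ^ k).Coprime (orderOf x) :=
    Nat.Coprime.pow_left k ((Nat.Prime.coprime_iff_not_dvd hp.out).2 hx)
  obtain ⟨t, ht⟩ := exists_pow_eq_self_of_coprime hcop
  have h3 : Commute (x ^ (p ^ k)) y := by
    show x ^ (p ^ k) * y = y * x ^ (p ^ k)
    calc x ^ (p ^ k) * y = (x ^ (p ^ k) * y * (x ^ (p ^ k))⁻¹) * x ^ (p ^ k) := by group
      _ = y * x ^ (p ^ k) := by rw [h2]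
  have h4 : Commute x y := by
    have := h3.pow_left t
    rwa [ht] at this
  exact h4.eq.symm

/-- Parts of products. -/
theorem dc_parts (hD : IsPGroup p D) (hG : D ⊔ Subgroup.centralizer (D : Set G) = ⊤) {y x : G}
    (hy : y ∈ D) (hx : ¬ p ∣ orderOf x) : pPt p (y * x) = y ∧ rPt p (y * x) = x := by
  have hc : Commute y x := (Subgroup.mem_centralizer_iff.mp (dc_reg hD hG hx) y hy)
  exact ⟨pPt_of_parts hc (orderOf_of_pGroup hD hy) hx, rPt_of_parts hc (orderOf_of_pGroup hD hy) hx⟩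

/-- The function attached to `ζ` and `χ`. -/
noncomputable def fZ (p : ℕ) [Fact p.Prime] (D : Subgroup G) (ζ : D → ℂ) (χ : G → ℂ) (u : G) : ℂ := by
  classical
  exact if h : pPt p u ∈ D then ζ ⟨pPt p u, h⟩ * χ (rPt p u) else 0

theorem fZ_of_mem (ζ : D → ℂ) (χ : G → ℂ) {u : G} (h : pPt p u ∈ D) :
    fZ p D ζ χ u = ζ ⟨pPt p u, h⟩ * χ (rPt p u) := by
  classical
  unfold fZ
  rw [dif_pos h]

theorem fZ_of_not_mem (ζ : D → ℂ) (χ : G → ℂ) {u : G} (h : pPt p u ∉ D) :
    fZ p D ζ χ u = 0 := by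
  classical
  unfold fZ
  rw [dif_neg h]

theorem fZ_mul (hD : IsPGroup p D) (hG : D ⊔ Subgroup.centralizer (D : Set G) = ⊤) (ζ : D → ℂ)
    (χ : G → ℂ) (y : D) {x : G} (hx : ¬ p ∣ orderOf x) : fZ p D ζ χ ((y : G) * x) = ζ y * χ x := by
  obtain ⟨h1, h2⟩ := dc_parts hD hG y.2 hx
  rw [fZ_of_mem ζ χ (by rw [h1]; exact y.2)]
  congr 1
  · congr 1
    exact Subtype.ext h1
  · rw [h2]

theorem fZ_class (hG : D ⊔ Subgroup.centralizer (D : Set G) = ⊤) {ζ : D → ℂ}
    (hζ : IsClassFunction D ζ) {χ : G → ℂ} (hχ : IsClassFunction G χ) :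
    IsClassFunction G (fZ p D ζ χ) := by
  haveI := dc_normal hG
  intro u k
  by_cases hu : pPt p u ∈ D
  · have h1 : pPt p (k * u * k⁻¹) ∈ D := by
      rw [pPt_conj]
      exact ‹D.Normal›.conj_mem _ hu k
    rw [fZ_of_mem ζ χ h1, fZ_of_mem ζ χ hu, rPt_conj, hχ]
    congr 1
    have h2 := dc_inv hG hζ k ⟨pPt p u, hu⟩ (by simpa using ‹D.Normal›.conj_mem _ hu k)
    rw [← h2]
    congr 1
    exact Subtype.ext (pPt_conj u k)
  · have h1 : pPt p (k * u * k⁻¹) ∉ D := by
      rw [pPt_conj]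
      intro hm
      apply hu
      have := ‹D.Normal›.conj_mem _ hm k⁻¹
      simpa [mul_assoc] using this
    rw [fZ_of_not_mem ζ χ h1, fZ_of_not_mem ζ χ hu]

/-- Parts in subgroups. -/
theorem pPt_subgroup (E : Subgroup G) (e : E) : ((pPt p e : E) : G) = pPt p (e : G) := by
  symm
  apply pPt_eq
  refine ⟨(rPt p e : E), ?_, ?_, ?_, ?_⟩
  · have := congrArg Subtype.val (pPt_mul_rPt p e)
    simpa using this
  · have := congrArg Subtype.val (commute_pPt_rPt p e).eq
    exact this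
  · obtain ⟨k, hk⟩ := pPt_order p e
    exact ⟨k, by rwa [Subgroup.orderOf_coe]⟩
  · rw [Subgroup.orderOf_coe]
    exact rPt_not_dvd p e

theorem rPt_subgroup (E : Subgroup G) (e : E) : ((rPt p e : E) : G) = rPt p (e : G) := by
  have h1 := pPt_mul_rPt p (e : G)
  have h2 := congrArg Subtype.val (pPt_mul_rPt p e)
  simp only [Subgroup.coe_mul] at h2
  rw [pPt_subgroup] at h2
  exact mul_left_cancel (h2.trans h1.symm)

variable [Fintype G]

/-- `fZ` is a generalized character. -/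
theorem fZ_gen (hD : IsPGroup p D) (hG : D ⊔ Subgroup.centralizer (D : Set G) = ⊤) {ζ : D → ℂ}
    (hζ : IsGeneralizedCharacter D ζ) {χ : G → ℂ} (hχ : IsCharacter G χ)
    (hker : ∀ y ∈ D, χ y = χ 1) (hv : ∀ u : G, pPt p u ∉ D → χ u = 0) :
    IsGeneralizedCharacter G (fZ p D ζ χ) := by
  classical
  haveI := dc_normal hG
  haveI : Fintype (IrrCharacter G) := Fintype.ofFinite _
  have hζc : IsClassFunction D ζ := gen_isClass hζ
  apply Cfsg.Agent.H06.Brauer.gen_of_elementary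
    (fZ_class hG hζc (isClassFunction_of_isCharacter hχ))
  intro E q hq hE
  haveI : Group.IsNilpotent E := Cfsg.Agent.H06.Brauer.IsElementary_nilpotent hq hE
  haveI : Fintype E := Fintype.ofFinite _
  let T₀ : Subgroup E := D.subgroupOf E
  have hT₀m : ∀ t : E, t ∈ T₀ ↔ (t : G) ∈ D := fun t => Subgroup.mem_subgroupOf
  haveI hT : T₀.Normal := Subgroup.Normal.subgroupOf ‹D.Normal› E
  have hT₀p : IsPGroup p T₀ := by
    intro t
    obtain ⟨k, hk⟩ := hD ⟨(t : E), (hT₀m _).mp t.2⟩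
    refine ⟨k, ?_⟩
    apply Subtype.ext
    apply Subtype.ext
    have := congrArg Subtype.val hk
    simpa using this
  let fT : T₀ →* D := (E.subtype.comp T₀.subtype).codRestrict D (fun t => (hT₀m t.1).mp t.2)
  have hfT : ∀ t : T₀, ((fT t : D) : G) = ((t : E) : G) := fun t => rfl
  refine nil_gen (p := p) T₀ hT₀p (ζ ∘ fT) ?_ ?_ (fun e : E => χ e) (isCharacter_restrict E hχ) ?_ ?_
    (fun e : E => fZ p D ζ χ e) ?_ ?_
  · obtain ⟨a, b, ha, hb, hab⟩ := hζ
    refine ⟨a ∘ fT, b ∘ fT, isCharacter_comp fT ha, isCharacter_comp fT hb, ?_⟩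
    funext t
    simp only [hab, Function.comp_apply, Pi.sub_apply]
  · intro g t
    simp only [Function.comp_apply]
    have h2 := dc_inv hG hζc (g : G) (fT t) (by
      rw [hfT]
      exact ‹D.Normal›.conj_mem _ ((hT₀m _).mp t.2) _)
    rw [← h2]
    congr 1
  · intro t ht u
    have h1 : χ (t : G) = χ 1 := hker _ ((hT₀m t).mp ht)
    have := character_mul_of_mem_ker hχ h1 (u : G)
    simpa using this
  · intro u hu
    apply hv
    rw [← pPt_subgroup]
    intro hm
    exact hu ((hT₀m _).mpr hm)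
  · intro u hu
    have hm : pPt p (u : G) ∈ D := by
      rw [← pPt_subgroup]
      exact (hT₀m _).mp hu
    simp only [Function.comp_apply]
    rw [fZ_of_mem ζ χ hm, rPt_subgroup]
    congr 2
    apply Subtype.ext
    rw [hfT]
    exact (pPt_subgroup E u).symm
  · intro u hu
    apply fZ_of_not_mem
    rw [← pPt_subgroup]
    intro hm
    exact hu ((hT₀m _).mpr hm)


/-- The `p`-regular elements. -/
noncomputable def regF (p : ℕ) (G : Type u) [Group G] [Fintype G] : Finset G := by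
  classical exact Finset.univ.filter fun g => ¬ p ∣ orderOf g

theorem mem_regF {x : G} : x ∈ regF p G ↔ ¬ p ∣ orderOf x := by
  classical
  simp [regF]

variable [Fintype D]

/-- Sums over elements whose `p`-part lies in `D`. -/
theorem dc_sum (hD : IsPGroup p D) (hG : D ⊔ Subgroup.centralizer (D : Set G) = ⊤) (h : G → ℂ)
    (hh : ∀ u : G, pPt p u ∉ D → h u = 0) :
    ∑ u, h u = ∑ y : D, ∑ x ∈ regF p G, h ((y : G) * x) := by
  classical
  have h1 : ∑ u, h u = ∑ u ∈ Finset.univ.filter (fun u => pPt p u ∈ D), h u := by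
    rw [Finset.sum_filter]
    refine Finset.sum_congr rfl fun u _ => ?_
    by_cases hu : pPt p u ∈ D
    · rw [if_pos hu]
    · rw [if_neg hu, hh u hu]
  rw [h1, ← Finset.sum_product']
  symm
  refine Finset.sum_bij (fun q _ => (q.1 : G) * q.2) ?_ ?_ ?_ ?_
  · rintro ⟨y, x⟩ hq
    have hx : ¬ p ∣ orderOf x := mem_regF.mp (Finset.mem_product.mp hq).2
    simp only [Finset.mem_filter, Finset.mem_univ, true_and]
    rw [(dc_parts hD hG y.2 hx).1]
    exact y.2
  · rintro ⟨y, x⟩ hq ⟨y', x'⟩ hq' heq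
    have hx : ¬ p ∣ orderOf x := mem_regF.mp (Finset.mem_product.mp hq).2
    have hx' : ¬ p ∣ orderOf x' := mem_regF.mp (Finset.mem_product.mp hq').2
    simp only at heq
    have h2 := (dc_parts hD hG y.2 hx)
    have h3 := (dc_parts hD hG y'.2 hx')
    rw [heq] at h2
    have h4 : (y : G) = y' := h2.1.symm.trans h3.1
    have h5 : x = x' := h2.2.symm.trans h3.2
    rw [h5, Subtype.ext h4]
  · intro u hu
    have hu' : pPt p u ∈ D := (Finset.mem_filter.mp hu).2
    refine ⟨(⟨pPt p u, hu'⟩, rPt p u), ?_, pPt_mul_rPt p u⟩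
    exact Finset.mem_product.mpr ⟨Finset.mem_univ _, mem_regF.mpr (rPt_not_dvd p u)⟩
  · intro q _
    rfl

/-- The basic sum for `χ`. -/
theorem dc_sum_char (hD : IsPGroup p D) (hG : D ⊔ Subgroup.centralizer (D : Set G) = ⊤)
    {χ θ : G → ℂ} (hθ : IsCharacter G θ) (hχ : IsCharacter G χ)
    (hθk : ∀ y ∈ D, θ y = θ 1) (hχk : ∀ y ∈ D, χ y = χ 1)
    (hv : ∀ u : G, pPt p u ∉ D → χ u = 0) :
    ∑ u, θ u * conj (χ u) = (Nat.card D : ℂ) * ∑ x ∈ regF p G, θ x * conj (χ x) := by
  rw [dc_sum hD hG _ (fun u hu => by rw [hv u hu, map_zero, mul_zero])]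
  have h1 : ∀ y : D, ∑ x ∈ regF p G, θ ((y : G) * x) * conj (χ ((y : G) * x)) =
      ∑ x ∈ regF p G, θ x * conj (χ x) := by
    intro y
    refine Finset.sum_congr rfl fun x _ => ?_
    rw [character_mul_of_mem_ker hθ (hθk y y.2) x, character_mul_of_mem_ker hχ (hχk y y.2) x]
  simp only [h1, Finset.sum_const, Finset.card_univ, nsmul_eq_mul]
  rw [Nat.card_eq_fintype_card]

/-- Inner products of the functions `fZ`. -/
theorem fZ_inner (hD : IsPGroup p D) (hG : D ⊔ Subgroup.centralizer (D : Set G) = ⊤)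
    (ζ ξ : D → ℂ) (χ : IrrCharacter G)
    (hχk : ∀ y ∈ D, χ.1 y = χ.1 1) (hv : ∀ u : G, pPt p u ∉ D → χ.1 u = 0) :
    classInner (fZ p D ζ χ.1) (fZ p D ξ χ.1) = classInner ζ ξ := by
  classical
  haveI : Fintype (IrrCharacter G) := Fintype.ofFinite _
  have hc := Cfsg.Agent.H21.isCharacter_of_irr χ.2
  have hN := dc_sum_char hD hG hc hc hχk hχk hv
  rw [sum_char_mul_conj] at hN
  unfold classInner
  rw [dc_sum hD hG _ (fun u hu => by rw [fZ_of_not_mem _ _ hu, zero_mul])]
  have h1 : ∀ (y : D), ∑ x ∈ regF p G, fZ p D ζ χ.1 ((y : G) * x) * conj (fZ p D ξ χ.1 ((y : G) * x)) =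
      (ζ y * conj (ξ y)) * ∑ x ∈ regF p G, χ.1 x * conj (χ.1 x) := by
    intro y
    rw [Finset.mul_sum]
    refine Finset.sum_congr rfl fun x hx => ?_
    have hx' := mem_regF.mp hx
    rw [fZ_mul hD hG _ _ y hx', fZ_mul hD hG _ _ y hx', map_mul]
    ring
  simp only [h1]
  rw [← Finset.sum_mul]
  have h0 : (Nat.card G : ℂ) ≠ 0 := by exact_mod_cast Nat.card_pos.ne'
  have h0' : (Nat.card D : ℂ) ≠ 0 := by exact_mod_cast Nat.card_pos.ne'
  set N := ∑ x ∈ regF p G, χ.1 x * conj (χ.1 x) with hNdef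
  have hN0 : N ≠ 0 := by
    intro h
    rw [h, mul_zero] at hN
    exact h0 hN
  rw [hN]
  field_simp

theorem fZ_one (hD : IsPGroup p D) (hG : D ⊔ Subgroup.centralizer (D : Set G) = ⊤)
    (ζ : D → ℂ) (χ : G → ℂ) {x : G} (hx : ¬ p ∣ orderOf x) : fZ p D ζ χ x = ζ 1 * χ x := by
  have h := fZ_mul hD hG ζ χ (1 : D) hx
  simpa using h

/-- `fZ` is an irreducible character. -/
theorem fZ_irr (hD : IsPGroup p D) (hG : D ⊔ Subgroup.centralizer (D : Set G) = ⊤)
    (ζ : IrrCharacter D) (χ : IrrCharacter G)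
    (hχk : ∀ y ∈ D, χ.1 y = χ.1 1) (hv : ∀ u : G, pPt p u ∉ D → χ.1 u = 0) :
    IsIrrCharacter G (fZ p D ζ.1 χ.1) := by
  classical
  haveI : Fintype (IrrCharacter G) := Fintype.ofFinite _
  haveI : Fintype (IrrCharacter D) := Fintype.ofFinite _
  have hcχ := Cfsg.Agent.H21.isCharacter_of_irr χ.2
  have hcζ := Cfsg.Agent.H21.isCharacter_of_irr ζ.2
  have hgen := fZ_gen hD hG (gen_of_char hcζ) hcχ hχk hv
  apply Cfsg.Agent.H01.isIrrCharacter_of_int_norm_one (gen_isClass hgen)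
  · intro ψ
    exact gen_inner_int hgen (gen_of_char (Cfsg.Agent.H21.isCharacter_of_irr ψ.2))
  · rw [fZ_inner hD hG _ _ χ hχk hv]
    exact classInner_self_irr ζ
  · have h1 : ¬ p ∣ orderOf (1 : G) := by
      rw [orderOf_one]
      exact fun h => hp.out.one_lt.ne' (Nat.dvd_one.mp h)
    rw [fZ_one hD hG _ _ h1, one_eq_charDegree hcζ, one_eq_charDegree hcχ]
    have h2 := irr_charDegree_pos χ.2
    have h3 := irr_charDegree_pos ζ.2
    have h4 : ((charDegree ζ.1 : ℂ) * (charDegree χ.1 : ℂ)).re =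
        (charDegree ζ.1 : ℝ) * (charDegree χ.1 : ℝ) := by
      rw [← Nat.cast_mul, Complex.natCast_re]
      push_cast
      ring
    rw [h4]
    positivity

theorem fZ_degree (hD : IsPGroup p D) (hG : D ⊔ Subgroup.centralizer (D : Set G) = ⊤)
    (ζ : IrrCharacter D) (χ : IrrCharacter G) (hirr : IsIrrCharacter G (fZ p D ζ.1 χ.1)) :
    charDegree (fZ p D ζ.1 χ.1) = charDegree ζ.1 * charDegree χ.1 := by
  have h1 : ¬ p ∣ orderOf (1 : G) := by
    rw [orderOf_one]
    exact fun h => hp.out.one_lt.ne' (Nat.dvd_one.mp h)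
  have h2 := one_eq_charDegree (Cfsg.Agent.H21.isCharacter_of_irr hirr)
  rw [fZ_one hD hG _ _ h1, one_eq_charDegree (Cfsg.Agent.H21.isCharacter_of_irr ζ.2),
    one_eq_charDegree (Cfsg.Agent.H21.isCharacter_of_irr χ.2)] at h2
  exact_mod_cast h2.symm


variable {M : Ideal AlgInt}

/-- `fZ` lies in the block of `χ`. -/
theorem fZ_sameBlock (hM : IsPModular p M) (hD : IsPGroup p D)
    (hG : D ⊔ Subgroup.centralizer (D : Set G) = ⊤) (ζ : IrrCharacter D) (χ : IrrCharacter G)
    (hirr : IsIrrCharacter G (fZ p D ζ.1 χ.1)) : SameBlock M χ.1 (fZ p D ζ.1 χ.1) := by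
  classical
  haveI : M.IsPrime := hM.2.1.isPrime
  haveI : Fintype (IrrCharacter G) := Fintype.ofFinite _
  refine sameBlock_of_regular hM χ ⟨_, hirr⟩ (fun x hx => ?_)
  have h1 : ¬ p ∣ orderOf (1 : G) := by
    rw [orderOf_one]
    exact fun h => hp.out.one_lt.ne' (Nat.dvd_one.mp h)
  have h2 : H22.cc x χ - H22.cc x (⟨_, hirr⟩ : IrrCharacter G) = 0 := by
    simp only [H22.cc, centralChar]
    rw [fZ_one hD hG _ _ hx, fZ_one hD hG _ _ h1]
    have h3 : ζ.1 1 ≠ 0 := by
      rw [one_eq_charDegree (Cfsg.Agent.H21.isCharacter_of_irr ζ.2)]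
      exact_mod_cast (irr_charDegree_pos ζ.2).ne'
    have h4 : χ.1 1 ≠ 0 := by
      rw [one_eq_charDegree (Cfsg.Agent.H21.isCharacter_of_irr χ.2)]
      exact_mod_cast (irr_charDegree_pos χ.2).ne'
    field_simp
    ring
  rw [h2]
  exact mli_zero

/-- Uniqueness of the character with `D` in its kernel. -/
theorem dc_unique [Fintype (IrrCharacter G)] (hM : IsPModular p M) (hD : IsPGroup p D)
    (hG : D ⊔ Subgroup.centralizer (D : Set G) = ⊤) (χ θ : IrrCharacter G)
    (hχk : ∀ y ∈ D, χ.1 y = χ.1 1) (hθk : ∀ y ∈ D, θ.1 y = θ.1 1)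
    (hv : ∀ u : G, pPt p u ∉ D → χ.1 u = 0)
    (hdvd : p ^ ((Nat.card G).factorization p - (Nat.card D).factorization p) ∣ charDegree χ.1)
    (hsame : SameBlock M χ.1 θ.1) : θ = χ := by
  classical
  haveI : M.IsPrime := hM.2.1.isPrime
  by_contra hne
  have hcχ := Cfsg.Agent.H21.isCharacter_of_irr χ.2
  have hcθ := Cfsg.Agent.H21.isCharacter_of_irr θ.2
  have h0 : (Nat.card G : ℂ) ≠ 0 := by exact_mod_cast Nat.card_pos.ne'
  have h0' : (Nat.card D : ℂ) ≠ 0 := by exact_mod_cast Nat.card_pos.ne'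
  have hχ1 : χ.1 1 ≠ 0 := by
    rw [one_eq_charDegree hcχ]
    exact_mod_cast (irr_charDegree_pos χ.2).ne'
  set A : ℂ := χ.1 1 * (Nat.card D : ℂ) / (Nat.card G : ℂ) with hAdef
  let a : G → ℂ := fun g => if p ∣ orderOf g then 0 else A * conj (χ.1 g)
  have ha : IsClassFunction G a := by
    intro g k
    simp only [a]
    rw [orderOf_conjH22, isCharacter_conj hcχ]
  have hA : MemLocalRing M A := by
    obtain ⟨d, hd⟩ := IsPGroup.iff_card.mp hD
    obtain ⟨v, hv'⟩ := hdvd
    have hGne : Nat.card G ≠ 0 := Nat.card_pos.ne'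
    have hfd : (Nat.card D).factorization p = d := by
      rw [hd, Nat.Prime.factorization_pow hp.out, Finsupp.single_eq_same]
    set e := (Nat.card G).factorization p with he
    have hm := Nat.ordProj_mul_ordCompl_eq_self (Nat.card G) p
    set m := Nat.card G / p ^ e with hmdef
    have hmp : ¬ p ∣ m := Nat.not_dvd_ordCompl hp.out hGne
    have hle : d ≤ e := by
      have h1 : Nat.card D ∣ Nat.card G := Subgroup.card_subgroup_dvd_card D
      rw [← hfd]
      exact (Nat.factorization_le_iff_dvd Nat.card_pos.ne' hGne).2 h1 p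
    rw [hfd] at hv'
    have hm0 : (m : ℂ) ≠ 0 := by
      have : m ≠ 0 := fun h => hmp (h ▸ dvd_zero p)
      exact_mod_cast this
    have hp0 : ((p : ℕ) : ℂ) ≠ 0 := by exact_mod_cast hp.out.ne_zero
    have hAeq : A = (v : ℂ) * (m : ℂ)⁻¹ := by
      rw [hAdef, one_eq_charDegree hcχ, hv', hd, ← hm]
      push_cast
      have h3 : ((p : ℂ) ^ (e - d)) * (p : ℂ) ^ d = (p : ℂ) ^ e := by
        rw [← pow_add, Nat.sub_add_cancel hle]
      have h4 : (p : ℂ) ^ e ≠ 0 := pow_ne_zero _ hp0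
      rw [← h3] at h4 ⊢
      field_simp
    rw [hAeq]
    refine mlr_mul (mlr_natCast v) (mlr_inv (mlr_natCast m) ?_).2
    rw [mli_natCast_iff hM]
    exact hmp
  let c : IrrCharacter G → ℂ := fun ψ => om ψ a
  have hc : c ∈ ZR M := by
    intro g
    simp only [c]
    rw [ofOm_om a ha]
    simp only [a]
    split_ifs
    · exact mlr_zero
    · refine mlr_mul hA ?_
      rw [← irr_inv']
      exact mlr_of_isIntegral (irr_isIntegral' χ _)
  have hsum : ∀ ψ : IrrCharacter G, ∑ g, a g * ψ.1 g = A * ∑ x ∈ regF p G, ψ.1 x * conj (χ.1 x) := by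
    intro ψ
    rw [Finset.mul_sum, regF, Finset.sum_filter]
    refine Finset.sum_congr rfl fun g _ => ?_
    simp only [a]
    by_cases h : p ∣ orderOf g
    · simp [h]
    · simp only [h, if_false, not_false_eq_true, if_true]
      ring
  have hN := dc_sum_char hD hG hcχ hcχ hχk hχk hv
  rw [sum_char_mul_conj] at hN
  have hc1 : c χ = 1 := by
    simp only [c, om]
    rw [hsum χ, hAdef]
    have : ∑ x ∈ regF p G, χ.1 x * conj (χ.1 x) = (Nat.card G : ℂ) / Nat.card D := by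
      rw [hN]
      field_simp
    rw [this]
    field_simp
  have hc2 : c θ = 0 := by
    simp only [c, om]
    rw [hsum θ]
    have hM2 := dc_sum_char hD hG hcθ hcχ hθk hχk hv
    have h3 : ∑ u, θ.1 u * conj (χ.1 u) = 0 := by
      have h4 := classInner_irr θ χ
      rw [if_neg hne] at h4
      unfold classInner at h4
      rcases mul_eq_zero.mp h4 with h5 | h5
      · exact absurd h5 (inv_ne_zero h0)
      · exact h5
    rw [h3] at hM2
    have h5 : ∑ x ∈ regF p G, θ.1 x * conj (χ.1 x) = 0 := by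
      rcases mul_eq_zero.mp hM2.symm with h6 | h6
      · exact absurd h6 h0'
      · exact h6
    rw [h5, mul_zero, mul_zero]
  have h1 := ZR_congr hc hsame
  rw [hc1, hc2, sub_zero] at h1
  exact not_mli_one h1

/-- The sum of squares of degrees in the block. -/
theorem dc_block_sum [Fintype (IrrCharacter G)] (hM : IsPModular p M) (hD : IsPGroup p D)
    (hG : D ⊔ Subgroup.centralizer (D : Set G) = ⊤) {B : Set (IrrCharacter G)} (hB : IsPBlock M B)
    (χ : IrrCharacter G) (hχ : χ ∈ B) (hχk : ∀ y ∈ D, χ.1 y = χ.1 1)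
    (huniq : ∀ θ ∈ B, (∀ y ∈ D, θ.1 y = θ.1 1) → θ = χ) :
    ∑ θ : IrrCharacter G, eB B θ * (θ.1 1 * conj (θ.1 1)) =
      (Nat.card D : ℂ) * (χ.1 1 * conj (χ.1 1)) := by
  classical
  haveI : M.IsPrime := hM.2.1.isPrime
  haveI := dc_normal hG
  have h1 : ¬ p ∣ orderOf (1 : G) := by
    rw [orderOf_one]
    exact fun h => hp.out.one_lt.ne' (Nat.dvd_one.mp h)
  have hall : ∑ y : D, ∑ θ : IrrCharacter G, eB B θ * (θ.1 1 * conj (θ.1 (y : G))) =
      ∑ θ : IrrCharacter G, eB B θ * (θ.1 1 * conj (θ.1 1)) := by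
    rw [Finset.sum_eq_single (1 : D)]
    · simp
    · intro y _ hy
      apply block_orth_regular_singular hM hB h1
      obtain ⟨k, hk⟩ := orderOf_of_pGroup hD y.2
      have hk0 : k ≠ 0 := by
        rintro rfl
        rw [pow_zero, orderOf_eq_one_iff] at hk
        exact hy (Subtype.ext hk)
      rw [hk]
      exact dvd_pow_self p hk0
    · intro h
      exact absurd (Finset.mem_univ _) h
  rw [← hall, Finset.sum_comm]
  rw [Finset.sum_eq_single χ]
  · simp only [eB_apply_mem hχ, one_mul]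
    rw [← Finset.mul_sum, ← map_sum]
    have h2 : ∑ y : D, χ.1 (y : G) = (Nat.card D : ℂ) * χ.1 1 := by
      rw [Finset.sum_congr rfl (fun (y : D) _ => hχk (y : G) y.2)]
      simp [Nat.card_eq_fintype_card]
    rw [h2, map_mul, Complex.conj_natCast]
    ring
  · intro θ _ hθ
    by_cases hθB : θ ∈ B
    · simp only [eB_apply_mem hθB, one_mul]
      rw [← Finset.mul_sum, ← map_sum]
      obtain ⟨c, hc, hc2⟩ := sum_normal_scalar D θ
      have h3 := hc 1
      simp only [mul_one] at h3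
      have h3' : ∑ d : D, θ.1 (d : G) = c * θ.1 1 := by
        rw [← h3]
        exact Finset.sum_congr (by ext; simp) (fun _ _ => rfl)
      rcases hc2 with h4 | h4
      · have h5 : ∑ d : D, θ.1 (d : G) = 0 := by
          rw [h3', h4, zero_mul]
        rw [h5, map_zero, mul_zero]
      · exfalso
        apply hθ
        apply huniq θ hθB
        intro y hy
        apply ker_of_sum_eq D θ _ y hy
        simp only [mul_one]
        rw [h3, h4]
    · simp only [eB_apply_not_mem hθB, zero_mul, Finset.sum_const_zero]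
  · intro h
    exact absurd (Finset.mem_univ _) h


/-- The main theorem: the characters of the block are the functions `fZ`. -/
theorem dc_main (hM : IsPModular p M) (hD : IsPGroup p D)
    (hG : D ⊔ Subgroup.centralizer (D : Set G) = ⊤) (B : Set (IrrCharacter G)) (hB : IsPBlock M B)
    (hBD : IsDefectGroup p M B D) (χ : IrrCharacter G) (hχ : χ ∈ B)
    (hχk : ∀ y ∈ D, χ.1 y = χ.1 1) :
    ∃ Φ : IrrCharacter D → IrrCharacter G, (∀ ζ, (Φ ζ).1 = fZ p D ζ.1 χ.1) ∧ ∀ θ, θ ∈ B ↔ ∃ ζ, θ = Φ ζ := by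
  classical
  haveI : M.IsPrime := hM.2.1.isPrime
  haveI hnorm := dc_normal hG
  haveI : Fintype (IrrCharacter G) := Fintype.ofFinite _
  haveI : Fintype (IrrCharacter D) := Fintype.ofFinite _
  have hBeq : B = blockOf M χ.1 := block_eq_of_mem hB hχ
  have hv : ∀ u : G, pPt p u ∉ D → χ.1 u = 0 := by
    intro u hu
    apply vanish_off_defect hM χ (isPPart_pPt p u)
    intro D' hD'
    rw [← hBeq] at hD'
    obtain ⟨x, hx⟩ := exists_conj_defect hM hB hBD hD'
    have h1 : D' = D := by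
      rw [← hx]
      ext y
      rw [mem_cq]
      constructor
      · intro hy
        have := hnorm.conj_mem _ hy x
        simpa [mul_assoc] using this
      · intro hy
        have := hnorm.conj_mem _ hy x⁻¹
        simpa using this
    rw [h1]
    exact hu
  have hdvd := pow_dvd_degree hM hB hBD hχ
  have huniq : ∀ θ ∈ B, (∀ y ∈ D, θ.1 y = θ.1 1) → θ = χ := by
    intro θ hθ hθk
    rw [hBeq] at hθ
    exact dc_unique hM hD hG χ θ hχk hθk hv hdvd hθ
  have hirr := fun ζ : IrrCharacter D => fZ_irr hD hG ζ χ hχk hv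
  let Φ : IrrCharacter D → IrrCharacter G := fun ζ => ⟨fZ p D ζ.1 χ.1, hirr ζ⟩
  have hΦinj : Function.Injective Φ := by
    intro ζ ξ h
    by_contra hne
    have h1 : classInner (Φ ζ).1 (Φ ξ).1 = classInner ζ.1 ξ.1 := fZ_inner hD hG _ _ χ hχk hv
    rw [h, classInner_self_irr, classInner_irr, if_neg hne] at h1
    exact one_ne_zero h1
  have hΦB : ∀ ζ, Φ ζ ∈ B := by
    intro ζ
    rw [hBeq]
    exact fZ_sameBlock hM hD hG ζ χ (hirr ζ)
  refine ⟨Φ, fun _ => rfl, ?_⟩
  -- counting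
  have hsum := dc_block_sum hM hD hG hB χ hχ hχk huniq
  have hdegsq : ∀ θ : IrrCharacter G, θ.1 1 * conj (θ.1 1) = ((charDegree θ.1 ^ 2 : ℕ) : ℂ) := by
    intro θ
    rw [one_eq_charDegree (Cfsg.Agent.H21.isCharacter_of_irr θ.2), Complex.conj_natCast]
    push_cast
    ring
  let Sb : Finset (IrrCharacter G) := Finset.univ.filter (· ∈ B)
  have hS : ∑ θ ∈ Sb, charDegree θ.1 ^ 2 = Nat.card D * charDegree χ.1 ^ 2 := by
    have h1 : ∑ θ : IrrCharacter G, eB B θ * (θ.1 1 * conj (θ.1 1)) =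
        ((∑ θ ∈ Sb, charDegree θ.1 ^ 2 : ℕ) : ℂ) := by
      rw [Nat.cast_sum, Finset.sum_filter]
      refine Finset.sum_congr rfl fun θ _ => ?_
      by_cases hθ : θ ∈ B
      · rw [eB_apply_mem hθ, if_pos hθ, one_mul, hdegsq]
      · rw [eB_apply_not_mem hθ, if_neg hθ, zero_mul]
    rw [h1, hdegsq] at hsum
    exact_mod_cast hsum
  let Im : Finset (IrrCharacter G) := Finset.univ.image Φ
  have hIm : Im ⊆ Sb := by
    intro θ hθ
    obtain ⟨ζ, -, rfl⟩ := Finset.mem_image.mp hθ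
    exact Finset.mem_filter.mpr ⟨Finset.mem_univ _, hΦB ζ⟩
  have hImS : ∑ θ ∈ Im, charDegree θ.1 ^ 2 = Nat.card D * charDegree χ.1 ^ 2 := by
    simp only [Im]
    rw [Finset.sum_image (fun a _ b _ h => hΦinj h)]
    have h1 : ∀ ζ : IrrCharacter D, charDegree (Φ ζ).1 ^ 2 = charDegree ζ.1 ^ 2 * charDegree χ.1 ^ 2 := by
      intro ζ
      show charDegree (fZ p D ζ.1 χ.1) ^ 2 = _
      rw [fZ_degree hD hG ζ χ (hirr ζ)]
      ring
    simp only [h1]
    rw [← Finset.sum_mul]
    congr 1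
    exact sum_degree_sq
  intro θ
  constructor
  · intro hθ
    by_contra hne
    have hθIm : θ ∉ Im := by
      intro hm
      obtain ⟨ζ, -, h⟩ := Finset.mem_image.mp hm
      exact hne ⟨ζ, h.symm⟩
    have h1 := Finset.sum_sdiff (f := fun θ : IrrCharacter G => charDegree θ.1 ^ 2) hIm
    rw [hS, hImS] at h1
    have h2 : ∑ θ ∈ Sb \ Im, charDegree θ.1 ^ 2 = 0 := by omega
    have h3 := (Finset.sum_eq_zero_iff.mp h2) θ
      (Finset.mem_sdiff.mpr ⟨Finset.mem_filter.mpr ⟨Finset.mem_univ _, hθ⟩, hθIm⟩)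
    have h4 := irr_charDegree_pos θ.2
    have h5 : charDegree θ.1 = 0 := by simpa using h3
    omega
  · rintro ⟨ζ, rfl⟩
    exact hΦB ζ

end

end Cfsg.Agent.H22
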