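import Cfsg.Agent.Lib.H22.PermKey
import Cfsg.Agent.Lib.H06.CharVirtual
import Cfsg.Agent.Lib.H03.PC2

/-! # Sylow normalizers of order `2p`: the virtual characters `F_j + 1` -/

set_option autoImplicit false
set_option linter.unusedSectionVars false
set_option linter.style.haveILetI false
set_option linter.unusedSimpArgs false
set_option linter.unusedVariables false

namespace Cfsg.Agent.H22

open Cfsg Cfsg.Agent.H21 Cfsg.Agent.H06 Cfsg.Agent.H03
open scoped ComplexConjugate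

section Fourier

variable {P : Type*} [Group P] [Fintype P] {p : ℕ} [Fact p.Prime]

theorem km_faithful (hP : Nat.card P = p) (μ : P →* ℂˣ) (hμ : μ ≠ 1) (z : P) (hz : z ≠ 1) :
    μ z ≠ 1 := by
  intro h
  apply hμ
  have hpp : p.Prime := Fact.out
  have ho : orderOf z = p := by
    have h1 : orderOf z ∣ Nat.card P := orderOf_dvd_natCard z
    rw [hP] at h1
    rcases (Nat.dvd_prime hpp).mp h1 with h2 | h2
    · exact absurd (orderOf_eq_one_iff.mp h2) hz
    · exact h2
  have htop : Subgroup.zpowers z = ⊤ := by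
    apply Subgroup.eq_top_of_card_eq
    rw [Nat.card_zpowers, ho, hP]
  ext y
  have hy : y ∈ Subgroup.zpowers z := by rw [htop]; trivial
  obtain ⟨k, rfl⟩ := Subgroup.mem_zpowers_iff.mp hy
  simp [h]

open Classical in
theorem kmH_sum_k (hP : Nat.card P = p) (μ : P →* ℂˣ) (hμ : μ ≠ 1) (z : P) :
    ∑ k ∈ Finset.range p, kmH μ (k : ℤ) z = if z = 1 then (p : ℂ) else 0 := by
  classical
  have hpp : p.Prime := Fact.out
  have e : ∀ k : ℕ, kmH μ (k : ℤ) z = ((μ z : ℂˣ) : ℂ) ^ k := by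
    intro k
    simp [kmH]
  simp only [e]
  split_ifs with hz
  · subst hz
    simp
  · have h1 : ((μ z : ℂˣ) : ℂ) ≠ 1 := fun h => km_faithful hP μ hμ z hz (Units.ext h)
    rw [geom_sum_eq h1]
    have h2 : ((μ z : ℂˣ) : ℂ) ^ p = 1 := by
      have h3 : z ^ p = 1 := by rw [← hP]; exact pow_card_eq_one'
      have h4 : (μ z) ^ p = 1 := by rw [← map_pow, h3, map_one]
      rw [← Units.val_pow_eq_pow_val, h4, Units.val_one]
    rw [h2]
    simp

theorem fourier_identity (hP : Nat.card P = p) (μ : P →* ℂˣ) (hμ : μ ≠ 1) (f : P → ℂ) (z : P) :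
    ∑ k ∈ Finset.range p, conj (classInner (kmH μ (k : ℤ)) f) * kmH μ (k : ℤ) z = f z := by
  classical
  have hp0 : (p : ℂ) ≠ 0 := by exact_mod_cast (Fact.out : p.Prime).ne_zero
  have h1 : ∀ k : ℕ, conj (classInner (kmH μ (k : ℤ)) f) * kmH μ (k : ℤ) z =
      (p : ℂ)⁻¹ * ∑ y : P, f y * kmH μ (k : ℤ) (y⁻¹ * z) := by
    intro k
    simp only [classInner, hP, map_mul, map_sum, map_inv₀, map_natCast, Complex.conj_conj]
    rw [mul_assoc, Finset.sum_mul]
    congr 1
    refine Finset.sum_congr rfl fun y _ => ?_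
    rw [kmH_conj, ← kmH_inv]
    have e1 : kmH μ (k : ℤ) (y⁻¹ * z) = kmH μ (k : ℤ) y⁻¹ * kmH μ (k : ℤ) z := by
      simp only [kmH, map_mul, mul_zpow, Units.val_mul]
    rw [e1]
    ring
  simp only [h1]
  rw [← Finset.mul_sum, Finset.sum_comm]
  have h2 : ∀ y : P, ∑ k ∈ Finset.range p, f y * kmH μ (k : ℤ) (y⁻¹ * z) =
      f y * if y = z then (p : ℂ) else 0 := by
    intro y
    rw [← Finset.mul_sum, kmH_sum_k hP μ hμ]
    congr 2
    simp [inv_mul_eq_one]
  simp only [h2]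
  simp only [mul_ite, mul_zero, Finset.sum_ite_eq', Finset.mem_univ, if_true]
  field_simp

open Classical in
/-- Fourier inversion in the form used below. -/
theorem fourier_km (hP : Nat.card P = p) (μ : P →* ℂˣ) (hμ : μ ≠ 1) (f : P → ℂ) (A s : ℂ)
    (h0 : classInner (kmH μ 0) f = A)
    (hk : ∀ k : ℕ, 1 ≤ k → k < p → classInner (kmH μ (k : ℤ)) f = A + s) (z : P) :
    f z = conj A * (if z = 1 then (p : ℂ) else 0) + conj s * ((if z = 1 then (p : ℂ) else 0) - 1) := by
  classical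
  have hp0 : 0 < p := (Fact.out : p.Prime).pos
  rw [← fourier_identity hP μ hμ f z, ← kmH_sum_k hP μ hμ z]
  have h1 : ∀ k ∈ Finset.range p, conj (classInner (kmH μ (k : ℤ)) f) * kmH μ (k : ℤ) z =
      conj A * kmH μ (k : ℤ) z + conj s * (kmH μ (k : ℤ) z - if k = 0 then 1 else 0) := by
    intro k hk'
    rw [Finset.mem_range] at hk'
    rcases Nat.eq_zero_or_pos k with rfl | hk0
    · simp [h0]
    · rw [hk k hk0 hk', if_neg (by omega), map_add]
      ring
  rw [Finset.sum_congr rfl h1, Finset.sum_add_distrib, ← Finset.mul_sum, ← Finset.mul_sum,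
    Finset.sum_sub_distrib, Finset.sum_ite_eq' (Finset.range p) 0, if_pos (Finset.mem_range.mpr hp0)]

end Fourier

section Exc

variable {G : Type*} [Group G] [Fintype G] {p : ℕ} [Fact p.Prime] {P : Subgroup G} [Fintype P]

/-- The local data of a Sylow subgroup of order `p ≥ 5` with dihedral normalizer of order `2p`. -/
structure Exc2 (p : ℕ) (P : Subgroup G) [Fintype P] : Prop where
  hPc : Nat.card P = p
  hp5 : 5 ≤ p
  hind : ∀ (θ : P → ℂ) (y : P), y ≠ 1 → indFun P θ (y : G) = θ y + θ y⁻¹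
  hreg : ∀ (θ : P → ℂ) (g : G), g ≠ 1 → ¬ p ∣ orderOf g → indFun P θ g = 0

/-- Restrictions to `P` from inner products with the `F_k`. -/
theorem restrict_of_F (hP : Nat.card P = p) (μ : P →* ℂˣ) (hμ : μ ≠ 1) {ψ : G → ℂ}
    (hψ : IsClassFunction G ψ) (s : ℂ) (hs : ∀ k : ℤ, ¬ (p : ℤ) ∣ k → classInner (FjH P μ k) ψ = s) :
    (∀ z : P, z ≠ 1 → ψ z = - conj s) ∧
      ψ 1 = conj (classInner (indFun P (kmH μ 0)) ψ) * p + conj s * (p - 1) := by
  classical
  have key := fourier_km hP μ hμ (fun y : P => ψ y) (classInner (indFun P (kmH μ 0)) ψ) s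
    (by rw [frobenius_reciprocity P _ _ hψ])
    (by
      intro k h1 h2
      have h3 := hs (k : ℤ) (dvd_auxH (by omega) (by omega) (by omega))
      rw [FjH, classInner_sub_leftH, frobenius_reciprocity P _ _ hψ] at h3
      rw [← h3, frobenius_reciprocity P _ _ hψ]
      ring)
  constructor
  · intro z hz
    have := key z
    simp only [if_neg hz] at this
    rw [this]
    ring
  · have := key 1
    simp only [if_true, OneMemClass.coe_one] at this
    exact this

variable (hx : Exc2 p P) (μ : P →* ℂˣ) (hμ : μ ≠ 1)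

include hx in
theorem Exc2.F_at_P (j : ℤ) (y : P) (hy : y ≠ 1) :
    FjH P μ j (y : G) = kmH μ j y + kmH μ (-j) y + (-2) * kmH μ 0 y := by
  simp only [FjH, Pi.sub_apply, hx.hind _ y hy, kmH_inv, kmH_zero, neg_zero]
  ring

include hx in
theorem Exc2.F_at_reg (j : ℤ) (g : G) (hg : g ≠ 1) (hg2 : ¬ p ∣ orderOf g) :
    FjH P μ j g = 0 := by
  simp only [FjH, Pi.sub_apply, hx.hreg _ g hg hg2, sub_zero]

include hx hμ in
theorem Exc2.F_inner_one (j : ℤ) (hj : ¬ (p : ℤ) ∣ j) :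
    classInner (FjH P μ j) (fun _ => (1 : ℂ)) = -1 := by
  rw [FjH_inner hx.hPc μ hμ j (ψ := fun _ => (1 : ℂ)) (fun _ _ => rfl) 0 0 0 (-1) (fun y _ => by simp)]
  simp [DH, hj]

include hx hμ in
theorem Exc2.F_inner_pi {π : G → ℂ} (hπ : IsClassFunction G π) (hπP : ∀ y : P, y ≠ 1 → π y = 0)
    (j : ℤ) (hj : ¬ (p : ℤ) ∣ j) : classInner (FjH P μ j) π = 0 := by
  rw [FjH_inner hx.hPc μ hμ j hπ 0 0 0 (-2)
    (fun y hy => by rw [hπP y hy]; simp; norm_num)]
  simp [DH, hj, conj_neg_twoH]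
  norm_num

include hx hμ in
theorem Exc2.F_inner_F (i j : ℤ) (hi : ¬ (p : ℤ) ∣ i) (hj : ¬ (p : ℤ) ∣ j) :
    classInner (FjH P μ i) (FjH P μ j) = DH p i j + DH p i (-j) + 2 := by
  rw [FjH_inner hx.hPc μ hμ i (FjH_isClass μ j) j (-j) 0 (-2) (fun y hy => hx.F_at_P μ j y hy)]
  have h1 : ¬ (p : ℤ) ∣ (0 - j) := by rwa [zero_sub, dvd_neg]
  have h2 : ¬ (p : ℤ) ∣ (0 - -j) := by rwa [zero_sub, neg_neg]
  simp [DH, hi, h1, h2, hj, conj_neg_twoH]

include hx hμ in
/-- The inner product of `Ind 1` with `F_j`. -/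
theorem Exc2.ind_zero_inner_F (j : ℤ) (hj : ¬ (p : ℤ) ∣ j) :
    classInner (indFun P (kmH μ 0)) (FjH P μ j) = -2 := by
  rw [frobenius_reciprocity P _ _ (FjH_isClass μ j)]
  have h3 : (fun y : P => FjH P μ j (y : G)) = kmH μ j + kmH μ (-j) + (-2 : ℂ) • kmH μ 0 := by
    funext y
    by_cases hy : y = 1
    · subst hy
      simp only [OneMemClass.coe_one, FjH_at_one, Pi.add_apply, Pi.smul_apply, kmH_at_one, smul_eq_mul]
      norm_num
    · simp only [hx.F_at_P μ j y hy, Pi.add_apply, Pi.smul_apply, smul_eq_mul]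
  rw [h3, classInner_km_comb hx.hPc μ hμ 0 j (-j) 0 (-2)]
  have h1 : ¬ (p : ℤ) ∣ (0 - j) := by rwa [zero_sub, dvd_neg]
  have h2 : ¬ (p : ℤ) ∣ (0 - -j) := by rwa [zero_sub, neg_neg]
  simp [DH, h1, h2, hj, conj_neg_twoH]

/-- The virtual character `F_j + 1`. -/
noncomputable def VjH (P : Subgroup G) [Fintype P] (μ : P →* ℂˣ) (j : ℤ) : G → ℂ :=
  FjH P μ j + fun _ => 1

theorem VjH_isClass (j : ℤ) : IsClassFunction G (VjH P μ j) := by
  intro g k
  simp only [VjH, Pi.add_apply, FjH_isClass μ j g k]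

theorem VjH_at_one (j : ℤ) : VjH P μ j 1 = 1 := by
  simp only [VjH, Pi.add_apply, FjH_at_one, zero_add]

theorem VjH_gen (j : ℤ) : IsGeneralizedCharacter G (VjH P μ j) :=
  gen_add (gen_sub (gen_of_char (isCharacter_indFun P (kmH_isCharacter μ j)))
    (gen_of_char (isCharacter_indFun P (kmH_isCharacter μ 0)))) (gen_of_char isCharacter_one)

include hx hμ in
theorem VjH_inner_one (j : ℤ) (hj : ¬ (p : ℤ) ∣ j) :
    classInner (VjH P μ j) (fun _ => (1 : ℂ)) = 0 := by
  rw [VjH, classInner_add_left, hx.F_inner_one μ hμ j hj, classInner_one_one]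
  ring

include hx hμ in
theorem VjH_inner_V (i j : ℤ) (hi : ¬ (p : ℤ) ∣ i) (hj : ¬ (p : ℤ) ∣ j) :
    classInner (VjH P μ i) (VjH P μ j) = DH p i j + DH p i (-j) + 1 := by
  have h1 : classInner (fun _ => (1 : ℂ)) (FjH P μ j) = -1 := by
    rw [← classInner_comm_conj, hx.F_inner_one μ hμ j hj]
    simp
  rw [VjH, VjH, classInner_add_left, classInner_add_right, classInner_add_right,
    hx.F_inner_F μ hμ i j hi hj, hx.F_inner_one μ hμ i hi, h1, classInner_one_one]
  ring

include hx in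
theorem Exc2.DH_two (j : ℤ) (hj : ¬ (p : ℤ) ∣ j) : DH p j j + DH p j (-j) = 1 := by
  have hpp : p.Prime := Fact.out
  have h5 := hx.hp5
  have hj2 : ¬ (p : ℤ) ∣ (j - -j) := by
    intro h
    have h2 : (p : ℤ) ∣ 2 * j := by
      have : j - -j = 2 * j := by ring
      rwa [this] at h
    have hpi : Prime (p : ℤ) := Nat.prime_iff_prime_int.mp hpp
    rcases hpi.dvd_or_dvd h2 with h3 | h3
    · have h4 : (p : ℤ) ≤ 2 := Int.le_of_dvd (by norm_num) h3
      omega
    · exact hj h3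
  have hj3 : ¬ (p : ℤ) ∣ (j + j) := by
    have : j + j = j - -j := by ring
    rwa [this]
  simp [DH, hj3]

include hx hμ in
/-- **Decomposition**: `F_j + 1` is a difference of two distinct non-principal irreducible
characters. -/
theorem VjH_decomp (j : ℤ) (hj : ¬ (p : ℤ) ∣ j) :
    ∃ D E : IrrCharacter G, VjH P μ j = (D : G → ℂ) - (E : G → ℂ) ∧ D ≠ E ∧
      D ≠ PC.oneI G ∧ E ≠ PC.oneI G ∧ (D : G → ℂ) 1 = (E : G → ℂ) 1 + 1 := by
  classical
  have hn : classInner (VjH P μ j) (VjH P μ j) = 2 := by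
    rw [VjH_inner_V hx μ hμ j j hj hj, hx.DH_two j hj]
    norm_num
  obtain ⟨a, b, ha, hb, hab, hV⟩ := exists_of_norm_two (VjH_gen μ j) hn
  have h1 := VjH_at_one (P := P) μ j
  have hdeg : ∀ χ : G → ℂ, IsIrrCharacter G χ → ∃ d : ℕ, 0 < d ∧ χ 1 = d := fun χ hχ =>
    ⟨charDegree χ, irr_charDegree_pos hχ, (one_eq_charDegree (Cfsg.Agent.H21.isCharacter_of_irr hχ))⟩
  have key : ∃ D E : IrrCharacter G, VjH P μ j = (D : G → ℂ) - (E : G → ℂ) ∧
      classInner (D : G → ℂ) (E : G → ℂ) = 0 := by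
    rcases ha with ha | ha <;> rcases hb with hb | hb
    · exfalso
      obtain ⟨d, hd, hd1⟩ := hdeg a ha
      obtain ⟨e, he, he1⟩ := hdeg b hb
      rw [hV, Pi.add_apply, hd1, he1] at h1
      have : d + e = 1 := by exact_mod_cast h1
      omega
    · refine ⟨⟨a, ha⟩, ⟨-b, hb⟩, by rw [hV]; simp [sub_eq_add_neg], ?_⟩
      show classInner a (-b) = 0
      rw [classInner_neg_right', hab, neg_zero]
    · refine ⟨⟨b, hb⟩, ⟨-a, ha⟩, by rw [hV]; simp [sub_eq_add_neg, add_comm], ?_⟩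
      show classInner b (-a) = 0
      rw [classInner_neg_right', ← classInner_comm_conj, hab]
      simp
    · exfalso
      obtain ⟨d, hd, hd1⟩ := hdeg (-a) ha
      obtain ⟨e, he, he1⟩ := hdeg (-b) hb
      rw [Pi.neg_apply] at hd1 he1
      rw [hV, Pi.add_apply] at h1
      have h3 : (a 1 + b 1) = -(d + e : ℂ) := by linear_combination -hd1 - he1
      rw [h3] at h1
      have h4 : (d : ℂ) + e + 1 = 0 := by linear_combination -h1
      have h5 : ((d + e + 1 : ℕ) : ℂ) = 0 := by push_cast; exact h4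
      have h6 : d + e + 1 = 0 := by exact_mod_cast h5
      omega
  obtain ⟨D, E, hVD, hDE⟩ := key
  have hne : D ≠ E := by
    intro h
    rw [h, classInner_irr, if_pos rfl] at hDE
    exact one_ne_zero hDE
  have hone : classInner (D : G → ℂ) (fun _ => (1 : ℂ)) = classInner (E : G → ℂ) (fun _ => (1 : ℂ)) := by
    have h2 := VjH_inner_one hx μ hμ j hj
    rw [hVD, classInner_sub_leftH] at h2
    linear_combination h2
  have hone' : ∀ χ : IrrCharacter G, classInner (χ : G → ℂ) (fun _ => (1 : ℂ)) =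
      if χ = PC.oneI G then 1 else 0 := fun χ => classInner_irr χ (PC.oneI G)
  rw [hone', hone'] at hone
  refine ⟨D, E, hVD, hne, ?_, ?_, ?_⟩
  · intro h
    rw [if_pos h] at hone
    split_ifs at hone with h2
    · exact hne (h.trans h2.symm)
    · exact one_ne_zero hone
  · intro h
    rw [if_pos h] at hone
    split_ifs at hone with h2
    · exact hne (h2.trans h.symm)
    · exact zero_ne_one hone
  · have h2 := h1
    rw [hVD, Pi.sub_apply] at h2
    linear_combination h2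

end Exc

end Cfsg.Agent.H22
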