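import Cfsg.Agent.Lib.H22.Deg2pD
import Cfsg.Agent.Lib.H03.PC4
import Cfsg.Agent.Lib.H16.SL25Rec
import Cfsg.Agent.Lib.H02.SmallC

/-! # Primitive groups of degree `2p` with a Sylow normalizer of order `2p`: the end of the proof -/

set_option autoImplicit false
set_option linter.unusedSectionVars false
set_option linter.style.haveILetI false
set_option linter.unusedSimpArgs false
set_option linter.unusedVariables false

namespace Cfsg.Agent.H22

open Cfsg Cfsg.Agent.H21 Cfsg.Agent.H03 Cfsg.Agent.H03.PC MulAction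
open scoped ComplexConjugate Pointwise commutatorElement

attribute [-instance] Cfsg.Agent.H22.fintypeOfFiniteH22

section Comb

variable {α : Type*} [Fintype α] [DecidableEq α]

/-- A vertex-fixing permutation of a cubic graph in which non-adjacent vertices have a unique
common neighbour is the identity as soon as it fixes a vertex `a`, a vertex `x` at distance two
and a neighbour of `a` which is not the middle vertex. -/
theorem cubic_fix_all (adj : α → α → Prop) [DecidableRel adj] (hsym : ∀ x y, adj x y → adj y x)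
    (hΔ : ∀ x, (Finset.univ.filter (adj x)).card = 3)
    (huniq : ∀ x y, x ≠ y → ¬ adj x y → ∃! z, adj x z ∧ adj z y)
    (h : α → α) (hinj : Function.Injective h) (hadj : ∀ x y, adj x y → adj (h x) (h y))
    (a x c w : α) (ha : h a = a) (hx : h x = x) (hc : h c = c) (hax : a ≠ x) (hnax : ¬ adj a x)
    (hw1 : adj a w) (hw2 : adj w x) (hac : adj a c) (hcw : c ≠ w) (y : α) : h y = y := by
  have hw : h w = w := by
    obtain ⟨z, -, hz⟩ := huniq a x hax hnax
    have h1 := hadj a w hw1
    have h2 := hadj w x hw2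
    rw [ha] at h1
    rw [hx] at h2
    exact (hz (h w) ⟨h1, h2⟩).trans (hz w ⟨hw1, hw2⟩).symm
  have T : ∀ u, h u = u → ∀ p q, adj u p → adj u q → p ≠ q → h p = p → h q = q →
      ∀ r, adj u r → h r = r := by
    intro u hu p q hp hq hpq hfp hfq r hr
    by_cases hrp : r = p
    · rw [hrp, hfp]
    by_cases hrq : r = q
    · rw [hrq, hfq]
    have h3 : Finset.univ.filter (adj u) = {p, q, r} := by
      symm
      apply Finset.eq_of_subset_of_card_le
      · intro t ht
        simp only [Finset.mem_insert, Finset.mem_singleton] at ht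
        rcases ht with rfl | rfl | rfl <;> simp [hp, hq, hr]
      · rw [hΔ u, Finset.card_eq_three.2 ⟨p, q, r, hpq, Ne.symm hrp, Ne.symm hrq, rfl⟩]
    have h4 : h r ∈ Finset.univ.filter (adj u) := by
      simp only [Finset.mem_filter, Finset.mem_univ, true_and]
      have := hadj u r hr
      rwa [hu] at this
    rw [h3] at h4
    simp only [Finset.mem_insert, Finset.mem_singleton] at h4
    rcases h4 with h4 | h4 | h4
    · exact absurd (hinj (h4.trans hfp.symm)) hrp
    · exact absurd (hinj (h4.trans hfq.symm)) hrq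
    · exact h4
  have hΔa : ∀ u, adj a u → h u = u := T a ha w c hw1 hac hcw.symm hw hc
  have hΔu : ∀ u, adj a u → ∀ r, adj u r → h r = r := by
    intro u hu r hr
    by_cases huw : u = w
    · subst huw
      exact T u hw a x (hsym _ _ hw1) hw2 hax ha hx r hr
    · have hxu : x ≠ u := by
        rintro rfl
        exact hnax hu
      have hnxu : ¬ adj x u := by
        intro h3
        obtain ⟨z, -, hz⟩ := huniq a x hax hnax
        exact huw ((hz u ⟨hu, hsym _ _ h3⟩).trans (hz w ⟨hw1, hw2⟩).symm)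
      obtain ⟨z, ⟨hz1, hz2⟩, hz⟩ := huniq x u hxu hnxu
      have hfu : h u = u := hΔa u hu
      have hfz : h z = z := by
        have h1 := hadj x z hz1
        have h2 := hadj z u hz2
        rw [hx] at h1
        rw [hfu] at h2
        exact hz (h z) ⟨h1, h2⟩
      have hza : a ≠ z := by
        rintro rfl
        exact hnax (hsym _ _ hz1)
      exact T u hfu a z (hsym _ _ hu) (hsym _ _ hz2) hza ha hfz r hr
  by_cases hya : a = y
  · rw [← hya, ha]
  by_cases hay : adj a y
  · exact hΔa y hay
  obtain ⟨z, ⟨hz1, hz2⟩, -⟩ := huniq a y hya hay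
  exact hΔu z hz1 y hz2

end Comb

section Ten

variable {H : Type*} [Group H] [Fintype H] {α : Type*} [Fintype α] [MulAction H α] [FaithfulSMul H α]

theorem ten_core [IsPretransitive H α] {a₀ b c : α} (hR : R3 H a₀ b c) (hprim : IsPreprimitive H α)
    (hk : Nat.card (orbit (stabilizer H a₀) b) = 3) (hl : Nat.card (orbit (stabilizer H a₀) c) = 6) :
    ∃ m : ℕ, Nat.card (stabilizer H a₀) = 6 * m ∧ m ≤ 2 := by
  classical
  have hsq := hR.sq
  have hrow : ∀ (t x : α), ∑ y, orbC H a₀ t x y = (Nat.card (orbit (stabilizer H a₀) t) : ℂ) := by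
    intro t x
    have := orbC_row (G := H) a₀ t x 1
    simp only [Matrix.mulVecLin_apply, Matrix.mulVec, dotProduct, mul_one] at this
    exact this
  rw [hk] at hsq
  have hrel : (3 : ℂ) * 3 = 3 + (cnt H a₀ b b : ℂ) * 3 + (cnt H a₀ b c : ℂ) * 6 := by
    have h1 : ∑ y, (orbC H a₀ b * orbC H a₀ b) a₀ y = (3 : ℂ) * 3 := by
      simp only [Matrix.mul_apply]
      rw [Finset.sum_comm]
      simp only [← Finset.mul_sum, hrow, hk]
      rw [← Finset.sum_mul, hrow, hk]
      norm_num
    rw [hsq] at h1
    simp only [Matrix.add_apply, Matrix.smul_apply, smul_eq_mul, Finset.sum_add_distrib,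
      ← Finset.mul_sum, hrow, hk, hl, Matrix.one_apply, Finset.sum_ite_eq, Finset.mem_univ, if_true] at h1
    push_cast at h1
    linear_combination -h1
  have hrel' : 3 * 3 = 3 + cnt H a₀ b b * 3 + cnt H a₀ b c * 6 := by exact_mod_cast hrel
  have hμ1 := hR.cnt_pos hprim
  have hμ : cnt H a₀ b c = 1 := by omega
  set adj : α → α → Prop := fun x y => ∃ g : H, g • a₀ = x ∧ g • b = y with hadjdef
  have hsym : ∀ x y, adj x y → adj y x := by
    rintro x y ⟨k, rfl, rfl⟩
    obtain ⟨g, h1, h2⟩ := hR.hsb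
    exact ⟨k * g, by rw [mul_smul, h1], by rw [mul_smul, h2]⟩
  have hsmul : ∀ (s : H) (x y : α), adj x y → adj (s • x) (s • y) := by
    rintro s x y ⟨k, rfl, rfl⟩
    exact ⟨s * k, by rw [mul_smul], by rw [mul_smul]⟩
  have hΔ : ∀ x, (Finset.univ.filter (adj x)).card = 3 := by
    intro x
    have h1 := hrow b x
    rw [hk] at h1
    simp only [orbC_apply] at h1
    rw [Finset.card_filter]
    have h2 : ((∑ y, if adj x y then 1 else 0 : ℕ) : ℂ) = ((3 : ℕ) : ℂ) := by
      push_cast
      exact h1
    exact_mod_cast h2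
  have hbase : ∃! z, adj a₀ z ∧ adj z c := by
    unfold cnt at hμ
    obtain ⟨z, hz⟩ := Finset.card_eq_one.mp hμ
    have hz2 : ∀ t, (adj a₀ t ∧ adj t c) ↔ t = z := by
      intro t
      have := Finset.ext_iff.mp hz t
      simpa using this
    exact ⟨z, (hz2 z).mpr rfl, fun t ht => (hz2 t).mp ht⟩
  have huniq : ∀ x y, x ≠ y → ¬ adj x y → ∃! z, adj x z ∧ adj z y := by
    intro x y hxy hn
    obtain ⟨k, rfl⟩ := MulAction.exists_smul_eq H a₀ x
    have hyy : y = k • (k⁻¹ • y) := by simp
    set y' := k⁻¹ • y with hy'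
    rw [hyy] at hxy hn ⊢
    have hy'a : a₀ ≠ y' := fun h3 => hxy (by rw [← h3])
    have hny' : ¬ adj a₀ y' := fun h3 => hn (hsmul k _ _ h3)
    rcases hR.hall y' with h3 | h3 | h3
    · exact absurd h3.symm hy'a
    · exact absurd ((mem_orbit_stab).mp h3) hny'
    · obtain ⟨g, hg1, hg2⟩ := (mem_orbit_stab).mp h3
      obtain ⟨z, ⟨hz1, hz2⟩, hz⟩ := hbase
      refine ⟨(k * g) • z, ⟨?_, ?_⟩, ?_⟩
      · have := hsmul (k * g) _ _ hz1
        rwa [mul_smul, hg1] at this
      · have := hsmul (k * g) _ _ hz2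
        rwa [mul_smul k g c, hg2] at this
      · rintro t ⟨ht1, ht2⟩
        have hh1 : (k * g)⁻¹ • (k • a₀) = a₀ := by
          rw [mul_inv_rev, mul_smul, inv_smul_smul, inv_smul_eq_iff, hg1]
        have hh2 : (k * g)⁻¹ • (k • y') = c := by
          rw [mul_inv_rev, mul_smul, inv_smul_smul, inv_smul_eq_iff, hg2]
        have h4 : adj a₀ ((k * g)⁻¹ • t) := by
          have := hsmul (k * g)⁻¹ _ _ ht1
          rwa [hh1] at this
        have h5 : adj ((k * g)⁻¹ • t) c := by
          have := hsmul (k * g)⁻¹ _ _ ht2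
          rwa [hh2] at this
        have h6 := hz _ ⟨h4, h5⟩
        rw [← h6, smul_inv_smul]
  have hax : a₀ ≠ c := hR.hc.symm
  have hnax : ¬ adj a₀ c := fun h3 => hR.hbc ((mem_orbit_stab).mpr h3)
  obtain ⟨w, ⟨hw1, hw2⟩, hw⟩ := huniq a₀ c hax hnax
  set Δa := Finset.univ.filter (adj a₀) with hΔa
  have hwmem : w ∈ Δa := by simp [hΔa, hw1]
  set C := Δa.erase w with hC
  have hCcard : C.card = 2 := by
    rw [hC, Finset.card_erase_of_mem hwmem, hΔa, hΔ a₀]
  obtain ⟨c₁, hc₁⟩ : C.Nonempty := by
    rw [← Finset.card_pos]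
    omega
  have hc₁w : c₁ ≠ w := (Finset.mem_erase.mp hc₁).1
  have hc₁a : adj a₀ c₁ := by
    have := (Finset.mem_erase.mp hc₁).2
    simpa [hΔa] using this
  set S := stabilizer H a₀ with hS
  set T := stabilizer S c with hT
  have hcard : Nat.card (orbit S c) * Nat.card T = Nat.card S := by
    rw [← Nat.card_prod]
    exact Nat.card_congr (MulAction.orbitProdStabilizerEquivGroup S c)
  rw [hl] at hcard
  refine ⟨Nat.card T, hcard.symm, ?_⟩
  have hTa : ∀ t : T, ((t : S) : H) • a₀ = a₀ := fun t => (t : S).2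
  have hTc : ∀ t : T, ((t : S) : H) • c = c := fun t => t.2
  have hTw : ∀ t : T, ((t : S) : H) • w = w := by
    intro t
    have h1 := hsmul ((t : S) : H) _ _ hw1
    have h2 := hsmul ((t : S) : H) _ _ hw2
    rw [hTa] at h1
    rw [hTc] at h2
    exact hw _ ⟨h1, h2⟩
  let f : T → {y // y ∈ C} := fun t => ⟨((t : S) : H) • c₁, by
    rw [hC, Finset.mem_erase]
    constructor
    · intro h3
      apply hc₁w
      apply MulAction.injective ((t : S) : H)
      show ((t : S) : H) • c₁ = ((t : S) : H) • w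
      rw [h3, hTw t]
    · have h1 := hsmul ((t : S) : H) _ _ hc₁a
      rw [hTa] at h1
      simp [hΔa, h1]⟩
  have hf : Function.Injective f := by
    intro t₁ t₂ h12
    have h3 : ((t₁ : S) : H) • c₁ = ((t₂ : S) : H) • c₁ := congrArg Subtype.val h12
    set u : H := ((t₂ : S) : H)⁻¹ * ((t₁ : S) : H) with hu
    have hua : u • a₀ = a₀ := by rw [hu, mul_smul, hTa, inv_smul_eq_iff, hTa]
    have huc : u • c = c := by rw [hu, mul_smul, hTc, inv_smul_eq_iff, hTc]
    have huc₁ : u • c₁ = c₁ := by rw [hu, mul_smul, h3, inv_smul_smul]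
    have hall := cubic_fix_all adj hsym hΔ huniq (fun y => u • y) (MulAction.injective u)
      (fun x y hxy => hsmul u x y hxy) a₀ c c₁ w hua huc huc₁ hax hnax hw1 hw2 hc₁a hc₁w
    have hu1 : u = 1 := eq_of_smul_eq_smul fun y => by rw [hall y, one_smul]
    have h4 : ((t₁ : S) : H) = ((t₂ : S) : H) := by
      have : ((t₂ : S) : H)⁻¹ * ((t₁ : S) : H) = 1 := hu1
      exact (inv_mul_eq_one.mp this).symm
    exact Subtype.ext (Subtype.ext h4)
  have hle := Nat.card_le_card_of_injective f hf
  rwa [Nat.card_eq_fintype_card (α := {y // y ∈ C}), Fintype.card_coe, hCcard] at hle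

end Ten

theorem wielandt_arith (a s d p : ℕ) (ha : 0 < a) (hp : p = 2 * a ^ 2 + 2 * a + 1)
    (hs : 2 * s = (p - 1) * (p - 2)) (hd : d = a * (2 * a + 1) ∨ d = (a + 1) * (2 * a + 1))
    (hds : d ∣ s) : a = 1 := by
  obtain ⟨e, rfl⟩ : ∃ e, a = e + 1 := ⟨a - 1, by omega⟩
  have hp1 : p - 1 = 2 * ((e + 1) * (e + 2)) := by
    subst hp
    apply Nat.sub_eq_of_eq_add
    ring
  have hp2 : p - 2 = 2 * e ^ 2 + 6 * e + 3 := by
    subst hp
    apply Nat.sub_eq_of_eq_add
    ring
  rw [hp1, hp2] at hs
  have hs' : s = (e + 1) * ((e + 2) * (2 * e ^ 2 + 6 * e + 3)) := by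
    have h1 : 2 * s = 2 * ((e + 1) * ((e + 2) * (2 * e ^ 2 + 6 * e + 3))) := by
      rw [hs]
      ring
    omega
  have h2 : (2 * e + 3) ∣ s := by
    have h3 : (2 * e + 3) ∣ d := by
      rcases hd with rfl | rfl
      · exact ⟨e + 1, by ring⟩
      · exact ⟨e + 1 + 1, by ring⟩
    exact h3.trans hds
  rw [hs'] at h2
  have hc1 : Nat.Coprime (2 * e + 3) (e + 1) := by
    have h3 := Nat.gcd_dvd_left (2 * e + 3) (e + 1)
    have h4 := Nat.gcd_dvd_right (2 * e + 3) (e + 1)
    have h5 : Nat.gcd (2 * e + 3) (e + 1) ∣ 1 := by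
      have h6 : 2 * e + 3 = 2 * (e + 1) + 1 := by ring
      rw [h6] at h3
      exact (Nat.dvd_add_right (Dvd.dvd.mul_left (by rwa [h6] at h4) 2)).mp h3
    exact Nat.dvd_one.mp h5
  have hc2 : Nat.Coprime (2 * e + 3) (e + 2) := by
    have h3 := Nat.gcd_dvd_left (2 * e + 3) (e + 2)
    have h4 := Nat.gcd_dvd_right (2 * e + 3) (e + 2)
    have h5 : Nat.gcd (2 * e + 3) (e + 2) ∣ 1 := by
      have h6 : 2 * (e + 2) = (2 * e + 3) + 1 := by ring
      have h7 : Nat.gcd (2 * e + 3) (e + 2) ∣ (2 * e + 3) + 1 := by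
        rw [← h6]
        exact Dvd.dvd.mul_left h4 2
      exact (Nat.dvd_add_right h3).mp h7
    exact Nat.dvd_one.mp h5
  have h3 := hc1.dvd_of_dvd_mul_left h2
  have h4 := hc2.dvd_of_dvd_mul_left h3
  have h5 : 2 * e ^ 2 + 6 * e + 3 = (e + 1) * (2 * e + 3) + e := by ring
  rw [h5] at h4
  have h6 : (2 * e + 3) ∣ e := (Nat.dvd_add_right (Dvd.intro_left (e + 1) rfl)).mp h4
  have h7 : e = 0 := Nat.eq_zero_of_dvd_of_lt h6 (by omega)
  omega

theorem not_solvable_of_cent {α : Type*} [Fintype α] {p : ℕ} [hpf : Fact p.Prime]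
    {H : Type*} [Group H] [MulAction H α] [FaithfulSMul H α] [Finite H]
    (hprim : IsPreprimitive H α) (hα : Fintype.card α = 2 * p) (P : Sylow p H) (x : H)
    (hPx : (P : Subgroup H) = Subgroup.zpowers x) (hxo : orderOf x = p)
    (hcent : ∀ c : H, c * x = x * c → c ∈ Subgroup.zpowers x) : ¬ Group.IsSolvable H := by
  classical
  have hpp : p.Prime := hpf.out
  intro hs
  have hex : ∃ n, derivedSeries H n = ⊥ := hs.solvable
  have hne : ¬ derivedSeries H 0 = ⊥ := by
    intro h
    rw [derivedSeries_zero] at h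
    have hx1 : x ∈ (⊤ : Subgroup H) := Subgroup.mem_top x
    rw [h, Subgroup.mem_bot] at hx1
    rw [hx1, orderOf_one] at hxo
    exact hpp.one_lt.ne hxo
  have hn0 : Nat.find hex ≠ 0 := fun h => hne (by
    have := Nat.find_spec hex
    rwa [h] at this)
  obtain ⟨m, hm⟩ := Nat.exists_eq_succ_of_ne_zero hn0
  set D := derivedSeries H m with hD
  have hDbot : D ≠ ⊥ := Nat.find_min hex (m := m) (by omega)
  have hDcomm : ⁅D, D⁆ = ⊥ := by
    have := Nat.find_spec hex
    rw [hm] at this
    exact this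
  haveI hDn : D.Normal := derivedSeries_normal H m
  have hcomm : ∀ u ∈ D, ∀ v ∈ D, u * v = v * u := by
    intro u hu v hv
    have h1 : ⁅u, v⁆ ∈ ⁅D, D⁆ := Subgroup.commutator_mem_commutator hu hv
    rw [hDcomm, Subgroup.mem_bot, commutatorElement_eq_one_iff_mul_comm] at h1
    exact h1
  obtain ⟨⟨z, hz, hzD⟩, -⟩ := normal_has_of_prim hprim hα P D hDn hDbot
  have hz1 : (z : H) ≠ 1 := fun h => hz (Subtype.ext h)
  have hzQ : (z : H) ∈ Subgroup.zpowers x := by
    rw [← hPx]
    exact z.2
  have hzgen := zpowers_eq_of_mem x hxo hzQ hz1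
  have hxD : x ∈ D := by
    have h1 : x ∈ Subgroup.zpowers (z : H) := by
      rw [hzgen]
      exact Subgroup.mem_zpowers x
    exact (Subgroup.zpowers_le.mpr hzD) h1
  have hle : D ≤ Subgroup.zpowers x := fun d hd => hcent d (hcomm d hd x hxD)
  haveI := isPretransitive_normal_of_prim hprim D hDbot
  obtain ⟨a⟩ : Nonempty α := by
    apply Fintype.card_pos_iff.mp
    rw [hα]
    have := hpp.pos
    omega
  have h1 := card_dvd_of_transitive (α := α) D a
  rw [hα] at h1
  have h2 : Nat.card D ≤ Nat.card (Subgroup.zpowers x) := Subgroup.card_le_of_le hle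
  rw [Nat.card_zpowers, hxo] at h2
  have h3 := Nat.le_of_dvd Nat.card_pos h1
  have := hpp.pos
  omega

/-- **A primitive group of degree `2p`, not `2`-transitive, whose Sylow `p`-normalizer has order
`2p`, is `A₅` on ten points.** -/
theorem deg2p_main {α : Type*} [Fintype α] [DecidableEq α] {p : ℕ} [hpf : Fact p.Prime] (hp : 3 < p)
    (hα : Fintype.card α = 2 * p) (G : Subgroup (Equiv.Perm α))
    (hprim : MulAction.IsPreprimitive G α) (hnot2 : ¬ MulAction.IsMultiplyPretransitive G α 2)
    (P : Sylow p G) (hN : Nat.card (Subgroup.normalizer ((P : Subgroup G) : Set G)) = 2 * p) :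
    p = 5 ∧ Nonempty (G ≃* alternatingGroup (Fin 5)) := by
  classical
  letI : Fintype G := Fintype.ofFinite _
  have hpp : p.Prime := hpf.out
  have hp5 : 5 ≤ p := by
    by_contra hlt
    have hp4 : p = 4 := by omega
    rw [hp4] at hpp
    norm_num at hpp
  have hPc := card_sylow_of_norm (H := G) (by omega) P hN
  obtain ⟨x, hPx, hxo⟩ := exists_gen_sylow P hPc
  have hcent : ∀ c : G, c * x = x * c → c ∈ Subgroup.zpowers x := fun c hc =>
    cent_of_prim hprim hα (by omega) P x hPx hxo hN c hc
  have hN' : Nat.card (Subgroup.normalizer ((Subgroup.zpowers x : Subgroup G) : Set G)) = 2 * p := by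
    rw [← hPx]
    exact hN
  letI : Fintype (Subgroup.zpowers x) := Fintype.ofFinite _
  have hfree : ∀ y : Subgroup.zpowers x, y ≠ 1 → ∀ a : α, (y : G) • a ≠ a := by
    intro y hy a
    have hy1 : (y : G) ≠ 1 := fun h => hy (Subtype.ext h)
    exact no_fixed_of_not_two hp hα G hprim hnot2 (y : G) (orderOf_of_mem x hxo y.2 hy1) a
  have hx : Exc2 p (Subgroup.zpowers x) :=
    ⟨by rw [Nat.card_zpowers, hxo], hp5, fun θ y hy => indFun_prime2 x hxo hcent hN' θ y hy,
      fun θ g hg hg2 => indFun_regular x hxo θ g hg hg2⟩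
  set π : G → ℂ := fun g => (Nat.card (MulAction.fixedBy α g) : ℂ) with hπdef
  have hπc : IsCharacter G π := by
    have h := isCharacter_of_rep (Cfsg.permRep ℂ G α)
    rwa [PC.perm_char_fun] at h
  have hπ1 : π 1 = 2 * p := by
    have h1 : MulAction.fixedBy α (1 : G) = Set.univ := by
      ext a
      simp
    simp only [hπdef]
    rw [h1, Nat.card_congr (Equiv.Set.univ α), Nat.card_eq_fintype_card, hα]
    push_cast
    ring
  have hπP : ∀ y : Subgroup.zpowers x, y ≠ 1 → π y = 0 := by
    intro y hy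
    have h3 : MulAction.fixedBy α (y : G) = ∅ := by
      ext a
      simp only [MulAction.mem_fixedBy, Set.mem_empty_iff_false, iff_false]
      exact hfree y hy a
    simp only [hπdef, h3]
    simp
  haveI htr : IsPretransitive G α := hprim.toIsPretransitive
  obtain ⟨a₀⟩ : Nonempty α := by
    apply Fintype.card_pos_iff.mp
    rw [hα]
    omega
  haveI : Nonempty α := ⟨a₀⟩
  have h1 : classInner π (fun _ => 1) = 1 := by
    have h := PC.inner_perm_one (G := G) (Ω := α)
    rwa [PC.perm_char_fun] at h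
  have hK : ∀ K : Subgroup G, K.Normal → K ≠ ⊥ →
      (∃ z : Subgroup.zpowers x, z ≠ 1 ∧ (z : G) ∈ K) ∧ ∃ u ∈ K, orderOf u = 2 := by
    intro K hKn hKb
    obtain ⟨⟨z, hz, hzK⟩, hu⟩ := normal_has_of_prim hprim hα P K hKn hKb
    refine ⟨⟨⟨z, by rw [← hPx]; exact z.2⟩, ?_, hzK⟩, hu⟩
    intro h
    have h' := congrArg (fun t : Subgroup.zpowers x => (t : G)) h
    exact hz (Subtype.ext h')
  have hsing : ∀ g : G, p ∣ orderOf g → ∃ (c : G) (z : Subgroup.zpowers x), z ≠ 1 ∧ c⁻¹ * g * c = z := by
    intro g hg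
    obtain ⟨c, z, hz, hgz⟩ := sing_conj (by omega) P x hPx hxo hcent g hg
    refine ⟨c, ⟨z, by rw [← hPx]; exact z.2⟩, ?_, hgz⟩
    intro h
    have h' := congrArg (fun t : Subgroup.zpowers x => (t : G)) h
    exact hz (Subtype.ext h')
  have hrat : ∀ k : ℕ, k.Coprime (Nat.card G) → ∀ g, π (g ^ k) = π g := by
    intro k hk g
    simp only [hπdef]
    rw [fixedBy_pow_coprime g k hk]
  have hrk := PC.inner_self_eq_rank (G := G) (Ω := α) a₀
  rw [PC.perm_char_fun] at hrk
  rcases exc2_main hx hπc hπ1 hπP h1 hK with h2 | ⟨D, R, hπeq, hD1, hR1, hy⟩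
  · exfalso
    apply hnot2
    apply two_trans_of_rank_two a₀
    have h3 : (Nat.card (MulAction.orbitRel.Quotient (MulAction.stabilizer G a₀) α) : ℂ) = (2 : ℕ) := by
      rw [← hrk]
      show classInner π π = _
      rw [h2]
      norm_num
    exact_mod_cast h3
  · have hp0 : (p : ℂ) ≠ 0 := by exact_mod_cast hpp.ne_zero
    have hone1 : ((PC.oneI G : IrrCharacter G) : G → ℂ) 1 = 1 := rfl
    have hDne : D ≠ PC.oneI G := by
      intro h
      rw [h, hone1] at hD1
      have h3 : (p : ℂ) = ((2 : ℕ) : ℂ) := by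
        push_cast
        linear_combination -hD1
      have h4 : p = 2 := by exact_mod_cast h3
      omega
    have hRne : R ≠ PC.oneI G := by
      intro h
      rw [h, hone1] at hR1
      have h3 : (p : ℂ) = ((1 : ℕ) : ℂ) := by
        push_cast
        linear_combination -hR1
      have h4 : p = 1 := by exact_mod_cast h3
      omega
    have hDR : D ≠ R := by
      intro h
      rw [h, hR1] at hD1
      have : (0 : ℂ) = 1 := by linear_combination -hD1
      exact zero_ne_one this
    have hπ2 : π = (fun _ => (1 : ℂ)) + (D : G → ℂ) + (R : G → ℂ) := by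
      rw [hπeq]
      funext g
      simp
    have hD1' : classInner (D : G → ℂ) (fun _ => (1 : ℂ)) = 0 := by
      rw [← classInner_comm_conj, one_inner_irr _ hDne]
      simp
    have hR1' : classInner (R : G → ℂ) (fun _ => (1 : ℂ)) = 0 := by
      rw [← classInner_comm_conj, one_inner_irr _ hRne]
      simp
    have hnorm : classInner π π = 3 := by
      rw [hπ2]
      simp only [classInner_add_left, classInner_add_right]
      rw [classInner_one_one, one_inner_irr _ hDne, one_inner_irr _ hRne, hD1', hR1',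
        classInner_irr, classInner_irr, classInner_irr, classInner_irr, if_pos rfl, if_pos rfl,
        if_neg hDR, if_neg (Ne.symm hDR)]
      norm_num
    have hrank : Nat.card (MulAction.orbitRel.Quotient (MulAction.stabilizer G a₀) α) = 3 := by
      have h3 : (Nat.card (MulAction.orbitRel.Quotient (MulAction.stabilizer G a₀) α) : ℂ) = (3 : ℕ) := by
        rw [← hrk]
        show classInner π π = _
        rw [hnorm]
        norm_num
      exact_mod_cast h3
    obtain ⟨a, ha, hpa, hsub⟩ := PC.wielandt_main hprim hα a₀ hrank (D : G → ℂ) (R : G → ℂ) D.2 R.2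
      hπeq hD1 hR1
    set S := MulAction.stabilizer G a₀ with hS
    have hScard : Nat.card S * (2 * p) = Nat.card G := by
      have h3 := Subgroup.card_mul_index S
      have h4 := MulAction.index_stabilizer_of_transitive G a₀
      rw [Nat.card_eq_fintype_card (α := α), hα] at h4
      rwa [h4] at h3
    by_cases h7 : 7 ≤ p
    · exfalso
      have hc := exc2_count hx D R hπeq hD1 hR1 (fun y hy1 => (hy y hy1).1) hrat hK hsing h7
      have hcN : Nat.card G = p * ((p - 1) * (p - 2)) := by
        apply Nat.cast_injective (R := ℂ)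
        rw [hc, Nat.cast_mul, Nat.cast_mul, Nat.cast_sub (by omega), Nat.cast_sub (by omega)]
        push_cast
        ring
      have hs2 : 2 * Nat.card S = (p - 1) * (p - 2) := by
        apply Nat.eq_of_mul_eq_mul_left hpp.pos
        rw [← hcN, ← hScard]
        ring
      haveI : Nontrivial α := Fintype.one_lt_card_iff_nontrivial.mp (by rw [hα]; omega)
      obtain ⟨b, hb⟩ := exists_ne a₀
      have hd : Nat.card (MulAction.orbit S b) ∣ Nat.card S := by
        refine ⟨Nat.card (MulAction.stabilizer S b), ?_⟩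
        rw [← Nat.card_prod]
        exact (Nat.card_congr (MulAction.orbitProdStabilizerEquivGroup S b)).symm
      have ha1 := wielandt_arith a _ _ p ha hpa hs2 (hsub b hb) hd
      subst ha1
      norm_num at hpa
      omega
    · have hp5' : p = 5 := by
        by_contra hne
        have hp6 : p = 6 := by omega
        rw [hp6] at hpp
        norm_num at hpp
      subst hp5'
      have ha1 : a = 1 := by
        by_contra hne
        have h3 : 2 ≤ a := by omega
        nlinarith
      subst ha1
      have hsub' : ∀ b : α, b ≠ a₀ → Nat.card (MulAction.orbit S b) = 3 ∨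
          Nat.card (MulAction.orbit S b) = 6 := by
        intro b hb
        simpa using hsub b hb
      obtain ⟨b, c, hb, hc, hbc, hall⟩ := exists_structure (G := G) a₀ hrank
      have hR : R3 G a₀ b c := ⟨hb, hc, hbc, hall, exists_swap a₀ b hb 5 hα hrank,
        exists_swap a₀ c hc 5 hα hrank⟩
      have hdeg : Nat.card (MulAction.orbit S b) + Nat.card (MulAction.orbit S c) + 1 = 2 * 5 := by
        have h3 := hR.sum_degrees
        rw [hα] at h3
        exact h3
      obtain ⟨m, hm, hm2⟩ : ∃ m : ℕ, Nat.card S = 6 * m ∧ m ≤ 2 := by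
        rcases hsub' b hb with h3 | h3 <;> rcases hsub' c hc with h4 | h4
        · omega
        · exact ten_core hR hprim h3 h4
        · exact ten_core hR.symm hprim h4 h3
        · omega
      have hsyl := Sylow.card_eq_index_normalizer P
      have h3 := Subgroup.card_mul_index (Subgroup.normalizer ((P : Subgroup G) : Set G))
      rw [hN] at h3
      have hmod := card_sylow_modEq_one 5 G
      rw [hsyl] at hmod
      have h60 : Nat.card G = 60 := by
        have h4 : (Subgroup.normalizer ((P : Subgroup G) : Set G)).index = Nat.card S := by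
          omega
        have hmod' : (6 * m) % 5 = 1 % 5 := by
          rw [← hm, ← h4]
          exact hmod
        interval_cases m <;> omega
      refine ⟨rfl, ?_⟩
      have hns := not_solvable_of_cent hprim hα P x hPx hxo hcent
      haveI := Cfsg.Agent.H16.simple_of_not_solvable60 h60 hns
      exact Cfsg.Agent.H02.simple_sixty h60

end Cfsg.Agent.H22
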