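import Cfsg.Agent.Lib.H22.CycDefect
import Cfsg.Agent.Lib.H22.AbelianPair

/-! # Free action of the inertial quotient and nilpotency of the local blocks -/

set_option autoImplicit false
set_option linter.unusedSectionVars false
set_option linter.style.haveILetI false
set_option linter.unusedSimpArgs false
set_option linter.unusedVariables false

namespace Cfsg.Agent.H22

open Cfsg Cfsg.Agent.H21 Module
open scoped ComplexConjugate

universe u

variable {G : Type u} [Group G] [Finite G] {p : ℕ} [hp : Fact p.Prime] {M : Ideal AlgInt}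

/-- Induced central characters inside `H`. -/
theorem inducedIn_eq {H K : Subgroup G} {K' : Subgroup H} (φ : K' ≃* K)
    (hφ : ∀ k' : K', ((k' : H) : G) = (φ k' : G)) (ξ : K → ℂ) (h : H) :
    inducedCentralCharIn H K ξ h = inducedCentralChar K' (ξ ∘ φ) h := by
  classical
  rw [inducedCentralChar_eq_sum]
  have hS : inducedCentralCharIn H K ξ h =
      ∑ k : K, if (∃ x : H, (x : G) * (k : G) * (x : G)⁻¹ = h) then ξ k / ξ 1 else 0 := by
    unfold inducedCentralCharIn
    rw [finsum_mem_eq_finite_toFinset_sum _ (Set.toFinite _), Finset.sum_ite,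
      Finset.sum_const_zero, add_zero]
    refine Finset.sum_congr ?_ fun _ _ => rfl
    ext k
    simp
  rw [hS]
  refine (Fintype.sum_equiv φ.toEquiv _ _ fun k' => ?_).symm
  have hone : (ξ ∘ φ) 1 = ξ 1 := by simp
  rw [hone]
  have hiff : IsConj h (k' : H) ↔ ∃ x : H, (x : G) * ((φ k' : K) : G) * (x : G)⁻¹ = h := by
    rw [← hφ, isConj_iff]
    constructor
    · rintro ⟨c, hc⟩
      refine ⟨c⁻¹, ?_⟩
      have h1 := congrArg (fun z : H => (z : G)) hc
      simp only [Subgroup.coe_mul] at h1
      rw [← h1]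
      simp
      group
    · rintro ⟨x, hx⟩
      refine ⟨x⁻¹, Subtype.ext ?_⟩
      simp only [Subgroup.coe_mul, InvMemClass.coe_inv]
      rw [← hx]
      group
  by_cases hc : IsConj h (k' : H)
  · rw [if_pos hc]
    exact (if_pos (hiff.mp hc)).symm
  · rw [if_neg hc]
    exact (if_neg (mt hiff.mpr hc)).symm

/-- Uniqueness of the induced block inside `H`. -/
theorem inducedIn_unique {H K : Subgroup G} {c : Set (IrrCharacter K)} {f₁ f₂ : Set (IrrCharacter H)}
    [M.IsPrime] (h1 : IsInducedBlockIn M H K c f₁) (h2 : IsInducedBlockIn M H K c f₂) : f₁ = f₂ := by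
  classical
  obtain ⟨ξ, hξ⟩ := block_nonempty h1.1
  obtain ⟨χ₁, hχ₁⟩ := block_nonempty h1.2.1
  obtain ⟨χ₂, hχ₂⟩ := block_nonempty h2.2.1
  have hsame : χ₂ ∈ f₁ := by
    rw [block_eq_of_mem h1.2.1 hχ₁]
    intro h
    have h3 := h1.2.2 ξ hξ χ₁ hχ₁ h
    have h4 := h2.2.2 ξ hξ χ₂ hχ₂ h
    have h5 := mli_sub h4 h3
    have h6 : inducedCentralCharIn H K ξ.1 (h : G) - centralChar χ₂.1 h -
        (inducedCentralCharIn H K ξ.1 (h : G) - centralChar χ₁.1 h) =
          centralChar χ₁.1 h - centralChar χ₂.1 h := by ring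
    rwa [h6] at h5
  exact block_eq_of_inter h1.2.1 h2.2.1 hsame hχ₂

/-- The centralizer of a subgroup `Q ≤ P` of an abelian `P`. -/
theorem le_centralizer_of_abelian {P Q : Subgroup G} (hab : ∀ x ∈ P, ∀ y ∈ P, x * y = y * x)
    (hQP : Q ≤ P) : P ≤ Subgroup.centralizer (Q : Set G) := by
  intro a ha
  rw [Subgroup.mem_centralizer_iff]
  intro q hq
  exact hab q (hQP hq) a ha

/-- The local situation below a maximal pair with abelian defect group. -/
theorem local_setup (hM : IsPModular p M) {B : Set (IrrCharacter G)} {P Q : Subgroup G}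
    {c : Set (IrrCharacter (Subgroup.centralizer (P : Set G)))}
    (hmax : IsMaximalBrauerPair p M B P c) (hab : ∀ x ∈ P, ∀ y ∈ P, x * y = y * x) (hQP : Q ≤ P)
    (hz : ZComp (Subgroup.centralizer (Q : Set G))
      (P.subgroupOf (Subgroup.centralizer (Q : Set G))) P) :
    ∃ f : Set (IrrCharacter (Subgroup.centralizer (Q : Set G))),
      IsMaximalBrauerPair p M f (P.subgroupOf (Subgroup.centralizer (Q : Set G)))
        (irrMap (zIso hz).symm '' c) ∧
      IsInducedBlockIn M (Subgroup.centralizer (Q : Set G)) (Subgroup.centralizer (P : Set G)) c f := by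
  classical
  haveI : M.IsPrime := hM.2.1.isPrime
  have hPe := (isBrauerPairOf_iff.mp hmax.1).1
  have hPH := le_centralizer_of_abelian hab hQP
  obtain ⟨f, hf, hle⟩ := exists_subpairLE hM hPe Q hQP
  have hN : P ≤ Subgroup.normalizer (Q : Set G) := hPH.trans (Subgroup.centralizer_le_normalizer _)
  have hsub := normalSubpair_of_subpairLE hM hPe hQP hN hle
  have hF : ∀ t : Subgroup.centralizer (Q : Set G),
      blockCoeff f t = subgroupBlockCoeff (Subgroup.centralizer (Q : Set G)) f (t : G) := by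
    intro t
    rw [subgroupBlockCoeff_eq_extK, extK_coe]
  have hmaxH := maximal_in_H hM le_rfl hF hf.2 hQP hPH hz hmax hsub
  refine ⟨f, hmaxH, hPe.2, hf.2, fun ξ hξ χ hχ h => ?_⟩
  have hind := induced_of_pair hM hmaxH.1
  have h1 := hind.2.2 _ (Set.mem_image_of_mem _ hξ) χ hχ h
  have h2 := inducedIn_eq (zIso hz) (fun k' => rfl) ξ.1 h
  have h3 : (ξ.1 ∘ zIso hz) = (irrMap (zIso hz).symm ξ).1 := rfl
  rw [h2, h3]
  exact h1

/-- Stability at the two levels. -/
theorem stab_zIso_iff {H P : Subgroup G} (hPH : P ≤ H) (hz : ZComp H (P.subgroupOf H) P)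
    (y : H) (c : Set (IrrCharacter (Subgroup.centralizer (P : Set G)))) :
    (y ∈ Subgroup.normalizer ((P.subgroupOf H : Subgroup H) : Set H) ∧
      StabilizesBlock (Subgroup.centralizer ((P.subgroupOf H : Subgroup H) : Set H))
        (irrMap (zIso hz).symm '' c) y) ↔
    ((y : G) ∈ Subgroup.normalizer (P : Set G) ∧
      StabilizesBlock (Subgroup.centralizer (P : Set G)) c (y : G)) := by
  classical
  have hiff : y ∈ Subgroup.normalizer ((P.subgroupOf H : Subgroup H) : Set H) ↔
      (y : G) ∈ Subgroup.normalizer (P : Set G) := by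
    constructor
    · intro h
      rw [Subgroup.mem_normalizer_iff]
      intro n
      constructor
      · intro hn
        have := (Subgroup.mem_normalizer_iff.mp h ⟨n, hPH hn⟩).mp (Subgroup.mem_subgroupOf.mpr hn)
        exact Subgroup.mem_subgroupOf.mp this
      · intro hn
        have hnH : n ∈ H := by
          have := H.mul_mem (H.mul_mem (H.inv_mem y.2) (hPH hn)) y.2
          simpa [mul_assoc] using this
        have := (Subgroup.mem_normalizer_iff.mp h ⟨n, hnH⟩).mpr (Subgroup.mem_subgroupOf.mpr hn)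
        exact Subgroup.mem_subgroupOf.mp this
    · intro h
      rw [Subgroup.mem_normalizer_iff]
      intro n
      have := Subgroup.mem_normalizer_iff.mp h (n : G)
      simpa [Subgroup.mem_subgroupOf] using this
  constructor
  · rintro ⟨h1, h2⟩
    have hyP := hiff.mp h1
    have hyK := normalizer_le_normalizer_centralizer P hyP
    have h1K := normalizer_le_normalizer_centralizer _ h1
    refine ⟨hyP, stabilizes_of_image_eq hyK ?_⟩
    have h3 := image_phiK_eq_of_stabilizes h1K h2
    have h4 : irrMap (zIso hz) '' (irrMap (phiK _ h1K) '' (irrMap (zIso hz).symm '' c)) =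
        irrMap (phiK _ hyK) '' c := by
      rw [Set.image_image, Set.image_image]
      refine Set.image_congr fun ξ _ => ?_
      apply Subtype.ext
      funext l
      rfl
    rw [← h4, h3, Set.image_image]
    simp [irrMap_irrMap_symm]
  · rintro ⟨h1, h2⟩
    have hyP := hiff.mpr h1
    have hyK := normalizer_le_normalizer_centralizer P h1
    have h1K := normalizer_le_normalizer_centralizer _ hyP
    refine ⟨hyP, stabilizes_of_image_eq h1K ?_⟩
    have h3 := image_phiK_eq_of_stabilizes hyK h2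
    have h4 : irrMap (phiK _ h1K) '' (irrMap (zIso hz).symm '' c) =
        irrMap (zIso hz).symm '' (irrMap (phiK _ hyK) '' c) := by
      rw [Set.image_image, Set.image_image]
      refine Set.image_congr fun ξ _ => ?_
      apply Subtype.ext
      funext l
      rfl
    rw [h4, h3]

/-- Elements fixing a Brauer pair, conjugated. -/
theorem fixed_conj {Q : Subgroup G} {e : Set (IrrCharacter (Subgroup.centralizer (Q : Set G)))}
    {x h : G} (hx : x ∈ Subgroup.normalizer (Q : Set G))
    (hs : StabilizesBlock (Subgroup.centralizer (Q : Set G)) e x) :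
    h * x * h⁻¹ ∈ Subgroup.normalizer ((cq h Q : Subgroup G) : Set G) ∧
      StabilizesBlock (Subgroup.centralizer ((cq h Q : Subgroup G) : Set G)) (conjBlock Q h e)
        (h * x * h⁻¹) :=
  ⟨cq_normalizer hx, stabilizesBlock_conj hs⟩

/-- Decomposition of an element into a `p`-regular power and a `p`-element. -/
theorem exists_regular_power (g : G) :
    ∃ u : ℕ, ¬ p ∣ orderOf (g ^ u) ∧ ∃ k : ℕ, orderOf ((g ^ u)⁻¹ * g) = p ^ k := by
  classical
  have hpp := hp.out
  set n := orderOf g with hn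
  have hpos : 0 < n := orderOf_pos g
  set α := n.factorization p with hα
  set β := n / p ^ α with hβ
  have hnf : p ^ α * β = n := Nat.ordProj_mul_ordCompl_eq_self n p
  have hβp : ¬ p ∣ β := Nat.not_dvd_ordCompl hpp hpos.ne'
  have hcop : Nat.Coprime (p ^ α) β :=
    Nat.Coprime.pow_left _ ((Nat.Prime.coprime_iff_not_dvd hpp).mpr hβp)
  let u : ℕ := Nat.chineseRemainder hcop 0 1
  have hu1 : u ≡ 0 [MOD p ^ α] := (Nat.chineseRemainder hcop 0 1).2.1
  have hu2 : u ≡ 1 [MOD β] := (Nat.chineseRemainder hcop 0 1).2.2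
  refine ⟨u, ?_, ?_⟩
  · have h1 : (g ^ u) ^ β = 1 := by
      rw [← pow_mul]
      apply orderOf_dvd_iff_pow_eq_one.mp
      rw [← hn, ← hnf]
      exact Nat.mul_dvd_mul_right ((Nat.modEq_zero_iff_dvd).mp hu1) β
    intro hd
    exact hβp (hd.trans (orderOf_dvd_of_pow_eq_one h1))
  · have hcomm : Commute (g ^ u) g := (Commute.refl g).pow_left u
    have h1 : ((g ^ u)⁻¹ * g) ^ p ^ α = 1 := by
      rw [(hcomm.inv_left).mul_pow, inv_pow, ← pow_mul]
      have h2 : g ^ (u * p ^ α) = g ^ (1 * p ^ α) := by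
        rw [pow_eq_pow_iff_modEq, ← hn, ← hnf, mul_comm (p ^ α) β]
        exact Nat.ModEq.mul_right' _ hu2
      rw [h2, one_mul, inv_mul_cancel]
    obtain ⟨k, -, hk⟩ := (Nat.dvd_prime_pow hpp).mp (orderOf_dvd_of_pow_eq_one h1)
    exact ⟨k, hk⟩

/-- `S4650`. -/
theorem free_iff_nilpotent (hM : IsPModular p M) {B : Set (IrrCharacter G)} {P : Subgroup G}
    (hPD : IsDefectGroup p M B P) (hPab : ∀ x ∈ P, ∀ y ∈ P, x * y = y * x)
    {c : Set (IrrCharacter (Subgroup.centralizer (P : Set G)))}
    (hc : IsInducedBlock M (Subgroup.centralizer (P : Set G)) c B) {T : Subgroup G}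
    (hT : ∀ g : G, g ∈ T ↔ (g ∈ Subgroup.normalizer (P : Set G) ∧
      StabilizesBlock (Subgroup.centralizer (P : Set G)) c g)) :
    (∀ g ∈ T, ∀ x ∈ P, x ≠ 1 → g * x * g⁻¹ = x → g ∈ Subgroup.centralizer (P : Set G)) ↔
      ∀ Q : Subgroup G, Q ≤ P → Q ≠ ⊥ → ∀ f : Set (IrrCharacter (Subgroup.centralizer (Q : Set G))),
        IsInducedBlockIn M (Subgroup.centralizer (Q : Set G)) (Subgroup.centralizer (P : Set G)) c f →
          IsNilpotentBlock p M f := by
  classical
  haveI : M.IsPrime := hM.2.1.isPrime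
  have hmax := maximal_of_induced_defect hM hPD hc
  have hPp : IsPGroup p P := defect_isPGroup hPD
  have hPC : P ≤ Subgroup.centralizer (P : Set G) := by
    intro x hx
    rw [Subgroup.mem_centralizer_iff]
    intro w hw
    exact hPab w hw x hx
  have hzQ : ∀ {Q : Subgroup G}, Q ≤ P → ZComp (Subgroup.centralizer (Q : Set G))
      (P.subgroupOf (Subgroup.centralizer (Q : Set G))) P := fun hQP =>
    zComp_sub le_rfl hQP (le_centralizer_of_abelian hPab hQP)
  constructor
  · intro hfree Q hQP hQ1 f hf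
    obtain ⟨f₀, hmaxH, hf₀⟩ := local_setup hM hmax hPab hQP (hzQ hQP)
    obtain rfl : f = f₀ := inducedIn_unique hf hf₀
    refine ⟨hf.2.1, fun R e hRe x hxN hxS hxR => ?_⟩
    obtain ⟨h, hle⟩ := exists_conj_subpairLE hM hmaxH hRe
    obtain ⟨hx₁N, hx₁S⟩ := fixed_conj (h := h) hxN hxS
    have habH : ∀ a ∈ P.subgroupOf (Subgroup.centralizer (Q : Set G)),
        ∀ b ∈ P.subgroupOf (Subgroup.centralizer (Q : Set G)), a * b = b * a := by
      intro a ha b hb
      apply Subtype.ext
      exact hPab _ (Subgroup.mem_subgroupOf.mp ha) _ (Subgroup.mem_subgroupOf.mp hb)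
    obtain ⟨y, ⟨hy1, hy2⟩, c₁, hc₁, hxy⟩ := exists_factor_abelian hM hmaxH habH hle hx₁N hx₁S
    obtain ⟨hyG1, hyG2⟩ := (stab_zIso_iff (le_centralizer_of_abelian hPab hQP) (hzQ hQP) y c).mp ⟨hy1, hy2⟩
    obtain ⟨q, hq, hq1⟩ := Q.bot_or_exists_ne_one.resolve_left hQ1
    have hyq : (y : G) * q * (y : G)⁻¹ = q := by
      have := Subgroup.mem_centralizer_iff.mp y.2 q hq
      rw [← this]
      group
    have hyC := hfree y ((hT _).mpr ⟨hyG1, hyG2⟩) q (hQP hq) hq1 hyq
    have hRP : cq h R ≤ P.subgroupOf (Subgroup.centralizer (Q : Set G)) := subpairLE_le hle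
    -- `y` centralizes the conjugate of `R`
    have hyc : y ∈ Subgroup.centralizer ((cq h R : Subgroup _) : Set _) := by
      rw [Subgroup.mem_centralizer_iff]
      intro r hr
      apply Subtype.ext
      exact Subgroup.mem_centralizer_iff.mp hyC _ (Subgroup.mem_subgroupOf.mp (hRP hr))
    have h1 : h * x * h⁻¹ ∈ Subgroup.centralizer ((cq h R : Subgroup _) : Set _) := by
      rw [hxy]
      exact Subgroup.mul_mem _ hyc hc₁
    rw [Subgroup.mem_centralizer_iff] at h1 ⊢
    intro r hr
    have h2 := h1 (h * r * h⁻¹) (conj_mem_cq hr)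
    have h3 : h * (r * x) * h⁻¹ = h * (x * r) * h⁻¹ := by
      calc h * (r * x) * h⁻¹ = h * r * h⁻¹ * (h * x * h⁻¹) := by group
        _ = h * x * h⁻¹ * (h * r * h⁻¹) := h2
        _ = h * (x * r) * h⁻¹ := by group
    simpa using h3
  · intro hnil g hg x hx hx1 hfix
    obtain ⟨u, hureg, k, hk⟩ := exists_regular_power (p := p) g
    set y := g ^ u with hy
    have hyT : y ∈ T := pow_mem hg u
    have hwT : y⁻¹ * g ∈ T := T.mul_mem (T.inv_mem hyT) hg
    have hwC : y⁻¹ * g ∈ Subgroup.centralizer (P : Set G) := by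
      have := inertial_p hM hmax hT hwT ⟨k, hk⟩
      rwa [sup_eq_right.mpr hPC] at this
    set Q := Subgroup.zpowers x with hQ
    have hQP : Q ≤ P := by
      rw [hQ, Subgroup.zpowers_le]
      exact hx
    have hQ1 : Q ≠ ⊥ := by
      rw [hQ]
      simpa using hx1
    have hcomm : Commute g x := by
      show g * x = x * g
      calc g * x = (g * x * g⁻¹) * g := by group
        _ = x * g := by rw [hfix]
    have hyQ : y ∈ Subgroup.centralizer (Q : Set G) := by
      rw [Subgroup.mem_centralizer_iff]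
      intro q hq
      obtain ⟨j, rfl⟩ := Subgroup.mem_zpowers_iff.mp hq
      exact ((hcomm.pow_left u).zpow_right j).symm.eq
    obtain ⟨f, hmaxH, hf⟩ := local_setup hM hmax hPab hQP (hzQ hQP)
    have hfn := hnil Q hQP hQ1 f hf
    obtain ⟨h1, h2⟩ := (stab_zIso_iff (le_centralizer_of_abelian hPab hQP) (hzQ hQP) ⟨y, hyQ⟩ c).mpr
      ((hT y).mp hyT)
    have hreg : IsPRegular p (⟨y, hyQ⟩ : Subgroup.centralizer (Q : Set G)) := by
      show ¬ p ∣ orderOf _
      rw [Subgroup.orderOf_mk]
      exact hureg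
    have h3 := hfn.2 _ _ hmaxH.1 _ h1 h2 hreg
    have hyC : y ∈ Subgroup.centralizer (P : Set G) := by
      rw [Subgroup.mem_centralizer_iff]
      intro r hr
      have := Subgroup.mem_centralizer_iff.mp h3 ⟨r, le_centralizer_of_abelian hPab hQP hr⟩
        (Subgroup.mem_subgroupOf.mpr hr)
      exact congrArg Subtype.val this
    have : g = y * (y⁻¹ * g) := by group
    rw [this]
    exact Subgroup.mul_mem _ hyC hwC

end Cfsg.Agent.H22
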