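import Cfsg.Agent.Lib.H21.KnorrFull
import Cfsg.Agent.Lib.H21.GlaubCore4
import Cfsg.Agent.Lib.H21.InducedBlock
import Cfsg.Agent.Lib.H21.CanonicalBlock
import Cfsg.Agent.Lib.H21.CentralDefect
import Cfsg.Agent.Lib.H22.ZTransfer
import Cfsg.Agent.Lib.H22.Contribution
import Cfsg.Agent.Lib.H22.DefectZero
import Cfsg.Agent.Lib.H22.MaxPair2
import Cfsg.Agent.Lib.H22.Brauer5
import Cfsg.Agent.Lib.H22.Brauer4
import Cfsg.Agent.Lib.H21.NormalBlocks
import Cfsg.Agent.Lib.H22.PIndex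
import Cfsg.Agent.Lib.H22.FreeAction
import Cfsg.Agent.Lib.H03.PConstr
import Cfsg.Agent.Lib.H05.Comp5

/-!
# Fong's theorem on blocks over an invariant character of `O_{p'}(G)` in the constrained case
-/

set_option autoImplicit false
set_option linter.unusedSectionVars false
set_option linter.style.haveILetI false
set_option linter.unusedSimpArgs false
set_option linter.unusedVariables false

namespace Cfsg.Agent.H22

open Cfsg Cfsg.Agent.H21 Module
open scoped ComplexConjugate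

universe u

section

variable {G : Type u} [Group G] [Finite G] {p : ℕ} [hp : Fact p.Prime] {M : Ideal AlgInt}
  [hMp : M.IsPrime]

/-- The singleton of a character of a `p'`-group is a block. -/
theorem singleton_block_FC (hM : IsPModular p M) (hcop : ¬ p ∣ Nat.card G) (θ : IrrCharacter G) :
    IsPBlock M ({θ} : Set (IrrCharacter G)) := by
  refine ⟨θ, ?_⟩
  ext ψ
  constructor
  · intro hψ
    rw [Set.mem_singleton_iff] at hψ
    rw [hψ]
    exact self_mem_blockOf θ
  · intro hψ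
    have hdef : ¬ p ∣ Nat.card G / charDegree θ.1 := fun hd =>
      hcop (hd.trans (Nat.div_dvd_of_dvd (charDegree_dvd_card θ)))
    exact eq_of_mem_block_of_defect_zero hM θ hdef hψ

theorem blockDefect_singleton_FC (hcop : ¬ p ∣ Nat.card G) (b : Set (IrrCharacter G)) :
    blockDefect p b = 0 := by
  rw [blockDefect_eq, Nat.factorization_eq_zero_of_not_dvd hcop]
  exact Nat.zero_sub _

/-- The inclusion of `N ∩ H` in `N`. -/
def iotaFC (N H : Subgroup G) : N.subgroupOf H →* N where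
  toFun n := ⟨n.1.1, n.2⟩
  map_one' := rfl
  map_mul' _ _ := rfl

theorem iotaFC_injective (N H : Subgroup G) : Function.Injective (iotaFC N H) := by
  intro a b h
  exact Subtype.ext (Subtype.ext (congrArg (fun x : N => (x : G)) h))

variable {N : Subgroup G} [hN : N.Normal]

theorem invariant_singleton_FC {θ : IrrCharacter N} (hinv : ∀ t : G, conjIrr N t θ = θ) :
    ∀ t : G, ∀ θ' ∈ ({θ} : Set (IrrCharacter N)), conjIrr N t θ' ∈ ({θ} : Set (IrrCharacter N)) := by
  rintro t _ rfl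
  exact hinv t

/-- If a block is the only one over an invariant character of a normal `p'`-subgroup, then its
defect groups are the Sylow subgroups. -/
theorem sylow_defect_of_unique (hM : IsPModular p M) (hcop : ¬ p ∣ Nat.card N) {θ : IrrCharacter N}
    (hinv : ∀ t : G, conjIrr N t θ = θ) {B : Set (IrrCharacter G)} (hB : IsPBlock M B)
    (hcov : ∃ χ ∈ B, ∑ n : N, conj (θ.1 n) * χ.1 n ≠ 0)
    (huniq : ∀ B' : Set (IrrCharacter G), IsPBlock M B' →
      (∃ χ ∈ B', ∑ n : N, conj (θ.1 n) * χ.1 n ≠ 0) → B' = B) (S : Sylow p G) :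
    IsDefectGroup p M B S := by
  classical
  have hpp := hp.out
  obtain ⟨P, hP⟩ := isDefectGroup_exists (p := p) hB
  have hb := singleton_block_FC hM hcop θ
  obtain ⟨χ, hχ, hne⟩ := hcov
  obtain ⟨-, -, h3⟩ := knorr_main hM hb (invariant_singleton_FC hinv) hB
    ⟨χ, hχ, θ, rfl, hne⟩ (fun B' hB' hc => by
      obtain ⟨ψ, hψ, θ', rfl, hne'⟩ := hc
      rw [huniq B' hB' ⟨ψ, hψ, hne'⟩]) hP
  rw [blockDefect_singleton_FC hcop, zero_add] at h3
  have hcard : Nat.card P = p ^ (Nat.card G).factorization p := by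
    rw [card_defect hM hB hP, h3]
    congr 1
    have h1 := N.card_mul_index
    rw [← h1, Nat.factorization_mul Nat.card_pos.ne' N.index_ne_zero_of_finite, Finsupp.add_apply,
      Nat.factorization_eq_zero_of_not_dvd hcop, zero_add]
  have hSc : Nat.card (S : Subgroup G) = p ^ (Nat.card G).factorization p :=
    Sylow.card_eq_multiplicity S
  let P' : Sylow p G := Sylow.ofCard P hcard
  obtain ⟨g, hg⟩ := MulAction.exists_smul_eq G P' S
  have h4 : (S : Subgroup G) = cq g P := by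
    rw [← hg]
    rfl
  rw [h4]
  exact isDefectGroup_cq g hP

/-- Brauer pairs below a defect group give induced blocks. -/
theorem exists_induced_of_le_defect (hM : IsPModular p M) {B : Set (IrrCharacter G)}
    (hB : IsPBlock M B) {P : Subgroup G} (hP : IsDefectGroup p M B P) {Q : Subgroup G}
    (hQ : Q ≤ P) : ∃ f, IsInducedBlock M (Subgroup.centralizer (Q : Set G)) f B := by
  obtain ⟨e, he⟩ := exists_maximal_on_defect hM hP hB
  obtain ⟨f, hf, hle⟩ := exists_subpairLE hM he.1.1 Q hQ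
  exact ⟨f, induced_of_brauerPairOf hM ((isBrauerPairOf_iff_of_subpairLE hM hf hle).1 he.1)⟩

/-- Values of the idempotent of a character of a `p'`-group. -/
theorem blockCoeff_singleton_FC (θ : IrrCharacter G) (g : G) :
    blockCoeff ({θ} : Set (IrrCharacter G)) g =
      (Nat.card G : ℂ)⁻¹ * (θ.1 1 * conj (θ.1 g)) := by
  classical
  rw [blockCoeff_eq_ofOm, ← ofOm_eOne]
  congr 1
  funext ψ
  unfold eOne
  by_cases h : ψ = θ
  · rw [if_pos h]; exact eB_apply_mem h
  · rw [if_neg h]; exact eB_apply_not_mem h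

/-- **Key congruence**: the multiplicity of a constituent of a block below a block over `θ`. -/
theorem fong_inner_not_dvd (hM : IsPModular p M) (hcop : ¬ p ∣ Nat.card N)
    (θ : IrrCharacter N) (hinv : ∀ t : G, conjIrr N t θ = θ)
    {H : Subgroup G} {f : Set (IrrCharacter H)} {B : Set (IrrCharacter G)}
    (hind : IsInducedBlock M H f B)
    {χ : IrrCharacter G} (hχ : χ ∈ B) (hχθ : ∑ n : N, conj (θ.1 n) * χ.1 n ≠ 0)
    {ξ : IrrCharacter H} (hξ : ξ ∈ f)
    (ν : IrrCharacter (N.subgroupOf H))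
    (hν : ∑ n : N.subgroupOf H, conj (ν.1 n) * ξ.1 n ≠ 0) (m : ℕ)
    (hm : classInner (fun n : N.subgroupOf H => θ.1 ⟨n.1.1, n.2⟩) ν.1 = (m : ℂ)) : ¬ p ∣ m := by
  classical
  intro hpm
  have hinvS := invariant_singleton_FC hinv
  set E : G → ℂ := subgroupBlockCoeff N ({θ} : Set (IrrCharacter N)) with hE
  have hcl : IsClassFunction G E := sbc_isClass hinvS
  have hcl2 : IsClassFunction G (extK N (blockCoeff ({θ} : Set (IrrCharacter N)))) := by
    rw [← subgroupBlockCoeff_eq_extK]; exact hcl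
  have hom : om χ E = 1 := by
    rw [hE, subgroupBlockCoeff_eq_extK, om_restrict χ θ hχθ _ hcl2, om_blockCoeff_self]
    exact eB_apply_mem rfl
  have hb := singleton_block_FC hM hcop θ
  have hloc : ∀ g, MemLocalRing M (E g) := by
    intro g
    rw [hE, subgroupBlockCoeff_eq_extK]
    by_cases hg : g ∈ N
    · rw [extK_of_mem N _ hg]
      exact blockCoeff_mlr hb _
    · rw [extK_of_not_mem N _ hg]
      exact mlr_zero
  have hcong := induced_congr hind hξ hχ hcl hloc
  rw [hom] at hcong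
  -- The sum over `H` reduces to `N ∩ H`.
  haveI hK₁n : (N.subgroupOf H).Normal := Subgroup.normal_subgroupOf
  set z : (N.subgroupOf H) → ℂ := fun n => blockCoeff ({θ} : Set (IrrCharacter N)) ⟨n.1.1, n.2⟩ with hz
  have hext : (fun h : H => E h) = extK (N.subgroupOf H) z := by
    funext h
    by_cases hh : h ∈ (N.subgroupOf H)
    · rw [extK_of_mem (N.subgroupOf H) z hh, hE, subgroupBlockCoeff_eq_extK,
        extK_of_mem N _ (Subgroup.mem_subgroupOf.mp hh)]
    · rw [extK_of_not_mem (N.subgroupOf H) z hh, hE, subgroupBlockCoeff_eq_extK,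
        extK_of_not_mem N _ (fun h' => hh (Subgroup.mem_subgroupOf.mpr h'))]
  have hclz : IsClassFunction H (extK (N.subgroupOf H) z) := by
    rw [← hext]
    intro g k
    exact hcl (g : G) (k : G)
  have hd0 : ξ.1 1 ≠ 0 := irr_one_ne_zero' ξ
  have hsum : ∑ h : H, E h * (ξ.1 h / ξ.1 1) = om ν z := by
    rw [← om_restrict ξ ν hν z hclz]
    unfold om
    rw [Finset.mul_sum]
    refine Finset.sum_congr rfl fun h _ => ?_
    rw [← hext]
    field_simp
  rw [hsum] at hcong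
  -- Compute `om ν z`.
  have hcard0 : (Nat.card N : ℂ) ≠ 0 := card_ne_zero_C
  have hcard1 : (Nat.card (N.subgroupOf H) : ℂ) ≠ 0 := card_ne_zero_C
  have hν0 : ν.1 1 ≠ 0 := irr_one_ne_zero' ν
  have hval : om ν z = (ν.1 1)⁻¹ * ((Nat.card N : ℂ)⁻¹ * θ.1 1 * (Nat.card (N.subgroupOf H) : ℂ) * m) := by
    unfold om
    congr 1
    have h1 : ∑ g : (N.subgroupOf H), z g * ν.1 g =
        (Nat.card N : ℂ)⁻¹ * θ.1 1 * ∑ g : (N.subgroupOf H), conj (θ.1 ⟨g.1.1, g.2⟩) * ν.1 g := by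
      rw [Finset.mul_sum]
      refine Finset.sum_congr rfl fun g _ => ?_
      rw [hz]
      simp only
      rw [blockCoeff_singleton_FC]
      ring
    have h2 : conj (classInner (fun n : (N.subgroupOf H) => θ.1 ⟨n.1.1, n.2⟩) ν.1) = (m : ℂ) := by
      rw [hm]; simp
    unfold classInner at h2
    rw [map_mul, map_sum] at h2
    simp only [map_mul, Complex.conj_conj, map_inv₀, Complex.conj_natCast] at h2
    have h3 : ∑ g : (N.subgroupOf H), conj (θ.1 ⟨g.1.1, g.2⟩) * ν.1 g = (Nat.card (N.subgroupOf H) : ℂ) * m := by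
      rw [← h2]
      field_simp
    rw [h1, h3]
    ring
  -- Now everything is local.
  have hnot : ¬ MemLocalIdeal M ((Nat.card N : ℂ)) := by
    rw [mli_natCast_iff hM]; exact hcop
  obtain ⟨-, hinvN⟩ := mlr_inv (mlr_natCast (M := M) (Nat.card N)) hnot
  have hdegK : ¬ MemLocalIdeal M (ν.1 1) := by
    rw [one_eq_charDegree (H21.isCharacter_of_irr ν.2), mli_natCast_iff hM]
    intro hd
    apply hcop
    have h2 : Nat.card (N.subgroupOf H) ∣ Nat.card N :=
      Subgroup.card_dvd_of_injective (iotaFC N H) (iotaFC_injective N H)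
    exact (hd.trans (charDegree_dvd_card ν)).trans h2
  obtain ⟨-, hinvν⟩ := mlr_inv (mlr_of_isIntegral (irr_isIntegral' ν 1) (M := M)) hdegK
  have hmli : MemLocalIdeal M (om ν z) := by
    rw [hval]
    have hpm' : MemLocalIdeal M (m : ℂ) := (mli_natCast_iff hM m).mpr hpm
    refine mli_mul_left ?_ hinvν
    refine mli_mul_left hpm' ?_
    exact mlr_mul (mlr_mul hinvN (mlr_of_isIntegral (irr_isIntegral' θ 1))) (mlr_natCast _)
  have h1 := mli_sub hmli hcong
  rw [sub_sub_cancel] at h1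
  exact not_mli_one h1

end

section Constraint

variable {G : Type u} [Group G] [Finite G] {p : ℕ} [hp : Fact p.Prime]

open QuotientGroup in
theorem pow_mem_of_pGroup_map {K L : Subgroup G} [hKn : K.Normal]
    (hL : IsPGroup p (L.map (QuotientGroup.mk' K))) {w : G} (hw : w ∈ L) :
    ∃ k : ℕ, w ^ (p ^ k) ∈ K := by
  obtain ⟨k, hk⟩ := hL ⟨QuotientGroup.mk' K w, ⟨w, hw, rfl⟩⟩
  refine ⟨k, ?_⟩
  have h1 := congrArg (fun x : L.map (QuotientGroup.mk' K) => (x : G ⧸ K)) hk
  simp only [Subgroup.coe_pow, Subgroup.coe_one] at h1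
  rw [← QuotientGroup.eq_one_iff]
  exact_mod_cast h1

/-- A subgroup of `L` has `p`-power index over its intersection with `K`. -/
theorem index_pow_of_le_FC {K L Y : Subgroup G} [hKn : K.Normal]
    (hL : IsPGroup p (L.map (QuotientGroup.mk' K))) (hY : Y ≤ L) :
    ∃ k : ℕ, (K.subgroupOf Y).index = p ^ k := by
  haveI : (K.subgroupOf Y).Normal := Subgroup.normal_subgroupOf
  have h1 : IsPGroup p (Y ⧸ K.subgroupOf Y) := by
    intro q
    obtain ⟨y, rfl⟩ := QuotientGroup.mk_surjective q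
    obtain ⟨k, hk⟩ := pow_mem_of_pGroup_map hL (hY y.2)
    refine ⟨k, ?_⟩
    rw [← QuotientGroup.mk_pow, QuotientGroup.eq_one_iff]
    exact Subgroup.mem_subgroupOf.mpr (by simpa using hk)
  obtain ⟨n, hn⟩ := IsPGroup.iff_card.mp h1
  exact ⟨n, by rw [Subgroup.index_eq_card]; exact hn⟩

/-- The quotient of the centralizer of a `p`-subgroup by its intersection with `K` has
characteristic `p`. -/
theorem isCharP_centralizer_FC {K L Q : Subgroup G} [hKn : K.Normal] [hLn : L.Normal]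
    (hK : (Nat.card K).Coprime p) (hKL : K ≤ L)
    (hLp : IsPGroup p (L.map (QuotientGroup.mk' K))) (hQL : Q ≤ L) (hQp : IsPGroup p Q)
    (hCQ : Subgroup.centralizer (Q : Set G) ≤ L) {R : Subgroup G} (hR : IsPGroup p R) :
    haveI : (K.subgroupOf (Subgroup.centralizer (R : Set G))).Normal := Subgroup.normal_subgroupOf
    Subgroup.centralizer
        (pCore p (Subgroup.centralizer (R : Set G) ⧸
          K.subgroupOf (Subgroup.centralizer (R : Set G))) : Set _) ≤
      pCore p (Subgroup.centralizer (R : Set G) ⧸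
          K.subgroupOf (Subgroup.centralizer (R : Set G))) := by
  classical
  have hpp := hp.out
  set X := Subgroup.centralizer (R : Set G) with hX
  set K₁ := K.subgroupOf X with hK₁
  set T := pCore p (X ⧸ K₁) with hT
  haveI hTn : T.Normal := H01.pCore_normal p
  have hTp : IsPGroup p T := H01.pCore_isPGroup p
  set ϕ := QuotientGroup.mk' K with hϕ
  have hϕs : Function.Surjective ϕ := QuotientGroup.mk'_surjective K
  -- main claim
  have hmain : ∀ c ∈ Subgroup.centralizer (T : Set (X ⧸ K₁)), ¬ p ∣ orderOf c → c = 1 := by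
    intro c hc hcord
    obtain ⟨y, hy, hyord⟩ := exists_regular_lift (p := p) (P := K₁) c hcord
    have hyR : ∀ r ∈ R, (y : G) * r = r * y := by
      intro r hr
      exact (Subgroup.mem_centralizer_iff.mp y.2 r hr).symm
    have hxord : (orderOf (ϕ (y : G))).Coprime p := by
      have h1 : orderOf (ϕ (y : G)) ∣ orderOf (y : G) := orderOf_map_dvd _ _
      rw [Subgroup.orderOf_coe] at h1
      have h2 : (orderOf y).Coprime p := ((Nat.Prime.coprime_iff_not_dvd hpp).2 hyord).symm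
      exact Nat.Coprime.coprime_dvd_left h1 h2
    have hLbarN : (L.map ϕ).Normal := hLn.map ϕ hϕs
    have hab : ∀ k ∈ L.map ϕ, ϕ (y : G) * k = k * ϕ (y : G) := by
      refine H05.ab_lemma (Q := L.map ϕ) (P := R.map ϕ) hLp (hR.map ϕ) hxord ?_ ?_ ?_ ?_
      · rintro _ ⟨r, hr, rfl⟩
        rw [← map_mul, ← map_mul, hyR r hr]
      · rw [Subgroup.normalizer_eq_top]
        exact le_top
      · rw [Subgroup.normalizer_eq_top]
        exact Subgroup.mem_top _
      · rintro _ ⟨w, hw, rfl⟩ hw2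
        -- adjust `w` to centralize `R`
        have hcom : ∀ a ∈ R, w * a * w⁻¹ * a⁻¹ ∈ K := by
          intro a ha
          have h1 := hw2 (ϕ a) ⟨a, ha, rfl⟩
          rw [← QuotientGroup.eq_one_iff]
          change ϕ (w * a * w⁻¹ * a⁻¹) = 1
          simp only [map_mul, map_inv]
          rw [h1]
          group
        obtain ⟨k, hk, hkc⟩ := H03.exists_centralizer_rep hK hR hcom
        have hwL : k⁻¹ * w ∈ L := L.mul_mem (L.inv_mem (hKL hk)) hw
        set w' : X := ⟨k⁻¹ * w, hkc⟩ with hw'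
        have hw'T : (w' : X ⧸ K₁) ∈ T := by
          haveI hWn : (L.subgroupOf X).Normal := Subgroup.normal_subgroupOf
          have hWtn : ((L.subgroupOf X).map (QuotientGroup.mk' K₁)).Normal :=
            hWn.map _ (QuotientGroup.mk'_surjective K₁)
          have hWtp : IsPGroup p ((L.subgroupOf X).map (QuotientGroup.mk' K₁)) := by
            rintro ⟨_, ⟨u, hu, rfl⟩⟩
            obtain ⟨j, hj⟩ := pow_mem_of_pGroup_map hLp (Subgroup.mem_subgroupOf.mp hu)
            refine ⟨j, Subtype.ext ?_⟩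
            show ((QuotientGroup.mk' K₁) u) ^ p ^ j = 1
            rw [← map_pow, QuotientGroup.mk'_apply, QuotientGroup.eq_one_iff]
            exact Subgroup.mem_subgroupOf.mpr (by simpa using hj)
          exact H01.le_pCore hWtn hWtp ⟨w', Subgroup.mem_subgroupOf.mpr hwL, rfl⟩
        have hcomm := Subgroup.mem_centralizer_iff.mp hc _ hw'T
        rw [← hy] at hcomm
        rw [← QuotientGroup.mk_mul, ← QuotientGroup.mk_mul, QuotientGroup.eq] at hcomm
        have h2 : ϕ (k⁻¹ * w) * ϕ (y : G) = ϕ (y : G) * ϕ (k⁻¹ * w) := by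
          have h3 : ((k⁻¹ * w) * (y : G))⁻¹ * ((y : G) * (k⁻¹ * w)) ∈ K :=
            Subgroup.mem_subgroupOf.mp hcomm
          have h4 : ϕ ((k⁻¹ * w) * (y : G)) = ϕ ((y : G) * (k⁻¹ * w)) := QuotientGroup.eq.mpr h3
          rw [← map_mul, ← map_mul]
          exact h4
        have h5 : ϕ (k⁻¹ * w) = ϕ w := by
          have hk1 : ϕ k = 1 := (QuotientGroup.eq_one_iff k).mpr hk
          rw [map_mul, map_inv, hk1]
          simp
        rw [h5] at h2
        exact h2.symm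
    -- `y` lies in `L`
    have hyL : (y : G) ∈ L := by
      have hy1 : ϕ (y : G) ∈ Subgroup.centralizer ((Q.map ϕ : Subgroup (G ⧸ K)) : Set (G ⧸ K)) := by
        rw [Subgroup.mem_centralizer_iff]
        rintro _ ⟨q, hq, rfl⟩
        exact (hab _ ⟨q, hQL hq, rfl⟩).symm
      obtain ⟨k, hk, hkc⟩ := H03.exists_centralizer_rep hK hQp
        (H03.conj_comm_mem_of_mem_centralizer_map hy1)
      have h1 : (y : G) = k * (k⁻¹ * y) := by group
      rw [h1]
      exact L.mul_mem (hKL hk) (hCQ hkc)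
    obtain ⟨j, hj⟩ := pow_mem_of_pGroup_map hLp hyL
    have hj1 : ϕ (y : G) ^ p ^ j = 1 := by
      rw [← map_pow]
      exact (QuotientGroup.eq_one_iff _).mpr hj
    have hj2 : orderOf (ϕ (y : G)) ∣ p ^ j := orderOf_dvd_of_pow_eq_one hj1
    have hj3 : orderOf (ϕ (y : G)) = 1 := (hxord.pow_right j).eq_one_of_dvd hj2
    rw [orderOf_eq_one_iff] at hj3
    have hyK : (y : G) ∈ K := (QuotientGroup.eq_one_iff _).mp hj3
    rw [← hy]
    exact (QuotientGroup.eq_one_iff _).mpr (Subgroup.mem_subgroupOf.mpr hyK)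
  have hCp : IsPGroup p (Subgroup.centralizer (T : Set (X ⧸ K₁))) := by
    rintro ⟨c, hc⟩
    obtain ⟨u, hu1, k, hk⟩ := exists_regular_power (p := p) c
    have h1 := hmain (c ^ u) (pow_mem hc u) hu1
    rw [h1, inv_one, one_mul] at hk
    refine ⟨k, Subtype.ext ?_⟩
    show c ^ p ^ k = 1
    rw [← hk]
    exact pow_orderOf_eq_one c
  exact H01.le_pCore inferInstance hCp

/-- Constraint data for the centralizer of a `p`-subgroup. -/
theorem constraint_data_FC {K L Q : Subgroup G} [hKn : K.Normal] [hLn : L.Normal]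
    (hK : (Nat.card K).Coprime p) (hKL : K ≤ L)
    (hLp : IsPGroup p (L.map (QuotientGroup.mk' K))) (hQL : Q ≤ L) (hQp : IsPGroup p Q)
    (hCQ : Subgroup.centralizer (Q : Set G) ≤ L) {R : Subgroup G} (hR : IsPGroup p R) :
    haveI : (K.subgroupOf (Subgroup.centralizer (R : Set G))).Normal := Subgroup.normal_subgroupOf
    ∃ L₂ Q₂ : Subgroup (Subgroup.centralizer (R : Set G)), L₂.Normal ∧
      K.subgroupOf (Subgroup.centralizer (R : Set G)) ≤ L₂ ∧
      IsPGroup p (L₂.map (QuotientGroup.mk' (K.subgroupOf (Subgroup.centralizer (R : Set G))))) ∧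
      Q₂ ≤ L₂ ∧ IsPGroup p Q₂ ∧ ¬ p ∣ Q₂.relIndex L₂ ∧
      Subgroup.centralizer (Q₂ : Set (Subgroup.centralizer (R : Set G))) ≤ L₂ := by
  have hchar := isCharP_centralizer_FC hK hKL hLp hQL hQp hCQ hR
  set X := Subgroup.centralizer (R : Set G) with hX
  set K₁ := K.subgroupOf X with hK₁
  have hK₁c : (Nat.card K₁).Coprime p := by
    refine Nat.Coprime.coprime_dvd_left ?_ hK
    exact Subgroup.card_dvd_of_injective (iotaFC K X) (iotaFC_injective K X)
  set T := pCore p (X ⧸ K₁) with hT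
  haveI hTn : T.Normal := H01.pCore_normal p
  have hTp : IsPGroup p T := H01.pCore_isPGroup p
  set L₂ := T.comap (QuotientGroup.mk' K₁) with hL₂
  obtain ⟨P⟩ : Nonempty (Sylow p L₂) := inferInstance
  have hmap := H03.map_sylow_aux K₁ L₂ hK₁c hL₂ P
  refine ⟨L₂, (P : Subgroup L₂).map L₂.subtype, hTn.comap _, ?_, ?_, ?_, P.isPGroup'.map _, ?_, ?_⟩
  · intro x hx
    show QuotientGroup.mk' K₁ x ∈ T
    have h1 : QuotientGroup.mk' K₁ x = 1 := (QuotientGroup.eq_one_iff x).mpr hx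
    rw [h1]
    exact T.one_mem
  · rw [hL₂, Subgroup.map_comap_eq_self_of_surjective (QuotientGroup.mk'_surjective K₁)]
    exact hTp
  · rintro _ ⟨u, _, rfl⟩
    exact u.2
  · have h1 : ((P : Subgroup L₂).map L₂.subtype).subgroupOf L₂ = (P : Subgroup L₂) :=
      Subgroup.comap_map_eq_self_of_injective L₂.subtype_injective _
    unfold Subgroup.relIndex
    rw [h1]
    exact Sylow.not_dvd_index P
  · intro c hc
    have h1 := H03.mem_centralizer_map (QuotientGroup.mk' K₁) hc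
    rw [hmap] at h1
    exact hchar h1

end Constraint

section Glaub

variable {G : Type u} [Group G] [Finite G] {p : ℕ} [hp : Fact p.Prime] {M : Ideal AlgInt}
  [hMp : M.IsPrime] {N : Subgroup G} [hN : N.Normal]

/-- Conjugation action of a subgroup on a normal subgroup. -/
noncomputable def phiFC (N : Subgroup G) [hN : N.Normal] (R : Subgroup G) : R →* MulAut N :=
  (MulAut.conjNormal (H := N)).comp R.subtype

theorem phiFC_coe (R : Subgroup G) (a : R) (n : N) :
    ((phiFC N R a n : N) : G) = (a : G) * n * (a : G)⁻¹ := by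
  unfold phiFC
  simp [MulAut.conjNormal_apply]

theorem fongSetup (hcop : ¬ p ∣ Nat.card N) {R : Subgroup G} (hR : IsPGroup p R) :
    CopSetup (phiFC N R) (iotaFC N (Subgroup.centralizer (R : Set G))) p := by
  refine ⟨iotaFC_injective _ _, ?_, hR, hcop⟩
  intro g
  constructor
  · intro h
    have hg : (g : G) ∈ Subgroup.centralizer (R : Set G) := by
      rw [Subgroup.mem_centralizer_iff]
      intro r hr
      have h1 := h ⟨r, hr⟩
      have h2 := congrArg (fun x : N => (x : G)) h1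
      simp only [phiFC_coe] at h2
      rw [mul_inv_eq_iff_eq_mul] at h2
      exact h2
    exact ⟨⟨⟨g, hg⟩, Subgroup.mem_subgroupOf.mpr g.2⟩, rfl⟩
  · rintro ⟨c, rfl⟩ a
    apply Subtype.ext
    rw [phiFC_coe]
    have h1 := Subgroup.mem_centralizer_iff.mp c.1.2 a a.2
    show (a : G) * (c.1 : G) * (a : G)⁻¹ = (c.1 : G)
    rw [h1]
    group

theorem phiFC_inv {θ : IrrCharacter N} (hinv : ∀ t : G, conjIrr N t θ = θ) (R : Subgroup G)
    (a : R) (g : N) : θ.1 (phiFC N R a g) = θ.1 g := by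
  conv_rhs => rw [← hinv (a : G)]
  rw [conjIrr_apply]
  refine congrArg θ.1 (Subtype.ext ?_)
  rw [phiFC_coe]

/-- The Glauberman correspondent. -/
theorem exists_glaub_FC (hcop : ¬ p ∣ Nat.card N) (θ : IrrCharacter N)
    (hinv : ∀ t : G, conjIrr N t θ = θ) {R : Subgroup G} (hR : IsPGroup p R) :
    ∃ β : IrrCharacter (N.subgroupOf (Subgroup.centralizer (R : Set G))),
      (∃ m : ℕ, classInner (fun n : N.subgroupOf (Subgroup.centralizer (R : Set G)) =>
          θ.1 ⟨n.1.1, n.2⟩) β.1 = (m : ℂ) ∧ ¬ p ∣ m) ∧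
      ∀ (ν : IrrCharacter (N.subgroupOf (Subgroup.centralizer (R : Set G)))) (m : ℕ),
        classInner (fun n : N.subgroupOf (Subgroup.centralizer (R : Set G)) =>
          θ.1 ⟨n.1.1, n.2⟩) ν.1 = (m : ℂ) → ¬ p ∣ m → ν = β := by
  classical
  have hset := fongSetup (N := N) hcop hR
  obtain ⟨β, m, hm, hpm⟩ := glaub_exists hset θ (phiFC_inv hinv R)
  refine ⟨β, ⟨m, hm, hpm⟩, fun ν m' hm' hpm' => ?_⟩
  exact glaub_unique hset θ (phiFC_inv hinv R) hm' hm hpm' hpm

theorem inner_nat_FC (θ : IrrCharacter N) (H : Subgroup G)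
    (ν : IrrCharacter (N.subgroupOf H)) :
    ∃ m : ℕ, classInner (fun n : N.subgroupOf H => θ.1 ⟨n.1.1, n.2⟩) ν.1 = (m : ℂ) := by
  classical
  have h1 : IsCharacter (N.subgroupOf H) (θ.1 ∘ iotaFC N H) :=
    isCharacter_comp (iotaFC N H) (H21.isCharacter_of_irr θ.2)
  obtain ⟨m, -, hm⟩ := isCharacter_decomp h1
  exact ⟨m ν, hm ν⟩

/-- A constituent below a block inducing a block over `θ` is the Glauberman correspondent. -/
theorem constituent_eq_glaub (hM : IsPModular p M) (hcop : ¬ p ∣ Nat.card N) (θ : IrrCharacter N)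
    (hinv : ∀ t : G, conjIrr N t θ = θ) {R : Subgroup G}
    {β : IrrCharacter (N.subgroupOf (Subgroup.centralizer (R : Set G)))}
    (hβ : ∀ (ν : IrrCharacter (N.subgroupOf (Subgroup.centralizer (R : Set G)))) (m : ℕ),
        classInner (fun n : N.subgroupOf (Subgroup.centralizer (R : Set G)) =>
          θ.1 ⟨n.1.1, n.2⟩) ν.1 = (m : ℂ) → ¬ p ∣ m → ν = β)
    {f : Set (IrrCharacter (Subgroup.centralizer (R : Set G)))} {B : Set (IrrCharacter G)}
    (hind : IsInducedBlock M (Subgroup.centralizer (R : Set G)) f B)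
    {χ : IrrCharacter G} (hχ : χ ∈ B) (hχθ : ∑ n : N, conj (θ.1 n) * χ.1 n ≠ 0)
    {ξ : IrrCharacter (Subgroup.centralizer (R : Set G))} (hξ : ξ ∈ f)
    (ν : IrrCharacter (N.subgroupOf (Subgroup.centralizer (R : Set G))))
    (hν : ∑ n : N.subgroupOf (Subgroup.centralizer (R : Set G)), conj (ν.1 n) * ξ.1 n ≠ 0) :
    ν = β := by
  obtain ⟨m, hm⟩ := inner_nat_FC θ _ ν
  exact hβ ν m hm (fong_inner_not_dvd hM hcop θ hinv hind hχ hχθ hξ ν hν m hm)

theorem inner_conj_FC (θ : IrrCharacter N) (hinv : ∀ t : G, conjIrr N t θ = θ) (H : Subgroup G)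
    (β : IrrCharacter (N.subgroupOf H)) (t : H) :
    haveI : (N.subgroupOf H).Normal := Subgroup.normal_subgroupOf
    classInner (fun n : N.subgroupOf H => θ.1 ⟨n.1.1, n.2⟩) (conjIrr (N.subgroupOf H) t β).1 =
      classInner (fun n : N.subgroupOf H => θ.1 ⟨n.1.1, n.2⟩) β.1 := by
  classical
  haveI hK₁ : (N.subgroupOf H).Normal := Subgroup.normal_subgroupOf
  unfold classInner
  congr 1
  let e : N.subgroupOf H ≃ N.subgroupOf H := (MulAut.conjNormal (H := N.subgroupOf H) t).toEquiv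
  have he : ∀ n : N.subgroupOf H, ((e n : N.subgroupOf H) : H) = t * n * t⁻¹ := by
    intro n
    show ((MulAut.conjNormal (H := N.subgroupOf H) t n : N.subgroupOf H) : H) = _
    simp [MulAut.conjNormal_apply]
  refine Eq.trans ?_ (Equiv.sum_comp e (fun n : N.subgroupOf H => θ.1 ⟨n.1.1, n.2⟩ * conj (β.1 n)))
  refine Finset.sum_congr rfl fun n _ => ?_
  congr 1
  · conv_lhs => rw [← hinv (t : G)]
    show (conjIrr N (t : G) θ).1 ⟨n.1.1, n.2⟩ = _
    rw [conjIrr_apply]
    refine congrArg θ.1 (Subtype.ext ?_)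
    show (t : G) * (n.1 : G) * (t : G)⁻¹ = (((e n : N.subgroupOf H) : H) : G)
    rw [he]
    rfl
  · rw [conjIrr_apply]
    congr 2

/-- The Glauberman correspondent is invariant. -/
theorem glaub_invariant (θ : IrrCharacter N)
    (hinv : ∀ t : G, conjIrr N t θ = θ) {R : Subgroup G}
    {β : IrrCharacter (N.subgroupOf (Subgroup.centralizer (R : Set G)))}
    (hβm : ∃ m : ℕ, classInner (fun n : N.subgroupOf (Subgroup.centralizer (R : Set G)) =>
          θ.1 ⟨n.1.1, n.2⟩) β.1 = (m : ℂ) ∧ ¬ p ∣ m)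
    (hβ : ∀ (ν : IrrCharacter (N.subgroupOf (Subgroup.centralizer (R : Set G)))) (m : ℕ),
        classInner (fun n : N.subgroupOf (Subgroup.centralizer (R : Set G)) =>
          θ.1 ⟨n.1.1, n.2⟩) ν.1 = (m : ℂ) → ¬ p ∣ m → ν = β)
    (t : Subgroup.centralizer (R : Set G)) :
    haveI : (N.subgroupOf (Subgroup.centralizer (R : Set G))).Normal := Subgroup.normal_subgroupOf
    conjIrr (N.subgroupOf (Subgroup.centralizer (R : Set G))) t β = β := by
  classical
  obtain ⟨m, hm, hpm⟩ := hβm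
  refine hβ _ m ?_ hpm
  rw [← hm]
  exact inner_conj_FC θ hinv _ β t

end Glaub

section Main

variable {G : Type u} [Group G] [Finite G] {p : ℕ} [hp : Fact p.Prime] {M : Ideal AlgInt}
  [hMp : M.IsPrime]

/-- The restriction of `θ` to `K`, viewed inside a subgroup `L ⊇ K`. -/
def restrictFC {K L : Subgroup G} (hKL : K ≤ L) (θ : IrrCharacter K) : IrrCharacter (K.subgroupOf L) :=
  ⟨θ.1 ∘ iotaFC K L, isIrrCharacter_comp_of_surjective (iotaFC K L)
    (fun k => ⟨⟨⟨k.1, hKL k.2⟩, Subgroup.mem_subgroupOf.mpr k.2⟩, rfl⟩) θ.2⟩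

/-- Reindexing sums over `K ∩ L` and `K`. -/
theorem sum_subgroupOf_FC {K L : Subgroup G} (hKL : K ≤ L) (F : K → ℂ) :
    ∑ n : K.subgroupOf L, F (iotaFC K L n) = ∑ n : K, F n := by
  classical
  have hb : Function.Bijective (iotaFC K L) :=
    ⟨iotaFC_injective K L, fun k => ⟨⟨⟨k.1, hKL k.2⟩, Subgroup.mem_subgroupOf.mpr k.2⟩, rfl⟩⟩
  exact Function.Bijective.sum_comp hb F

/-- A constituent of `χ|L` over `θ`. -/
theorem exists_constituent_over {K L : Subgroup G} [hKn : K.Normal] (hKL : K ≤ L)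
    (θ : IrrCharacter K) {χ : IrrCharacter G} (hχ : ∑ n : K, conj (θ.1 n) * χ.1 n ≠ 0) :
    ∃ η : IrrCharacter L, classInner (fun n : L => χ.1 n) η.1 ≠ 0 ∧
      ∑ n : K.subgroupOf L, conj ((restrictFC hKL θ).1 n) * η.1 n ≠ 0 := by
  classical
  by_contra hcon
  push Not at hcon
  apply hχ
  have hexp := classFunction_expansion (fun n : L => χ.1 n)
    (isClassFunction_of_isCharacter (isCharacter_restrict L (H21.isCharacter_of_irr χ.2)))
  have hval : ∀ n : K, χ.1 n = ∑ η : IrrCharacter L,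
      classInner (fun n : L => χ.1 n) η.1 * η.1 ⟨n.1, hKL n.2⟩ := by
    intro n
    have h1 := congrFun hexp ⟨n.1, hKL n.2⟩
    simpa using h1
  have h2 : ∑ n : K, conj (θ.1 n) * χ.1 n = ∑ η : IrrCharacter L,
      classInner (fun n : L => χ.1 n) η.1 * ∑ n : K, conj (θ.1 n) * η.1 ⟨n.1, hKL n.2⟩ := by
    simp only [Finset.mul_sum]
    rw [Finset.sum_comm]
    refine Finset.sum_congr rfl fun n _ => ?_
    rw [hval n, Finset.mul_sum]
    refine Finset.sum_congr rfl fun η _ => ?_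
    ring
  rw [h2]
  refine Finset.sum_eq_zero fun η _ => ?_
  by_cases hη : classInner (fun n : L => χ.1 n) η.1 = 0
  · rw [hη, zero_mul]
  · have h3 := hcon η hη
    have h4 := sum_subgroupOf_FC hKL (fun n : K => conj (θ.1 n) * η.1 ⟨n.1, hKL n.2⟩)
    rw [← h4]
    have h5 : ∑ n : K.subgroupOf L, conj (θ.1 (iotaFC K L n)) * η.1 ⟨(iotaFC K L n).1, hKL (iotaFC K L n).2⟩ = 0 := h3
    rw [h5, mul_zero]

/-- Unique block over an invariant character of a normal subgroup of `p`-power index. -/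
theorem cover_unique_FC {N : Subgroup G} [hN : N.Normal] (hM : IsPModular p M)
    (hcop : ¬ p ∣ Nat.card N) (hidx : ∃ k : ℕ, N.index = p ^ k) (θ : IrrCharacter N)
    {B B' : Set (IrrCharacter G)} (hB : IsPBlock M B) (hB' : IsPBlock M B')
    (h : ∃ χ ∈ B, ∑ n : N, conj (θ.1 n) * χ.1 n ≠ 0)
    (h' : ∃ χ ∈ B', ∑ n : N, conj (θ.1 n) * χ.1 n ≠ 0) : B = B' := by
  have hb := singleton_block_FC hM hcop θ
  obtain ⟨χ, hχ, hne⟩ := h
  obtain ⟨χ', hχ', hne'⟩ := h'
  exact (existsUnique_cover_pIndex hM hidx hb).unique ⟨hB, χ, hχ, θ, rfl, hne⟩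
    ⟨hB', χ', hχ', θ, rfl, hne'⟩

theorem card_subgroupOf_not_dvd {K : Subgroup G} (Y : Subgroup G) (hK : ¬ p ∣ Nat.card K) :
    ¬ p ∣ Nat.card (K.subgroupOf Y) := fun h =>
  hK (h.trans (Subgroup.card_dvd_of_injective (iotaFC K Y) (iotaFC_injective K Y)))

/-- Any block over `θ` has a defect group containing `Q`. -/
theorem exists_defect_above_FC (hM : IsPModular p M) {K L Q : Subgroup G} [hKn : K.Normal]
    [hLn : L.Normal] (hK : ¬ p ∣ Nat.card K) (hKL : K ≤ L)
    (hLp : IsPGroup p (L.map (QuotientGroup.mk' K))) (hQL : Q ≤ L) (hQp : IsPGroup p Q)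
    (hQS : ¬ p ∣ Q.relIndex L) (θ : IrrCharacter K) (hθ : ∀ t : G, conjIrr K t θ = θ)
    {χ : IrrCharacter G} (hχ : ∑ n : K, conj (θ.1 n) * χ.1 n ≠ 0) :
    ∃ P : Subgroup G, IsDefectGroup p M (blockOf M χ.1) P ∧ Q ≤ P := by
  classical
  obtain ⟨η, hη1, hη2⟩ := exists_constituent_over hKL θ hχ
  haveI hK'n : (K.subgroupOf L).Normal := Subgroup.normal_subgroupOf
  have hK' := card_subgroupOf_not_dvd (K := K) L hK
  have hidx : ∃ k : ℕ, (K.subgroupOf L).index = p ^ k := index_pow_of_le_FC hLp le_rfl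
  have hb : IsPBlock M (blockOf M η.1) := isBlock_blockOf η
  have hinv' : ∀ t : L, conjIrr (K.subgroupOf L) t (restrictFC hKL θ) = restrictFC hKL θ := by
    intro t
    apply Subtype.ext
    funext n
    rw [conjIrr_apply]
    show θ.1 (iotaFC K L _) = θ.1 (iotaFC K L n)
    conv_rhs => rw [← hθ (t : G)]
    rw [conjIrr_apply]
    exact congrArg θ.1 (Subtype.ext rfl)
  have hQ' : IsPGroup p (Q.subgroupOf L) := hQp.comap_of_injective L.subtype L.subtype_injective
  have hSyl : IsDefectGroup p M (blockOf M η.1) (Q.subgroupOf L) := by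
    have h1 := sylow_defect_of_unique hM hK' hinv' hb ⟨η, self_mem_blockOf η, hη2⟩
      (fun B' hB' hc => cover_unique_FC hM hK' hidx _ hB' hb hc ⟨η, self_mem_blockOf η, hη2⟩)
      (hQ'.toSylow hQS)
    have h2 := IsPGroup.toSylow_coe hQ' hQS
    rw [h2] at h1
    exact h1
  obtain ⟨P, hP, hPQ⟩ := knorr_full hM L (blockOf M η.1) hb Q hQL hSyl (blockOf M χ.1)
    (isBlock_blockOf χ) ⟨χ, self_mem_blockOf χ, η, self_mem_blockOf η, hη1⟩
  exact ⟨P, hP, by rw [← hPQ]; exact inf_le_left⟩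

/-- **Same block.** -/
theorem fong_same_block (hM : IsPModular p M) {K L Q : Subgroup G} [hKn : K.Normal]
    [hLn : L.Normal] (hK : ¬ p ∣ Nat.card K) (hKL : K ≤ L)
    (hLp : IsPGroup p (L.map (QuotientGroup.mk' K))) (hQL : Q ≤ L) (hQp : IsPGroup p Q)
    (hQS : ¬ p ∣ Q.relIndex L) (hCQ : Subgroup.centralizer (Q : Set G) ≤ L)
    (θ : IrrCharacter K) (hθ : ∀ t : G, conjIrr K t θ = θ)
    {χ ψ : IrrCharacter G} (hχ : ∑ n : K, conj (θ.1 n) * χ.1 n ≠ 0)
    (hψ : ∑ n : K, conj (θ.1 n) * ψ.1 n ≠ 0) : SameBlock M χ.1 ψ.1 := by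
  classical
  obtain ⟨P₁, hP₁, hQP₁⟩ := exists_defect_above_FC hM hK hKL hLp hQL hQp hQS θ hθ hχ
  obtain ⟨P₂, hP₂, hQP₂⟩ := exists_defect_above_FC hM hK hKL hLp hQL hQp hQS θ hθ hψ
  obtain ⟨f₁, hf₁⟩ := exists_induced_of_le_defect hM (isBlock_blockOf χ) hP₁ hQP₁
  obtain ⟨f₂, hf₂⟩ := exists_induced_of_le_defect hM (isBlock_blockOf ψ) hP₂ hQP₂
  obtain ⟨β, -, hβ⟩ := exists_glaub_FC hK θ hθ hQp
  haveI hK₁ : (K.subgroupOf (Subgroup.centralizer (Q : Set G))).Normal :=
    Subgroup.normal_subgroupOf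
  have hcov : ∀ {f : Set (IrrCharacter (Subgroup.centralizer (Q : Set G)))} {ζ : IrrCharacter G},
      IsInducedBlock M (Subgroup.centralizer (Q : Set G)) f (blockOf M ζ.1) →
      ∑ n : K, conj (θ.1 n) * ζ.1 n ≠ 0 →
      ∃ ξ ∈ f, ∑ n : K.subgroupOf (Subgroup.centralizer (Q : Set G)), conj (β.1 n) * ξ.1 n ≠ 0 := by
    intro f ζ hf hζ
    obtain ⟨ξ, hξ⟩ := block_nonempty hf.1
    obtain ⟨ν, hν⟩ := exists_constituent (K.subgroupOf (Subgroup.centralizer (Q : Set G))) ξ
    have h1 := constituent_eq_glaub hM hK θ hθ hβ hf (self_mem_blockOf ζ) hζ hξ ν hν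
    exact ⟨ξ, hξ, h1 ▸ hν⟩
  have hidx := index_pow_of_le_FC (Y := Subgroup.centralizer (Q : Set G)) hLp hCQ
  have heq : f₁ = f₂ := cover_unique_FC hM (card_subgroupOf_not_dvd _ hK) hidx β hf₁.1 hf₂.1
    (hcov hf₁ hχ) (hcov hf₂ hψ)
  subst heq
  have hB : blockOf M χ.1 = blockOf M ψ.1 := H21.induced_unique' hf₂ hf₁
  have h2 : ψ ∈ blockOf M χ.1 := by
    rw [hB]; exact self_mem_blockOf ψ
  exact h2

/-- **Fong's theorem**: block and defect groups. -/
theorem fong_block_defect (hM : IsPModular p M) {K L Q : Subgroup G} [hKn : K.Normal]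
    [hLn : L.Normal] (hK : ¬ p ∣ Nat.card K) (hKL : K ≤ L)
    (hLp : IsPGroup p (L.map (QuotientGroup.mk' K))) (hQL : Q ≤ L) (hQp : IsPGroup p Q)
    (hQS : ¬ p ∣ Q.relIndex L) (hCQ : Subgroup.centralizer (Q : Set G) ≤ L)
    (θ : IrrCharacter K) (hθ : ∀ t : G, conjIrr K t θ = θ)
    {B : Set (IrrCharacter G)} (hB : ∀ χ : IrrCharacter G, χ ∈ B ↔ ∑ n : K, conj (θ.1 n) * χ.1 n ≠ 0) :
    IsPBlock M B ∧ ∀ S : Sylow p G, IsDefectGroup p M B S := by
  classical
  obtain ⟨χ₀, hχ₀⟩ := exists_above (G := G) θ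
  have hBb : B = blockOf M χ₀.1 := by
    ext ψ
    constructor
    · intro hψ
      exact fong_same_block hM hK hKL hLp hQL hQp hQS hCQ θ hθ hχ₀ ((hB ψ).mp hψ)
    · intro hψ
      exact (hB ψ).mpr (const_of_sameBlock hM hK hψ hχ₀)
  have hb : IsPBlock M B := ⟨χ₀, hBb⟩
  refine ⟨hb, fun S => sylow_defect_of_unique hM hK hθ hb ⟨χ₀, (hB χ₀).mpr hχ₀, hχ₀⟩ ?_ S⟩
  rintro B' hB' ⟨χ, hχ, hne⟩
  exact block_eq_of_inter hB' hb hχ ((hB χ).mpr hne)

/-- **Fong's theorem**: principal type. -/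
theorem fong_principal_type (hM : IsPModular p M) {K L Q : Subgroup G} [hKn : K.Normal]
    [hLn : L.Normal] (hK : ¬ p ∣ Nat.card K) (hKL : K ≤ L)
    (hLp : IsPGroup p (L.map (QuotientGroup.mk' K))) (hQL : Q ≤ L) (hQp : IsPGroup p Q)
    (hQS : ¬ p ∣ Q.relIndex L) (hCQ : Subgroup.centralizer (Q : Set G) ≤ L)
    (θ : IrrCharacter K) (hθ : ∀ t : G, conjIrr K t θ = θ)
    {B : Set (IrrCharacter G)} (hB : ∀ χ : IrrCharacter G, χ ∈ B ↔ ∑ n : K, conj (θ.1 n) * χ.1 n ≠ 0)
    {R : Subgroup G} (hR : IsPGroup p R) :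
    ∃! f : Set (IrrCharacter (Subgroup.centralizer (R : Set G))),
      IsInducedBlock M (Subgroup.centralizer (R : Set G)) f B := by
  classical
  obtain ⟨hb, hdef⟩ := fong_block_defect hM hK hKL hLp hQL hQp hQS hCQ θ hθ hB
  obtain ⟨S, hS⟩ := hR.exists_le_sylow
  obtain ⟨f, hf⟩ := exists_induced_of_le_defect hM hb (hdef S) hS
  refine ⟨f, hf, ?_⟩
  obtain ⟨β, hβm, hβ⟩ := exists_glaub_FC hK θ hθ hR
  have hinvβ := glaub_invariant θ hθ hβm hβ
  haveI hK₁ : (K.subgroupOf (Subgroup.centralizer (R : Set G))).Normal :=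
    Subgroup.normal_subgroupOf
  obtain ⟨χ₀, hχ₀⟩ := exists_above (G := G) θ
  have hcov : ∀ {f : Set (IrrCharacter (Subgroup.centralizer (R : Set G)))},
      IsInducedBlock M (Subgroup.centralizer (R : Set G)) f B →
      ∃ ξ ∈ f, ∑ n : K.subgroupOf (Subgroup.centralizer (R : Set G)), conj (β.1 n) * ξ.1 n ≠ 0 := by
    intro f hf
    obtain ⟨ξ, hξ⟩ := block_nonempty hf.1
    obtain ⟨ν, hν⟩ := exists_constituent (K.subgroupOf (Subgroup.centralizer (R : Set G))) ξ
    have h1 := constituent_eq_glaub hM hK θ hθ hβ hf ((hB χ₀).mpr hχ₀) hχ₀ hξ ν hν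
    exact ⟨ξ, hξ, h1 ▸ hν⟩
  have hKc : (Nat.card K).Coprime p :=
    ((Nat.Prime.coprime_iff_not_dvd hp.out).2 hK).symm
  obtain ⟨L₂, Q₂, hL₂n, hKL₂, hL₂p, hQ₂L₂, hQ₂p, hQ₂S, hCQ₂⟩ :=
    constraint_data_FC hKc hKL hLp hQL hQp hCQ hR
  haveI := hL₂n
  intro f₂ hf₂
  obtain ⟨ξ₁, hξ₁, hne₁⟩ := hcov hf
  obtain ⟨ξ₂, hξ₂, hne₂⟩ := hcov hf₂
  have hsame : SameBlock M ξ₂.1 ξ₁.1 := fong_same_block hM (card_subgroupOf_not_dvd _ hK) hKL₂ hL₂p
    hQ₂L₂ hQ₂p hQ₂S hCQ₂ β (fun t => hinvβ t) hne₂ hne₁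
  have hξ₁f₂ : ξ₁ ∈ f₂ := by
    rw [block_eq_of_mem hf₂.1 hξ₂]
    exact hsame
  exact block_eq_of_inter hf₂.1 hf.1 hξ₁f₂ hξ₁

end Main

end Cfsg.Agent.H22
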