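import Cfsg.Agent.Lib.H22.FongCon

/-!
# The Harris–Knörr theorem
-/

set_option autoImplicit false
set_option linter.unusedSectionVars false
set_option linter.style.haveILetI false
set_option linter.unusedSimpArgs false
set_option linter.unusedVariables false

namespace Cfsg.Agent.H22

open Cfsg Cfsg.Agent.H21 Module
open scoped ComplexConjugate

universe u

section Good

variable {G : Type u} [Group G] [Finite G] {p : ℕ} [hp : Fact p.Prime] {M : Ideal AlgInt}
  [hMp : M.IsPrime]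

/-- Elements such that `Q` is a largest `p`-subgroup of `C_N(y)`. -/
def GoodHK (p : ℕ) (N Q : Subgroup G) (y : G) : Prop :=
  ∀ S : Subgroup G, IsPGroup p S → S ≤ N → S ≤ Subgroup.centralizer ({y} : Set G) →
    Nat.card S ≤ Nat.card Q

theorem mem_centralizer_singleton_HK {x y : G} :
    x ∈ Subgroup.centralizer ({y} : Set G) ↔ x * y = y * x := by
  rw [Subgroup.mem_centralizer_singleton_iff]

theorem good_conj {N Q : Subgroup G} [hN : N.Normal] {y : G} (h : GoodHK p N Q y) (g : G) :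
    GoodHK p N Q (g * y * g⁻¹) := by
  intro S hS hSN hSc
  have h1 := h (S.map (MulAut.conj g⁻¹).toMonoidHom) (hS.map _) (by
    rintro _ ⟨s, hs, rfl⟩
    exact hN.conj_mem _ (hSN hs) _) (by
    rintro _ ⟨s, hs, rfl⟩
    have h2 := mem_centralizer_singleton_HK.mp (hSc hs)
    rw [mem_centralizer_singleton_HK]
    show g⁻¹ * s * g⁻¹⁻¹ * y = y * (g⁻¹ * s * g⁻¹⁻¹)
    have h3 : s = (g * y * g⁻¹) * s * (g * y * g⁻¹)⁻¹ := by
      rw [← h2]; group
    calc g⁻¹ * s * g⁻¹⁻¹ * y = g⁻¹ * (s * (g * y * g⁻¹)) * g := by group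
      _ = g⁻¹ * ((g * y * g⁻¹) * s) * g := by rw [h2]
      _ = y * (g⁻¹ * s * g⁻¹⁻¹) := by group)
  rwa [Subgroup.card_map_of_injective (MulEquiv.injective _)] at h1

/-- Good elements of `C_G(Q)` which are conjugate in `G` are conjugate in `N_G(Q)`. -/
theorem good_conj_in_normalizer {N Q : Subgroup G} [hN : N.Normal] (hQ : IsPGroup p Q) (hQN : Q ≤ N)
    {y : G} (hy : y ∈ Subgroup.centralizer (Q : Set G)) (g : G)
    (hy' : g * y * g⁻¹ ∈ Subgroup.centralizer (Q : Set G)) (hgood : GoodHK p N Q y) :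
    ∃ h ∈ Subgroup.normalizer (Q : Set G), h * y * h⁻¹ = g * y * g⁻¹ := by
  classical
  set y' := g * y * g⁻¹ with hy'def
  have hgood' := good_conj hgood g
  rw [← hy'def] at hgood'
  set Y : Subgroup G := N ⊓ Subgroup.centralizer ({y'} : Set G) with hY
  have hQY : Q ≤ Y := by
    intro q hq
    refine Subgroup.mem_inf.mpr ⟨hQN hq, mem_centralizer_singleton_HK.mpr ?_⟩
    exact Subgroup.mem_centralizer_iff.mp hy' q hq
  set Q₂ : Subgroup G := Q.map (MulAut.conj g).toMonoidHom with hQ₂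
  have hcardQ₂ : Nat.card Q₂ = Nat.card Q := Subgroup.card_map_of_injective (MulEquiv.injective _)
  have hQ₂Y : Q₂ ≤ Y := by
    rintro _ ⟨q, hq, rfl⟩
    refine Subgroup.mem_inf.mpr ⟨hN.conj_mem _ (hQN hq) _, mem_centralizer_singleton_HK.mpr ?_⟩
    show g * q * g⁻¹ * y' = y' * (g * q * g⁻¹)
    have h2 := Subgroup.mem_centralizer_iff.mp hy q hq
    rw [hy'def]
    calc g * q * g⁻¹ * (g * y * g⁻¹) = g * (q * y) * g⁻¹ := by group
      _ = g * (y * q) * g⁻¹ := by rw [h2]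
      _ = g * y * g⁻¹ * (g * q * g⁻¹) := by group
  have hp1 : IsPGroup p (Q.subgroupOf Y) := hQ.comap_of_injective Y.subtype Y.subtype_injective
  have hQ₂p : IsPGroup p Q₂ := hQ.map _
  have hp2 : IsPGroup p (Q₂.subgroupOf Y) := hQ₂p.comap_of_injective Y.subtype Y.subtype_injective
  obtain ⟨S₁, hS₁⟩ := hp1.exists_le_sylow
  obtain ⟨S₂, hS₂⟩ := hp2.exists_le_sylow
  -- both are Sylow
  have key : ∀ (A : Subgroup G) (S : Sylow p Y), A ≤ Y → Nat.card A = Nat.card Q →
      A.subgroupOf Y ≤ (S : Subgroup Y) → (S : Subgroup Y) = A.subgroupOf Y := by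
    intro A S hA hc hle
    symm
    apply Subgroup.eq_of_le_of_card_ge hle
    have h1 := hgood' ((S : Subgroup Y).map Y.subtype) (S.isPGroup'.map _)
      (by rintro _ ⟨u, _, rfl⟩; exact u.2.1) (by rintro _ ⟨u, _, rfl⟩; exact u.2.2)
    rw [Subgroup.card_map_of_injective Y.subtype_injective, ← hc] at h1
    have h3 : Nat.card (A.subgroupOf Y) = Nat.card A :=
      Nat.card_congr (Subgroup.subgroupOfEquivOfLe hA).toEquiv
    rwa [h3]
  have e1 := key Q S₁ hQY rfl hS₁
  have e2 := key Q₂ S₂ hQ₂Y hcardQ₂ hS₂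
  obtain ⟨m, hm⟩ := MulAction.exists_smul_eq Y S₂ S₁
  have hm2 : ((S₁ : Sylow p Y) : Subgroup Y) =
      ((S₂ : Subgroup Y)).map (MulAut.conj m).toMonoidHom := by
    rw [← hm]
    rfl
  refine ⟨m * g, ?_, ?_⟩
  · have hle : ∀ q ∈ Q, (m * g) * q * (m * g)⁻¹ ∈ Q := by
      intro q hq
      have h1 : (⟨g * q * g⁻¹, hQ₂Y ⟨q, hq, rfl⟩⟩ : Y) ∈ (S₂ : Subgroup Y) := by
        apply hS₂
        exact Subgroup.mem_subgroupOf.mpr ⟨q, hq, rfl⟩
      have h2 : (MulAut.conj m).toMonoidHom (⟨g * q * g⁻¹, hQ₂Y ⟨q, hq, rfl⟩⟩ : Y) ∈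
          (S₁ : Subgroup Y) := by
        rw [hm2]
        exact ⟨_, h1, rfl⟩
      rw [e1, Subgroup.mem_subgroupOf] at h2
      have h3 : ((MulAut.conj m).toMonoidHom (⟨g * q * g⁻¹, hQ₂Y ⟨q, hq, rfl⟩⟩ : Y) : G) =
          (m * g) * q * (m * g)⁻¹ := by
        show (m : G) * (g * q * g⁻¹) * (m : G)⁻¹ = _
        group
      rwa [h3] at h2
    have hmap := map_conj_eq_of_card hle rfl
    rw [Subgroup.mem_normalizer_iff]
    intro x
    refine ⟨fun hx => hle x hx, fun hx => ?_⟩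
    rw [← hmap] at hx
    obtain ⟨q, hq, hq2⟩ := hx
    have : q = x := by
      have h5 : (m * g) * q * (m * g)⁻¹ = (m * g) * x * (m * g)⁻¹ := hq2
      exact mul_left_cancel (mul_right_cancel h5)
    rwa [← this]
  · have h1 : (m : G) * y' = y' * (m : G) := mem_centralizer_singleton_HK.mp m.2.2
    calc (m * g) * y * (m * g)⁻¹ = (m : G) * y' * (m : G)⁻¹ := by rw [hy'def]; group
      _ = y' := by rw [h1]; group

/-- From the normalizer-local largest to the global largest. -/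
theorem good_of_good_local {N Q : Subgroup G} (hQ : IsPGroup p Q) (hQN : Q ≤ N) {y : G}
    (hy : y ∈ Subgroup.centralizer (Q : Set G))
    (h : ∀ S : Subgroup G, IsPGroup p S → S ≤ N → S ≤ Subgroup.normalizer (Q : Set G) →
      S ≤ Subgroup.centralizer ({y} : Set G) → Nat.card S ≤ Nat.card Q) : GoodHK p N Q y := by
  classical
  intro S hS hSN hSc
  by_contra hcon
  push Not at hcon
  set Y : Subgroup G := N ⊓ Subgroup.centralizer ({y} : Set G) with hY
  have hQY : Q ≤ Y := by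
    intro q hq
    refine Subgroup.mem_inf.mpr ⟨hQN hq, mem_centralizer_singleton_HK.mpr ?_⟩
    exact Subgroup.mem_centralizer_iff.mp hy q hq
  have hSY : S ≤ Y := le_inf hSN hSc
  have hp1 : IsPGroup p (Q.subgroupOf Y) := hQ.comap_of_injective Y.subtype Y.subtype_injective
  have hp2 : IsPGroup p (S.subgroupOf Y) := hS.comap_of_injective Y.subtype Y.subtype_injective
  obtain ⟨S₁, hS₁⟩ := hp1.exists_le_sylow
  obtain ⟨S₂, hS₂⟩ := hp2.exists_le_sylow
  have hc : Nat.card (S₁ : Subgroup Y) = Nat.card (S₂ : Subgroup Y) := by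
    rw [Sylow.card_eq_multiplicity, Sylow.card_eq_multiplicity]
  have hc2 : Nat.card S ≤ Nat.card (S₂ : Subgroup Y) := by
    have h3 : Nat.card (S.subgroupOf Y) = Nat.card S :=
      Nat.card_congr (Subgroup.subgroupOfEquivOfLe hSY).toEquiv
    rw [← h3]
    exact Subgroup.card_le_of_le hS₂
  set T : Subgroup G := (S₁ : Subgroup Y).map Y.subtype with hT
  have hTc : Nat.card T = Nat.card (S₁ : Subgroup Y) :=
    Subgroup.card_map_of_injective Y.subtype_injective
  have hTp : IsPGroup p T := S₁.isPGroup'.map _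
  have hQT : Q ≤ T := by
    intro q hq
    exact ⟨⟨q, hQY hq⟩, hS₁ (Subgroup.mem_subgroupOf.mpr hq), rfl⟩
  have hlt : Q < T := by
    refine lt_of_le_of_ne hQT fun he => ?_
    have h4 : Nat.card Q = Nat.card T := by rw [he]
    omega
  have h5 := lt_inf_normalizer hTp hlt
  have hTY : T ≤ Y := by
    rintro _ ⟨u, _, rfl⟩
    exact u.2
  have h6 := h (T ⊓ Subgroup.normalizer (Q : Set G)) (hTp.to_le inf_le_left)
    (inf_le_left.trans (hTY.trans inf_le_left)) inf_le_right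
    (inf_le_left.trans (hTY.trans inf_le_right))
  exact h5.ne (Subgroup.eq_of_le_of_card_ge h5.le h6)

end Good

section Surj

variable {G : Type u} [Group G] [Finite G] {p : ℕ} [hp : Fact p.Prime] {M : Ideal AlgInt}
  [hMp : M.IsPrime]

open scoped Classical in
/-- The lift to `G` of a class function on `N_G(Q)`. -/
noncomputable def liftHK (p : ℕ) (N Q : Subgroup G)
    (b : Subgroup.normalizer (Q : Set G) → ℂ) (g : G) : ℂ :=
  if h : ∃ y : Subgroup.normalizer (Q : Set G), (y : G) ∈ Subgroup.centralizer (Q : Set G) ∧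
      GoodHK p N Q y ∧ IsConj (y : G) g then b h.choose else 0

theorem b_eq_of_good {N Q : Subgroup G} [hN : N.Normal] (hQ : IsPGroup p Q) (hQN : Q ≤ N)
    {b : Subgroup.normalizer (Q : Set G) → ℂ}
    (hb : IsClassFunction (Subgroup.normalizer (Q : Set G)) b)
    {y y' : Subgroup.normalizer (Q : Set G)} (hy : (y : G) ∈ Subgroup.centralizer (Q : Set G))
    (hy' : (y' : G) ∈ Subgroup.centralizer (Q : Set G)) (hg : GoodHK p N Q y)
    (hc : IsConj (y : G) (y' : G)) : b y = b y' := by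
  obtain ⟨g, hg2⟩ := isConj_iff.mp hc
  obtain ⟨h, hh, hh2⟩ := good_conj_in_normalizer hQ hQN hy g (by rw [hg2]; exact hy') hg
  have h1 : y' = (⟨h, hh⟩ : Subgroup.normalizer (Q : Set G)) * y * (⟨h, hh⟩ : Subgroup.normalizer (Q : Set G))⁻¹ :=
    Subtype.ext (by
      show (y' : G) = h * y * h⁻¹
      rw [hh2, hg2])
  rw [h1]
  exact (hb y _).symm

theorem liftHK_isClass {N Q : Subgroup G} [hN : N.Normal] (hQ : IsPGroup p Q) (hQN : Q ≤ N)
    {b : Subgroup.normalizer (Q : Set G) → ℂ}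
    (hb : IsClassFunction (Subgroup.normalizer (Q : Set G)) b) :
    IsClassFunction G (liftHK p N Q b) := by
  classical
  intro g k
  have hiff : ∀ y : G, IsConj y (k * g * k⁻¹) ↔ IsConj y g := by
    intro y
    have h1 : IsConj g (k * g * k⁻¹) := isConj_iff.2 ⟨k, rfl⟩
    exact ⟨fun h2 => h2.trans h1.symm, fun h2 => h2.trans h1⟩
  unfold liftHK
  by_cases h : ∃ y : Subgroup.normalizer (Q : Set G), (y : G) ∈ Subgroup.centralizer (Q : Set G) ∧
      GoodHK p N Q y ∧ IsConj (y : G) g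
  · have h' : ∃ y : Subgroup.normalizer (Q : Set G), (y : G) ∈ Subgroup.centralizer (Q : Set G) ∧
        GoodHK p N Q y ∧ IsConj (y : G) (k * g * k⁻¹) := by
      obtain ⟨y, h1, h2, h3⟩ := h
      exact ⟨y, h1, h2, (hiff y).mpr h3⟩
    rw [dif_pos h, dif_pos h']
    have s1 := h.choose_spec
    have s2 := h'.choose_spec
    refine b_eq_of_good hQ hQN hb s2.1 s1.1 s2.2.1 ?_
    exact ((hiff _).mp s2.2.2).trans s1.2.2.symm
  · have h' : ¬ ∃ y : Subgroup.normalizer (Q : Set G), (y : G) ∈ Subgroup.centralizer (Q : Set G) ∧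
        GoodHK p N Q y ∧ IsConj (y : G) (k * g * k⁻¹) := by
      rintro ⟨y, h1, h2, h3⟩
      exact h ⟨y, h1, h2, (hiff y).mp h3⟩
    rw [dif_neg h, dif_neg h']

theorem liftHK_mlr {N Q : Subgroup G} {b : Subgroup.normalizer (Q : Set G) → ℂ}
    (hl : ∀ y, MemLocalRing M (b y)) (g : G) : MemLocalRing M (liftHK p N Q b g) := by
  classical
  unfold liftHK
  split_ifs with h
  · exact hl _
  · exact mlr_zero

theorem liftHK_sub_mli {N Q : Subgroup G} [hN : N.Normal] (hQ : IsPGroup p Q) (hQN : Q ≤ N)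
    {b : Subgroup.normalizer (Q : Set G) → ℂ}
    (hb : IsClassFunction (Subgroup.normalizer (Q : Set G)) b)
    (hbad : ∀ y : Subgroup.normalizer (Q : Set G), (y : G) ∈ Subgroup.centralizer (Q : Set G) →
      ¬ GoodHK p N Q y → MemLocalIdeal M (b y))
    (y : Subgroup.normalizer (Q : Set G)) (hy : (y : G) ∈ Subgroup.centralizer (Q : Set G)) :
    MemLocalIdeal M (liftHK p N Q b y - b y) := by
  classical
  unfold liftHK
  by_cases hg : GoodHK p N Q y
  · have h : ∃ y₁ : Subgroup.normalizer (Q : Set G), (y₁ : G) ∈ Subgroup.centralizer (Q : Set G) ∧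
        GoodHK p N Q y₁ ∧ IsConj (y₁ : G) (y : G) := ⟨y, hy, hg, IsConj.refl _⟩
    rw [dif_pos h]
    have s1 := h.choose_spec
    rw [b_eq_of_good hQ hQN hb s1.1 hy s1.2.1 s1.2.2, sub_self]
    exact mli_zero
  · have h : ¬ ∃ y₁ : Subgroup.normalizer (Q : Set G), (y₁ : G) ∈ Subgroup.centralizer (Q : Set G) ∧
        GoodHK p N Q y₁ ∧ IsConj (y₁ : G) (y : G) := by
      rintro ⟨y₁, h1, h2, h3⟩
      obtain ⟨g, hg2⟩ := isConj_iff.mp h3
      apply hg
      rw [← hg2]
      exact good_conj h2 g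
    rw [dif_neg h, zero_sub]
    exact mli_neg (hbad y hy hg)

/-- **Surjectivity of the Brauer map on the good part.** -/
theorem exists_class_lift (hM : IsPModular p M) {N Q : Subgroup G} [hN : N.Normal]
    (hQ : IsPGroup p Q) (hQN : Q ≤ N)
    {b : Subgroup.normalizer (Q : Set G) → ℂ}
    (hb : IsClassFunction (Subgroup.normalizer (Q : Set G)) b)
    (hl : ∀ y, MemLocalRing M (b y))
    (hbad : ∀ y : Subgroup.normalizer (Q : Set G), (y : G) ∈ Subgroup.centralizer (Q : Set G) →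
      ¬ GoodHK p N Q y → MemLocalIdeal M (b y))
    (ψ : IrrCharacter (Subgroup.normalizer (Q : Set G))) :
    MemLocalIdeal M (∑ h : Subgroup.normalizer (Q : Set G),
      liftHK p N Q b h * (ψ.1 h / ψ.1 1) - om ψ b) := by
  classical
  haveI : Fintype (ConjClasses (Subgroup.normalizer (Q : Set G))) := Fintype.ofFinite _
  set a : G → ℂ := liftHK p N Q b with ha
  have hcl : IsClassFunction G a := liftHK_isClass hQ hQN hb
  have hclH : IsClassFunction (Subgroup.normalizer (Q : Set G)) (fun h => a h) := by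
    intro g k
    exact hcl (g : G) (k : G)
  have h1 : ∑ h : Subgroup.normalizer (Q : Set G), a h * (ψ.1 h / ψ.1 1) = om ψ (fun h => a h) := by
    unfold om
    rw [Finset.mul_sum]
    refine Finset.sum_congr rfl fun h _ => ?_
    have := irr_one_ne_zero' ψ
    field_simp
  rw [h1, om_eq_sum_classes _ hclH, om_eq_sum_classes _ hb, ← Finset.sum_sub_distrib]
  refine mli_sum _ _ fun C _ => ?_
  rw [← sub_mul]
  by_cases hC : ((C.out : Subgroup.normalizer (Q : Set G)) : G) ∈ Subgroup.centralizer (Q : Set G)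
  · exact mli_mul_right (liftHK_sub_mli hQ hQN hb hbad _ hC) (cc_mlr _ _)
  · refine mli_mul_left (cc_mli_H hM hQ Subgroup.le_normalizer le_rfl hC ψ) ?_
    exact mlr_sub (liftHK_mlr hl _) (hl _)

/-- Elements with nonzero coefficient in a block covering a block of defect `Q` are good. -/
theorem good_of_coeff (hM : IsPModular p M) {N Q : Subgroup G} [hN : N.Normal]
    (hQ : IsPGroup p Q) (hQN : Q ≤ N)
    {e : Set (IrrCharacter (N.subgroupOf (Subgroup.normalizer (Q : Set G))))} (he : IsPBlock M e)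
    (heQ : IsDefectGroup p M e
      ((Q.subgroupOf (Subgroup.normalizer (Q : Set G))).subgroupOf
        (N.subgroupOf (Subgroup.normalizer (Q : Set G)))))
    {c : Set (IrrCharacter (Subgroup.normalizer (Q : Set G)))} (hc : IsPBlock M c)
    (hcov : ∃ ψ ∈ c, ∃ ξ ∈ e, ∑ n : N.subgroupOf (Subgroup.normalizer (Q : Set G)),
      conj (ξ.1 n) * ψ.1 n ≠ 0)
    (y : Subgroup.normalizer (Q : Set G)) (hy : (y : G) ∈ Subgroup.centralizer (Q : Set G))
    (hgood : ¬ GoodHK p N Q y) : MemLocalIdeal M (blockCoeff c y) := by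
  classical
  by_contra hnot
  apply hgood
  haveI hLn : (N.subgroupOf (Subgroup.normalizer (Q : Set G))).Normal := Subgroup.normal_subgroupOf
  obtain ⟨ψ, hψ, ξ, hξ, hne⟩ := hcov
  have hQ'N : Q.subgroupOf (Subgroup.normalizer (Q : Set G)) ≤ N.subgroupOf (Subgroup.normalizer (Q : Set G)) := by
    intro x hx
    exact Subgroup.mem_subgroupOf.mpr (hQN (Subgroup.mem_subgroupOf.mp hx))
  obtain ⟨P, hP, hPQ⟩ := knorr_full hM (N.subgroupOf (Subgroup.normalizer (Q : Set G))) e he (Q.subgroupOf (Subgroup.normalizer (Q : Set G))) hQ'N heQ c hc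
    ⟨ψ, hψ, ξ, hξ, (inner_ne_iff _ _).mpr hne⟩
  refine good_of_good_local hQ hQN hy fun S hS hSN hSH hSc => ?_
  have hS' : IsPGroup p (S.subgroupOf (Subgroup.normalizer (Q : Set G))) := hS.comap_of_injective (Subgroup.normalizer (Q : Set G)).subtype (Subgroup.normalizer (Q : Set G)).subtype_injective
  obtain ⟨x, hx⟩ := subConj_defect_of_coeff hM hc hP hnot hS' (by
    intro s hs
    rw [mem_centralizer_singleton_HK]
    have h1 := mem_centralizer_singleton_HK.mp (hSc (Subgroup.mem_subgroupOf.mp hs))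
    exact Subtype.ext h1)
  have hle : (S.subgroupOf (Subgroup.normalizer (Q : Set G))).map (MulAut.conj x).toMonoidHom ≤ Q.subgroupOf (Subgroup.normalizer (Q : Set G)) := by
    rintro _ ⟨s, hs, rfl⟩
    rw [← hPQ]
    refine ⟨hx s hs, ?_⟩
    exact hLn.conj_mem _ (Subgroup.mem_subgroupOf.mpr (hSN (Subgroup.mem_subgroupOf.mp hs))) x
  have h1 := Subgroup.card_le_of_le hle
  rw [Subgroup.card_map_of_injective (MulEquiv.injective _)] at h1
  have e1 : Nat.card (S.subgroupOf (Subgroup.normalizer (Q : Set G))) = Nat.card S :=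
    Nat.card_congr (Subgroup.subgroupOfEquivOfLe hSH).toEquiv
  have e2 : Nat.card (Q.subgroupOf (Subgroup.normalizer (Q : Set G))) = Nat.card Q :=
    Nat.card_congr (Subgroup.subgroupOfEquivOfLe Subgroup.le_normalizer).toEquiv
  rwa [e1, e2] at h1

/-- **Uniqueness of the block of `N_G(Q)` above `e` inducing a given block.** -/
theorem hk_unique (hM : IsPModular p M) {N Q : Subgroup G} [hN : N.Normal]
    (hQ : IsPGroup p Q) (hQN : Q ≤ N)
    {e : Set (IrrCharacter (N.subgroupOf (Subgroup.normalizer (Q : Set G))))} (he : IsPBlock M e)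
    (heQ : IsDefectGroup p M e
      ((Q.subgroupOf (Subgroup.normalizer (Q : Set G))).subgroupOf
        (N.subgroupOf (Subgroup.normalizer (Q : Set G)))))
    {c₁ c₂ : Set (IrrCharacter (Subgroup.normalizer (Q : Set G)))} {B : Set (IrrCharacter G)}
    (hcov₁ : ∃ ψ ∈ c₁, ∃ ξ ∈ e, ∑ n : N.subgroupOf (Subgroup.normalizer (Q : Set G)),
      conj (ξ.1 n) * ψ.1 n ≠ 0)
    (h₁ : IsInducedBlock M (Subgroup.normalizer (Q : Set G)) c₁ B)
    (h₂ : IsInducedBlock M (Subgroup.normalizer (Q : Set G)) c₂ B) : c₁ = c₂ := by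
  classical
  by_contra hne
  have hc₁ := h₁.1
  have hc₂ := h₂.1
  obtain ⟨ψ₁, hψ₁⟩ := block_nonempty hc₁
  obtain ⟨ψ₂, hψ₂⟩ := block_nonempty hc₂
  obtain ⟨χ, hχ⟩ := block_nonempty h₁.2.1
  have hψ₂n : ψ₂ ∉ c₁ := fun h => hne (block_eq_of_inter hc₁ hc₂ h hψ₂)
  set b := blockCoeff c₁ with hb
  have hbcl : IsClassFunction (Subgroup.normalizer (Q : Set G)) b := blockCoeff_isClass c₁
  have hbl : ∀ y, MemLocalRing M (b y) := blockCoeff_mlr hc₁
  have hbad := good_of_coeff hM hQ hQN he heQ hc₁ hcov₁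
  have hcl : IsClassFunction G (liftHK p N Q b) := liftHK_isClass hQ hQN hbcl
  have hloc := liftHK_mlr (N := N) (Q := Q) (p := p) (M := M) hbl
  have c1 := induced_congr h₁ hψ₁ hχ hcl hloc
  have c2 := induced_congr h₂ hψ₂ hχ hcl hloc
  have s1 := exists_class_lift hM hQ hQN hbcl hbl hbad ψ₁
  have s2 := exists_class_lift hM hQ hQN hbcl hbl hbad ψ₂
  rw [hb, om_blockCoeff_self, eB_apply_mem hψ₁] at s1
  rw [hb, om_blockCoeff_self, eB_apply_not_mem hψ₂n] at s2
  have hfin := mli_sub (mli_sub (mli_sub c2 c1) s1 |> fun h => h) s2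
  apply not_mli_one (M := M)
  have h3 : (1 : ℂ) = (∑ h : Subgroup.normalizer (Q : Set G), liftHK p N Q (blockCoeff c₁) h * (ψ₂.1 h / ψ₂.1 1) - 0) -
      (∑ h : Subgroup.normalizer (Q : Set G), liftHK p N Q (blockCoeff c₁) h * (ψ₁.1 h / ψ₁.1 1) - 1) -
      ((∑ h : Subgroup.normalizer (Q : Set G), liftHK p N Q (blockCoeff c₁) h * (ψ₂.1 h / ψ₂.1 1) - om χ (liftHK p N Q (blockCoeff c₁))) -
       (∑ h : Subgroup.normalizer (Q : Set G), liftHK p N Q (blockCoeff c₁) h * (ψ₁.1 h / ψ₁.1 1) - om χ (liftHK p N Q (blockCoeff c₁)))) := by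
    ring
  rw [h3]
  exact mli_sub (mli_sub s2 s1) (mli_sub c2 c1)

end Surj

section Transport

variable {G : Type u} [Group G] [Finite G] {p : ℕ} [hp : Fact p.Prime] {M : Ideal AlgInt}
  [hMp : M.IsPrime]

theorem image_block_HK {K L : Type*} [Group K] [Group L] [Finite K] [Finite L] (φ : K ≃* L)
    {e : Set (IrrCharacter K)} (he : IsPBlock M e) : IsPBlock M (irrMap φ '' e) := by
  obtain ⟨ξ, rfl⟩ := he
  exact ⟨irrMap φ ξ, (blockOf_irrMap φ ξ).symm⟩

theorem mem_normalizer_N {N Q : Subgroup G} [hN : N.Normal] (hQN : Q ≤ N) (n : N) :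
    n ∈ Subgroup.normalizer ((Q.subgroupOf N : Subgroup N) : Set N) ↔
      (n : G) ∈ Subgroup.normalizer (Q : Set G) := by
  rw [Subgroup.mem_normalizer_iff, Subgroup.mem_normalizer_iff]
  constructor
  · intro h g
    by_cases hg : g ∈ N
    · have := h ⟨g, hg⟩
      simpa [Subgroup.mem_subgroupOf] using this
    · constructor
      · intro hq
        exact absurd (hQN hq) hg
      · intro hq
        exfalso
        apply hg
        have h1 := hQN hq
        have h2 := hN.conj_mem _ h1 (n : G)⁻¹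
        have h3 : (n : G)⁻¹ * ((n : G) * g * (n : G)⁻¹) * ((n : G)⁻¹)⁻¹ = g := by group
        rwa [h3] at h2
  · intro h x
    have := h (x : G)
    simpa [Subgroup.mem_subgroupOf] using this

/-- The two views of `N_N(Q)`. -/
noncomputable def nuHK (N Q : Subgroup G) [hN : N.Normal] (hQN : Q ≤ N) :
    N.subgroupOf (Subgroup.normalizer (Q : Set G)) ≃*
      Subgroup.normalizer ((Q.subgroupOf N : Subgroup N) : Set N) where
  toFun x := ⟨⟨x.1.1, Subgroup.mem_subgroupOf.mp x.2⟩,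
    (mem_normalizer_N hQN ⟨x.1.1, Subgroup.mem_subgroupOf.mp x.2⟩).mpr x.1.2⟩
  invFun y := ⟨⟨y.1.1, (mem_normalizer_N hQN y.1).mp y.2⟩, Subgroup.mem_subgroupOf.mpr y.1.2⟩
  left_inv _ := rfl
  right_inv _ := rfl
  map_mul' _ _ := rfl

/-- The two views of `N_N(Q)`. -/
def muHK (H N : Subgroup G) : ↥(H ⊓ N) ≃* N.subgroupOf H where
  toFun l := ⟨⟨l.1, l.2.1⟩, Subgroup.mem_subgroupOf.mpr l.2.2⟩
  invFun x := ⟨x.1.1, ⟨x.1.2, Subgroup.mem_subgroupOf.mp x.2⟩⟩
  left_inv _ := rfl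
  right_inv _ := rfl
  map_mul' _ _ := rfl

theorem over_iff_HK {H N : Subgroup G} (ψ : IrrCharacter H) (ξ : IrrCharacter ↥(H ⊓ N))
    [inst : Fintype ↥(H ⊓ N)] :
    classInner (fun l : ↥(H ⊓ N) => (ψ : H → ℂ) (Subgroup.inclusion inf_le_left l)) (ξ : ↥(H ⊓ N) → ℂ) ≠ 0 ↔
      ∑ n : N.subgroupOf H, conj ((irrMap (muHK H N) ξ).1 n) * ψ.1 n ≠ 0 := by
  classical
  obtain rfl : inst = fintypeOfFiniteH22 := Subsingleton.elim _ _
  rw [inner_ne_iff]
  have h1 := Equiv.sum_comp (muHK H N).toEquiv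
    (fun n : N.subgroupOf H => conj ((irrMap (muHK H N) ξ).1 n) * ψ.1 n)
  rw [← h1]
  have h2 : ∀ l : ↥(H ⊓ N), conj ((irrMap (muHK H N) ξ).1 ((muHK H N).toEquiv l)) * ψ.1 ((muHK H N).toEquiv l : N.subgroupOf H)
      = conj (ξ.1 l) * ψ.1 (Subgroup.inclusion inf_le_left l) := by
    intro l
    rw [show ((muHK H N).toEquiv l) = muHK H N l from rfl, irrMap_apply']
    rfl
  simp only [h2]

/-- The induced central character in a subgroup, as a sum. -/
theorem inducedIn_eq_sum (A K : Subgroup G) (ξ : K → ℂ) (h : G) :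
    open Classical in
    inducedCentralCharIn A K ξ h =
      ∑ k : K, if ∃ x : A, (x : G) * (k : G) * (x : G)⁻¹ = h then ξ k / ξ 1 else 0 := by
  classical
  unfold inducedCentralCharIn
  rw [finsum_mem_eq_finite_toFinset_sum _ (Set.toFinite _), Finset.sum_ite, Finset.sum_const_zero,
    add_zero]
  refine Finset.sum_congr ?_ fun _ _ => rfl
  ext k
  simp

theorem inducedChar_eq_In {A K : Subgroup G} {H' : Subgroup A} (φ : K ≃* H')
    (hφ : ∀ l : K, (((φ l : H') : A) : G) = l) (ξ : IrrCharacter K) (g : A) :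
    inducedCentralChar H' (irrMap φ ξ).1 g = inducedCentralCharIn A K ξ.1 (g : G) := by
  classical
  rw [inducedCentralChar_eq_sum, inducedIn_eq_sum]
  rw [← Equiv.sum_comp φ.toEquiv]
  refine Finset.sum_congr rfl fun l _ => ?_
  have hiff : IsConj g ((φ l : H') : A) ↔ ∃ x : A, (x : G) * (l : G) * (x : G)⁻¹ = (g : G) := by
    rw [isConj_comm, isConj_iff]
    constructor
    · rintro ⟨x, hx⟩
      refine ⟨x, ?_⟩
      have := congrArg (fun y : A => (y : G)) hx
      simp only [Subgroup.coe_mul, Subgroup.coe_inv, hφ] at this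
      exact this
    · rintro ⟨x, hx⟩
      refine ⟨x, Subtype.ext ?_⟩
      simp only [Subgroup.coe_mul, Subgroup.coe_inv, hφ]
      exact hx
  have h3 : φ.toEquiv l = φ l := rfl
  simp only [h3]
  by_cases hx : ∃ x : A, (x : G) * (l : G) * (x : G)⁻¹ = (g : G)
  · rw [if_pos hx, if_pos (hiff.mpr hx), irrMap_apply', irrMap_apply, map_one]
  · rw [if_neg hx, if_neg (fun h => hx (hiff.mp h))]

/-- Passage from induction inside `N` to induction from `N_N(Q)` in the group `N`. -/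
theorem induced_of_inducedIn {N Q : Subgroup G} [hN : N.Normal] (hQN : Q ≤ N)
    {e : Set (IrrCharacter ↥(Subgroup.normalizer (Q : Set G) ⊓ N))} {d : Set (IrrCharacter N)}
    (hed : IsInducedBlockIn M N (Subgroup.normalizer (Q : Set G) ⊓ N) e d) :
    IsInducedBlock M (Subgroup.normalizer ((Q.subgroupOf N : Subgroup N) : Set N))
      (irrMap ((muHK (Subgroup.normalizer (Q : Set G)) N).trans (nuHK N Q hQN)) '' e) d := by
  classical
  refine ⟨image_block_HK _ hed.1, hed.2.1, ?_⟩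
  rintro _ ⟨ξ, hξ, rfl⟩ θ hθ g
  rw [inducedChar_eq_In _ (fun l => rfl)]
  exact hed.2.2 ξ hξ θ hθ g

end Transport

section Main

variable {G : Type u} [Group G] [Finite G] {p : ℕ} [hp : Fact p.Prime] {M : Ideal AlgInt}
  [hMp : M.IsPrime]

/-- Sums over `H` of a class function supported on `N`, through a constituent on `N ∩ H`. -/
theorem sum_support_eq {N : Subgroup G} [hN : N.Normal] (H : Subgroup G) {E : G → ℂ}
    (hcl : IsClassFunction G E) (hoff : ∀ g, g ∉ N → E g = 0) (ψ : IrrCharacter H)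
    (ζ : IrrCharacter (N.subgroupOf H))
    (hne : ∑ n : N.subgroupOf H, conj (ζ.1 n) * ψ.1 n ≠ 0) :
    ∑ h : H, E h * (ψ.1 h / ψ.1 1) = ∑ n : N.subgroupOf H, E n.1 * (ζ.1 n / ζ.1 1) := by
  classical
  haveI hK₁n : (N.subgroupOf H).Normal := Subgroup.normal_subgroupOf
  set z : N.subgroupOf H → ℂ := fun n => E n.1 with hz
  have hext : (fun h : H => E h) = extK (N.subgroupOf H) z := by
    funext h
    by_cases hh : h ∈ N.subgroupOf H
    · rw [extK_of_mem (N.subgroupOf H) z hh]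
    · rw [extK_of_not_mem (N.subgroupOf H) z hh]
      exact hoff _ (fun h' => hh (Subgroup.mem_subgroupOf.mpr h'))
  have hclz : IsClassFunction H (extK (N.subgroupOf H) z) := by
    rw [← hext]
    intro g k
    exact hcl (g : G) (k : G)
  have h1 := om_restrict ψ ζ hne z hclz
  rw [← hext] at h1
  have e1 : ∑ h : H, E h * (ψ.1 h / ψ.1 1) = om ψ (fun h : H => E h) := by
    unfold om
    rw [Finset.mul_sum]
    refine Finset.sum_congr rfl fun h _ => ?_
    have := irr_one_ne_zero' ψ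
    field_simp
  have e2 : ∑ n : N.subgroupOf H, E n.1 * (ζ.1 n / ζ.1 1) = om ζ z := by
    unfold om
    rw [Finset.mul_sum]
    refine Finset.sum_congr rfl fun h _ => ?_
    have := irr_one_ne_zero' ζ
    rw [hz]
    field_simp
  rw [e1, e2, h1]

/-- Congruence across the group `N` for an induced block of `N_N(Q)`. -/
theorem ind_congr_N {N Q : Subgroup G} [hN : N.Normal] (hQN : Q ≤ N)
    {b : Set (IrrCharacter (Subgroup.normalizer ((Q.subgroupOf N : Subgroup N) : Set N)))}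
    {d : Set (IrrCharacter N)}
    (hind : IsInducedBlock M (Subgroup.normalizer ((Q.subgroupOf N : Subgroup N) : Set N)) b d)
    {ζ : IrrCharacter (N.subgroupOf (Subgroup.normalizer (Q : Set G)))}
    (hζ : irrMap (nuHK N Q hQN) ζ ∈ b) {θ : IrrCharacter N} (hθ : θ ∈ d)
    {a : N → ℂ} (ha : IsClassFunction N a) (hloc : ∀ g, MemLocalRing M (a g)) :
    MemLocalIdeal M (∑ n : N.subgroupOf (Subgroup.normalizer (Q : Set G)),
      a ⟨n.1.1, Subgroup.mem_subgroupOf.mp n.2⟩ * (ζ.1 n / ζ.1 1) - om θ a) := by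
  classical
  have h1 := induced_congr hind hζ hθ ha hloc
  have h2 := Equiv.sum_comp (nuHK N Q hQN).toEquiv
    (fun h : Subgroup.normalizer ((Q.subgroupOf N : Subgroup N) : Set N) =>
      a h * ((irrMap (nuHK N Q hQN) ζ).1 h / (irrMap (nuHK N Q hQN) ζ).1 1))
  rw [← h2] at h1
  convert h1 using 3
  rename_i n _
  have h3 : (irrMap (nuHK N Q hQN) ζ).1 ((nuHK N Q hQN).toEquiv n) = ζ.1 n := irrMap_apply' _ _ _
  have h4 : (irrMap (nuHK N Q hQN) ζ).1 1 = ζ.1 1 := by rw [irrMap_apply, map_one]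
  rw [h3, h4]
  rfl

theorem orbS_invariant {N : Subgroup G} [hN : N.Normal] (d : Set (IrrCharacter N)) :
    ∀ t : G, ∀ θ ∈ orbS d, conjIrr N t θ ∈ orbS d := by
  rintro s θ ⟨t, ht⟩
  refine ⟨s⁻¹ * t, ?_⟩
  rw [conjIrr_conjIrr]
  simpa using ht

theorem blockCoeff_mlr_sat {K : Type*} [Group K] [Finite K] {S : Set (IrrCharacter K)}
    (hS : BlockSat M S) (g : K) : MemLocalRing M (blockCoeff S g) := by
  rw [blockCoeff_fun_eq]
  exact eB_sat_mem_ZR hS _

theorem sbc_mlr_sat {N : Subgroup G} {S : Set (IrrCharacter N)} (hS : BlockSat M S) (g : G) :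
    MemLocalRing M (subgroupBlockCoeff N S g) := by
  rw [subgroupBlockCoeff_eq_extK]
  by_cases hg : g ∈ N
  · rw [extK_of_mem N _ hg]
    exact blockCoeff_mlr_sat hS _
  · rw [extK_of_not_mem N _ hg]
    exact mlr_zero

/-- The central computation. -/
theorem om_sbc_orb {N : Subgroup G} [hN : N.Normal] (d : Set (IrrCharacter N)) (χ : IrrCharacter G)
    (θ : IrrCharacter N) (hne : ∑ n : N, conj (θ.1 n) * χ.1 n ≠ 0) :
    om χ (subgroupBlockCoeff N (orbS d)) = eB (orbS d) θ := by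
  have hcl := sbc_isClass (orbS_invariant d)
  rw [subgroupBlockCoeff_eq_extK] at hcl ⊢
  rw [om_restrict χ θ hne _ hcl, om_blockCoeff_self]

/-- Part (1): the induced block covers `d`. -/
theorem hk_covers (hM : IsPModular p M) {N Q : Subgroup G} [hN : N.Normal] (hQN : Q ≤ N)
    {d : Set (IrrCharacter N)} (hd : IsPBlock M d)
    {b : Set (IrrCharacter (Subgroup.normalizer ((Q.subgroupOf N : Subgroup N) : Set N)))}
    (hind : IsInducedBlock M (Subgroup.normalizer ((Q.subgroupOf N : Subgroup N) : Set N)) b d)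
    {c : Set (IrrCharacter (Subgroup.normalizer (Q : Set G)))} {B : Set (IrrCharacter G)}
    (hcB : IsInducedBlock M (Subgroup.normalizer (Q : Set G)) c B)
    {ψ : IrrCharacter (Subgroup.normalizer (Q : Set G))} (hψ : ψ ∈ c)
    {ζ : IrrCharacter (N.subgroupOf (Subgroup.normalizer (Q : Set G)))}
    (hζ : irrMap (nuHK N Q hQN) ζ ∈ b)
    (hne : ∑ n : N.subgroupOf (Subgroup.normalizer (Q : Set G)), conj (ζ.1 n) * ψ.1 n ≠ 0) :
    ∃ χ ∈ B, ∃ θ ∈ d, ∑ n : N, conj (θ.1 n) * χ.1 n ≠ 0 := by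
  classical
  obtain ⟨χ, hχ⟩ := block_nonempty hcB.2.1
  obtain ⟨θ₀, hθ₀⟩ := exists_constituent N χ
  obtain ⟨θ, hθ⟩ := block_nonempty hd
  have hsat := orbS_sat hd
  set E := subgroupBlockCoeff N (orbS d) with hE
  have hcl : IsClassFunction G E := sbc_isClass (orbS_invariant d)
  have hloc : ∀ g, MemLocalRing M (E g) := sbc_mlr_sat hsat
  have hoff : ∀ g, g ∉ N → E g = 0 := fun g hg => by
    rw [hE, subgroupBlockCoeff_eq_extK, extK_of_not_mem N _ hg]
  have c1 := induced_congr hcB hψ hχ hcl hloc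
  rw [sum_support_eq _ hcl hoff ψ ζ hne, hE, om_sbc_orb d χ θ₀ hθ₀] at c1
  have hEN : IsClassFunction N (blockCoeff (orbS d)) := blockCoeff_isClass _
  have c2 := ind_congr_N hQN hind hζ hθ hEN (blockCoeff_mlr_sat hsat)
  rw [om_blockCoeff_self, eB_apply_mem (subset_orbS d hθ)] at c2
  by_cases hθ₀S : θ₀ ∈ orbS d
  · obtain ⟨t, ht⟩ := hθ₀S
    exact ⟨χ, hχ, _, ht, const_of_conj t hθ₀⟩
  · exfalso
    rw [eB_apply_not_mem hθ₀S, sub_zero] at c1
    apply not_mli_one (M := M)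
    have h3 : (1 : ℂ) = (∑ n : N.subgroupOf (Subgroup.normalizer (Q : Set G)),
        subgroupBlockCoeff N (orbS d) n.1 * (ζ.1 n / ζ.1 1)) -
        (∑ n : N.subgroupOf (Subgroup.normalizer (Q : Set G)),
        blockCoeff (orbS d) ⟨n.1.1, Subgroup.mem_subgroupOf.mp n.2⟩ * (ζ.1 n / ζ.1 1) - 1) := by
      have h4 : ∀ n : N.subgroupOf (Subgroup.normalizer (Q : Set G)),
          subgroupBlockCoeff N (orbS d) n.1 = blockCoeff (orbS d) ⟨n.1.1, Subgroup.mem_subgroupOf.mp n.2⟩ :=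
        fun n => sbc_of_coe N _ ⟨n.1.1, Subgroup.mem_subgroupOf.mp n.2⟩
      simp only [h4]
      ring
    rw [h3]
    exact mli_sub c1 c2

theorem conjIrr_of_mem_FC {N : Subgroup G} [hN : N.Normal] {x : G} (hx : x ∈ N)
    (θ : IrrCharacter N) : conjIrr N x θ = θ := by
  apply Subtype.ext
  funext n
  rw [conjIrr_apply]
  have := isClassFunction_of_isCharacter (H21.isCharacter_of_irr θ.2) n (⟨x, hx⟩ : N)
  rw [← this]
  exact congrArg θ.1 (Subtype.ext rfl)

/-- A block of `N_N(Q)` whose character sees the idempotent of `d'` induces `d'`. -/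
theorem induced_of_sum_not_mli (hM : IsPModular p M) {N Q : Subgroup G} [hN : N.Normal]
    (hQ : IsPGroup p Q) (hQN : Q ≤ N) {d' : Set (IrrCharacter N)} (hd' : IsPBlock M d')
    (ζ : IrrCharacter (N.subgroupOf (Subgroup.normalizer (Q : Set G))))
    (hs : ¬ MemLocalIdeal M (∑ n : N.subgroupOf (Subgroup.normalizer (Q : Set G)),
      blockCoeff d' ⟨n.1.1, Subgroup.mem_subgroupOf.mp n.2⟩ * (ζ.1 n / ζ.1 1))) :
    IsInducedBlock M (Subgroup.normalizer ((Q.subgroupOf N : Subgroup N) : Set N))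
      (blockOf M (irrMap (nuHK N Q hQN) ζ).1) d' := by
  classical
  have hQ_N : IsPGroup p (Q.subgroupOf N) := hQ.comap_of_injective N.subtype N.subtype_injective
  obtain ⟨d₁, hd₁⟩ := exists_induced_between (Subgroup.centralizer_le_normalizer _) hM hQ_N
    Subgroup.le_normalizer le_rfl (isBlock_blockOf (irrMap (nuHK N Q hQN) ζ))
  obtain ⟨θ₁, hθ₁⟩ := block_nonempty hd₁.2.1
  have c := ind_congr_N hQN hd₁ (self_mem_blockOf _) hθ₁ (blockCoeff_isClass d') (blockCoeff_mlr hd')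
  rw [om_blockCoeff_self] at c
  have hmem : θ₁ ∈ d' := by
    by_contra hn
    rw [eB_apply_not_mem hn, sub_zero] at c
    exact hs c
  have hdd : d₁ = d' := block_eq_of_inter hd₁.2.1 hd' hθ₁ hmem
  rw [← hdd]
  exact hd₁

/-- Part (2), existence. -/
theorem hk_exists (hM : IsPModular p M) {N Q : Subgroup G} [hN : N.Normal]
    (hQ : IsPGroup p Q) (hQN : Q ≤ N) {d : Set (IrrCharacter N)} (hd : IsPBlock M d)
    (hdQ : IsDefectGroup p M d (Q.subgroupOf N))
    {b : Set (IrrCharacter (Subgroup.normalizer ((Q.subgroupOf N : Subgroup N) : Set N)))}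
    (hb : IsPBlock M b)
    (hbQ : IsDefectGroup p M b ((Q.subgroupOf N).subgroupOf
      (Subgroup.normalizer ((Q.subgroupOf N : Subgroup N) : Set N))))
    (hind : IsInducedBlock M (Subgroup.normalizer ((Q.subgroupOf N : Subgroup N) : Set N)) b d)
    {B : Set (IrrCharacter G)} (hB : IsPBlock M B)
    (hcov : ∃ χ ∈ B, ∃ θ ∈ d, ∑ n : N, conj (θ.1 n) * χ.1 n ≠ 0) :
    ∃ c : Set (IrrCharacter (Subgroup.normalizer (Q : Set G))),
      IsInducedBlock M (Subgroup.normalizer (Q : Set G)) c B ∧ ∃ ψ ∈ c,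
        ∃ ζ : IrrCharacter (N.subgroupOf (Subgroup.normalizer (Q : Set G))),
          irrMap (nuHK N Q hQN) ζ ∈ b ∧
            ∑ n : N.subgroupOf (Subgroup.normalizer (Q : Set G)), conj (ζ.1 n) * ψ.1 n ≠ 0 := by
  classical
  obtain ⟨χ, hχ, θ, hθ, hne⟩ := hcov
  obtain ⟨P, hP, hPQ⟩ := knorr_full hM N d hd Q hQN hdQ B hB
    ⟨χ, hχ, θ, hθ, (inner_ne_iff _ _).mpr hne⟩
  have hQP : Q ≤ P := by
    rw [← hPQ]
    exact inf_le_left
  obtain ⟨c, hc⟩ := (induced_between_iff (Subgroup.centralizer_le_normalizer _) hM hQ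
    Subgroup.le_normalizer le_rfl hB).mpr ⟨P, hP, 1, by
      rintro _ ⟨s, hs, rfl⟩
      simpa using hQP hs⟩
  refine ⟨c, hc, ?_⟩
  obtain ⟨ψ, hψ⟩ := block_nonempty hc.1
  refine ⟨ψ, hψ, ?_⟩
  haveI hLn : (N.subgroupOf (Subgroup.normalizer (Q : Set G))).Normal := Subgroup.normal_subgroupOf
  obtain ⟨ζ₀, hζ₀⟩ := exists_constituent (N.subgroupOf (Subgroup.normalizer (Q : Set G))) ψ
  have hsat := orbS_sat hd
  have hcl : IsClassFunction G (subgroupBlockCoeff N (orbS d)) := sbc_isClass (orbS_invariant d)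
  have hloc : ∀ g, MemLocalRing M (subgroupBlockCoeff N (orbS d) g) := sbc_mlr_sat hsat
  have hoff : ∀ g, g ∉ N → subgroupBlockCoeff N (orbS d) g = 0 := fun g hg => by
    rw [subgroupBlockCoeff_eq_extK, extK_of_not_mem N _ hg]
  have c1 := induced_congr hc hψ hχ hcl hloc
  rw [sum_support_eq _ hcl hoff ψ ζ₀ hζ₀, om_sbc_orb d χ θ hne,
    eB_apply_mem (subset_orbS d hθ)] at c1
  -- Decomposition of the orbit idempotent.
  have hdec : ∀ n : N.subgroupOf (Subgroup.normalizer (Q : Set G)),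
      subgroupBlockCoeff N (orbS d) n.1 =
        ∑ d' ∈ (blocksF M N).filter (fun d' => d' ⊆ orbS d),
          blockCoeff d' ⟨n.1.1, Subgroup.mem_subgroupOf.mp n.2⟩ := by
    intro n
    rw [← blockCoeff_sat_eq_sum hsat]
    exact sbc_of_coe N _ ⟨n.1.1, Subgroup.mem_subgroupOf.mp n.2⟩
  obtain ⟨d', hd'F, hs⟩ : ∃ d' ∈ (blocksF M N).filter (fun d' => d' ⊆ orbS d),
      ¬ MemLocalIdeal M (∑ n : N.subgroupOf (Subgroup.normalizer (Q : Set G)),
        blockCoeff d' ⟨n.1.1, Subgroup.mem_subgroupOf.mp n.2⟩ * (ζ₀.1 n / ζ₀.1 1)) := by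
    by_contra hcon
    push Not at hcon
    have h1 : ∑ n : N.subgroupOf (Subgroup.normalizer (Q : Set G)),
        subgroupBlockCoeff N (orbS d) n.1 * (ζ₀.1 n / ζ₀.1 1) =
        ∑ d' ∈ (blocksF M N).filter (fun d' => d' ⊆ orbS d),
          ∑ n : N.subgroupOf (Subgroup.normalizer (Q : Set G)),
            blockCoeff d' ⟨n.1.1, Subgroup.mem_subgroupOf.mp n.2⟩ * (ζ₀.1 n / ζ₀.1 1) := by
      rw [Finset.sum_comm]
      refine Finset.sum_congr rfl fun n _ => ?_
      rw [hdec n, Finset.sum_mul]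
    have h2 := mli_sum _ _ hcon
    rw [← h1] at h2
    have h3 := mli_sub h2 c1
    rw [sub_sub_cancel] at h3
    exact not_mli_one h3
  have hd'b : IsPBlock M d' := mem_blocksF.mp (Finset.mem_filter.mp hd'F).1
  have hd'S : d' ⊆ orbS d := (Finset.mem_filter.mp hd'F).2
  have hind' := induced_of_sum_not_mli hM hQ hQN hd'b ζ₀ hs
  obtain ⟨θ', hθ'⟩ := block_nonempty hd'b
  obtain ⟨t, ht⟩ := hd'S hθ'
  -- transport of blocks by conjugation
  have himg : ∀ s : G, conjIrr N s θ' ∈ d →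
      irrMap (phiK N (q := s⁻¹) (normalizer_eq_top _)) '' d' = d := by
    intro s hs
    rw [block_eq_of_mem hd'b hθ', ← blockOf_irrMap, block_eq_of_mem hd hs]
    rfl
  have hdt := himg t ht
  have hQ_N : IsPGroup p (Q.subgroupOf N) := hQ.comap_of_injective N.subtype N.subtype_injective
  -- a defect group of `d'`
  have hD' : IsDefectGroup p M d' ((Q.subgroupOf N).map
      (phiK N (q := t⁻¹) (normalizer_eq_top _)).symm.toMonoidHom) := by
    have h1 := isDefectGroup_image (phiK N (q := t⁻¹) (normalizer_eq_top _)).symm hdQ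
    have h2 : irrMap (phiK N (q := t⁻¹) (normalizer_eq_top _)).symm '' d = d' := by
      rw [← hdt, Set.image_image]
      simp only [irrMap_symm_irrMap, Set.image_id']
    rwa [h2] at h1
  obtain ⟨Db, hDb⟩ := isDefectGroup_exists (p := p) hind'.1
  obtain ⟨E', hE', hle⟩ := induced_defect_le hM hind' hDb
  haveI hn := normal_subgroupOf_of_le_normalizer (P := Q.subgroupOf N)
    (H := Subgroup.normalizer ((Q.subgroupOf N : Subgroup N) : Set N)) le_rfl
  have h1 : (Q.subgroupOf N).subgroupOf (Subgroup.normalizer ((Q.subgroupOf N : Subgroup N) : Set N)) ≤ Db :=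
    (Cfsg.Agent.H01.le_pCore hn hQ_N.comap_subtype).trans (pCore_le_defect hM hind'.1 hDb)
  have hQE' : Q.subgroupOf N ≤ E' := by
    intro q hq
    exact hle ⟨⟨q, Subgroup.le_normalizer hq⟩, h1 (Subgroup.mem_subgroupOf.mpr hq), rfl⟩
  obtain ⟨x, hx⟩ := subConj_of_defects hM hd'b hE' hD'
  -- the conjugating element
  have hv : ∀ q ∈ Q, (t⁻¹ * (x : G)) * q * (t⁻¹ * (x : G))⁻¹ ∈ Q := by
    intro q hq
    obtain ⟨q₂, hq₂, hq₃⟩ := hx ⟨q, hQN hq⟩ (hQE' (Subgroup.mem_subgroupOf.mpr hq))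
    have h2 : t * (q₂ : G) * t⁻¹ = (x : G) * q * (x : G)⁻¹ := by
      have := congrArg (fun y : N => (y : G)) hq₃
      simpa [phiK, conjEquiv] using this
    have h3 : (t⁻¹ * (x : G)) * q * (t⁻¹ * (x : G))⁻¹ = (q₂ : G) := by
      calc (t⁻¹ * (x : G)) * q * (t⁻¹ * (x : G))⁻¹ = t⁻¹ * ((x : G) * q * (x : G)⁻¹) * t := by group
        _ = t⁻¹ * (t * (q₂ : G) * t⁻¹) * t := by rw [h2]
        _ = (q₂ : G) := by group
    rw [h3]
    exact Subgroup.mem_subgroupOf.mp hq₂
  have hvn : t⁻¹ * (x : G) ∈ Subgroup.normalizer (Q : Set G) := by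
    have hmap := map_conj_eq_of_card hv rfl
    rw [Subgroup.mem_normalizer_iff]
    intro y
    refine ⟨fun hy => hv y hy, fun hy => ?_⟩
    rw [← hmap] at hy
    obtain ⟨q, hq, hq2⟩ := hy
    have : q = y := by
      have h5 : (t⁻¹ * (x : G)) * q * (t⁻¹ * (x : G))⁻¹ = (t⁻¹ * (x : G)) * y * (t⁻¹ * (x : G))⁻¹ := hq2
      exact mul_left_cancel (mul_right_cancel h5)
    rwa [← this]
  set w : G := (t⁻¹ * (x : G))⁻¹ with hw
  have hwn : w ∈ Subgroup.normalizer (Q : Set G) := inv_mem hvn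
  have htw : t = (x : G) * w := by
    rw [hw]; group
  have hwd : conjIrr N w θ' ∈ d := by
    have h2 : conjIrr N t θ' = conjIrr N w θ' := by
      rw [htw, ← conjIrr_conjIrr, conjIrr_of_mem_FC x.2]
    rwa [← h2]
  have hdw := himg w hwd
  -- comparing sums
  set W : Subgroup.normalizer (Q : Set G) := ⟨w, hwn⟩ with hW
  set ζ₁ := conjIrr (N.subgroupOf (Subgroup.normalizer (Q : Set G))) W ζ₀ with hζ₁
  have hsum : ∑ n : N.subgroupOf (Subgroup.normalizer (Q : Set G)),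
      blockCoeff d ⟨n.1.1, Subgroup.mem_subgroupOf.mp n.2⟩ * (ζ₁.1 n / ζ₁.1 1) =
      ∑ n : N.subgroupOf (Subgroup.normalizer (Q : Set G)),
      blockCoeff d' ⟨n.1.1, Subgroup.mem_subgroupOf.mp n.2⟩ * (ζ₀.1 n / ζ₀.1 1) := by
    let e : N.subgroupOf (Subgroup.normalizer (Q : Set G)) ≃ N.subgroupOf (Subgroup.normalizer (Q : Set G)) :=
      (MulAut.conjNormal (H := N.subgroupOf (Subgroup.normalizer (Q : Set G))) W).toEquiv
    have he : ∀ n : N.subgroupOf (Subgroup.normalizer (Q : Set G)),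
        (((e n : N.subgroupOf (Subgroup.normalizer (Q : Set G))) : Subgroup.normalizer (Q : Set G)) : G) = w * n.1.1 * w⁻¹ := by
      intro n
      show (((MulAut.conjNormal (H := N.subgroupOf (Subgroup.normalizer (Q : Set G))) W n :
        N.subgroupOf (Subgroup.normalizer (Q : Set G))) : Subgroup.normalizer (Q : Set G)) : G) = _
      simp [MulAut.conjNormal_apply, hW]
    refine Eq.trans ?_ (Equiv.sum_comp e (fun n : N.subgroupOf (Subgroup.normalizer (Q : Set G)) =>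
      blockCoeff d' ⟨n.1.1, Subgroup.mem_subgroupOf.mp n.2⟩ * (ζ₀.1 n / ζ₀.1 1)))
    refine Finset.sum_congr rfl fun n _ => ?_
    have h1 : ζ₁.1 n = ζ₀.1 (e n) := by
      rw [hζ₁, conjIrr_apply]
      exact congrArg ζ₀.1 (Subtype.ext (Subtype.ext (he n).symm))
    have h2 : ζ₁.1 1 = ζ₀.1 1 := by
      rw [hζ₁, conjIrr_apply]
      refine congrArg ζ₀.1 (Subtype.ext ?_)
      simp
    have h3 : blockCoeff d ⟨n.1.1, Subgroup.mem_subgroupOf.mp n.2⟩ =
        blockCoeff d' ⟨((e n : N.subgroupOf (Subgroup.normalizer (Q : Set G))) : Subgroup.normalizer (Q : Set G)).1,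
          Subgroup.mem_subgroupOf.mp (e n).2⟩ := by
      rw [← sbc_of_coe, ← sbc_of_coe]
      show subgroupBlockCoeff N d n.1.1 = subgroupBlockCoeff N d' _
      rw [← hdw, sbc_image]
      congr 1
      rw [he n, inv_inv]
    rw [h1, h2, h3]
  have hs₁ : ¬ MemLocalIdeal M (∑ n : N.subgroupOf (Subgroup.normalizer (Q : Set G)),
      blockCoeff d ⟨n.1.1, Subgroup.mem_subgroupOf.mp n.2⟩ * (ζ₁.1 n / ζ₁.1 1)) := by
    rw [hsum]
    exact hs
  have hind₁ := induced_of_sum_not_mli hM hQ hQN hd ζ₁ hs₁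
  have hdef₁ := defect_of_induced_between hM hQ_N Subgroup.le_normalizer le_rfl hind₁ hdQ
  have hFM := first_main_two hM hd hdQ
  have heq := hFM.unique ⟨hind₁.1, hdef₁, hind₁⟩ ⟨hb, hbQ, hind⟩
  refine ⟨ζ₁, ?_, const_of_conj W hζ₀⟩
  rw [← heq]
  exact self_mem_blockOf _

/-- **The Harris–Knörr theorem.** -/
theorem harris_knorr (hM : IsPModular p M) (N : Subgroup G) [hN : N.Normal] (Q : Subgroup G)
    (hQ : IsPGroup p Q) (hQN : Q ≤ N)
    (d : Set (IrrCharacter N)) (hd : IsPBlock M d) (hdQ : IsDefectGroup p M d (Q.subgroupOf N))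
    (e : Set (IrrCharacter ↥(Subgroup.normalizer (Q : Set G) ⊓ N))) (he : IsPBlock M e)
    (heQ : IsDefectGroup p M e (Q.subgroupOf (Subgroup.normalizer (Q : Set G) ⊓ N)))
    (hed : IsInducedBlockIn M N (Subgroup.normalizer (Q : Set G) ⊓ N) e d) :
    (∀ c : Set (IrrCharacter (Subgroup.normalizer (Q : Set G))), IsPBlock M c →
      (∃ ψ ∈ c, ∃ ξ ∈ e, ∑ n : N.subgroupOf (Subgroup.normalizer (Q : Set G)),
        conj ((irrMap (muHK _ N) ξ).1 n) * ψ.1 n ≠ 0) →
      ∃! B : Set (IrrCharacter G), IsInducedBlock M (Subgroup.normalizer (Q : Set G)) c B ∧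
        ∃ χ ∈ B, ∃ θ ∈ d, ∑ n : N, conj (θ.1 n) * χ.1 n ≠ 0) ∧
    (∀ B : Set (IrrCharacter G), IsPBlock M B →
      (∃ χ ∈ B, ∃ θ ∈ d, ∑ n : N, conj (θ.1 n) * χ.1 n ≠ 0) →
      ∃! c : Set (IrrCharacter (Subgroup.normalizer (Q : Set G))),
        (IsPBlock M c ∧ ∃ ψ ∈ c, ∃ ξ ∈ e, ∑ n : N.subgroupOf (Subgroup.normalizer (Q : Set G)),
          conj ((irrMap (muHK _ N) ξ).1 n) * ψ.1 n ≠ 0) ∧
        IsInducedBlock M (Subgroup.normalizer (Q : Set G)) c B) := by
  classical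
  set μ := muHK (Subgroup.normalizer (Q : Set G)) N with hμ
  set ν := nuHK N Q hQN with hν
  have hindb := induced_of_inducedIn hQN hed
  have hbb : IsPBlock M (irrMap (μ.trans ν) '' e) := image_block_HK _ he
  have hQ_N : IsPGroup p (Q.subgroupOf N) := hQ.comap_of_injective N.subtype N.subtype_injective
  -- membership translation
  have hmem1 : ∀ ξ ∈ e, irrMap ν (irrMap μ ξ) ∈ irrMap (μ.trans ν) '' e := fun ξ hξ => ⟨ξ, hξ, rfl⟩
  have hmem2 : ∀ ζ, irrMap ν ζ ∈ irrMap (μ.trans ν) '' e → ∃ ξ ∈ e, irrMap μ ξ = ζ := by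
    rintro ζ ⟨ξ, hξ, h⟩
    refine ⟨ξ, hξ, ?_⟩
    apply irrMap_injective ν
    exact h
  -- the block `irrMap μ '' e`
  have heH : IsPBlock M (irrMap μ '' e) := image_block_HK _ he
  have heHQ : IsDefectGroup p M (irrMap μ '' e)
      ((Q.subgroupOf (Subgroup.normalizer (Q : Set G))).subgroupOf
        (N.subgroupOf (Subgroup.normalizer (Q : Set G)))) := by
    have h1 := isDefectGroup_image μ heQ
    convert h1 using 1
    ext x
    constructor
    · intro hx
      refine ⟨μ.symm x, Subgroup.mem_subgroupOf.mpr (Subgroup.mem_subgroupOf.mp (Subgroup.mem_subgroupOf.mp hx)), ?_⟩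
      exact μ.apply_symm_apply x
    · rintro ⟨l, hl, rfl⟩
      exact Subgroup.mem_subgroupOf.mpr (Subgroup.mem_subgroupOf.mpr (Subgroup.mem_subgroupOf.mp hl))
  have hbQ : IsDefectGroup p M (irrMap (μ.trans ν) '' e) ((Q.subgroupOf N).subgroupOf
      (Subgroup.normalizer ((Q.subgroupOf N : Subgroup N) : Set N))) := by
    have h1 := isDefectGroup_image (μ.trans ν) heQ
    convert h1 using 1
    ext x
    constructor
    · intro hx
      refine ⟨(μ.trans ν).symm x, Subgroup.mem_subgroupOf.mpr (Subgroup.mem_subgroupOf.mp (Subgroup.mem_subgroupOf.mp hx)), ?_⟩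
      exact (μ.trans ν).apply_symm_apply x
    · rintro ⟨l, hl, rfl⟩
      exact Subgroup.mem_subgroupOf.mpr (Subgroup.mem_subgroupOf.mpr (Subgroup.mem_subgroupOf.mp hl))
  constructor
  · intro c hc hcov
    obtain ⟨B, hB⟩ := exists_induced_between (Subgroup.centralizer_le_normalizer _) hM hQ
      Subgroup.le_normalizer le_rfl hc
    obtain ⟨ψ, hψ, ξ, hξ, hne⟩ := hcov
    refine ⟨B, ⟨hB, hk_covers hM hQN hd hindb hB hψ (hmem1 ξ hξ) hne⟩, ?_⟩
    rintro B' ⟨hB', -⟩
    exact H21.induced_unique' hB hB'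
  · intro B hB hcov
    obtain ⟨c, hc, ψ, hψ, ζ, hζ, hne⟩ := hk_exists hM hQ hQN hd hdQ hbb hbQ hindb hB hcov
    obtain ⟨ξ, hξ, rfl⟩ := hmem2 ζ hζ
    refine ⟨c, ⟨⟨hc.1, ψ, hψ, ξ, hξ, hne⟩, hc⟩, ?_⟩
    rintro c' ⟨⟨hc', ψ', hψ', ξ', hξ', hne'⟩, hc'B⟩
    exact hk_unique hM hQ hQN heH heHQ ⟨ψ', hψ', _, ⟨ξ', hξ', rfl⟩, hne'⟩ hc'B hc

end Main

end Cfsg.Agent.H22
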