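import Cfsg.Agent.Lib.H22.KlD

/-!
# Subsections at central elements of a maximal Brauer pair
-/

set_option autoImplicit false
set_option linter.unusedSectionVars false
set_option linter.style.haveILetI false
set_option linter.unusedSimpArgs false

namespace Cfsg.Agent.H22

open Cfsg Cfsg.Agent.H21 Module
open scoped ComplexConjugate Pointwise

universe u

section

variable {G : Type u} [Group G] [Finite G] {M : Ideal AlgInt} [hM : M.IsPrime]
variable {p : ℕ} [hp : Fact p.Prime]

/-- The characterization of the elements fusing central subpairs of a maximal pair. -/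
theorem exists_T_of_conj_cent (hMp : IsPModular p M) {B : Set (IrrCharacter G)} {P Q : Subgroup G}
    {e : Set (IrrCharacter (Subgroup.centralizer (P : Set G)))}
    {f : Set (IrrCharacter (Subgroup.centralizer (Q : Set G)))}
    (hmax : IsMaximalBrauerPair p M B P e) (hPC₀ : P ≤ Subgroup.centralizer (Q : Set G))
    (hle : SubpairLE p M Q f P e) {t : G}
    (hPC : P ≤ Subgroup.centralizer ((cq t Q : Subgroup G) : Set G))
    (hle' : Relation.ReflTransGen (NormalSubpairRel p M) (cp t ⟨Q, f⟩) ⟨P, e⟩) :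
    ∃ c ∈ Subgroup.centralizer ((cq t Q : Subgroup G) : Set G),
      c * t ∈ Subgroup.normalizer (P : Set G) ∧
        StabilizesBlock (Subgroup.centralizer (P : Set G)) e (c * t) := by
  have hPb := isBrauerPairOf_iff.mp hmax.1
  have hPe := hPb.1
  have hQP := subpairLE_le hle
  have hQ'P : cq t Q ≤ P := chain_le hle'
  have hCN : Subgroup.centralizer ((cq t Q : Subgroup G) : Set G) ≤
      Subgroup.normalizer ((cq t Q : Subgroup G) : Set G) := Subgroup.centralizer_le_normalizer _
  have hfb : IsPBlock M (conjBlock Q t f) := by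
    have h1 := brauerPair_of_chain hle' hPe
    exact h1.2
  have hF : ∀ s : Subgroup.centralizer ((cq t Q : Subgroup G) : Set G),
      blockCoeff (conjBlock Q t f) s = subgroupBlockCoeff _ (conjBlock Q t f) (s : G) :=
    fun s => (sbc_of_coe _ _ s).symm
  have h₁ : IsNormalSubpair p M (cq t Q) (conjBlock Q t f) P e :=
    normalSubpair_of_subpairLE hMp hPe hQ'P (hPC.trans hCN) hle'
  have h₀ : IsNormalSubpair p M Q f P e :=
    normalSubpair_of_subpairLE hMp hPe hQP (hPC₀.trans (Subgroup.centralizer_le_normalizer _)) hle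
  have h₂ : IsNormalSubpair p M (cq t Q) (conjBlock Q t f) (cq t P) (conjBlock P t e) :=
    isNormalSubpair_conj t h₀
  have hR₂ : cq t P ≤ Subgroup.centralizer ((cq t Q : Subgroup G) : Set G) := by
    rintro _ ⟨u, hu, rfl⟩
    exact (mem_centralizer_cq t Q u).mp (hPC₀ hu)
  have hQ₂ : cq t Q ≤ cq t P := cq_le hQP
  have hz₁ := zComp_sub (le_refl (Subgroup.centralizer ((cq t Q : Subgroup G) : Set G))) hQ'P hPC
  have hz₂ := zComp_sub (le_refl (Subgroup.centralizer ((cq t Q : Subgroup G) : Set G))) hQ₂ hR₂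
  have hmax₁ := maximal_in_H hMp le_rfl hF hfb hQ'P hPC hz₁ hmax h₁
  obtain ⟨c, hc⟩ := exists_conj_in_H hMp le_rfl hCN hF hfb hPC hR₂ hQ'P hQ₂ h₁ h₂ hz₁ hz₂ hmax₁
  have h3 : cp (c : G) ⟨cq t P, conjBlock P t e⟩ = cp ((c : G) * t) ⟨P, e⟩ := cp_cp t c ⟨P, e⟩
  rw [h3] at hc
  have h4 : (cp ((c : G) * t) (⟨P, e⟩ : BrauerPairIdx G)).1 = P := by
    have h5 : cq ((c : G) * t) P ≤ P := chain_le hc
    apply Subgroup.eq_of_le_of_card_ge h5
    show Nat.card P ≤ Nat.card (cq ((c : G) * t) P)
    rw [Subgroup.card_map_of_injective (MulEquiv.injective _)]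
  have h6 := chain_eq_of_fst_eq hc h4
  exact ⟨c, c.2, fixed_of_cp h6⟩

/-- Pairs below a maximal pair, with subgroup centralized by the top subgroup, have full defect. -/
theorem chain_defect_eq_cent (hMp : IsPModular p M) {B : Set (IrrCharacter G)} {P Q : Subgroup G}
    {e : Set (IrrCharacter (Subgroup.centralizer (P : Set G)))}
    {f : Set (IrrCharacter (Subgroup.centralizer (Q : Set G)))}
    (hmax : IsMaximalBrauerPair p M B P e) (hPC : P ≤ Subgroup.centralizer (Q : Set G))
    (hle : SubpairLE p M Q f P e) : blockDefect p f = blockDefect p B := by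
  have hPb := isBrauerPairOf_iff.mp hmax.1
  have hPe := hPb.1
  have hB := hPb.2.1
  have hf : IsPBlock M f := (brauerPair_of_chain hle hPe).2
  have hQP := subpairLE_le hle
  have hpair : IsBrauerPairOf p M B Q f := (isBrauerPairOf_iff_of_subpairLE hMp (brauerPair_of_chain hle hPe) hle).mp hmax.1
  have hind := induced_of_brauerPairOf hMp hpair
  obtain ⟨D', hD', hle'⟩ := exists_defect_centralizer hMp hPe hle hf
  obtain ⟨E, hE, hEle⟩ := induced_defect_le hMp hind hD'
  have hPD := isDefectGroup_of_maximal hMp hmax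
  have hcP : Nat.card P = Nat.card E := card_defect_eq hMp hB hPD hE
  have h1 : Nat.card D' ≤ Nat.card E := by
    have := Subgroup.card_le_of_le hEle
    rwa [Subgroup.card_map_of_injective (Subgroup.subtype_injective _)] at this
  have h2 : Nat.card P ≤ Nat.card D' := by
    have h3 : P.subgroupOf (Subgroup.centralizer (Q : Set G)) ≤ D' := by
      intro x hx
      apply hle'
      rw [Subgroup.mem_subgroupOf] at hx ⊢
      exact ⟨hx, x.2⟩
    have h4 := Subgroup.card_le_of_le h3
    have h5 : Nat.card (P.subgroupOf (Subgroup.centralizer (Q : Set G))) = Nat.card P :=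
      Nat.card_congr (Subgroup.subgroupOfEquivOfLe hPC).toEquiv
    omega
  have h3 : Nat.card D' = Nat.card E := by omega
  rw [card_defect hMp hf hD', card_defect hMp hB hE] at h3
  exact Nat.pow_right_injective hp.out.two_le h3

omit hM hp in
/-- A subgroup centralizing an element centralizes its powers. -/
theorem le_centralizer_zpowers {P : Subgroup G} {u : G}
    (hu : ∀ y ∈ P, y * u = u * y) : P ≤ Subgroup.centralizer ((Subgroup.zpowers u : Subgroup G) : Set G) := by
  intro y hy
  rw [Subgroup.mem_centralizer_iff]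
  intro z hz
  obtain ⟨i, rfl⟩ := Subgroup.mem_zpowers_iff.mp hz
  have h1 : Commute y u := hu y hy
  exact (h1.zpow_right i).eq.symm

/-- Two elements central in the pair and related to one subsection are conjugate under the
inertial group. -/
theorem relS_T_cent (hMp : IsPModular p M) {B : Set (IrrCharacter G)} {P : Subgroup G}
    {e : Set (IrrCharacter (Subgroup.centralizer (P : Set G)))}
    (hmax : IsMaximalBrauerPair p M B P e) {x u v : G}
    (hu : ∀ y ∈ P, y * u = u * y) (hv : ∀ y ∈ P, y * v = v * y)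
    {b : Set (IrrCharacter (Subgroup.centralizer ({x} : Set G)))} (h : RelS p M P e x b u)
    (h' : RelS p M P e x b v) :
    ∃ τ, (τ ∈ Subgroup.normalizer (P : Set G) ∧
      StabilizesBlock (Subgroup.centralizer (P : Set G)) e τ) ∧ τ * u * τ⁻¹ = v := by
  obtain ⟨g₁, hg₁, hc₁⟩ := h
  obtain ⟨g₂, hg₂, hc₂⟩ := h'
  set a₁ := cp g₁ (pairOf x b) with ha₁
  have h1 : cp (g₂ * g₁⁻¹) a₁ = cp g₂ (pairOf x b) := by
    rw [ha₁, cp_cp]
    congr 1
    group
  have hle : SubpairLE p M a₁.1 a₁.2 P e := hc₁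
  have hle' : Relation.ReflTransGen (NormalSubpairRel p M) (cp (g₂ * g₁⁻¹) ⟨a₁.1, a₁.2⟩) ⟨P, e⟩ := by
    have : (⟨a₁.1, a₁.2⟩ : BrauerPairIdx G) = a₁ := rfl
    rw [this, h1]
    exact hc₂
  have ha1 : a₁.1 = Subgroup.zpowers u := by
    rw [ha₁, cp_pairOf_fst, hg₁]
  have ha2 : cq (g₂ * g₁⁻¹) a₁.1 = Subgroup.zpowers v := by
    have h2 : (cp (g₂ * g₁⁻¹) a₁).1 = (cp g₂ (pairOf x b)).1 := by rw [h1]
    rw [cp_pairOf_fst, hg₂] at h2
    exact h2
  have hPC₀ : P ≤ Subgroup.centralizer (a₁.1 : Set G) := by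
    rw [ha1]
    exact le_centralizer_zpowers hu
  have hPC : P ≤ Subgroup.centralizer ((cq (g₂ * g₁⁻¹) a₁.1 : Subgroup G) : Set G) := by
    rw [ha2]
    exact le_centralizer_zpowers hv
  obtain ⟨c, hc, hτ⟩ := exists_T_of_conj_cent hMp hmax hPC₀ hle hPC hle'
  refine ⟨c * (g₂ * g₁⁻¹), hτ, ?_⟩
  have hv' : (g₂ * g₁⁻¹) * u * (g₂ * g₁⁻¹)⁻¹ = v := by
    rw [← hg₁, ← hg₂]
    group
  have hvm : v ∈ cq (g₂ * g₁⁻¹) a₁.1 := by
    rw [← hv']
    apply conj_mem_cq
    show u ∈ cq g₁ (pairOf x b).1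
    rw [← hg₁]
    exact conj_mem_cq (Subgroup.mem_zpowers x)
  have hcv : c * v = v * c := ((Subgroup.mem_centralizer_iff.mp hc) v hvm).symm
  calc c * (g₂ * g₁⁻¹) * u * (c * (g₂ * g₁⁻¹))⁻¹ =
      c * ((g₂ * g₁⁻¹) * u * (g₂ * g₁⁻¹)⁻¹) * c⁻¹ := by group
    _ = c * v * c⁻¹ := by rw [hv']
    _ = v := by rw [hcv]; group

/-- The defect of a subsection at a central element of the maximal pair. -/
theorem relS_defect_cent (hMp : IsPModular p M) {B : Set (IrrCharacter G)} {P : Subgroup G}
    {e : Set (IrrCharacter (Subgroup.centralizer (P : Set G)))}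
    (hmax : IsMaximalBrauerPair p M B P e) {x u : G} (hu : ∀ y ∈ P, y * u = u * y)
    {b : Set (IrrCharacter (Subgroup.centralizer ({x} : Set G)))} (h : RelS p M P e x b u) :
    blockDefect p b = blockDefect p B := by
  obtain ⟨g, hg, hc⟩ := h
  have hle : SubpairLE p M (cp g (pairOf x b)).1 (cp g (pairOf x b)).2 P e := hc
  have hPC : P ≤ Subgroup.centralizer (((cp g (pairOf x b)).1 : Subgroup G) : Set G) := by
    rw [cp_pairOf_fst, hg]
    exact le_centralizer_zpowers hu
  have h1 := chain_defect_eq_cent hMp hmax hPC hle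
  rw [← h1]
  show blockDefect p b = blockDefect p (conjBlock (pairOf x b).1 g (pairOf x b).2)
  rw [conjBlock_eq, blockDefect_image]
  show blockDefect p b = blockDefect p (trB (centralizer_zpowers x).symm b)
  rw [trB_defect]

end

section Inert

variable {G : Type u} [Group G] [Finite G] {M : Ideal AlgInt} [hMp : M.IsPrime]
variable {p : ℕ} [hp : Fact p.Prime]

/-- **The maximal pair attached to a block of `D C(D)`.** The stabilizer of `b` contains the
inertial group of the pair. -/
theorem exists_maximal_of_between (hM : IsPModular p M) {D H : Subgroup G} (hDp : IsPGroup p D)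
    (hH : H = D ⊔ Subgroup.centralizer (D : Set G)) {b : Set (IrrCharacter H)}
    {B : Set (IrrCharacter G)} (hind : IsInducedBlock M H b B) (hBD : IsDefectGroup p M B D) :
    ∃ e : Set (IrrCharacter (Subgroup.centralizer (D : Set G))), IsMaximalBrauerPair p M B D e ∧
      ∀ τ : G, τ ∈ Subgroup.normalizer (D : Set G) →
        StabilizesBlock (Subgroup.centralizer (D : Set G)) e τ →
        ∀ θ ∈ b, ∀ θ' : IrrCharacter H,
          (∀ h h' : H, (h' : G) = τ * h * τ⁻¹ → (θ' : H → ℂ) h' = (θ : H → ℂ) h) → θ' ∈ b := by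
  classical
  have hPH : D ≤ H := by rw [hH]; exact le_sup_left
  have hCH : Subgroup.centralizer (D : Set G) ≤ H := by rw [hH]; exact le_sup_right
  have hHN : H ≤ Subgroup.normalizer (D : Set G) := by
    rw [hH]
    exact sup_le Subgroup.le_normalizer (Subgroup.centralizer_le_normalizer _)
  have hNH : Subgroup.normalizer (D : Set G) ≤ Subgroup.normalizer (H : Set G) := by
    intro g hg
    rw [hH]
    have key : ∀ g' : G, g' ∈ Subgroup.normalizer (D : Set G) →
        ∀ h, h ∈ D ⊔ Subgroup.centralizer (D : Set G) →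
          g' * h * g'⁻¹ ∈ D ⊔ Subgroup.centralizer (D : Set G) := by
      intro g' hg' h hh
      have hn1' : g' ∈ Subgroup.normalizer ((Subgroup.centralizer (D : Set G) : Subgroup G) : Set G) :=
        normalizer_le_normalizer_centralizer D hg'
      have hle : (D ⊔ Subgroup.centralizer (D : Set G)).map (MulAut.conj g').toMonoidHom ≤
          D ⊔ Subgroup.centralizer (D : Set G) := by
        rw [Subgroup.map_sup]
        apply sup_le_sup
        · rintro _ ⟨u, hu, rfl⟩
          exact (Subgroup.mem_normalizer_iff.mp hg' u).mp hu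
        · rintro _ ⟨u, hu, rfl⟩
          exact (Subgroup.mem_normalizer_iff.mp hn1' u).mp hu
      exact hle ⟨h, hh, rfl⟩
    rw [Subgroup.mem_normalizer_iff]
    intro h
    constructor
    · exact key g hg h
    · intro hh
      have := key g⁻¹ (inv_mem hg) _ hh
      have e : g⁻¹ * (g * h * g⁻¹) * g⁻¹⁻¹ = h := by group
      rwa [e] at this
  have hB := hind.2.1
  haveI hNn := normal_centralizer_subgroupOf hHN
  obtain ⟨ξ₁, hξ₁⟩ := block_nonempty hind.1
  obtain ⟨ψ, hψ⟩ := exists_constituent ((Subgroup.centralizer (D : Set G)).subgroupOf H) ξ₁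
  set φ := Subgroup.subgroupOfEquivOfLe hCH with hφ
  have h1 := const_mem_brSet hCH hM hDp hPH hHN hind hξ₁ hψ
  have hpair : ∀ ξ₀ : IrrCharacter (Subgroup.centralizer (D : Set G)), ξ₀ ∈ brSet M D (blockCoeff B) →
      IsBrauerPairOf p M B D (blockOf M ξ₀.1) := by
    intro ξ₀ h0
    rw [isBrauerPairOf_iff]
    refine ⟨⟨hDp, isBlock_blockOf _⟩, hB, ?_⟩
    exact block_subset_brSet (blockCoeff_Ad _ _) (blockCoeff_mlr hB) (isBlock_blockOf _)
      (self_mem_blockOf _) h0
  have hmax := maximal_of_defect hM (hpair _ h1) hBD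
  refine ⟨_, hmax, ?_⟩
  intro τ hτ hst θ hθ θ' hθ'
  have hmH := hNH hτ
  have hθ'eq : θ' = irrMap (phiK H hmH) θ := by
    apply Subtype.ext
    funext x
    rw [irrMap_apply]
    have hmem : τ⁻¹ * (x : G) * τ ∈ H := by
      have := (Subgroup.mem_normalizer_iff.mp (inv_mem hmH) (x : G)).mp x.2
      simpa using this
    have := hθ' ⟨τ⁻¹ * (x : G) * τ, hmem⟩ x (by simp only; group)
    exact this.trans (congrArg θ.1 (Subtype.ext rfl))
  have hc := conj_const hCH hmH hτ hNn ξ₁ ψ hψ
  have hn := normalizer_le_normalizer_centralizer D hτ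
  have hsψ : SameBlock M (irrMap φ.symm (irrMap (phiK _ hn) (irrMap φ ψ))).1 ψ.1 := by
    rw [← sameBlock_irrMap_iff φ, irrMap_irrMap_symm]
    have h5 : irrMap (phiK _ hn) (irrMap φ ψ) ∈ blockOf M (irrMap φ ψ).1 :=
      (stabilizesBlock_iff hn).mp hst ⟨irrMap φ ψ, self_mem_blockOf _, rfl⟩
    exact sameBlock_symm h5
  have h2 : SameBlock M (irrMap (phiK H hmH) ξ₁).1 ξ₁.1 := by
    refine sameBlock_of_cover (fun g hg χ => ?_) hc hψ hsψ
    refine cc_mli_H hM hDp hPH hHN ?_ χ
    intro hcc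
    apply hg
    rw [Subgroup.mem_subgroupOf]
    exact hcc
  have h3 : SameBlock M (irrMap (phiK H hmH) ξ₁).1 (irrMap (phiK H hmH) θ).1 :=
    sameBlock_irrMap _ (block_sameBlock hind.1 hξ₁ hθ)
  rw [hθ'eq, block_eq_of_mem hind.1 hξ₁]
  show SameBlock M ξ₁.1 (irrMap (phiK H hmH) θ).1
  exact sameBlock_trans (sameBlock_symm h2) h3

/-- **The fibre bound.** The order of the centre of the defect group is at most the inertial index
times the number of full-defect subsections at central elements. -/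
theorem exists_subsections_of_center (hM : IsPModular p M) {D H T : Subgroup G}
    {B : Set (IrrCharacter G)} (hDp : IsPGroup p D) {e : Set (IrrCharacter (Subgroup.centralizer (D : Set G)))}
    (hmax : IsMaximalBrauerPair p M B D e) (hH : H = D ⊔ Subgroup.centralizer (D : Set G))
    (hTN : T ≤ Subgroup.normalizer (D : Set G))
    (hTe : ∀ τ : G, τ ∈ Subgroup.normalizer (D : Set G) →
      StabilizesBlock (Subgroup.centralizer (D : Set G)) e τ → τ ∈ T)
    (X : Finset G) (hX : ∀ x ∈ X, ∃ k : ℕ, orderOf x = p ^ k)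
    (hXrep : ∀ g : G, (∃ k : ℕ, orderOf g = p ^ k) → ∃! x, x ∈ X ∧ IsConj g x) :
    ∃ R : Finset (Σ x : G, Set (IrrCharacter (Subgroup.centralizer ({x} : Set G)))),
      Nat.card (Subgroup.center D) ≤ H.relIndex T * R.card ∧
      ∀ a ∈ R, a.1 ∈ X ∧ IsInducedBlock M (Subgroup.centralizer ({a.1} : Set G)) a.2 B ∧
        blockDefect p a.2 = blockDefect p B := by
  classical
  have hPH : D ≤ H := by rw [hH]; exact le_sup_left
  have hCH : Subgroup.centralizer (D : Set G) ≤ H := by rw [hH]; exact le_sup_right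
  -- central elements
  have hcentral : ∀ z : Subgroup.center D, ∀ y ∈ D, y * ((z : D) : G) = ((z : D) : G) * y := by
    intro z y hy
    have h1 := Subgroup.mem_center_iff.mp z.2 ⟨y, hy⟩
    exact congrArg Subtype.val h1
  have hdata : ∀ z : Subgroup.center D, ∃ a : (Σ x : G, Set (IrrCharacter (Subgroup.centralizer ({x} : Set G)))),
      a.1 ∈ X ∧ IsInducedBlock M (Subgroup.centralizer ({a.1} : Set G)) a.2 B ∧
        RelS p M D e a.1 a.2 ((z : D) : G) := by
    intro z
    have hord : ∃ k : ℕ, orderOf ((z : D) : G) = p ^ k := by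
      obtain ⟨k, hk⟩ := hDp (z : D)
      have h1 : ((z : D) : G) ^ p ^ k = 1 := by
        have := congrArg Subtype.val hk
        simpa using this
      obtain ⟨i, -, hi⟩ := (Nat.dvd_prime_pow hp.out).mp (orderOf_dvd_of_pow_eq_one h1)
      exact ⟨i, hi⟩
    obtain ⟨x, ⟨hxX, hxc⟩, -⟩ := hXrep _ hord
    obtain ⟨g, hg⟩ := isConj_iff.mp hxc.symm
    obtain ⟨β, hβ, hR⟩ := relS_of_conj hM hmax (z : D).2 hg
    exact ⟨⟨x, β⟩, hxX, hβ, hR⟩
  choose Ψ hΨ using hdata
  refine ⟨Finset.univ.image Ψ, ?_, ?_⟩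
  · rw [Nat.card_eq_fintype_card, ← Finset.card_univ]
    refine Finset.card_le_mul_card_image _ _ ?_
    intro a ha
    obtain ⟨z₀, -, rfl⟩ := Finset.mem_image.mp ha
    -- the fibre injects into the cosets
    have hfib : ∀ z : Subgroup.center D, Ψ z = Ψ z₀ → ∃ τ : T, (τ : G) * ((z₀ : D) : G) * (τ : G)⁻¹ = ((z : D) : G) := by
      intro z hz
      have h1 := (hΨ z₀).2.2
      have h2 := (hΨ z).2.2
      rw [hz] at h2
      obtain ⟨τ, ⟨hτ1, hτ2⟩, hτ3⟩ := relS_T_cent hM hmax (hcentral z₀) (hcentral z) h1 h2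
      exact ⟨⟨τ, hTe τ hτ1 hτ2⟩, hτ3⟩
    choose! w hw using hfib
    have hcard : (H.subgroupOf T).index = H.relIndex T := rfl
    rw [← hcard, Subgroup.index_eq_card, Nat.card_eq_fintype_card, ← Finset.card_univ]
    refine Finset.card_le_card_of_injOn (fun z => ((w z : T) : T ⧸ H.subgroupOf T)) (fun _ _ => Finset.mem_univ _) ?_
    intro z hz z' hz' hzz
    simp only [Finset.coe_filter, Finset.mem_univ, true_and, Set.mem_ofPred_eq] at hz hz'
    have h1 : (w z)⁻¹ * w z' ∈ H.subgroupOf T := QuotientGroup.eq.mp hzz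
    have h2 : (((w z)⁻¹ * w z' : T) : G) ∈ H := Subgroup.mem_subgroupOf.mp h1
    have hHc : ∀ y ∈ H, y * ((z₀ : D) : G) = ((z₀ : D) : G) * y := by
      rw [hH]
      intro y hy
      have hle : D ⊔ Subgroup.centralizer (D : Set G) ≤ Subgroup.centralizer (Subgroup.zpowers ((z₀ : D) : G) : Set G) := by
        refine sup_le (le_centralizer_zpowers (hcentral z₀)) ?_
        intro c hc
        rw [Subgroup.mem_centralizer_iff]
        intro q hq
        obtain ⟨i, rfl⟩ := Subgroup.mem_zpowers_iff.mp hq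
        have : Commute ((z₀ : D) : G) c := Subgroup.mem_centralizer_iff.mp hc _ (z₀ : D).2
        exact (this.zpow_left i).eq
      have h3 := Subgroup.mem_centralizer_iff.mp (hle hy) _ (Subgroup.mem_zpowers ((z₀ : D) : G))
      exact h3.symm
    have h3 := hHc _ h2
    have h4 := hw z hz
    have h5 := hw z' hz'
    apply Subtype.ext
    apply Subtype.ext
    rw [← h4, ← h5]
    have h6 : ((w z)⁻¹ * w z' : T).1 = ((w z : G))⁻¹ * (w z' : G) := rfl
    rw [h6] at h3
    have h7 : (w z' : G) * ((z₀ : D) : G) = (w z : G) * (((z₀ : D) : G) * ((w z : G)⁻¹ * (w z' : G))) := by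
      rw [← h3]
      group
    calc (w z : G) * ((z₀ : D) : G) * (w z : G)⁻¹ = ((w z : G) * (((z₀ : D) : G) * ((w z : G)⁻¹ * (w z' : G)))) * (w z' : G)⁻¹ := by group
      _ = (w z' : G) * ((z₀ : D) : G) * (w z' : G)⁻¹ := by rw [← h7]
  · intro a ha
    obtain ⟨z, -, rfl⟩ := Finset.mem_image.mp ha
    exact ⟨(hΨ z).1, (hΨ z).2.1, relS_defect_cent hM hmax (hcentral z) (hΨ z).2.2⟩

end Inert

end Cfsg.Agent.H22
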