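import Cfsg.Agent.Lib.H22.MajC
import Cfsg.Agent.Lib.H22.HtBdA

/-!
# The height bound: integrality of the section coefficients
-/

set_option autoImplicit false
set_option linter.unusedSectionVars false
set_option linter.style.haveILetI false
set_option linter.unusedSimpArgs false

namespace Cfsg.Agent.H22

open Cfsg Cfsg.Agent.H21 Module
open scoped ComplexConjugate

universe u

section Parseval

variable {K : Type u} [Group K] [Finite K]

/-- Parseval's formula for class functions. -/
theorem parseval_class {f : K → ℂ} (hf : IsClassFunction K f) :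
    classInner f f = ∑ ξ : IrrCharacter K, classInner f ξ.1 * conj (classInner f ξ.1) := by
  classical
  have h1 : ∀ s : K, conj (f s) = ∑ ξ : IrrCharacter K, conj (classInner f ξ.1) * conj (ξ.1 s) := by
    intro s
    have h2 := congrFun (classFunction_expansion f hf) s
    rw [Finset.sum_apply] at h2
    conv_lhs => rw [h2]
    rw [map_sum]
    refine Finset.sum_congr rfl fun ξ _ => ?_
    simp only [Pi.smul_apply, smul_eq_mul, map_mul]
  rw [show classInner f f = (Nat.card K : ℂ)⁻¹ * ∑ s, f s * conj (f s) from rfl]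
  simp only [h1, Finset.mul_sum]
  rw [Finset.sum_comm]
  refine Finset.sum_congr rfl fun ξ _ => ?_
  generalize conj (classInner f ξ.1) = c
  rw [show classInner f ξ.1 = (Nat.card K : ℂ)⁻¹ * ∑ s, f s * conj (ξ.1 s) from rfl,
    Finset.mul_sum, Finset.sum_mul]
  refine Finset.sum_congr rfl fun s _ => ?_
  ring

end Parseval

section Eta

variable {G : Type u} [Group G] [Finite G] {p : ℕ} [hp : Fact p.Prime] {M : Ideal AlgInt}
  [hMp : M.IsPrime] {x : G}

/-- The coefficient of `ξ` in the truncated section function of `χ` at `x`. -/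
noncomputable def etaF (p : ℕ) (x : G) (χ : IrrCharacter G)
    (ξ : IrrCharacter (Subgroup.centralizer ({x} : Set G))) : ℂ :=
  classInner (rp p (secF x χ)) ξ.1

open Classical in
/-- The function on the coset `x C(x)` defined by the conjugate of `ξ`, truncated to regular
elements. -/
noncomputable def tfA (p : ℕ) (x : G) (ξ : IrrCharacter (Subgroup.centralizer ({x} : Set G))) : G → ℂ :=
  fun g => if hc : x⁻¹ * g ∈ Subgroup.centralizer ({x} : Set G) then
    rp p (fun s : Subgroup.centralizer ({x} : Set G) => conj (ξ.1 s)) ⟨x⁻¹ * g, hc⟩ else 0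

omit hp hMp in
theorem tfA_mul (ξ : IrrCharacter (Subgroup.centralizer ({x} : Set G)))
    (s : Subgroup.centralizer ({x} : Set G)) :
    tfA p x ξ (x * (s : G)) = rp p (fun s : Subgroup.centralizer ({x} : Set G) => conj (ξ.1 s)) s := by
  unfold tfA
  have h : x⁻¹ * (x * (s : G)) ∈ Subgroup.centralizer ({x} : Set G) := by
    rw [inv_mul_cancel_left]
    exact s.2
  rw [dif_pos h]
  congr 1
  apply Subtype.ext
  exact inv_mul_cancel_left x (s : G)

omit hp hMp in
theorem conj_irr_isClass (ξ : IrrCharacter (Subgroup.centralizer ({x} : Set G))) :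
    IsClassFunction (Subgroup.centralizer ({x} : Set G))
      (fun s : Subgroup.centralizer ({x} : Set G) => conj (ξ.1 s)) := by
  intro g k
  show conj (ξ.1 (k * g * k⁻¹)) = conj (ξ.1 g)
  rw [irr_conj']

omit hp hMp in
theorem tfA_Ad (ξ : IrrCharacter (Subgroup.centralizer ({x} : Set G))) :
    Ad (Subgroup.centralizer ({x} : Set G)) (tfA p x ξ) := by
  intro q hq g
  have hqx : Commute q x := Subgroup.mem_centralizer_singleton_iff.mp hq
  have e : x⁻¹ * (q * g * q⁻¹) = q * (x⁻¹ * g) * q⁻¹ := by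
    have hqx' : x⁻¹ * q = q * x⁻¹ := (hqx.inv_right).eq.symm
    calc x⁻¹ * (q * g * q⁻¹) = (x⁻¹ * q) * g * q⁻¹ := by group
      _ = (q * x⁻¹) * g * q⁻¹ := by rw [hqx']
      _ = _ := by group
  unfold tfA
  by_cases hc : x⁻¹ * g ∈ Subgroup.centralizer ({x} : Set G)
  · have hc' : x⁻¹ * (q * g * q⁻¹) ∈ Subgroup.centralizer ({x} : Set G) := by
      rw [e]
      exact Subgroup.mul_mem _ (Subgroup.mul_mem _ hq hc) (Subgroup.inv_mem _ hq)
    rw [dif_pos hc, dif_pos hc']
    have h2 := rp_isClass (p := p) (conj_irr_isClass ξ) ⟨x⁻¹ * g, hc⟩ ⟨q, hq⟩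
    rw [← h2]
    congr 1
    apply Subtype.ext
    exact e
  · have hc' : x⁻¹ * (q * g * q⁻¹) ∉ Subgroup.centralizer ({x} : Set G) := by
      intro h
      apply hc
      rw [e] at h
      have h3 := Subgroup.mul_mem _ (Subgroup.mul_mem _ (Subgroup.inv_mem _ hq) h) hq
      have e2 : q⁻¹ * (q * (x⁻¹ * g) * q⁻¹) * q = x⁻¹ * g := by group
      rwa [e2] at h3
    rw [dif_neg hc, dif_neg hc']

omit hp hMp in
theorem tfA_integral (ξ : IrrCharacter (Subgroup.centralizer ({x} : Set G))) (g : G) :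
    IsIntegral ℤ (tfA p x ξ g) := by
  unfold tfA
  split_ifs with hc
  · unfold rp
    split_ifs
    · exact isIntegral_zero
    · show IsIntegral ℤ (conj (ξ.1 _))
      rw [← irr_inv']
      exact irr_isIntegral' ξ _
  · exact isIntegral_zero

omit hp hMp in
theorem sum_tfA_mul (ξ : IrrCharacter (Subgroup.centralizer ({x} : Set G))) (χ : IrrCharacter G) :
    ∑ g, tfA p x ξ g * χ.1 g = (Nat.card (Subgroup.centralizer ({x} : Set G)) : ℂ) * etaF p x χ ξ := by
  classical
  have hC : (Nat.card (Subgroup.centralizer ({x} : Set G)) : ℂ) ≠ 0 := card_ne_zero_C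
  rw [← Equiv.sum_comp (Equiv.mulLeft x)]
  simp only [Equiv.coe_mulLeft]
  rw [sum_eq_sum_subgroup (Subgroup.centralizer ({x} : Set G))]
  · unfold etaF classInner
    rw [mul_inv_cancel_left₀ hC]
    refine Finset.sum_congr rfl fun s _ => ?_
    rw [tfA_mul]
    unfold rp
    split_ifs
    · simp
    · rw [mul_comm]
  · intro g hg
    have : tfA p x ξ (x * g) = 0 := by
      unfold tfA
      rw [dif_neg]
      rwa [inv_mul_cancel_left]
    rw [this, zero_mul]

/-- The class function on `G` attached to `ξ`. -/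
noncomputable def tfT (p : ℕ) (x : G) (ξ : IrrCharacter (Subgroup.centralizer ({x} : Set G))) : G → ℂ :=
  trF (Subgroup.centralizer ({x} : Set G)) (tfA p x ξ)

omit hp hMp in
theorem tfT_isClass (ξ : IrrCharacter (Subgroup.centralizer ({x} : Set G))) :
    IsClassFunction G (tfT p x ξ) := trF_isClass (tfA_Ad ξ)

omit hp hMp in
theorem tfT_integral (ξ : IrrCharacter (Subgroup.centralizer ({x} : Set G))) (g : G) :
    IsIntegral ℤ (tfT p x ξ g) :=
  IsIntegral.sum _ fun _ _ => tfA_integral ξ _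

omit hp hMp in
theorem om_tfT (ξ : IrrCharacter (Subgroup.centralizer ({x} : Set G))) (χ : IrrCharacter G) :
    χ.1 1 * om χ (tfT p x ξ) = (Nat.card G : ℂ) * etaF p x χ ξ := by
  have h1 := irr_one_ne_zero' χ
  unfold tfT
  rw [om_trF]
  unfold om
  rw [sum_tfA_mul]
  have hcard : (Nat.card G : ℂ) = (Nat.card (Subgroup.centralizer ({x} : Set G)) : ℂ) *
      ((Subgroup.centralizer ({x} : Set G)).index : ℂ) := by
    exact_mod_cast (Subgroup.centralizer ({x} : Set G)).card_mul_index.symm
  rw [hcard]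
  field_simp

omit hp hMp in
theorem om_tfT_integral (ξ : IrrCharacter (Subgroup.centralizer ({x} : Set G))) (χ : IrrCharacter G) :
    IsIntegral ℤ (om χ (tfT p x ξ)) := by
  classical
  haveI : Fintype (ConjClasses G) := Fintype.ofFinite _
  rw [om_eq_sum_classes _ (tfT_isClass ξ)]
  exact IsIntegral.sum _ fun C _ => (tfT_integral ξ _).mul (cc_isIntegral _ _)

omit hp in
theorem om_tfT_congr (ξ : IrrCharacter (Subgroup.centralizer ({x} : Set G))) {χ ψ : IrrCharacter G}
    (h : SameBlock M χ.1 ψ.1) : MemLocalIdeal M (om χ (tfT p x ξ) - om ψ (tfT p x ξ)) :=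
  ZR_congr (om_mem_ZR (tfT_isClass ξ) fun g => mlr_of_isIntegral (tfT_integral ξ g)) h

/-- `p ^ d η` is integral, for `ξ` in a block of defect `d`. -/
theorem pd_eta_integral {k : ℕ} (hM : IsPModular p M) (hx : orderOf x = p ^ k)
    {β : Set (IrrCharacter (Subgroup.centralizer ({x} : Set G)))} (hβ : IsPBlock M β)
    (χ : IrrCharacter G) {ξ' : IrrCharacter (Subgroup.centralizer ({x} : Set G))} (hξ' : ξ' ∈ β) :
    IsIntegral ℤ (((p ^ blockDefect p β : ℕ) : ℂ) * etaF p x χ ξ') := by
  classical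
  unfold etaF
  rw [← inner_rp_eq hM hβ (section_isClass χ x) hξ', inner_rp_blockPart, Finset.mul_sum]
  refine IsIntegral.sum _ fun ξ _ => ?_
  by_cases hξ : ξ ∈ β
  swap
  · rw [eB_apply_not_mem hξ, zero_mul, mul_zero]
    exact isIntegral_zero
  rw [eB_apply_mem hξ, one_mul]
  obtain ⟨n, hn⟩ := crt_defect_int (ξ' := ξ') hM hβ hξ
  have e : ((p ^ blockDefect p β : ℕ) : ℂ) * (classInner (secF x χ) ξ.1 * crt p ξ ξ') =
      classInner (secF x χ) ξ.1 * (n : ℂ) := by
    rw [← hn]
    ring
  rw [e]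
  refine (inner_secF_int (M := M) hM hx χ ξ).1.mul ?_
  have hn' : IsIntegral ℤ (algebraMap ℤ ℂ n) := isIntegral_algebraMap
  simpa using hn'

/-- The height bound for `η`: `p ^ (a - f) η` is integral, where `p ^ f` is the part of `χ(1)`. -/
theorem z_integral {k : ℕ} (hM : IsPModular p M) (hx : orderOf x = p ^ k)
    {β : Set (IrrCharacter (Subgroup.centralizer ({x} : Set G)))} (hβ : IsPBlock M β)
    {B : Set (IrrCharacter G)} (hB : IsPBlock M B) (hdef : blockDefect p β = blockDefect p B)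
    {χ : IrrCharacter G} (hχ : χ ∈ B) {ξ : IrrCharacter (Subgroup.centralizer ({x} : Set G))}
    (hξ : ξ ∈ β) :
    IsIntegral ℤ (((p ^ ((Nat.card G).factorization p - (charDegree χ.1).factorization p) : ℕ) : ℂ) *
      etaF p x χ ξ) := by
  classical
  set a := (Nat.card G).factorization p with ha
  set f := (charDegree χ.1).factorization p with hf
  set e := minExp p B with he
  set η := etaF p x χ ξ with hη
  have hef : e ≤ f := minExp_le hχ
  have hfa : f ≤ a := by
    have hdvd : charDegree χ.1 ∣ Nat.card G := charDegree_dvd_card χ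
    exact (Nat.factorization_le_iff_dvd (irr_charDegree_pos χ.2).ne' Nat.card_pos.ne').mpr hdvd p
  have hd : blockDefect p B = a - e := blockDefect_eq p B
  -- the two multiples
  set v := charDegree χ.1 / p ^ f with hv
  set m := pco p G with hm
  have hdeg : charDegree χ.1 = p ^ f * v := (Nat.mul_div_cancel' (Nat.ordProj_dvd _ _)).symm
  have hcard : Nat.card G = p ^ a * m := (pow_mul_pco (G := G) p).symm
  have h1 : IsIntegral ℤ (((m : ℕ) : ℂ) * (((p ^ (a - f) : ℕ) : ℂ) * η)) := by
    have h2 := om_tfT (p := p) ξ χ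
    have h3 : ((v : ℕ) : ℂ) * om χ (tfT p x ξ) = ((m : ℕ) : ℂ) * (((p ^ (a - f) : ℕ) : ℂ) * η) := by
      have hpf : ((p ^ f : ℕ) : ℂ) ≠ 0 := by exact_mod_cast (pow_pos hp.out.pos _).ne'
      apply mul_left_cancel₀ hpf
      rw [one_eq_charDegree (isCharacter_of_irr χ), hdeg, hcard] at h2
      have h4 : ((p ^ a : ℕ) : ℂ) = ((p ^ f : ℕ) : ℂ) * ((p ^ (a - f) : ℕ) : ℂ) := by
        norm_cast
        rw [← pow_add]
        congr 1
        omega
      push_cast at h2 h4 ⊢
      rw [h4] at h2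
      linear_combination h2
    rw [← h3]
    exact (isIntegral_natCast v).mul (om_tfT_integral ξ χ)
  have h2 : IsIntegral ℤ (((p ^ (f - e) : ℕ) : ℂ) * (((p ^ (a - f) : ℕ) : ℂ) * η)) := by
    have h3 := pd_eta_integral (M := M) hM hx hβ χ hξ
    rw [hdef, hd] at h3
    have h4 : ((p ^ (a - e) : ℕ) : ℂ) = ((p ^ (f - e) : ℕ) : ℂ) * ((p ^ (a - f) : ℕ) : ℂ) := by
      norm_cast
      rw [← pow_add]
      congr 1
      omega
    rw [h4, mul_assoc] at h3
    exact h3
  have hcop : Nat.Coprime m (p ^ (f - e)) := by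
    apply Nat.Coprime.pow_right
    exact ((Nat.Prime.coprime_iff_not_dvd hp.out).mpr pco_not_dvd).symm
  obtain ⟨r, s, hrs⟩ := Nat.isCoprime_iff_coprime.mpr hcop
  have hrs' : (r : ℂ) * (m : ℂ) + (s : ℂ) * ((p ^ (f - e) : ℕ) : ℂ) = 1 := by
    have := congrArg (Int.cast : ℤ → ℂ) hrs
    push_cast at this ⊢
    exact this
  have h5 : ((p ^ (a - f) : ℕ) : ℂ) * η = (r : ℂ) * (((m : ℕ) : ℂ) * (((p ^ (a - f) : ℕ) : ℂ) * η)) +
      (s : ℂ) * (((p ^ (f - e) : ℕ) : ℂ) * (((p ^ (a - f) : ℕ) : ℂ) * η)) := by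
    linear_combination (-(((p ^ (a - f) : ℕ) : ℂ) * η)) * hrs'
  rw [h5]
  have hi : ∀ n : ℤ, IsIntegral ℤ ((n : ℤ) : ℂ) := fun n => by
    have hn' : IsIntegral ℤ (algebraMap ℤ ℂ n) := isIntegral_algebraMap
    simpa using hn'
  exact ((hi r).mul h1).add ((hi s).mul h2)

/-- The coefficients of the `β`-part of the truncated section function. -/
theorem inner_secR_eta (hM : IsPModular p M)
    {β : Set (IrrCharacter (Subgroup.centralizer ({x} : Set G)))} (hβ : IsPBlock M β)
    (χ : IrrCharacter G) (ξ : IrrCharacter (Subgroup.centralizer ({x} : Set G))) :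
    classInner (secR p x β χ) ξ.1 = eB β ξ * etaF p x χ ξ := by
  classical
  by_cases hξ : ξ ∈ β
  · rw [eB_apply_mem hξ, one_mul]
    exact inner_rp_eq hM hβ (section_isClass χ x) hξ
  · rw [eB_apply_not_mem hξ, zero_mul]
    unfold secR
    rw [inner_rp_blockPart]
    refine Finset.sum_eq_zero fun ξ₁ _ => ?_
    by_cases hξ₁ : ξ₁ ∈ β
    · have : crt p ξ₁ ξ = 0 := by
        apply crt_eq_zero hM
        intro hs
        apply hξ
        rw [block_eq_of_mem hβ hξ₁]
        exact sameBlock_symm hs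
      rw [this, mul_zero, mul_zero]
    · rw [eB_apply_not_mem hξ₁, zero_mul]

/-- The total of the squares on a block. -/
noncomputable def Aa (p : ℕ) (x : G) (β : Set (IrrCharacter (Subgroup.centralizer ({x} : Set G))))
    (χ : IrrCharacter G) : ℂ :=
  ∑ ξ : IrrCharacter (Subgroup.centralizer ({x} : Set G)), eB β ξ * (etaF p x χ ξ * conj (etaF p x χ ξ))

omit hp hMp in
theorem secR_isClass (β : Set (IrrCharacter (Subgroup.centralizer ({x} : Set G)))) (χ : IrrCharacter G) :
    IsClassFunction (Subgroup.centralizer ({x} : Set G)) (secR p x β χ) :=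
  rp_isClass (blockPart_isClass β _)

/-- The two expressions for the total of the squares. -/
theorem Aa_eq (hM : IsPModular p M) {β : Set (IrrCharacter (Subgroup.centralizer ({x} : Set G)))}
    (hβ : IsPBlock M β) (χ : IrrCharacter G) :
    Aa p x β χ = ∑ ξ : IrrCharacter (Subgroup.centralizer ({x} : Set G)),
      eB β ξ * (conj (classInner (secF x χ) ξ.1) * etaF p x χ ξ) := by
  classical
  have h1 := parseval_class (secR_isClass (p := p) β χ)
  have h2 := mE_expand (p := p) 1 β χ χ
  have h3 : mE p 1 x β χ χ = classInner (secR p x β χ) (secR p x β χ) := by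
    unfold mE classInner
    simp
  rw [h3, h1] at h2
  have hee : ∀ ξ : IrrCharacter (Subgroup.centralizer ({x} : Set G)), conj (eB β ξ) = eB β ξ := by
    intro ξ
    by_cases h : ξ ∈ β
    · rw [eB_apply_mem h, map_one]
    · rw [eB_apply_not_mem h, map_zero]
  have he2 : ∀ ξ : IrrCharacter (Subgroup.centralizer ({x} : Set G)), eB β ξ * eB β ξ = eB β ξ := by
    intro ξ
    by_cases h : ξ ∈ β
    · rw [eB_apply_mem h, one_mul]
    · rw [eB_apply_not_mem h, zero_mul]
  unfold Aa
  calc _ = ∑ ξ : IrrCharacter (Subgroup.centralizer ({x} : Set G)),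
        classInner (secR p x β χ) ξ.1 * conj (classInner (secR p x β χ) ξ.1) := by
        refine Finset.sum_congr rfl fun ξ _ => ?_
        rw [inner_secR_eta hM hβ, map_mul, hee]
        linear_combination (-(etaF p x χ ξ * conj (etaF p x χ ξ))) * he2 ξ
    _ = _ := by
        rw [h2]
        refine Finset.sum_congr rfl fun ξ _ => ?_
        rw [inner_secR_eta hM hβ]
        push_cast
        linear_combination (conj (classInner (secF x χ) ξ.1) * etaF p x χ ξ) * he2 ξ

/-- **Integrality.** -/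
theorem yA_integral {k : ℕ} (hM : IsPModular p M) (hx : orderOf x = p ^ k)
    {β : Set (IrrCharacter (Subgroup.centralizer ({x} : Set G)))} (hβ : IsPBlock M β)
    {B : Set (IrrCharacter G)} (hB : IsPBlock M B) (hdef : blockDefect p β = blockDefect p B)
    {χ : IrrCharacter G} (hχ : χ ∈ B) :
    IsIntegral ℤ (((p ^ ((Nat.card G).factorization p - (charDegree χ.1).factorization p) : ℕ) : ℂ) *
      Aa p x β χ) := by
  classical
  rw [Aa_eq hM hβ, Finset.mul_sum]
  refine IsIntegral.sum _ fun ξ _ => ?_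
  by_cases hξ : ξ ∈ β
  swap
  · rw [eB_apply_not_mem hξ, zero_mul, mul_zero]
    exact isIntegral_zero
  rw [eB_apply_mem hξ, one_mul, mul_left_comm]
  exact (inner_secF_int (M := M) hM hx χ ξ).2.2.1.mul (z_integral hM hx hβ hB hdef hχ hξ)

/-- **Nonvanishing.** Some coefficient of the block does not vanish. -/
theorem exists_eta_ne {k : ℕ} (hM : IsPModular p M) (hx : orderOf x = p ^ k)
    {β : Set (IrrCharacter (Subgroup.centralizer ({x} : Set G)))} {B : Set (IrrCharacter G)}
    (hind : IsInducedBlock M (Subgroup.centralizer ({x} : Set G)) β B)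
    (hdef : blockDefect p β = blockDefect p B) {χ : IrrCharacter G} (hχ : χ ∈ B) :
    ∃ ξ ∈ β, etaF p x χ ξ ≠ 0 := by
  classical
  have hβ := hind.1
  have hB := hind.2.1
  obtain ⟨χ₀, hχ₀, hz⟩ := exists_min_height (p := p) hB
  have h1 := mE_not_mli hM hx hind hdef hχ₀ hχ₀ hz hz
  rw [mE_expand] at h1
  have hex : ∃ ξ ∈ β, ¬ MemLocalIdeal M (((p ^ blockDefect p β : ℕ) : ℂ) * etaF p x χ₀ ξ) := by
    by_contra hcon
    push Not at hcon
    apply h1
    refine mli_sum _ _ fun ξ _ => ?_
    by_cases hξ : ξ ∈ β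
    · rw [eB_apply_mem hξ, one_mul, inner_secR_eta hM hβ, eB_apply_mem hξ, one_mul]
      exact mli_mul_left (hcon ξ hξ) (mlr_of_isIntegral (inner_secF_int (M := M) hM hx χ₀ ξ).2.2.1)
    · rw [eB_apply_not_mem hξ, zero_mul]
      exact mli_zero
  obtain ⟨ξ, hξ, hne⟩ := hex
  refine ⟨ξ, hξ, fun h0 => ?_⟩
  have h2 := om_tfT (p := p) ξ χ
  rw [h0, mul_zero] at h2
  have h3 : om χ (tfT p x ξ) = 0 := by
    rcases mul_eq_zero.mp h2 with h | h
    · exact absurd h (irr_one_ne_zero' χ)
    · exact h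
  have h4 := om_tfT_congr (M := M) (p := p) ξ (block_sameBlock hB hχ₀ hχ)
  rw [h3, sub_zero] at h4
  apply hne
  have h5 := om_tfT (p := p) ξ χ₀
  have hG : (Nat.card G : ℂ) ≠ 0 := card_ne_zero_C
  have e : ((p ^ blockDefect p β : ℕ) : ℂ) * etaF p x χ₀ ξ =
      (((p ^ blockDefect p B : ℕ) : ℂ) * χ₀.1 1 * (Nat.card G : ℂ)⁻¹) * om χ₀ (tfT p x ξ) := by
    rw [hdef]
    field_simp
    linear_combination (-((p ^ blockDefect p B : ℕ) : ℂ)) * h5
  rw [e]
  exact mli_mul_left h4 (defect_degree_mlr hM hB hχ₀)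

end Eta

end Cfsg.Agent.H22
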