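import Cfsg.Agent.Lib.H22.HtBdB
import Cfsg.Agent.Lib.H06.CharGalois
import Cfsg.Agent.Lib.H22.DCentGen

/-!
# The height bound: sections and the Galois action
-/

set_option autoImplicit false
set_option linter.unusedSectionVars false
set_option linter.style.haveILetI false
set_option linter.unusedSimpArgs false

namespace Cfsg.Agent.H22

open Cfsg Cfsg.Agent.H21 Module
open scoped ComplexConjugate

universe u

section Sections

open Classical

variable {G : Type u} [Group G] [Finite G]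

theorem sum_conj_indicator {x y : G} (h : IsConj y x) :
    ∑ t : G, (if t * y * t⁻¹ = x then (1 : ℂ) else 0) = (Nat.card (Subgroup.centralizer ({x} : Set G)) : ℂ) := by
  classical
  obtain ⟨t₀, rfl⟩ := isConj_iff.mp h
  rw [← Equiv.sum_comp (Equiv.mulRight t₀)]
  set x := t₀ * y * t₀⁻¹ with hx
  have h1 : ∀ t : G, ((Equiv.mulRight t₀) t * y * ((Equiv.mulRight t₀) t)⁻¹ = x) ↔
      t ∈ Subgroup.centralizer ({x} : Set G) := by
    intro t
    rw [Subgroup.mem_centralizer_singleton_iff]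
    simp only [Equiv.coe_mulRight]
    rw [hx]
    constructor
    · intro h2
      calc t * (t₀ * y * t₀⁻¹) = (t * t₀ * y * (t * t₀)⁻¹) * t := by group
        _ = _ := by rw [h2]
    · intro h2
      calc t * t₀ * y * (t * t₀)⁻¹ = (t * (t₀ * y * t₀⁻¹)) * t⁻¹ := by group
        _ = (t₀ * y * t₀⁻¹) * t * t⁻¹ := by rw [h2]
        _ = _ := by group
  simp only [h1]
  rw [sum_eq_sum_subgroup (Subgroup.centralizer ({x} : Set G))]
  · refine (Finset.sum_congr rfl fun c _ => if_pos c.2).trans ?_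
    simp [Nat.card_eq_fintype_card]
  · intro g hg
    rw [if_neg hg]

theorem sum_conj_indicator_zero {x y : G} (h : ¬ IsConj y x) :
    ∑ t : G, (if t * y * t⁻¹ = x then (1 : ℂ) else 0) = 0 := by
  classical
  refine Finset.sum_eq_zero fun t _ => ?_
  rw [if_neg]
  intro h2
  exact h (isConj_iff.mpr ⟨t, h2⟩)

variable {p : ℕ} [hp : Fact p.Prime]

/-- The elements with `p`-part `x`. -/
theorem sum_pPt_eq {x : G} {k : ℕ} (hx : orderOf x = p ^ k) (f : G → ℂ) :
    ∑ g : G, (if pPt p g = x then f g else 0) =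
      ∑ s : Subgroup.centralizer ({x} : Set G), (if p ∣ orderOf s then 0 else f (x * (s : G))) := by
  classical
  set F : G → ℂ := fun g => if pPt p g = x then f g else 0 with hF
  have hF1 : ∀ g, pPt p g = x → F g = f g := fun g h => if_pos h
  have hF2 : ∀ g, pPt p g ≠ x → F g = 0 := fun g h => if_neg h
  change ∑ g, F g = _
  rw [← Equiv.sum_comp (Equiv.mulLeft x) F]
  simp only [Equiv.coe_mulLeft]
  rw [sum_eq_sum_subgroup (Subgroup.centralizer ({x} : Set G))]
  · refine Finset.sum_congr rfl fun s _ => ?_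
    by_cases hs : p ∣ orderOf s
    · rw [if_pos hs, hF2]
      intro h
      have h1 := pPt_mul_rPt p (x * (s : G))
      rw [h] at h1
      have h2 : rPt p (x * (s : G)) = (s : G) := mul_left_cancel h1
      have h3 := rPt_not_dvd p (x * (s : G))
      rw [h2, Subgroup.orderOf_coe] at h3
      exact h3 hs
    · rw [if_neg hs, hF1]
      exact pPt_eq (isPPart_mul_centralizer s hx hs)
  · intro g hg
    rw [hF2]
    intro h
    apply hg
    have h1 := pPt_mul_rPt p (x * g)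
    rw [h] at h1
    have h2 : rPt p (x * g) = g := mul_left_cancel h1
    have h3 := commute_pPt_rPt p (x * g)
    rw [h, h2] at h3
    exact Subgroup.mem_centralizer_singleton_iff.mpr h3.eq.symm

/-- The sum over `G` by sections. -/
theorem sum_by_sections (X : Finset G) (hX : ∀ x ∈ X, ∃ k : ℕ, orderOf x = p ^ k)
    (hXrep : ∀ g : G, (∃ k : ℕ, orderOf g = p ^ k) → ∃! x, x ∈ X ∧ IsConj g x)
    {f : G → ℂ} (hf : IsClassFunction G f) :
    ∑ x ∈ X, (Nat.card (Subgroup.centralizer ({x} : Set G)) : ℂ)⁻¹ *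
      ∑ s : Subgroup.centralizer ({x} : Set G), (if p ∣ orderOf s then 0 else f (x * (s : G))) =
    (Nat.card G : ℂ)⁻¹ * ∑ g, f g := by
  classical
  have hG : (Nat.card G : ℂ) ≠ 0 := card_ne_zero_C
  -- averaging
  have h1 : ∀ x ∈ X, ∑ s : Subgroup.centralizer ({x} : Set G), (if p ∣ orderOf s then 0 else f (x * (s : G))) =
      (Nat.card G : ℂ)⁻¹ * ∑ g, f g * ∑ t : G, (if t * pPt p g * t⁻¹ = x then (1 : ℂ) else 0) := by
    intro x hx
    obtain ⟨k, hk⟩ := hX x hx
    rw [← sum_pPt_eq hk]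
    have h2 : ∀ t : G, ∑ g : G, (if pPt p g = x then f g else 0) =
        ∑ g : G, f g * (if t * pPt p g * t⁻¹ = x then (1 : ℂ) else 0) := by
      intro t
      set F : G → ℂ := fun g => if pPt p g = x then f g else 0 with hF
      have hF1 : ∀ g, pPt p g = x → F g = f g := fun g h => if_pos h
      have hF2 : ∀ g, pPt p g ≠ x → F g = 0 := fun g h => if_neg h
      change ∑ g, F g = _
      rw [← Equiv.sum_comp (MulAut.conj t).toEquiv F]
      refine Finset.sum_congr rfl fun g _ => ?_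
      show F (t * g * t⁻¹) = _
      by_cases h : t * pPt p g * t⁻¹ = x
      · rw [hF1 _ (by rw [pPt_conj]; exact h), if_pos h, hf g t, mul_one]
      · rw [hF2 _ (by rw [pPt_conj]; exact h), if_neg h, mul_zero]
    have h3 : (Nat.card G : ℂ) * ∑ g : G, (if pPt p g = x then f g else 0) =
        ∑ g, f g * ∑ t : G, (if t * pPt p g * t⁻¹ = x then (1 : ℂ) else 0) := by
      simp only [Finset.mul_sum]
      rw [Finset.sum_comm]
      have h4 : ∀ t : G, ∑ g : G, f g * (if t * pPt p g * t⁻¹ = x then (1 : ℂ) else 0) =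
          ∑ g : G, (if pPt p g = x then f g else 0) := fun t => (h2 t).symm
      simp only [h4]
      rw [Finset.sum_const, Finset.card_univ, ← Nat.card_eq_fintype_card, nsmul_eq_mul]
      rw [Finset.mul_sum]
    rw [← h3, inv_mul_cancel_left₀ hG]
  have hI : ∃ I : G → G → ℂ, ∀ x g, I x g = ∑ t : G, (if t * pPt p g * t⁻¹ = x then (1 : ℂ) else 0) :=
    ⟨_, fun _ _ => rfl⟩
  obtain ⟨I, hI⟩ := hI
  simp only [← hI] at h1
  have h5 : ∀ g, ∑ x ∈ X, (Nat.card (Subgroup.centralizer ({x} : Set G)) : ℂ)⁻¹ * I x g = 1 := by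
    intro g
    obtain ⟨x₀, ⟨hx₀, hc₀⟩, huniq⟩ := hXrep (pPt p g) (pPt_order p g)
    rw [Finset.sum_eq_single x₀]
    · rw [hI, sum_conj_indicator hc₀]
      have hC : (Nat.card (Subgroup.centralizer ({x₀} : Set G)) : ℂ) ≠ 0 := card_ne_zero_C
      field_simp
    · intro x hx hne
      rw [hI, sum_conj_indicator_zero, mul_zero]
      intro hc
      exact hne (huniq x ⟨hx, hc⟩)
    · intro h
      exact absurd hx₀ h
  calc _ = ∑ x ∈ X, ∑ g, (Nat.card G : ℂ)⁻¹ * (f g * ((Nat.card (Subgroup.centralizer ({x} : Set G)) : ℂ)⁻¹ * I x g)) := by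
        refine Finset.sum_congr rfl fun x hx => ?_
        rw [h1 x hx, Finset.mul_sum, Finset.mul_sum]
        refine Finset.sum_congr rfl fun g _ => ?_
        ring
    _ = ∑ g, ∑ x ∈ X, (Nat.card G : ℂ)⁻¹ * (f g * ((Nat.card (Subgroup.centralizer ({x} : Set G)) : ℂ)⁻¹ * I x g)) :=
        Finset.sum_comm
    _ = ∑ g, (Nat.card G : ℂ)⁻¹ * (f g * ∑ x ∈ X, (Nat.card (Subgroup.centralizer ({x} : Set G)) : ℂ)⁻¹ * I x g) := by
        refine Finset.sum_congr rfl fun g _ => ?_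
        rw [Finset.mul_sum, Finset.mul_sum]
    _ = _ := by
        simp only [h5, mul_one]
        rw [Finset.mul_sum]

/-- The squares of the coefficients over all sections. -/
theorem sum_eta_sections (X : Finset G) (hX : ∀ x ∈ X, ∃ k : ℕ, orderOf x = p ^ k)
    (hXrep : ∀ g : G, (∃ k : ℕ, orderOf g = p ^ k) → ∃! x, x ∈ X ∧ IsConj g x) (ψ : IrrCharacter G) :
    ∑ x ∈ X, ∑ ξ : IrrCharacter (Subgroup.centralizer ({x} : Set G)),
      etaF p x ψ ξ * conj (etaF p x ψ ξ) = 1 := by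
  classical
  have hcl : IsClassFunction G (fun g => ψ.1 g * conj (ψ.1 g)) := by
    intro g k
    show ψ.1 (k * g * k⁻¹) * conj (ψ.1 (k * g * k⁻¹)) = _
    rw [irr_conj']
  have h1 := sum_by_sections (p := p) X hX hXrep hcl
  have h2 : (Nat.card G : ℂ)⁻¹ * ∑ g, ψ.1 g * conj (ψ.1 g) = 1 := classInner_self_irr ψ
  rw [h2] at h1
  rw [← h1]
  refine Finset.sum_congr rfl fun x _ => ?_
  have h3 := parseval_class (rp_isClass (p := p) (section_isClass ψ x))
  have h4 : ∀ ξ : IrrCharacter (Subgroup.centralizer ({x} : Set G)),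
      etaF p x ψ ξ = classInner (rp p (secF x ψ)) ξ.1 := fun _ => rfl
  simp only [h4]
  rw [← h3]
  unfold classInner
  congr 1
  refine Finset.sum_congr rfl fun s _ => ?_
  unfold rp
  split_ifs
  · simp
  · rfl

end Sections

section Galois

variable {N : ℕ} [hN : NeZero N]

/-- Every embedding of the cyclotomic field is induced by a ring endomorphism of `ℂ`. -/
theorem exists_ext_embed (τ : cycF N →ₐ[ℚ] ℂ) :
    ∃ (σ : ℂ →+* ℂ) (k : ℕ), k.Coprime N ∧ (∀ μ : ℂ, μ ^ N = 1 → σ μ = μ ^ k) ∧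
      ∀ y : cycF N, σ (y : ℂ) = τ y := by
  classical
  set z : cycF N := ⟨zetaN N, zetaN_mem N⟩ with hz
  have hzp : IsPrimitiveRoot z N := by
    have h := zetaN_prim N
    exact IsPrimitiveRoot.of_map_of_injective (f := (cycF N).val) (hf := Subtype.val_injective) h
  have hτz : IsPrimitiveRoot (τ z) N := hzp.map_of_injective τ.toRingHom.injective
  obtain ⟨k, -, hk⟩ := (zetaN_prim N).eq_pow_of_pow_eq_one hτz.pow_eq_one
  have hcop : k.Coprime N := by
    have h := hτz
    rw [← hk] at h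
    exact ((zetaN_prim N).pow_iff_coprime (NeZero.pos N) k).mp h
  obtain ⟨σ, hσ⟩ := H06.exists_galois_ringHom (n := N) (NeZero.ne N) hcop
  refine ⟨σ, k, hcop, hσ, ?_⟩
  have hext : ((σ.toRatAlgHom).comp (cycF N).val) = τ := by
    apply IntermediateField.adjoin_algHom_ext
    intro x hx
    obtain rfl := Set.mem_singleton_iff.mp hx
    show σ (zetaN N) = τ z
    rw [hσ _ (zetaN_prim N).pow_eq_one, hk]
  intro y
  have := congrArg (fun φ : cycF N →ₐ[ℚ] ℂ => φ y) hext
  exact this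

/-- Conjugation commutes with the extension on the cyclotomic field. -/
theorem ext_conj {τ : cycF N →ₐ[ℚ] ℂ} {σ : ℂ →+* ℂ} (h : ∀ y : cycF N, σ (y : ℂ) = τ y) {y : ℂ}
    (hy : y ∈ cycF N) : σ (conj y) = conj (σ y) := by
  have h1 := h ⟨y, hy⟩
  have h2 := h ⟨conj y, conj_mem_cycF hy⟩
  have h3 := conj_embed τ hy
  calc σ (conj y) = τ ⟨conj y, conj_mem_cycF hy⟩ := h2
    _ = conj (τ ⟨y, hy⟩) := h3.symm
    _ = conj (σ y) := by rw [← h1]

/-- The conjugates of a nonzero algebraic integer have mean absolute value at least one. -/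
theorem sum_embed_ge_one (x : cycF N) (hint : IsIntegral ℤ (x : ℂ)) (h0 : x ≠ 0) :
    (Fintype.card (cycF N →ₐ[ℚ] ℂ) : ℝ) ≤ ∑ τ : cycF N →ₐ[ℚ] ℂ, ‖τ x‖ := by
  classical
  have hxint : IsIntegral ℤ x := by
    have h1 : Function.Injective (algebraMap (cycF N) ℂ) := (algebraMap (cycF N) ℂ).injective
    exact (isIntegral_algebraMap_iff h1).mp hint
  have hnint : IsIntegral ℤ (Algebra.norm ℚ x) := Algebra.isIntegral_norm ℚ hxint
  obtain ⟨n, hn⟩ := IsIntegrallyClosed.isIntegral_iff.1 hnint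
  have hn' : Algebra.norm ℚ x = (n : ℚ) := by simpa using hn.symm
  have hnorm0 : Algebra.norm ℚ x ≠ 0 := Algebra.norm_ne_zero_iff.2 h0
  have hn0 : n ≠ 0 := by
    rintro rfl
    apply hnorm0
    rw [hn']
    simp
  have hprod : (n : ℂ) = ∏ τ : cycF N →ₐ[ℚ] ℂ, τ x := by
    have h1 := Algebra.norm_eq_prod_embeddings ℚ ℂ x
    rw [hn'] at h1
    rw [show (n : ℂ) = algebraMap ℚ ℂ (n : ℚ) by simp, h1]
    exact Finset.prod_congr (by ext; simp) (fun _ _ => rfl)
  have hτ0 : ∀ τ : cycF N →ₐ[ℚ] ℂ, τ x ≠ 0 := fun τ => (map_ne_zero_iff _ τ.toRingHom.injective).2 h0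
  have hlog : ∀ τ : cycF N →ₐ[ℚ] ℂ, Real.log (‖τ x‖) ≤ ‖τ x‖ - 1 := fun τ =>
    Real.log_le_sub_one_of_pos (norm_pos_iff.2 (hτ0 τ))
  have hsumlog : Real.log (∏ τ : cycF N →ₐ[ℚ] ℂ, ‖τ x‖) = ∑ τ : cycF N →ₐ[ℚ] ℂ, Real.log (‖τ x‖) :=
    Real.log_prod (fun τ _ => norm_ne_zero_iff.2 (hτ0 τ))
  have hprod1 : (1 : ℝ) ≤ ∏ τ : cycF N →ₐ[ℚ] ℂ, ‖τ x‖ := by
    rw [← norm_prod, ← hprod, Complex.norm_intCast]
    have h6 : 1 ≤ |n| := Int.one_le_abs hn0
    exact_mod_cast h6
  have hlog0 : 0 ≤ Real.log (∏ τ : cycF N →ₐ[ℚ] ℂ, ‖τ x‖) := Real.log_nonneg hprod1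
  rw [hsumlog] at hlog0
  have h7 : ∑ τ : cycF N →ₐ[ℚ] ℂ, Real.log (‖τ x‖) ≤ ∑ τ : cycF N →ₐ[ℚ] ℂ, (‖τ x‖ - 1) :=
    Finset.sum_le_sum fun τ _ => hlog τ
  rw [Finset.sum_sub_distrib, Finset.sum_const, Finset.card_univ, nsmul_eq_mul, mul_one] at h7
  linarith

end Galois

section Twist

variable {G : Type u} [Group G] [Finite G] {p : ℕ} [hp : Fact p.Prime] {x : G}

/-- The action of an extension on character values. -/
theorem ext_char {K : Type u} [Group K] [Finite K] {N : ℕ} (hKN : Nat.card K ∣ N) {σ : ℂ →+* ℂ} {k : ℕ}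
    (hσ : ∀ μ : ℂ, μ ^ N = 1 → σ μ = μ ^ k) {χ : K → ℂ} (hχ : IsCharacter K χ) (g : K) :
    σ (χ g) = χ (g ^ k) := by
  classical
  obtain ⟨d, ρ, rfl⟩ := hχ
  obtain ⟨ι, hι, b, μ, h1, h2, h3, _⟩ := Cfsg.Agent.H21.exists_eigenbasis ρ g
  have hμN : ∀ i, μ i ^ N = 1 := by
    intro i
    obtain ⟨c, hc⟩ := (orderOf_dvd_natCard g).trans hKN
    rw [hc, pow_mul, h2, one_pow]
  have hk : ∀ (j : ℕ) (i : ι), ρ (g ^ j) (b i) = (μ i ^ j) • b i := by
    intro j i
    induction j with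
    | zero => simp
    | succ j ih =>
      rw [pow_succ, map_mul, Module.End.mul_apply, h1, map_smul, ih, smul_smul, pow_succ, mul_comm]
  have h4 : ρ.character (g ^ k) = ∑ i, μ i ^ k := by
    rw [Representation.character]
    exact Cfsg.Agent.H21.trace_of_eigenbasis _ b _ (hk k)
  have h5 : ρ.character g = ∑ i, μ i := h3
  rw [h4, h5, map_sum]
  exact Finset.sum_congr rfl fun i _ => hσ _ (hμN i)

/-- The Galois conjugate of an irreducible character. -/
noncomputable def powIrrK {K : Type u} [Group K] [Finite K] {k : ℕ} (hk : k.Coprime (Nat.card K))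
    (χ : IrrCharacter K) : IrrCharacter K :=
  ⟨fun g => χ.1 (g ^ k), H06.isIrrCharacter_comp_pow hk χ.2⟩

theorem powIrrK_bijective {K : Type u} [Group K] [Finite K] {k : ℕ} (hk : k.Coprime (Nat.card K)) :
    Function.Bijective (powIrrK hk : IrrCharacter K → IrrCharacter K) := by
  refine Finite.injective_iff_bijective.1 ?_
  intro χ ψ h
  apply Subtype.ext
  funext g
  obtain ⟨y, rfl⟩ := (powCoprime (G := K) (n := k) (Nat.coprime_comm.mp hk)).surjective g
  have h2 := congrFun (congrArg Subtype.val h) y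
  exact h2

theorem etaF_mem_cycF {N : ℕ} [hN : NeZero N] (hGN : Nat.card G ∣ N) (χ : IrrCharacter G)
    (ξ : IrrCharacter (Subgroup.centralizer ({x} : Set G))) : etaF p x χ ξ ∈ cycF N := by
  classical
  have hval : ∀ g : G, χ.1 g ∈ cycF N := fun g =>
    char_mem_cycF (isCharacter_of_irr χ) g ((orderOf_dvd_natCard g).trans hGN)
  have hvalC : ∀ s : Subgroup.centralizer ({x} : Set G), ξ.1 s ∈ cycF N := fun s =>
    char_mem_cycF (isCharacter_of_irr ξ) s (by
      rw [← Subgroup.orderOf_coe]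
      exact (orderOf_dvd_natCard (s : G)).trans hGN)
  unfold etaF classInner
  refine mul_mem (inv_mem (natCast_mem _ _)) (sum_mem fun s _ => mul_mem ?_ (conj_mem_cycF (hvalC s)))
  unfold rp
  split_ifs
  · exact zero_mem _
  · exact hval _

theorem card_centralizer_dvd {N : ℕ} (hGN : Nat.card G ∣ N) :
    Nat.card (Subgroup.centralizer ({x} : Set G)) ∣ N :=
  (Subgroup.card_subgroup_dvd_card _).trans hGN

/-- The Galois conjugate of a coefficient. -/
theorem ext_etaF {N : ℕ} [hN : NeZero N] (hGN : Nat.card G ∣ N) {τ : cycF N →ₐ[ℚ] ℂ} {σ : ℂ →+* ℂ}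
    {k : ℕ} (hcop : k.Coprime N) (hσ : ∀ μ : ℂ, μ ^ N = 1 → σ μ = μ ^ k)
    (hτ : ∀ y : cycF N, σ (y : ℂ) = τ y) (χ : IrrCharacter G)
    (ξ : IrrCharacter (Subgroup.centralizer ({x} : Set G))) :
    σ (etaF p x χ ξ) = etaF p x (powIrrK (hcop.coprime_dvd_right hGN) χ)
      (powIrrK (hcop.coprime_dvd_right (card_centralizer_dvd hGN)) ξ) := by
  classical
  unfold etaF classInner
  rw [map_mul, map_inv₀, map_natCast, map_sum]
  congr 1
  refine Finset.sum_congr rfl fun s _ => ?_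
  rw [map_mul]
  have hvalC : ξ.1 s ∈ cycF N :=
    char_mem_cycF (isCharacter_of_irr ξ) s (by
      rw [← Subgroup.orderOf_coe]
      exact (orderOf_dvd_natCard (s : G)).trans hGN)
  rw [ext_conj hτ hvalC, ext_char (card_centralizer_dvd hGN) hσ (isCharacter_of_irr ξ)]
  congr 1
  unfold rp
  split_ifs
  · exact map_zero _
  · exact ext_char hGN hσ (isCharacter_of_irr χ) _

/-- The real total of the squares. -/
noncomputable def wT (p : ℕ) (x : G) (χ : IrrCharacter G)
    (β : Set (IrrCharacter (Subgroup.centralizer ({x} : Set G)))) : ℝ := by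
  classical exact ∑ ξ : IrrCharacter (Subgroup.centralizer ({x} : Set G)),
    if ξ ∈ β then ‖etaF p x χ ξ‖ ^ 2 else 0

theorem Aa_eq_wT (β : Set (IrrCharacter (Subgroup.centralizer ({x} : Set G)))) (χ : IrrCharacter G) :
    Aa p x β χ = ((wT p x χ β : ℝ) : ℂ) := by
  classical
  unfold Aa wT
  push_cast
  refine Finset.sum_congr rfl fun ξ _ => ?_
  by_cases h : ξ ∈ β
  · rw [eB_apply_mem h, one_mul, Complex.mul_conj', if_pos h]
    push_cast
    rfl
  · rw [eB_apply_not_mem h, zero_mul, if_neg h]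
    simp

theorem wT_nonneg (β : Set (IrrCharacter (Subgroup.centralizer ({x} : Set G)))) (χ : IrrCharacter G) :
    0 ≤ wT p x χ β := by
  classical
  unfold wT
  refine Finset.sum_nonneg fun ξ _ => ?_
  split_ifs
  · positivity
  · exact le_rfl

theorem wT_pos {β : Set (IrrCharacter (Subgroup.centralizer ({x} : Set G)))} {χ : IrrCharacter G}
    {ξ : IrrCharacter (Subgroup.centralizer ({x} : Set G))} (hξ : ξ ∈ β) (h : etaF p x χ ξ ≠ 0) :
    0 < wT p x χ β := by
  classical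
  unfold wT
  refine Finset.sum_pos' (fun ξ _ => ?_) ⟨ξ, Finset.mem_univ _, ?_⟩
  · split_ifs
    · positivity
    · exact le_rfl
  · rw [if_pos hξ]
    have := norm_pos_iff.mpr h
    positivity

theorem Aa_mem_cycF {N : ℕ} [hN : NeZero N] (hGN : Nat.card G ∣ N)
    (β : Set (IrrCharacter (Subgroup.centralizer ({x} : Set G)))) (χ : IrrCharacter G) :
    Aa p x β χ ∈ cycF N := by
  classical
  unfold Aa
  refine sum_mem fun ξ _ => mul_mem ?_ (mul_mem (etaF_mem_cycF hGN χ ξ)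
    (conj_mem_cycF (etaF_mem_cycF hGN χ ξ)))
  by_cases h : ξ ∈ β
  · rw [eB_apply_mem h]
    exact one_mem _
  · rw [eB_apply_not_mem h]
    exact zero_mem _

open Classical in
/-- The conjugates of the total of the squares. -/
theorem ext_Aa {N : ℕ} [hN : NeZero N] (hGN : Nat.card G ∣ N) {τ : cycF N →ₐ[ℚ] ℂ} {σ : ℂ →+* ℂ}
    {k : ℕ} (hcop : k.Coprime N) (hσ : ∀ μ : ℂ, μ ^ N = 1 → σ μ = μ ^ k)
    (hτ : ∀ y : cycF N, σ (y : ℂ) = τ y) (β : Set (IrrCharacter (Subgroup.centralizer ({x} : Set G))))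
    (χ : IrrCharacter G) :
    σ (Aa p x β χ) = ((∑ ξ : IrrCharacter (Subgroup.centralizer ({x} : Set G)),
      (if ξ ∈ β then ‖etaF p x (powIrrK (hcop.coprime_dvd_right hGN) χ)
        (powIrrK (hcop.coprime_dvd_right (card_centralizer_dvd hGN)) ξ)‖ ^ 2 else 0) : ℝ) : ℂ) := by
  classical
  unfold Aa
  rw [map_sum]
  push_cast
  refine Finset.sum_congr rfl fun ξ _ => ?_
  rw [map_mul, map_mul, ext_conj hτ (etaF_mem_cycF hGN χ ξ), ext_etaF hGN hcop hσ hτ χ ξ]
  by_cases h : ξ ∈ β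
  · rw [eB_apply_mem h, map_one, one_mul, Complex.mul_conj', if_pos h]
    push_cast
    rfl
  · rw [eB_apply_not_mem h, map_zero, zero_mul, if_neg h]
    simp

end Twist

end Cfsg.Agent.H22
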