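import Cfsg.Agent.Lib.H22.HtBdC

/-!
# The height bound: `h + c ≤ n + d`
-/

set_option autoImplicit false
set_option linter.unusedSectionVars false
set_option linter.style.haveILetI false
set_option linter.unusedSimpArgs false

namespace Cfsg.Agent.H22

open Cfsg Cfsg.Agent.H21 Module
open scoped ComplexConjugate

universe u

section Main

variable {G : Type u} [Group G] [Finite G] {p : ℕ} [hp : Fact p.Prime] {M : Ideal AlgInt}
  [hMp : M.IsPrime]

open Classical in
/-- At most one block of `indBlocks` contains a given character. -/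
theorem sum_indBlocks_ite_le {x : G} {B : Set (IrrCharacter G)}
    (ξ : IrrCharacter (Subgroup.centralizer ({x} : Set G))) {w : ℝ} (hw : 0 ≤ w) :
    ∑ β ∈ indBlocks M x B, (if ξ ∈ β then w else 0) ≤ w := by
  rw [← Finset.sum_filter, Finset.sum_const, nsmul_eq_mul]
  have h1 : (Finset.filter (fun β => ξ ∈ β) (indBlocks M x B)).card ≤ 1 := by
    rw [Finset.card_le_one]
    intro β hβ β' hβ'
    obtain ⟨h1, h2⟩ := Finset.mem_filter.mp hβ
    obtain ⟨h1', h2'⟩ := Finset.mem_filter.mp hβ'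
    have hb := (mem_indBlocks'.mp h1).1
    have hb' := (mem_indBlocks'.mp h1').1
    exact block_eq_of_inter hb hb' h2 h2'
  have h2 : ((Finset.filter (fun β => ξ ∈ β) (indBlocks M x B)).card : ℝ) ≤ 1 := by exact_mod_cast h1
  nlinarith

/-- **The bound on the number of subsections.** -/
theorem card_subsections_le (hM : IsPModular p M) {B : Set (IrrCharacter G)} (hB : IsPBlock M B)
    (X : Finset G) (hX : ∀ x ∈ X, ∃ k : ℕ, orderOf x = p ^ k)
    (hXrep : ∀ g : G, (∃ k : ℕ, orderOf g = p ^ k) → ∃! x, x ∈ X ∧ IsConj g x)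
    (R : Finset (Σ x : G, Set (IrrCharacter (Subgroup.centralizer ({x} : Set G)))))
    (hR : ∀ a ∈ R, a.1 ∈ X ∧ IsInducedBlock M (Subgroup.centralizer ({a.1} : Set G)) a.2 B ∧
      blockDefect p a.2 = blockDefect p B) {χ : IrrCharacter G} (hχ : χ ∈ B) :
    R.card ≤ p ^ ((Nat.card G).factorization p - (charDegree χ.1).factorization p) := by
  classical
  set N := Nat.card G with hNdef
  haveI hN : NeZero N := ⟨Nat.card_pos.ne'⟩
  have hGN : Nat.card G ∣ N := dvd_rfl
  set q := p ^ ((Nat.card G).factorization p - (charDegree χ.1).factorization p) with hq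
  -- the elements
  have hmem : ∀ a : (Σ x : G, Set (IrrCharacter (Subgroup.centralizer ({x} : Set G)))),
      ((q : ℕ) : ℂ) * Aa p a.1 a.2 χ ∈ cycF N := fun a =>
    mul_mem (natCast_mem _ _) (Aa_mem_cycF hGN a.2 χ)
  let y : (Σ x : G, Set (IrrCharacter (Subgroup.centralizer ({x} : Set G)))) → cycF N :=
    fun a => ⟨((q : ℕ) : ℂ) * Aa p a.1 a.2 χ, hmem a⟩
  have hyint : ∀ a ∈ R, IsIntegral ℤ (y a : ℂ) := by
    intro a ha
    obtain ⟨h1, h2, h3⟩ := hR a ha
    obtain ⟨k, hk⟩ := hX _ h1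
    exact yA_integral hM hk h2.1 hB h3 hχ
  have hqpos : 0 < q := pow_pos hp.out.pos _
  have hq0 : ((q : ℕ) : ℂ) ≠ 0 := by exact_mod_cast hqpos.ne'
  have hy0 : ∀ a ∈ R, y a ≠ 0 := by
    intro a ha h0
    obtain ⟨h1, h2, h3⟩ := hR a ha
    obtain ⟨k, hk⟩ := hX _ h1
    obtain ⟨ξ, hξ, hne⟩ := exists_eta_ne hM hk h2 h3 hχ
    have h4 : ((q : ℕ) : ℂ) * Aa p a.1 a.2 χ = 0 := congrArg Subtype.val h0
    rw [Aa_eq_wT] at h4
    rcases mul_eq_zero.mp h4 with h5 | h5
    · exact hq0 h5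
    · have := wT_pos hξ hne
      have h6 : wT p a.1 χ a.2 = 0 := by exact_mod_cast h5
      linarith
  -- the bound at an embedding
  have hbound : ∀ τ : cycF N →ₐ[ℚ] ℂ, ∑ a ∈ R, ‖τ (y a)‖ ≤ (q : ℝ) := by
    intro τ
    obtain ⟨σ, k, hcop, hσ, hτ⟩ := exists_ext_embed τ
    set ψ := powIrrK (hcop.coprime_dvd_right hGN) χ with hψ
    -- the sum of the squares
    have hsec : ∑ x ∈ X, ∑ ξ : IrrCharacter (Subgroup.centralizer ({x} : Set G)),
        ‖etaF p x ψ ξ‖ ^ 2 = 1 := by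
      have h1 := sum_eta_sections (p := p) X hX hXrep ψ
      have h2 : ((∑ x ∈ X, ∑ ξ : IrrCharacter (Subgroup.centralizer ({x} : Set G)),
          ‖etaF p x ψ ξ‖ ^ 2 : ℝ) : ℂ) = 1 := by
        rw [← h1]
        push_cast
        refine Finset.sum_congr rfl fun x _ => Finset.sum_congr rfl fun ξ _ => ?_
        rw [Complex.mul_conj']
      exact_mod_cast h2
    let S : (Σ x : G, Set (IrrCharacter (Subgroup.centralizer ({x} : Set G)))) → ℝ := fun a =>
      ∑ ξ : IrrCharacter (Subgroup.centralizer ({a.1} : Set G)),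
        (if ξ ∈ a.2 then ‖etaF p a.1 ψ (powIrrK (hcop.coprime_dvd_right (card_centralizer_dvd hGN)) ξ)‖ ^ 2 else 0)
    have hS0 : ∀ a, 0 ≤ S a := fun a => Finset.sum_nonneg fun ξ _ => by
      split_ifs
      · positivity
      · exact le_rfl
    have hnorm : ∀ a, ‖τ (y a)‖ = (q : ℝ) * S a := by
      intro a
      have h1 : τ (y a) = σ (y a : ℂ) := (hτ (y a)).symm
      rw [h1]
      have h2 : σ ((y a : cycF N) : ℂ) = ((q : ℕ) : ℂ) * ((S a : ℝ) : ℂ) := by
        show σ (((q : ℕ) : ℂ) * Aa p a.1 a.2 χ) = _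
        rw [map_mul, map_natCast, ext_Aa hGN hcop hσ hτ a.2 χ]
      rw [h2, norm_mul, Complex.norm_natCast, Complex.norm_real, Real.norm_of_nonneg (hS0 a)]
    -- the sum over all subsections
    have hSg : ∑ a ∈ R, S a ≤ 1 := by
      set Sg : Finset (Σ x : G, Set (IrrCharacter (Subgroup.centralizer ({x} : Set G)))) :=
        X.sigma (fun x => indBlocks M x B) with hSg
      have hsub : R ⊆ Sg := by
        intro a ha
        obtain ⟨h1, h2, h3⟩ := hR a ha
        exact Finset.mem_sigma.mpr ⟨h1, mem_indBlocks'.mpr h2⟩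
      have h1 : ∑ a ∈ R, S a ≤ ∑ a ∈ Sg, S a :=
        Finset.sum_le_sum_of_subset_of_nonneg hsub (fun a _ _ => hS0 a)
      refine h1.trans ?_
      rw [hSg, Finset.sum_sigma, ← hsec]
      refine Finset.sum_le_sum fun x _ => ?_
      -- a fixed section
      have h3 : ∑ β ∈ indBlocks M x B, S ⟨x, β⟩ = ∑ ξ : IrrCharacter (Subgroup.centralizer ({x} : Set G)),
          ∑ β ∈ indBlocks M x B, (if ξ ∈ β then
            ‖etaF p x ψ (powIrrK (hcop.coprime_dvd_right (card_centralizer_dvd hGN)) ξ)‖ ^ 2 else 0) := by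
        show ∑ β ∈ indBlocks M x B, ∑ ξ : IrrCharacter (Subgroup.centralizer ({x} : Set G)),
          (if ξ ∈ β then
            ‖etaF p x ψ (powIrrK (hcop.coprime_dvd_right (card_centralizer_dvd hGN)) ξ)‖ ^ 2 else 0) = _
        exact Finset.sum_comm
      rw [h3]
      have h4 : ∑ ξ : IrrCharacter (Subgroup.centralizer ({x} : Set G)), ‖etaF p x ψ ξ‖ ^ 2 =
          ∑ ξ : IrrCharacter (Subgroup.centralizer ({x} : Set G)),
            ‖etaF p x ψ (powIrrK (hcop.coprime_dvd_right (card_centralizer_dvd hGN)) ξ)‖ ^ 2 :=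
        ((Equiv.ofBijective _ (powIrrK_bijective (hcop.coprime_dvd_right (card_centralizer_dvd hGN)))).sum_comp
          (fun ξ => ‖etaF p x ψ ξ‖ ^ 2)).symm
      rw [h4]
      exact Finset.sum_le_sum fun ξ _ => sum_indBlocks_ite_le ξ (by positivity)
    calc ∑ a ∈ R, ‖τ (y a)‖ = (q : ℝ) * ∑ a ∈ R, S a := by
          rw [Finset.mul_sum]
          exact Finset.sum_congr rfl fun a _ => hnorm a
      _ ≤ (q : ℝ) * 1 := mul_le_mul_of_nonneg_left hSg (by positivity)
      _ = q := mul_one _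
  -- summing over the embeddings
  have hcardpos : (0 : ℝ) < Fintype.card (cycF N →ₐ[ℚ] ℂ) := by
    haveI : Nonempty (cycF N →ₐ[ℚ] ℂ) := ⟨(cycF N).val⟩
    exact_mod_cast Fintype.card_pos
  have h6 : (R.card : ℝ) * (Fintype.card (cycF N →ₐ[ℚ] ℂ) : ℝ) ≤
      (Fintype.card (cycF N →ₐ[ℚ] ℂ) : ℝ) * (q : ℝ) := by
    calc (R.card : ℝ) * (Fintype.card (cycF N →ₐ[ℚ] ℂ) : ℝ)
        = ∑ a ∈ R, (Fintype.card (cycF N →ₐ[ℚ] ℂ) : ℝ) := by
          rw [Finset.sum_const, nsmul_eq_mul]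
      _ ≤ ∑ a ∈ R, ∑ τ : cycF N →ₐ[ℚ] ℂ, ‖τ (y a)‖ :=
          Finset.sum_le_sum fun a ha => sum_embed_ge_one (y a) (hyint a ha) (hy0 a ha)
      _ = ∑ τ : cycF N →ₐ[ℚ] ℂ, ∑ a ∈ R, ‖τ (y a)‖ := Finset.sum_comm
      _ ≤ ∑ τ : cycF N →ₐ[ℚ] ℂ, (q : ℝ) := Finset.sum_le_sum fun τ _ => hbound τ
      _ = _ := by
          rw [Finset.sum_const, Finset.card_univ, nsmul_eq_mul]
  rw [mul_comm] at h6
  have h7 : (R.card : ℝ) ≤ q := le_of_mul_le_mul_left h6 hcardpos
  exact_mod_cast h7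

/-- **The height bound.** -/
theorem height_center_bound (hM : IsPModular p M) (B : Set (IrrCharacter G)) (hB : IsPBlock M B)
    (D : Subgroup G) (hBD : IsDefectGroup p M B D) (d : ℕ) (hDd : Nat.card D = p ^ d) (H : Subgroup G)
    (hH : H = D ⊔ Subgroup.centralizer (D : Set G)) (b : Set (IrrCharacter H))
    (hind : IsInducedBlock M H b B) (T : Subgroup G)
    (hT : ∀ g : G, g ∈ T ↔ (g ∈ Subgroup.normalizer (D : Set G) ∧ ∀ θ ∈ b, ∀ θ' : IrrCharacter H,
      (∀ h h' : H, (h' : G) = g * h * g⁻¹ → (θ' : H → ℂ) h' = (θ : H → ℂ) h) → θ' ∈ b))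
    (e : ℕ) (he : H.relIndex T = e) (n : ℕ) (hn : p ^ n ≤ e ∧ e < p ^ (n + 1)) (c : ℕ)
    (hc : Nat.card (Subgroup.center D) = p ^ c) :
    ∀ χ ∈ B, blockHeight p B (χ : G → ℂ) + c ≤ n + d := by
  classical
  intro χ hχ
  have hDp : IsPGroup p D := IsPGroup.of_card hDd
  obtain ⟨e₀, hmax, hst⟩ := exists_maximal_of_between hM hDp hH hind hBD
  have hTN : T ≤ Subgroup.normalizer (D : Set G) := fun g hg => ((hT g).mp hg).1
  have hTe : ∀ τ : G, τ ∈ Subgroup.normalizer (D : Set G) →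
      StabilizesBlock (Subgroup.centralizer (D : Set G)) e₀ τ → τ ∈ T :=
    fun τ hτ hs => (hT τ).mpr ⟨hτ, hst τ hτ hs⟩
  obtain ⟨X, hX, hXrep⟩ := exists_reps (G := G) p
  obtain ⟨R, hcard, hR⟩ := exists_subsections_of_center hM hDp hmax hH hTN hTe X hX hXrep
  have hle := card_subsections_le hM hB X hX hXrep R hR hχ
  rw [he, hc] at hcard
  have hd : blockDefect p B = d := by
    have h1 := card_defect hM hB hBD
    rw [hDd] at h1
    exact (Nat.pow_right_injective hp.out.two_le h1).symm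
  have hd' := blockDefect_eq p B
  rw [hd] at hd'
  have hheight : blockHeight p B χ.1 = (charDegree χ.1).factorization p - minExp p B := rfl
  have hef : minExp p B ≤ (charDegree χ.1).factorization p := minExp_le hχ
  have hfa : (charDegree χ.1).factorization p ≤ (Nat.card G).factorization p := by
    have hdvd : charDegree χ.1 ∣ Nat.card G := charDegree_dvd_card χ
    exact (Nat.factorization_le_iff_dvd (irr_charDegree_pos χ.2).ne' Nat.card_pos.ne').mpr hdvd p
  set u := (Nat.card G).factorization p - (charDegree χ.1).factorization p with hu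
  have h1 : p ^ c < p ^ (n + 1 + u) := by
    calc p ^ c ≤ e * R.card := hcard
      _ ≤ e * p ^ u := Nat.mul_le_mul_left _ hle
      _ < p ^ (n + 1) * p ^ u := Nat.mul_lt_mul_of_pos_right hn.2 (pow_pos hp.out.pos _)
      _ = p ^ (n + 1 + u) := (pow_add _ _ _).symm
  have h2 : c < n + 1 + u := (Nat.pow_lt_pow_iff_right hp.out.one_lt).mp h1
  rw [hheight]
  omega

end Main

end Cfsg.Agent.H22
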