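import Cfsg.Agent.Lib.H22.KlA

/-!
# The number of characters of a block with a major subsection of rank one at an involution
-/

set_option autoImplicit false
set_option linter.unusedSectionVars false
set_option linter.style.haveILetI false
set_option linter.unusedSimpArgs false

namespace Cfsg.Agent.H22

open Cfsg Cfsg.Agent.H21 Module
open scoped ComplexConjugate

universe u

section

variable {G : Type u} [Group G] [Finite G] {M : Ideal AlgInt} [hMp : M.IsPrime] {y : G}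

/-- The structure of the section of an involution at a block of defect two. -/
theorem klein_section_full (hM : IsPModular 2 M) (hy : orderOf y = 2)
    {b : Set (IrrCharacter (Subgroup.centralizer ({y} : Set G)))} (hb : IsPBlock M b)
    (hd : blockDefect 2 b = 2) :
    blockRank 2 b = 1 ∧ Nat.card b = 4 ∧ ∃ d : IrrCharacter G → ℤ, ∃ θ : Subgroup.centralizer ({y} : Set G) → ℂ,
      (∀ χ, secR 2 y b χ = (d χ : ℂ) • θ) ∧ θ 1 ≠ 0 ∧
      (∀ χ ψ, mE 2 (2 ^ blockDefect 2 b) y b χ ψ = ((d χ * d ψ : ℤ) : ℂ)) ∧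
      ∀ ξ ∈ b, rp 2 ξ.1 = θ := by
  classical
  haveI : Fact (Nat.Prime 2) := ⟨Nat.prime_two⟩
  have hy1 : y ≠ 1 := by
    rintro rfl
    simp at hy
  have hz : yC y ∈ Subgroup.center (Subgroup.centralizer ({y} : Set G)) := yC_center y
  have hzz : yC y * yC y = 1 := by
    apply Subtype.ext
    show y * y = 1
    rw [← sq, ← hy, pow_orderOf_eq_one]
  have hz1 : yC y ≠ 1 := fun h => hy1 (congrArg Subtype.val h)
  obtain ⟨hc4, hr1, hcrt⟩ := klein_central hM hz hzz hz1 hb hd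
  refine ⟨hr1, hc4, ?_⟩
  obtain ⟨ξ₀, hξ₀⟩ := block_nonempty hb
  set θ := rp 2 ξ₀.1 with hθ
  have hval : ∀ ξ ∈ b, rp 2 ξ.1 = θ := fun ξ hξ => (hcrt ξ hξ ξ₀ hξ₀).2
  have hC : (Nat.card (Subgroup.centralizer ({y} : Set G)) : ℂ) ≠ 0 := card_ne_zero_C
  have hsg : ∀ ξ : IrrCharacter (Subgroup.centralizer ({y} : Set G)),
      ∃ s : ℤ, muC y ξ = (s : ℂ) := by
    intro ξ
    rcases csg_cases hz hzz ξ with ⟨h, -⟩ | ⟨h, -⟩
    · exact ⟨1, by show csg (yC y) ξ = _; rw [h]; simp⟩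
    · exact ⟨-1, by show csg (yC y) ξ = _; rw [h]; simp⟩
  choose σ hσ using hsg
  have ha : ∀ (χ : IrrCharacter G) (ξ : IrrCharacter (Subgroup.centralizer ({y} : Set G))),
      ∃ n : ℕ, classInner (resF y χ) ξ.1 = (n : ℂ) := fun χ ξ =>
    classInner_isCharacter_nat (isCharacter_restrict (Subgroup.centralizer ({y} : Set G))
      (isCharacter_of_irr χ)) (isCharacter_of_irr ξ)
  choose a ha using ha
  set F : Finset (IrrCharacter (Subgroup.centralizer ({y} : Set G))) := (Set.toFinite b).toFinset with hF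
  have hFm : ∀ χ, χ ∈ F ↔ χ ∈ b := fun χ => Set.Finite.mem_toFinset _
  let d : IrrCharacter G → ℤ := fun χ => ∑ ξ ∈ F, σ ξ * (a χ ξ : ℤ)
  have hsec : ∀ χ, secR 2 y b χ = (d χ : ℂ) • θ := by
    intro χ
    funext s
    rw [Pi.smul_apply, smul_eq_mul]
    by_cases hs : 2 ∣ orderOf s
    · rw [secR_of_sing b χ hs, hθ, rp_of_sing _ hs, mul_zero]
    · rw [secR_of_reg b χ hs, blockPart_eq]
      have h1 : ∀ ξ : IrrCharacter (Subgroup.centralizer ({y} : Set G)),
          eB b ξ * (classInner (secF y χ) ξ.1 * ξ.1 s) =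
            if ξ ∈ F then ((σ ξ * (a χ ξ : ℤ) : ℤ) : ℂ) * θ s else 0 := by
        intro ξ
        by_cases hξ : ξ ∈ b
        · rw [if_pos ((hFm ξ).mpr hξ), eB_apply_mem hξ, one_mul, inner_secF, ha, hσ]
          have h2 : ξ.1 s = θ s := by
            rw [← hval ξ hξ, rp_of_reg _ hs]
          rw [h2]
          push_cast
          ring
        · rw [if_neg (fun h => hξ ((hFm ξ).mp h)), eB_apply_not_mem hξ, zero_mul]
      simp only [h1]
      rw [Finset.sum_ite_mem, Finset.univ_inter, ← Finset.sum_mul]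
      congr 1
      show ∑ ξ ∈ F, ((σ ξ * (a χ ξ : ℤ) : ℤ) : ℂ) = ((∑ ξ ∈ F, σ ξ * (a χ ξ : ℤ) : ℤ) : ℂ)
      rw [Int.cast_sum]
  refine ⟨d, θ, hsec, ?_, ?_, hval⟩
  · rw [hθ, rp_of_reg _ (by simp : ¬ 2 ∣ orderOf (1 : Subgroup.centralizer ({y} : Set G)))]
    exact irr_one_ne_zero' ξ₀
  · intro χ ψ
    unfold mE
    have h1 : ∀ s, secR 2 y b χ s * conj (secR 2 y b ψ s) =
        ((d χ * d ψ : ℤ) : ℂ) * (θ s * conj (θ s)) := by
      intro s
      rw [hsec χ, hsec ψ, Pi.smul_apply, Pi.smul_apply, smul_eq_mul, smul_eq_mul, map_mul, map_intCast]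
      push_cast
      ring
    simp only [h1]
    rw [← Finset.mul_sum, hd]
    have h2 := rp_inner ξ₀ ξ₀
    rw [(hcrt ξ₀ hξ₀ ξ₀ hξ₀).1] at h2
    have h3 : (Nat.card (Subgroup.centralizer ({y} : Set G)) : ℂ)⁻¹ *
        ∑ s, θ s * conj (θ s) = 1 / 4 := h2
    calc ((2 ^ 2 : ℕ) : ℂ) * ((Nat.card (Subgroup.centralizer ({y} : Set G)) : ℂ)⁻¹ *
          (((d χ * d ψ : ℤ) : ℂ) * ∑ s, θ s * conj (θ s)))
        = ((2 ^ 2 : ℕ) : ℂ) * ((d χ * d ψ : ℤ) : ℂ) * ((Nat.card (Subgroup.centralizer ({y} : Set G)) : ℂ)⁻¹ *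
          ∑ s, θ s * conj (θ s)) := by ring
      _ = _ := by
        rw [h3]
        push_cast
        ring

/-- The structure of the section of an involution at a block of defect two. -/
theorem klein_section (hM : IsPModular 2 M) (hy : orderOf y = 2)
    {b : Set (IrrCharacter (Subgroup.centralizer ({y} : Set G)))} (hb : IsPBlock M b)
    (hd : blockDefect 2 b = 2) :
    blockRank 2 b = 1 ∧ ∃ d : IrrCharacter G → ℤ, ∃ θ : Subgroup.centralizer ({y} : Set G) → ℂ,
      (∀ χ, secR 2 y b χ = (d χ : ℂ) • θ) ∧ θ 1 ≠ 0 ∧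
      ∀ χ ψ, mE 2 (2 ^ blockDefect 2 b) y b χ ψ = ((d χ * d ψ : ℤ) : ℂ) := by
  obtain ⟨h1, -, d, θ, h2, h3, h4, -⟩ := klein_section_full hM hy hb hd
  exact ⟨h1, d, θ, h2, h3, h4⟩

/-- **`k(B) = 4`** for a block of defect two having a major subsection at an involution. -/
theorem card_block_klein (hM : IsPModular 2 M) (hy : orderOf y = 2)
    {b : Set (IrrCharacter (Subgroup.centralizer ({y} : Set G)))} {B : Set (IrrCharacter G)}
    (hind : IsInducedBlock M (Subgroup.centralizer ({y} : Set G)) b B)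
    (hd : blockDefect 2 b = 2) (hdB : blockDefect 2 B = 2) : Nat.card B = 4 := by
  classical
  haveI : Fact (Nat.Prime 2) := ⟨Nat.prime_two⟩
  have hb := hind.1
  have hB := hind.2.1
  obtain ⟨hr1, d, θ, hsec, hθ1, hmE⟩ := klein_section hM hy hb hd
  have hy' : orderOf y = 2 ^ 1 := by rw [hy, pow_one]
  have hz0 : ∀ χ ∈ B, (charDegree χ.1).factorization 2 = minExp 2 B := by
    intro χ hχ
    by_contra hne
    have h1 := (positive_height_bounds hM hB hχ hne).2.1
    omega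
  -- the sum of squares
  have h1 := sum_mE_normSq hM hy' (2 ^ blockDefect 2 b) hb
  simp only [hmE] at h1
  have h2 : ∀ χ ψ : IrrCharacter G, ((d χ * d ψ : ℤ) : ℂ) * conj ((d χ * d ψ : ℤ) : ℂ) =
      (((d χ) ^ 2 * (d ψ) ^ 2 : ℤ) : ℂ) := by
    intro χ ψ
    rw [map_intCast]
    push_cast
    ring
  simp only [h2] at h1
  rw [hr1, hd] at h1
  have h3 : (∑ χ : IrrCharacter G, d χ ^ 2) ^ 2 = 16 := by
    have h4 : (((∑ χ : IrrCharacter G, d χ ^ 2) ^ 2 : ℤ) : ℂ) = ((16 : ℤ) : ℂ) := by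
      rw [sq, Finset.sum_mul_sum]
      push_cast at h1 ⊢
      rw [h1]
    exact_mod_cast h4
  have h5 : ∑ χ : IrrCharacter G, d χ ^ 2 = 4 := by
    have h6 : 0 ≤ ∑ χ : IrrCharacter G, d χ ^ 2 := Finset.sum_nonneg fun χ _ => sq_nonneg _
    nlinarith
  -- vanishing off `B`
  have h6 : ∀ χ, χ ∉ B → d χ = 0 := by
    intro χ hχ
    have hnot : ¬ IsInducedBlock M (Subgroup.centralizer ({y} : Set G)) b (blockOf M χ.1) := by
      intro h
      have h7 := induced_unique hind h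
      apply hχ
      rw [h7]
      exact self_mem_blockOf χ
    have h8 := second_main hM hy' (isBlock_blockOf χ) (self_mem_blockOf χ) hb hnot 1 (by simp)
    have h9 := congrFun (hsec χ) 1
    rw [secR_of_reg b χ (by simp : ¬ 2 ∣ orderOf (1 : Subgroup.centralizer ({y} : Set G))),
      Pi.smul_apply, smul_eq_mul] at h9
    have h10 : blockPart b (secF y χ) 1 = 0 := h8
    rw [h10] at h9
    have h11 : (d χ : ℂ) = 0 := by
      rcases mul_eq_zero.mp h9.symm with h | h
      · exact h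
      · exact absurd h hθ1
    exact_mod_cast h11
  have hodd : ∀ χ ∈ B, Odd (d χ) := by
    intro χ hχ
    have h7 := mE_not_mli hM hy' hind (hd.trans hdB.symm) hχ hχ (hz0 χ hχ) (hz0 χ hχ)
    rw [hmE] at h7
    rw [← Int.not_even_iff_odd, even_iff_two_dvd]
    intro hdv
    apply h7
    rw [mli_intCast_iff hM]
    exact Dvd.dvd.mul_left hdv _
  set F : Finset (IrrCharacter G) := (Set.toFinite B).toFinset with hF
  have hFm : ∀ χ, χ ∈ F ↔ χ ∈ B := fun χ => Set.Finite.mem_toFinset _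
  rw [Nat.card_eq_card_finite_toFinset]
  refine card_of_sum_odd_sq F d (fun χ hχ => hodd χ ((hFm χ).mp hχ)) ?_
  rw [← h5]
  refine Finset.sum_subset (Finset.subset_univ _) fun χ _ hχ => ?_
  rw [h6 χ (fun h => hχ ((hFm χ).mpr h))]
  norm_num

end

end Cfsg.Agent.H22
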