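import Cfsg.Agent.Lib.H22.KlD

/-!
# Integrality of generalized characters vanishing on singular elements; the columns of a block
with Klein four defect groups
-/

set_option autoImplicit false
set_option linter.unusedSectionVars false
set_option linter.style.haveILetI false
set_option linter.unusedSimpArgs false

namespace Cfsg.Agent.H22

open Cfsg Cfsg.Agent.H21 Module
open scoped ComplexConjugate Pointwise

universe u

section Fourier

variable {L : Type u} [Group L] [Finite L]

/-- The central ratio is integral. -/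
theorem central_ratio_int {s : L} (hs : s ∈ Subgroup.center L) (l : IrrCharacter L) :
    IsIntegral ℤ (l.1 s * (l.1 1)⁻¹) := by
  classical
  have h1 := cc_isIntegral s l
  have h2 : Subgroup.centralizer ({s} : Set L) = ⊤ := by
    rw [eq_top_iff]
    intro g _
    rw [Subgroup.mem_centralizer_singleton_iff]
    exact Subgroup.mem_center_iff.mp hs g
  have h3 : cc s l = l.1 s * (l.1 1)⁻¹ := by
    show centralChar l.1 s = _
    unfold centralChar
    rw [h2, Subgroup.index_top]
    simp [div_eq_mul_inv]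
  rwa [h3] at h1

/-- The average over a subgroup of a character at a central translate is integral. -/
theorem avg_central_int {s : L} (hs : s ∈ Subgroup.center L) (Q : Subgroup L) {φ : L → ℂ}
    (hφ : IsCharacter L φ) : IsIntegral ℤ ((Nat.card Q : ℂ)⁻¹ * ∑ q : Q, φ (s * (q : L))) := by
  classical
  obtain ⟨m, hm, -⟩ := isCharacter_decomp hφ
  have h1 : ∀ l : IrrCharacter L, IsIntegral ℤ ((Nat.card Q : ℂ)⁻¹ * ∑ q : Q, l.1 (s * (q : L))) := by
    intro l
    have hl1 := irr_one_ne_zero' l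
    have h2 : ∀ q : Q, l.1 (s * (q : L)) = (l.1 s * (l.1 1)⁻¹) * l.1 q := by
      intro q
      have h3 := irr_central_mul l.2 hs (q : L)
      rw [← one_eq_charDegree (isCharacter_of_irr l)] at h3
      field_simp
      rw [h3]
    simp only [h2]
    rw [← Finset.mul_sum, mul_left_comm]
    refine (central_ratio_int hs l).mul ?_
    obtain ⟨n, hn⟩ := classInner_isCharacter_nat (isCharacter_restrict Q (isCharacter_of_irr l))
      (isCharacter_of_irr (oneIrr Q))
    have h4 : (Nat.card Q : ℂ)⁻¹ * ∑ q : Q, l.1 q = (n : ℂ) := by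
      rw [← hn]
      unfold classInner
      congr 1
      refine Finset.sum_congr rfl fun q _ => ?_
      show _ = l.1 q * conj (1 : ℂ)
      simp
    rw [h4]
    exact isIntegral_natCast n
  have h5 : ∀ q : Q, φ (s * (q : L)) = ∑ l : IrrCharacter L, (m l : ℂ) * l.1 (s * (q : L)) := by
    intro q
    rw [hm, Finset.sum_apply]
    refine Finset.sum_congr rfl fun l _ => ?_
    simp
  simp only [h5]
  rw [Finset.sum_comm, Finset.mul_sum]
  refine IsIntegral.sum _ fun l _ => ?_
  rw [← Finset.mul_sum, mul_left_comm]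
  exact (isIntegral_natCast (m l)).mul (h1 l)

end Fourier

section FourierLocal

variable {K : Type u} [Group K] [Finite K] {p : ℕ} [hp : Fact p.Prime] {M : Ideal AlgInt}
  [hMp : M.IsPrime]

/-- **Integrality for generalized characters vanishing on singular elements.** -/
theorem fourier_local (hM : IsPModular p M) (Ψ : K → ℂ) (a : IrrCharacter K → ℂ)
    (ha : ∀ χ, MemLocalRing M (a χ)) (hΨ : ∀ g, Ψ g = ∑ χ : IrrCharacter K, a χ * χ.1 g)
    (hv : ∀ g, p ∣ orderOf g → Ψ g = 0) {s : K} (hs : ¬ p ∣ orderOf s) :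
    MemLocalRing M (Ψ s / (Nat.card (Subgroup.centralizer ({s} : Set K)) : ℂ)) := by
  classical
  set L := Subgroup.centralizer ({s} : Set K) with hL
  let Q : Sylow p L := default
  have hQcard : Nat.card (Q : Subgroup L) = p ^ (Nat.card L).factorization p :=
    Sylow.card_eq_multiplicity Q
  have hsum : ∑ q : (Q : Subgroup L), Ψ (s * (((q : L) : K))) = Ψ s := by
    rw [Finset.sum_eq_single 1]
    · simp
    · intro q _ hq
      apply hv
      have hq1 : ((q : L) : K) ≠ 1 := by
        intro h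
        apply hq
        apply Subtype.ext
        apply Subtype.ext
        exact h
      have hcomm : Commute s ((q : L) : K) :=
        (Subgroup.mem_centralizer_singleton_iff.mp (q : L).2).symm
      obtain ⟨k, hk⟩ := (IsPGroup.iff_orderOf.mp Q.2) q
      have hk' : orderOf ((q : L) : K) = p ^ k := by
        rw [← hk, Subgroup.orderOf_coe, Subgroup.orderOf_coe]
      have hk0 : k ≠ 0 := by
        rintro rfl
        rw [pow_zero, orderOf_eq_one_iff] at hk'
        exact hq1 hk'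
      have hcop : (orderOf s).Coprime (orderOf ((q : L) : K)) := by
        rw [hk']
        exact Nat.Coprime.pow_right _ ((Nat.Prime.coprime_iff_not_dvd hp.out).mpr hs).symm
      rw [hcomm.orderOf_mul_eq_mul_orderOf_of_coprime hcop, hk']
      exact Dvd.dvd.mul_left (dvd_pow_self p hk0) _
    · simp
  have h1 : MemLocalRing M ((Nat.card (Q : Subgroup L) : ℂ)⁻¹ * Ψ s) := by
    rw [← hsum]
    simp only [hΨ]
    rw [Finset.sum_comm, Finset.mul_sum]
    refine mlr_sum _ _ fun χ _ => ?_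
    rw [← Finset.mul_sum, mul_left_comm]
    refine mlr_mul (ha χ) (mlr_of_isIntegral ?_)
    have h2 := avg_central_int (yC_center s) (Q : Subgroup L)
      (isCharacter_restrict L (isCharacter_of_irr χ))
    exact h2
  have h2 : (Nat.card L : ℂ) = (Nat.card (Q : Subgroup L) : ℂ) * (pco p L : ℂ) := by
    rw [hQcard]
    exact_mod_cast (pow_mul_pco (G := L) p).symm
  have h3 : (Nat.card (Q : Subgroup L) : ℂ) ≠ 0 := by
    rw [hQcard]
    exact_mod_cast (pow_pos hp.out.pos _).ne'
  have h4 : (pco p L : ℂ) ≠ 0 := Nat.cast_ne_zero.mpr (pco_ne_zero p)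
  have h5 : Ψ s / (Nat.card L : ℂ) = ((Nat.card (Q : Subgroup L) : ℂ)⁻¹ * Ψ s) * (pco p L : ℂ)⁻¹ := by
    rw [h2]
    field_simp
  rw [h5]
  exact mlr_mul h1 (mlr_inv_natCast hM pco_not_dvd)

end FourierLocal

section Rank

variable {K : Type u} [Group K] [Finite K] {M : Ideal AlgInt} [hMp : M.IsPrime]

/-- The rank as the trace of the matrix of truncated inner products. -/
theorem rank_eq_sum_crt (hM : IsPModular 2 M) {S : Set (IrrCharacter K)} (hS : IsPBlock M S) :
    (blockRank 2 S : ℂ) = ∑ χ : IrrCharacter K, eB S χ * crt 2 χ χ := by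
  classical
  haveI : Fact (Nat.Prime 2) := ⟨Nat.prime_two⟩
  have hK : (Nat.card K : ℂ) ≠ 0 := card_ne_zero_C
  have h1 := card_mul_blockRank hM hS
  rw [Finset.sum_comm] at h1
  have h2 : ∀ χ : IrrCharacter K, ∑ x : K, eB S χ * (pRegularPart 2 χ.1 x * conj (pRegularPart 2 χ.1 x)) =
      (Nat.card K : ℂ) * (eB S χ * crt 2 χ χ) := by
    intro χ
    rw [← rp_inner, mul_left_comm, mul_inv_cancel_left₀ hK, ← Finset.mul_sum, rp_eq_pRegularPart]
  simp only [h2] at h1
  rw [← Finset.mul_sum] at h1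
  exact mul_left_cancel₀ hK h1

/-- Characters with the same norm and inner product up to a sign have the same truncation. -/
theorem rp_eq_of_crt {ξ η : IrrCharacter K} (hξξ : crt 2 ξ ξ = 1 / 4) (hηη : crt 2 η η = 1 / 4)
    (h : crt 2 ξ η = 1 / 4 ∨ crt 2 ξ η = -1 / 4) : crt 2 ξ η = 1 / 4 ∧ rp 2 ξ.1 = rp 2 η.1 := by
  classical
  haveI : Fact (Nat.Prime 2) := ⟨Nat.prime_two⟩
  have hηξ : crt 2 η ξ = crt 2 ξ η := crt_symm η ξ
  have hK : (Nat.card K : ℂ) ≠ 0 := card_ne_zero_C
  have hgen : ∀ c : ℂ, conj c = c → c * c = 1 → crt 2 ξ η = c / 4 → rp 2 ξ.1 = c • rp 2 η.1 := by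
    intro c hcc hc hval
    have h1 : ∑ s, (rp 2 ξ.1 s - c * rp 2 η.1 s) * conj (rp 2 ξ.1 s - c * rp 2 η.1 s) = 0 := by
      have h2 : ∀ s, (rp 2 ξ.1 s - c * rp 2 η.1 s) * conj (rp 2 ξ.1 s - c * rp 2 η.1 s) =
          rp 2 ξ.1 s * conj (rp 2 ξ.1 s) - c * (rp 2 ξ.1 s * conj (rp 2 η.1 s)) -
            c * (rp 2 η.1 s * conj (rp 2 ξ.1 s)) + (c * c) * (rp 2 η.1 s * conj (rp 2 η.1 s)) := by
        intro s
        rw [map_sub, map_mul, hcc]
        ring
      simp only [h2]
      rw [Finset.sum_add_distrib, Finset.sum_sub_distrib, Finset.sum_sub_distrib,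
        ← Finset.mul_sum, ← Finset.mul_sum, ← Finset.mul_sum]
      have h3 : ∀ χ ξ' : IrrCharacter K, ∑ s, rp 2 χ.1 s * conj (rp 2 ξ'.1 s) =
          (Nat.card K : ℂ) * crt 2 χ ξ' := by
        intro χ ξ'
        rw [← rp_inner, mul_inv_cancel_left₀ hK]
      rw [h3, h3, h3, h3, hξξ, hηη, hηξ, hval, hc]
      linear_combination (-(Nat.card K : ℂ) / 2) * hc
    funext s
    have h4 := eq_zero_of_sum_mul_conj _ h1 s
    rw [Pi.smul_apply, smul_eq_mul]
    linear_combination h4
  have h1ord : ¬ 2 ∣ orderOf (1 : K) := by simp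
  have hpos : ∀ χ : IrrCharacter K, rp 2 χ.1 1 = (charDegree χ.1 : ℂ) := by
    intro χ
    rw [rp_of_reg _ h1ord, one_eq_charDegree (isCharacter_of_irr χ)]
  rcases h with h | h
  · refine ⟨h, ?_⟩
    have := hgen 1 (by simp) (by simp) (by rw [h])
    rw [this, one_smul]
  · exfalso
    have h5 := hgen (-1) (by simp) (by simp) (by rw [h])
    have h6 := congrFun h5 1
    rw [Pi.smul_apply, smul_eq_mul, hpos, hpos] at h6
    have h7 : ((charDegree ξ.1 + charDegree η.1 : ℕ) : ℂ) = 0 := by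
      push_cast
      linear_combination h6
    have h8 : charDegree ξ.1 + charDegree η.1 = 0 := by exact_mod_cast h7
    have h9 := irr_charDegree_pos ξ.2
    omega

/-- A block of defect two with four characters and rank one: all characters agree on regular
elements. -/
theorem rp_eq_of_rank_one (hM : IsPModular 2 M) {S : Set (IrrCharacter K)} (hS : IsPBlock M S)
    (hd : blockDefect 2 S = 2) (hc : Nat.card S = 4) (hl : blockRank 2 S = 1) {ξ η : IrrCharacter K}
    (hξ : ξ ∈ S) (hη : η ∈ S) : rp 2 ξ.1 = rp 2 η.1 := by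
  classical
  haveI : Fact (Nat.Prime 2) := ⟨Nat.prime_two⟩
  have hz0 : ∀ χ ∈ S, (charDegree χ.1).factorization 2 = minExp 2 S := by
    intro χ hχ
    by_contra hne
    have h1 := (positive_height_bounds hM hS hχ hne).2.1
    omega
  set F : Finset (IrrCharacter K) := (Set.toFinite S).toFinset with hF
  have hFm : ∀ χ, χ ∈ F ↔ χ ∈ S := fun χ => Set.Finite.mem_toFinset _
  have hFcard : F.card = 4 := by
    rw [← hc, Nat.card_eq_card_finite_toFinset]
  have hsum : ∀ f : IrrCharacter K → ℂ, ∑ η : IrrCharacter K, eB S η * f η = ∑ η ∈ F, f η := by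
    intro f
    rw [← Finset.sum_filter_add_sum_filter_not Finset.univ (fun η => η ∈ S)]
    have h1 : Finset.univ.filter (fun η => η ∈ S) = F := by
      ext η
      simp [hFm]
    rw [h1]
    have h2 : ∑ η ∈ Finset.univ.filter (fun η => ¬ η ∈ S), eB S η * f η = 0 :=
      Finset.sum_eq_zero fun η hη => by
        rw [eB_apply_not_mem (Finset.mem_filter.mp hη).2, zero_mul]
    rw [h2, add_zero]
    refine Finset.sum_congr rfl fun η hη => ?_
    rw [eB_apply_mem ((hFm η).mp hη), one_mul]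
  have hrow : ∀ ζ, ζ ∈ S → ∃ y : IrrCharacter K → ℤ, (∀ η, (4 : ℂ) * crt 2 ζ η = (y η : ℂ)) ∧
      (∀ η ∈ F, Odd (y η)) ∧ ∑ η ∈ F, y η ^ 2 = 4 * y ζ := by
    intro ζ hζ
    have hy : ∀ η, ∃ n : ℤ, (4 : ℂ) * crt 2 ζ η = (n : ℂ) := by
      intro η
      obtain ⟨n, hn⟩ := crt_defect_int (ξ' := η) hM hS hζ
      refine ⟨n, ?_⟩
      rw [← hn, hd]
      norm_num
    choose y hy using hy
    refine ⟨y, hy, ?_, ?_⟩
    · intro η hη
      have h1 : ((2 ^ blockDefect 2 S : ℕ) : ℂ) * crt 2 ζ η = (y η : ℂ) := by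
        rw [← hy η, hd]
        norm_num
      have h2 := crt_not_dvd hM hS hζ ((hFm η).mp hη) (hz0 ζ hζ) (hz0 η ((hFm η).mp hη)) h1
      rw [← Int.not_even_iff_odd, even_iff_two_dvd]
      exact h2
    · have hcs : ∀ η, crt 2 ζ η * crt 2 η ζ = ((y η : ℂ) ^ 2) / 16 := by
        intro η
        rw [← crt_symm ζ η, ← hy η]
        ring
      have h2 := sum_crt_block hM hS hζ
      rw [hsum] at h2
      simp only [hcs] at h2
      have h3 : ((∑ η ∈ F, y η ^ 2 : ℤ) : ℂ) = ((4 * y ζ : ℤ) : ℂ) := by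
        push_cast
        rw [← hy ζ, ← h2, ← Finset.sum_div]
        ring
      exact_mod_cast h3
  choose! y hy1 hy2 hy3 using hrow
  have hpos : ∀ ζ ∈ F, 1 ≤ y ζ ζ := by
    intro ζ hζ
    have hζ' := (hFm ζ).mp hζ
    have h1 : y ζ ζ ^ 2 ≤ ∑ η ∈ F, y ζ η ^ 2 :=
      Finset.single_le_sum (f := fun η => y ζ η ^ 2) (fun a _ => sq_nonneg (y ζ a)) hζ
    rw [hy3 ζ hζ'] at h1
    obtain ⟨k, hk⟩ := hy2 ζ hζ' ζ hζ
    rw [hk] at h1 ⊢
    by_contra hcon
    push Not at hcon
    have h2 : k ≤ -1 := by omega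
    have h3 := sq_nonneg (2 * k + 1)
    linarith
  have htrace : ∑ ζ ∈ F, y ζ ζ = 4 := by
    have h1 := rank_eq_sum_crt hM hS
    rw [hl, hsum] at h1
    have h2 : ((∑ ζ ∈ F, y ζ ζ : ℤ) : ℂ) = ((4 : ℤ) : ℂ) := by
      push_cast
      have h3 : ∑ ζ ∈ F, (y ζ ζ : ℂ) = ∑ ζ ∈ F, (4 : ℂ) * crt 2 ζ ζ :=
        Finset.sum_congr rfl fun ζ hζ => (hy1 ζ ((hFm ζ).mp hζ) ζ).symm
      rw [h3, ← Finset.mul_sum, ← h1]
      norm_num
    exact_mod_cast h2
  have hone : ∀ ζ ∈ F, y ζ ζ = 1 := by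
    have h1 : ∑ ζ ∈ F, (y ζ ζ - 1) = 0 := by
      rw [Finset.sum_sub_distrib, htrace]
      simp [hFcard]
    have h2 := (Finset.sum_eq_zero_iff_of_nonneg (fun ζ hζ => by
      have := hpos ζ hζ
      omega)).mp h1
    intro ζ hζ
    have := h2 ζ hζ
    omega
  have hsq : ∀ ζ ∈ F, ∀ η ∈ F, y ζ η ^ 2 = 1 := by
    intro ζ hζ
    have hζ' := (hFm ζ).mp hζ
    have h1 : ∑ η ∈ F, (y ζ η ^ 2 - 1) = 0 := by
      rw [Finset.sum_sub_distrib, hy3 ζ hζ', hone ζ hζ]
      simp [hFcard]
    have h2 := (Finset.sum_eq_zero_iff_of_nonneg (fun η hη => by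
      obtain ⟨k, hk⟩ := hy2 ζ hζ' η hη
      have : 1 ≤ y ζ η ^ 2 := by
        rw [hk]
        have h3 : 0 ≤ k * (k + 1) := by
          rcases le_or_gt 0 k with h | h
          · positivity
          · nlinarith
        nlinarith
      omega)).mp h1
    intro η hη
    have := h2 η hη
    omega
  have hcrt : ∀ ζ ∈ F, crt 2 ζ ζ = 1 / 4 := by
    intro ζ hζ
    have h1 := hy1 ζ ((hFm ζ).mp hζ) ζ
    rw [hone ζ hζ] at h1
    push_cast at h1
    linear_combination h1 / 4
  have hξF := (hFm ξ).mpr hξ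
  have hηF := (hFm η).mpr hη
  refine (rp_eq_of_crt (hcrt ξ hξF) (hcrt η hηF) ?_).2
  have h3 := hsq ξ hξF η hηF
  have h4 : y ξ η = 1 ∨ y ξ η = -1 := by
    have : (y ξ η - 1) * (y ξ η + 1) = 0 := by linear_combination h3
    rcases mul_eq_zero.mp this with h | h
    · left; omega
    · right; omega
  have h5 := hy1 ξ hξ η
  rcases h4 with h | h
  · left
    rw [h] at h5
    push_cast at h5
    linear_combination h5 / 4
  · right
    rw [h] at h5
    push_cast at h5
    linear_combination h5 / 4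

end Rank

end Cfsg.Agent.H22
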