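import Cfsg.Agent.Lib.H22.KlF
import Cfsg.Prelude.Def_BlockLocal

/-!
# Perfect isometries for blocks with Klein four defect groups
-/

set_option autoImplicit false
set_option linter.unusedSectionVars false
set_option linter.style.haveILetI false
set_option linter.unusedSimpArgs false

namespace Cfsg.Agent.H22

open Cfsg Cfsg.Agent.H21 Module
open scoped ComplexConjugate Pointwise

universe u

section Arith

theorem four_dvd_of_balanced {α : Type*} (F : Finset α) (f g : α → ℤ)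
    (hf : ∀ a ∈ F, f a = 1 ∨ f a = -1) (hg : ∀ a ∈ F, g a = 1 ∨ g a = -1) (hF : F.card = 4)
    (hf0 : ∑ a ∈ F, f a = 0) (hg0 : ∑ a ∈ F, g a = 0) : (4 : ℤ) ∣ ∑ a ∈ F, f a * g a := by
  have h1 : ∑ a ∈ F, (1 + f a) * (1 + g a) = 4 + ∑ a ∈ F, f a * g a := by
    have h2 : ∀ a ∈ F, (1 + f a) * (1 + g a) = 1 + f a + g a + f a * g a := fun a _ => by ring
    rw [Finset.sum_congr rfl h2, Finset.sum_add_distrib, Finset.sum_add_distrib,
      Finset.sum_add_distrib, hf0, hg0]
    simp [hF]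
  have h3 : (4 : ℤ) ∣ ∑ a ∈ F, (1 + f a) * (1 + g a) := by
    refine Finset.dvd_sum fun a ha => ?_
    rcases hf a ha with h | h <;> rcases hg a ha with h' | h' <;> rw [h, h'] <;> norm_num
  rw [h1] at h3
  have h4 := (Int.dvd_add_right (dvd_refl (4 : ℤ))).mp h3
  exact h4

end Arith

section Core

variable {G H : Type u} [Group G] [Finite G] [Group H] [Finite H] {M : Ideal AlgInt} [hMp : M.IsPrime]

theorem kernel_eq (c : Set (IrrCharacter H)) (I : IrrCharacter H → IrrCharacter G)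
    (ε : IrrCharacter H → ℤ) (x : G) (y : H) :
    signedBijectionKernel c I ε x y =
      ∑ η ∈ (Set.toFinite c).toFinset, (ε η : ℂ) * (I η).1 x * η.1 y := by
  unfold signedBijectionKernel
  rw [finsum_mem_eq_finite_toFinset_sum _ (Set.toFinite _)]

/-- **The core of the perfectness.** -/
theorem perfect_core (hM : IsPModular 2 M) {c : Set (IrrCharacter H)} {B : Set (IrrCharacter G)}
    {I : IrrCharacter H → IrrCharacter G} {ε : IrrCharacter H → ℤ}
    (hmaps : ∀ η ∈ c, I η ∈ B) (hε : ∀ η ∈ c, ε η = 1 ∨ ε η = -1)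
    {DG : Set (IrrCharacter G → ℤ)} {DH : Set (IrrCharacter H → ℤ)}
    (hRG : ∀ g, 2 ∣ orderOf g → KRep M B DG g) (hRH : ∀ h, 2 ∣ orderOf h → KRep M c DH h)
    (hC : ∀ d ∈ DG, ∀ d' ∈ DH, (4 : ℤ) ∣ ∑ η ∈ (Set.toFinite c).toFinset, ε η * d (I η) * d' η)
    (hD : ∀ g : G, ¬ 2 ∣ orderOf g → ∀ d' ∈ DH,
      ∑ η ∈ (Set.toFinite c).toFinset, (ε η : ℂ) * (I η).1 g * (d' η : ℂ) = 0)
    (hE : ∀ h : H, ¬ 2 ∣ orderOf h → ∀ d ∈ DG,
      ∑ η ∈ (Set.toFinite c).toFinset, (ε η : ℂ) * (d (I η) : ℂ) * η.1 h = 0) :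
    IsPerfectFun 2 M (signedBijectionKernel c I ε) := by
  classical
  haveI : Fact (Nat.Prime 2) := ⟨Nat.prime_two⟩
  set F := (Set.toFinite c).toFinset with hF
  have hFm : ∀ χ, χ ∈ F ↔ χ ∈ c := fun χ => Set.Finite.mem_toFinset _
  have hεloc : ∀ η, MemLocalRing M (((ε η : ℤ) : ℂ)) := fun η => by
    have h : IsIntegral ℤ (algebraMap ℤ ℂ (ε η)) := isIntegral_algebraMap
    exact mlr_of_isIntegral (by simpa using h)
  -- regular against singular
  have hRS : ∀ (g : G) (h : H), ¬ 2 ∣ orderOf g → 2 ∣ orderOf h → signedBijectionKernel c I ε g h = 0 := by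
    intro g h hg hh
    obtain ⟨ι', _, d', w', h1', h2', -, -⟩ := hRH h hh
    rw [kernel_eq, ← hF]
    have h3 : ∀ η ∈ F, (ε η : ℂ) * (I η).1 g * η.1 h =
        ∑ i, ((ε η : ℂ) * (I η).1 g * (d' i η : ℂ)) * w' i := by
      intro η hη
      rw [h1' η ((hFm η).mp hη), Finset.mul_sum]
      refine Finset.sum_congr rfl fun i _ => ?_
      ring
    rw [Finset.sum_congr rfl h3, Finset.sum_comm]
    refine Finset.sum_eq_zero fun i _ => ?_
    rw [← Finset.sum_mul, hD g hg (d' i) (h2' i), zero_mul]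
  have hSR : ∀ (g : G) (h : H), 2 ∣ orderOf g → ¬ 2 ∣ orderOf h → signedBijectionKernel c I ε g h = 0 := by
    intro g h hg hh
    obtain ⟨ι, _, d, w, h1, h2, -, -⟩ := hRG g hg
    rw [kernel_eq, ← hF]
    have h3 : ∀ η ∈ F, (ε η : ℂ) * (I η).1 g * η.1 h =
        ∑ i, ((ε η : ℂ) * (d i (I η) : ℂ) * η.1 h) * w i := by
      intro η hη
      rw [h1 (I η) (hmaps η ((hFm η).mp hη))]
      rw [mul_assoc, mul_comm (∑ i, _), ← mul_assoc, Finset.mul_sum]
      refine Finset.sum_congr rfl fun i _ => ?_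
      ring
    rw [Finset.sum_congr rfl h3, Finset.sum_comm]
    refine Finset.sum_eq_zero fun i _ => ?_
    rw [← Finset.sum_mul, hE h hh (d i) (h2 i), zero_mul]
  intro x y
  by_cases hx : 2 ∣ orderOf x
  · by_cases hy : 2 ∣ orderOf y
    · -- both singular
      obtain ⟨ι, _, d, w, h1, h2, h3, h4⟩ := hRG x hx
      obtain ⟨ι', _, d', w', h1', h2', h3', h4'⟩ := hRH y hy
      have hk : ∀ i i', ∃ k : ℤ, ∑ η ∈ F, ε η * d i (I η) * d' i' η = 4 * k := fun i i' =>
        hC (d i) (h2 i) (d' i') (h2' i')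
      choose k hk using hk
      have hμ : signedBijectionKernel c I ε x y = ∑ i, ∑ i', (k i i' : ℂ) * ((4 * w i) * w' i') := by
        rw [kernel_eq, ← hF]
        have h5 : ∀ η ∈ F, (ε η : ℂ) * (I η).1 x * η.1 y =
            ∑ i, ∑ i', ((ε η * d i (I η) * d' i' η : ℤ) : ℂ) * (w i * w' i') := by
          intro η hη
          rw [h1 (I η) (hmaps η ((hFm η).mp hη)), h1' η ((hFm η).mp hη), mul_assoc, Finset.sum_mul_sum,
            Finset.mul_sum]
          refine Finset.sum_congr rfl fun i _ => ?_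
          rw [Finset.mul_sum]
          refine Finset.sum_congr rfl fun i' _ => ?_
          push_cast
          ring
        rw [Finset.sum_congr rfl h5, Finset.sum_comm]
        refine Finset.sum_congr rfl fun i _ => ?_
        rw [Finset.sum_comm]
        refine Finset.sum_congr rfl fun i' _ => ?_
        rw [← Finset.sum_mul, ← Int.cast_sum, hk]
        push_cast
        ring
      have hkloc : ∀ i i', MemLocalRing M ((k i i' : ℤ) : ℂ) := fun i i' => by
        have h : IsIntegral ℤ (algebraMap ℤ ℂ (k i i')) := isIntegral_algebraMap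
        exact mlr_of_isIntegral (by simpa using h)
      refine ⟨?_, ?_, Or.inl ⟨fun h => absurd hx h, fun h => absurd hy h⟩⟩
      · rw [hμ, Finset.sum_div]
        refine mlr_sum _ _ fun i _ => ?_
        rw [Finset.sum_div]
        refine mlr_sum _ _ fun i' _ => ?_
        have h5 : (k i i' : ℂ) * ((4 * w i) * w' i') / (Nat.card (Subgroup.centralizer ({x} : Set G)) : ℂ) =
            (k i i' : ℂ) * ((4 * w i / (Nat.card (Subgroup.centralizer ({x} : Set G)) : ℂ)) * w' i') := by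
          ring
        rw [h5]
        exact mlr_mul (hkloc i i') (mlr_mul (h4 i) (h3' i'))
      · rw [hμ, Finset.sum_div]
        refine mlr_sum _ _ fun i _ => ?_
        rw [Finset.sum_div]
        refine mlr_sum _ _ fun i' _ => ?_
        have h5 : (k i i' : ℂ) * ((4 * w i) * w' i') / (Nat.card (Subgroup.centralizer ({y} : Set H)) : ℂ) =
            (k i i' : ℂ) * (w i * (4 * w' i' / (Nat.card (Subgroup.centralizer ({y} : Set H)) : ℂ))) := by
          ring
        rw [h5]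
        exact mlr_mul (hkloc i i') (mlr_mul (h3 i) (h4' i'))
    · rw [hSR x y hx hy]
      refine ⟨by simpa using mlr_zero, by simpa using mlr_zero, Or.inr rfl⟩
  · by_cases hy : 2 ∣ orderOf y
    · rw [hRS x y hx hy]
      refine ⟨by simpa using mlr_zero, by simpa using mlr_zero, Or.inr rfl⟩
    · refine ⟨?_, ?_, Or.inl ⟨fun _ => hy, fun _ => hx⟩⟩
      · -- the Fourier lemma in `G`
        refine fourier_local hM (fun g => signedBijectionKernel c I ε g y)
          (fun χ => ∑ η ∈ F, if I η = χ then (ε η : ℂ) * η.1 y else 0) ?_ ?_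
          (fun g hg => hSR g y hg hy) hx
        · intro χ
          refine mlr_sum _ _ fun η _ => ?_
          split_ifs
          · exact mlr_mul (hεloc η) (mlr_of_isIntegral (irr_isIntegral' η y))
          · exact mlr_zero
        · intro g
          show signedBijectionKernel c I ε g y = _
          rw [kernel_eq, ← hF]
          simp only [Finset.sum_mul]
          rw [Finset.sum_comm]
          refine Finset.sum_congr rfl fun η _ => ?_
          rw [Finset.sum_eq_single (I η)]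
          · rw [if_pos rfl]
            ring
          · intro χ _ hχ
            rw [if_neg (Ne.symm hχ), zero_mul]
          · simp
      · -- the Fourier lemma in `H`
        refine fourier_local hM (fun h => signedBijectionKernel c I ε x h)
          (fun η => eB c η * ((ε η : ℂ) * (I η).1 x)) ?_ ?_
          (fun h hh => hRS x h hx hh) hy
        · intro η
          refine mlr_mul ?_ (mlr_mul (hεloc η) (mlr_of_isIntegral (irr_isIntegral' (I η) x)))
          by_cases h : η ∈ c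
          · rw [eB_apply_mem h]
            exact mlr_one
          · rw [eB_apply_not_mem h]
            exact mlr_zero
        · intro h
          show signedBijectionKernel c I ε x h = _
          rw [kernel_eq, ← hF]
          rw [← Finset.sum_subset (Finset.subset_univ F) (fun η _ hη => by
            rw [eB_apply_not_mem (fun h' => hη ((hFm η).mpr h')), zero_mul, zero_mul])]
          refine Finset.sum_congr rfl fun η hη => ?_
          rw [eB_apply_mem ((hFm η).mp hη), one_mul]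

/-- A bijection between finite sets of the same size, extended to a function. -/
theorem exists_bijOn_of_card {α β : Type*} [Finite α] [Finite β] {s : Set α} {t : Set β}
    (h : Nat.card s = Nat.card t) (ht : t.Nonempty) : ∃ f : α → β, Set.BijOn f s t := by
  classical
  obtain ⟨b₀, hb₀⟩ := ht
  obtain ⟨e⟩ : Nonempty (s ≃ t) := Finite.card_eq.mp h
  refine ⟨fun a => if h : a ∈ s then (e ⟨a, h⟩).1 else b₀, ?_, ?_, ?_⟩
  · intro a ha
    simp only [dif_pos ha]
    exact (e ⟨a, ha⟩).2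
  · intro a ha a' ha' haa
    simp only [dif_pos ha, dif_pos ha'] at haa
    have := e.injective (Subtype.ext haa)
    exact congrArg Subtype.val this
  · intro b hb
    refine ⟨(e.symm ⟨b, hb⟩).1, (e.symm ⟨b, hb⟩).2, ?_⟩
    have h1 : (e.symm ⟨b, hb⟩).1 ∈ s := (e.symm ⟨b, hb⟩).2
    simp only [dif_pos h1]
    have : e ⟨(e.symm ⟨b, hb⟩).1, h1⟩ = ⟨b, hb⟩ := by
      simp
    rw [this]

/-- **Perfect isometries from the columns.** -/
theorem perfect_of_klein (hM : IsPModular 2 M) {c : Set (IrrCharacter H)} {B : Set (IrrCharacter G)}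
    (hcG : Nat.card B = 4) (hcH : Nat.card c = 4)
    {DG : Set (IrrCharacter G → ℤ)} {DH : Set (IrrCharacter H → ℤ)}
    (hs1 : ∀ d ∈ DG, ∀ χ ∈ B, d χ = 1 ∨ d χ = -1) (hs2 : ∀ d ∈ DH, ∀ η ∈ c, d η = 1 ∨ d η = -1)
    (ho0 : ∀ d ∈ DG, ∀ χ, χ ∉ B → d χ = 0) (ho0' : ∀ d ∈ DH, ∀ η, η ∉ c → d η = 0)
    (ho1 : ∀ d ∈ DG, ∀ g, ¬ 2 ∣ orderOf g → ∑ χ : IrrCharacter G, (d χ : ℂ) * conj (χ.1 g) = 0)
    (ho2 : ∀ d ∈ DH, ∀ g, ¬ 2 ∣ orderOf g → ∑ χ : IrrCharacter H, (d χ : ℂ) * conj (χ.1 g) = 0)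
    (hRG : ∀ g, 2 ∣ orderOf g → KRep M B DG g) (hRH : ∀ h, 2 ∣ orderOf h → KRep M c DH h)
    (hcase : ((∀ χ ∈ B, ∀ χ' ∈ B, ∀ s, ¬ 2 ∣ orderOf s → χ.1 s = χ'.1 s) ∧
        (∀ η ∈ c, ∀ η' ∈ c, ∀ t, ¬ 2 ∣ orderOf t → η.1 t = η'.1 t)) ∨
      ((∃ d₀ ∈ DG, ∀ d ∈ DG, d = d₀) ∧ (∃ d₀ ∈ DH, ∀ d ∈ DH, d = d₀))) :
    ∃ (I : IrrCharacter H → IrrCharacter G) (ε : IrrCharacter H → ℤ),
      IsPerfectIsometry 2 M c B I ε := by
  classical
  haveI : Fact (Nat.Prime 2) := ⟨Nat.prime_two⟩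
  have hBne : B.Nonempty := by
    by_contra hcon
    rw [Set.not_nonempty_iff_eq_empty] at hcon
    rw [hcon] at hcG
    simp at hcG
  have hcne : c.Nonempty := by
    by_contra hcon
    rw [Set.not_nonempty_iff_eq_empty] at hcon
    rw [hcon] at hcH
    simp at hcH
  obtain ⟨I, hI⟩ := exists_bijOn_of_card (hcH.trans hcG.symm) hBne
  set F := (Set.toFinite c).toFinset with hF
  set FB := (Set.toFinite B).toFinset with hFB
  have hFm : ∀ χ, χ ∈ F ↔ χ ∈ c := fun χ => Set.Finite.mem_toFinset _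
  have hFBm : ∀ χ, χ ∈ FB ↔ χ ∈ B := fun χ => Set.Finite.mem_toFinset _
  have hFcard : F.card = 4 := by
    rw [← hcH, Nat.card_eq_card_finite_toFinset]
  -- sums along the bijection
  have hbij : ∀ f : IrrCharacter G → ℂ, ∑ η ∈ F, f (I η) = ∑ χ ∈ FB, f χ := by
    intro f
    refine Finset.sum_bij (fun η _ => I η) ?_ ?_ ?_ (fun _ _ => rfl)
    · intro η hη
      exact (hFBm _).mpr (hI.mapsTo ((hFm η).mp hη))
    · intro η hη η' hη' h
      exact hI.injOn ((hFm η).mp hη) ((hFm η').mp hη') h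
    · intro χ hχ
      obtain ⟨η, hη, rfl⟩ := hI.surjOn ((hFBm χ).mp hχ)
      exact ⟨η, (hFm η).mpr hη, rfl⟩
  -- the orthogonality relations
  have hortG : ∀ d ∈ DG, ∀ g : G, ¬ 2 ∣ orderOf g → ∑ η ∈ F, (d (I η) : ℂ) * (I η).1 g = 0 := by
    intro d hd g hg
    have h1 := ho1 d hd g⁻¹ (by rwa [orderOf_inv])
    rw [hbij (fun χ => (d χ : ℂ) * χ.1 g)]
    rw [← h1]
    rw [Finset.sum_subset (Finset.subset_univ FB) (fun χ _ hχ => by
      rw [ho0 d hd χ (fun h => hχ ((hFBm χ).mpr h))]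
      simp)]
    refine Finset.sum_congr rfl fun χ _ => ?_
    rw [irr_inv', Complex.conj_conj]
  have hortH : ∀ d ∈ DH, ∀ h : H, ¬ 2 ∣ orderOf h → ∑ η ∈ F, (d η : ℂ) * η.1 h = 0 := by
    intro d hd g hg
    have h1 := ho2 d hd g⁻¹ (by rwa [orderOf_inv])
    rw [← h1]
    rw [Finset.sum_subset (Finset.subset_univ F) (fun χ _ hχ => by
      rw [ho0' d hd χ (fun h => hχ ((hFm χ).mpr h))]
      simp)]
    refine Finset.sum_congr rfl fun χ _ => ?_
    rw [irr_inv', Complex.conj_conj]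
  rcases hcase with ⟨h1G, h1H⟩ | ⟨⟨d₀, hd₀, hu₀⟩, ⟨d₀', hd₀', hu₀'⟩⟩
  · -- rank one on both sides
    obtain ⟨η₀, hη₀⟩ := hcne
    have hχ₀ := hI.mapsTo hη₀
    have hbalG : ∀ d ∈ DG, ∑ η ∈ F, d (I η) = 0 := by
      intro d hd
      have h2 := hortG d hd 1 (by simp)
      have h3 : ∀ η ∈ F, (d (I η) : ℂ) * (I η).1 1 = (I η₀).1 1 * (d (I η) : ℂ) := by
        intro η hη
        rw [h1G (I η) (hI.mapsTo ((hFm η).mp hη)) (I η₀) hχ₀ 1 (by simp)]
        ring
      rw [Finset.sum_congr rfl h3, ← Finset.mul_sum] at h2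
      have h4 : ((∑ η ∈ F, d (I η) : ℤ) : ℂ) = 0 := by
        push_cast
        rcases mul_eq_zero.mp h2 with h | h
        · exact absurd h (irr_one_ne_zero' _)
        · exact h
      exact_mod_cast h4
    have hbalH : ∀ d ∈ DH, ∑ η ∈ F, d η = 0 := by
      intro d hd
      have h2 := hortH d hd 1 (by simp)
      have h3 : ∀ η ∈ F, (d η : ℂ) * η.1 1 = η₀.1 1 * (d η : ℂ) := by
        intro η hη
        rw [h1H η ((hFm η).mp hη) η₀ hη₀ 1 (by simp)]
        ring
      rw [Finset.sum_congr rfl h3, ← Finset.mul_sum] at h2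
      have h4 : ((∑ η ∈ F, d η : ℤ) : ℂ) = 0 := by
        push_cast
        rcases mul_eq_zero.mp h2 with h | h
        · exact absurd h (irr_one_ne_zero' _)
        · exact h
      exact_mod_cast h4
    refine ⟨I, fun _ => 1, hI, fun _ _ => Or.inl rfl, ?_⟩
    refine perfect_core hM hI.mapsTo (fun _ _ => Or.inl rfl) hRG hRH ?_ ?_ ?_
    · intro d hd d' hd'
      have h2 := four_dvd_of_balanced F (fun η => d (I η)) d'
        (fun η hη => hs1 d hd _ (hI.mapsTo ((hFm η).mp hη)))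
        (fun η hη => hs2 d' hd' _ ((hFm η).mp hη)) hFcard (hbalG d hd) (hbalH d' hd')
      have h3 : ∀ η ∈ F, (1 : ℤ) * d (I η) * d' η = d (I η) * d' η := fun _ _ => by ring
      show (4 : ℤ) ∣ ∑ η ∈ F, (1 : ℤ) * d (I η) * d' η
      rw [Finset.sum_congr rfl h3]
      exact h2
    · intro g hg d' hd'
      have h3 : ∀ η ∈ F, (((1 : ℤ) : ℂ)) * (I η).1 g * (d' η : ℂ) = (I η₀).1 g * (d' η : ℂ) := by
        intro η hη
        rw [h1G (I η) (hI.mapsTo ((hFm η).mp hη)) (I η₀) hχ₀ g hg]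
        simp
      rw [Finset.sum_congr rfl h3, ← Finset.mul_sum]
      have h4 : ∑ η ∈ F, (d' η : ℂ) = 0 := by
        have := hbalH d' hd'
        exact_mod_cast this
      rw [h4, mul_zero]
    · intro h hh d hd
      have h3 : ∀ η ∈ F, (((1 : ℤ) : ℂ)) * (d (I η) : ℂ) * η.1 h = η₀.1 h * (d (I η) : ℂ) := by
        intro η hη
        rw [h1H η ((hFm η).mp hη) η₀ hη₀ h hh]
        push_cast
        ring
      rw [Finset.sum_congr rfl h3, ← Finset.mul_sum]
      have h4 : ∑ η ∈ F, (d (I η) : ℂ) = 0 := by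
        have := hbalG d hd
        exact_mod_cast this
      rw [h4, mul_zero]
  · -- one column on both sides
    have hsq1 : ∀ η ∈ F, d₀ (I η) * d₀ (I η) = 1 := by
      intro η hη
      rcases hs1 d₀ hd₀ _ (hI.mapsTo ((hFm η).mp hη)) with h | h <;> rw [h] <;> norm_num
    have hsq2 : ∀ η ∈ F, d₀' η * d₀' η = 1 := by
      intro η hη
      rcases hs2 d₀' hd₀' _ ((hFm η).mp hη) with h | h <;> rw [h] <;> norm_num
    have hsq1C : ∀ η ∈ F, (d₀ (I η) : ℂ) * (d₀ (I η) : ℂ) = 1 := by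
      intro η hη
      exact_mod_cast hsq1 η hη
    have hsq2C : ∀ η ∈ F, (d₀' η : ℂ) * (d₀' η : ℂ) = 1 := by
      intro η hη
      exact_mod_cast hsq2 η hη
    have hε : ∀ η ∈ c, d₀ (I η) * d₀' η = 1 ∨ d₀ (I η) * d₀' η = -1 := by
      intro η hη
      rcases hs1 d₀ hd₀ _ (hI.mapsTo hη) with h | h <;> rcases hs2 d₀' hd₀' _ hη with h' | h' <;>
        rw [h, h'] <;> norm_num
    refine ⟨I, fun η => d₀ (I η) * d₀' η, hI, hε, ?_⟩
    refine perfect_core hM hI.mapsTo hε hRG hRH ?_ ?_ ?_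
    · intro d hd d' hd'
      rw [hu₀ d hd, hu₀' d' hd']
      have h3 : ∀ η ∈ F, d₀ (I η) * d₀' η * d₀ (I η) * d₀' η = 1 := by
        intro η hη
        calc d₀ (I η) * d₀' η * d₀ (I η) * d₀' η = (d₀ (I η) * d₀ (I η)) * (d₀' η * d₀' η) := by ring
          _ = 1 := by rw [hsq1 η hη, hsq2 η hη]; norm_num
      rw [Finset.sum_congr rfl h3]
      simp [hFcard]
    · intro g hg d' hd'
      rw [hu₀' d' hd']
      have h3 : ∀ η ∈ F, ((d₀ (I η) * d₀' η : ℤ) : ℂ) * (I η).1 g * (d₀' η : ℂ) =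
          (d₀ (I η) : ℂ) * (I η).1 g := by
        intro η hη
        push_cast
        calc (d₀ (I η) : ℂ) * (d₀' η : ℂ) * (I η).1 g * (d₀' η : ℂ) =
            (d₀ (I η) : ℂ) * (I η).1 g * ((d₀' η : ℂ) * (d₀' η : ℂ)) := by ring
          _ = _ := by rw [hsq2C η hη, mul_one]
      rw [Finset.sum_congr rfl h3]
      exact hortG d₀ hd₀ g hg
    · intro h hh d hd
      rw [hu₀ d hd]
      have h3 : ∀ η ∈ F, ((d₀ (I η) * d₀' η : ℤ) : ℂ) * (d₀ (I η) : ℂ) * η.1 h =
          (d₀' η : ℂ) * η.1 h := by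
        intro η hη
        push_cast
        calc (d₀ (I η) : ℂ) * (d₀' η : ℂ) * (d₀ (I η) : ℂ) * η.1 h =
            ((d₀ (I η) : ℂ) * (d₀ (I η) : ℂ)) * ((d₀' η : ℂ) * η.1 h) := by ring
          _ = _ := by rw [hsq1C η hη, one_mul]
      rw [Finset.sum_congr rfl h3]
      exact hortH d₀' hd₀' h hh

end Core

section Transport

variable {G : Type u} [Group G] [Finite G] {M : Ideal AlgInt} [hMp : M.IsPrime]

/-- **S4638**, for an explicit subgroup equal to the normalizer. -/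
theorem klein_perfect_aux (hM : IsPModular 2 M) {B : Set (IrrCharacter G)} (hB : IsPBlock M B)
    {P : Subgroup G} (hPD : IsDefectGroup 2 M B P) (hV : IsKleinFour P) {H : Subgroup G}
    (hPH : P ≤ H) (hCH : Subgroup.centralizer (P : Set G) ≤ H)
    (hHN : H = Subgroup.normalizer (P : Set G)) {c : Set (IrrCharacter H)}
    (hcD : IsDefectGroup 2 M c (P.subgroupOf H))
    (hc : IsInducedBlock M H c B) :
    ∃ (I : IrrCharacter H → IrrCharacter G) (ε : IrrCharacter H → ℤ),
      IsPerfectIsometry 2 M c B I ε := by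
  classical
  haveI : Fact (Nat.Prime 2) := ⟨Nat.prime_two⟩
  have hNrm1 : ∀ h : H, (h : G) ∈ Subgroup.normalizer (P : Set G) := fun h => by
    rw [← hHN]
    exact h.2
  have hNrm2 : ∀ g : G, g ∈ Subgroup.normalizer (P : Set G) → g ∈ H := fun g hg => by
    rw [hHN]
    exact hg
  have hcb : IsPBlock M c := hc.1
  have hz : ZComp H (P.subgroupOf H) P := zComp_sub hCH le_rfl hPH
  haveI hV' : IsKleinFour (P.subgroupOf H) := by
    let φ : P.subgroupOf H ≃* P := Subgroup.subgroupOfEquivOfLe hPH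
    exact ⟨(Nat.card_congr φ.toEquiv).trans IsKleinFour.card_four,
      (Monoid.exponent_eq_of_mulEquiv φ).trans IsKleinFour.exponent_two⟩
  obtain ⟨c₁, hmaxH⟩ := exists_maximal_on_defect hM hcD hcb
  obtain ⟨⟨hPp', hc₁b⟩, -, hsubH⟩ := isBrauerPairOf_iff.mp hmaxH.1
  set c₀ : Set (IrrCharacter (Subgroup.centralizer (P : Set G))) := irrMap (zIso hz) '' c₁ with hc₀
  have hPp : IsPGroup 2 P := defect_isPGroup hPD
  have hpairG : IsBrauerPairOf 2 M B P c₀ := by
    rw [isBrauerPairOf_iff]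
    refine ⟨⟨hPp, isPBlock_image _ hc₁b⟩, hB, ?_⟩
    rintro _ ⟨ξ, hξ, rfl⟩
    show MemLocalIdeal M (bw P (irrMap (zIso hz) ξ) (blockCoeff B) - 1)
    rw [bw_zIso hz ξ (ã := fun t : H => blockCoeff B t) (fun _ => rfl)]
    obtain ⟨η, hη⟩ := block_nonempty hcb
    obtain ⟨χ, hχ⟩ := block_nonempty hB
    have hcl : IsClassFunction H (fun t : H => blockCoeff B (t : G)) := by
      intro t k
      exact blockCoeff_isClass B _ _
    have hR : ∀ t : H, MemLocalRing M (blockCoeff B (t : G)) := fun t =>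
      blockCoeff_mlr' (blockSat_of_isBlock hB) _
    have h1 := bw_class_congr hM hPp' hcb (hsubH hξ) hη hcl hR
    have h2 := induced_congr hc hη hχ (blockCoeff_isClass B) (blockCoeff_mlr' (blockSat_of_isBlock hB))
    have h3 : om χ (blockCoeff B) = 1 := by
      rw [funext (blockCoeff_eq_ofOm B), om_ofOm, eB_apply_mem hχ]
    rw [h3] at h2
    have h4 : om η (fun t : H => blockCoeff B (t : G)) = ∑ h : H, blockCoeff B h * (η.1 h / η.1 1) := by
      unfold om
      rw [Finset.mul_sum]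
      refine Finset.sum_congr rfl fun t _ => ?_
      ring
    rw [h4] at h1
    have h5 := mli_add h1 h2
    convert h5 using 1
    ring
  have hmaxG : IsMaximalBrauerPair 2 M B P c₀ := maximal_of_defect hM hpairG hPD
  -- the inertial groups
  let TG : Subgroup G := Subgroup.normalizer (P : Set G) ⊓ stabG (Subgroup.centralizer (P : Set G)) c₀
  let TH : Subgroup H := Subgroup.normalizer ((P.subgroupOf H : Subgroup H) : Set H) ⊓
    stabG (Subgroup.centralizer ((P.subgroupOf H : Subgroup H) : Set H)) c₁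
  obtain ⟨he13G, hcardG, hlG, hdG, DG, hDGne, hG0, hG1, hG2, hG3, hG4⟩ :=
    klein_rep hM hB hPD hV hmaxG (T := TG) (fun y => Iff.rfl) rfl
  obtain ⟨he13H, hcardH, hlH, hdH, DH, hDHne, hH0, hH1, hH2, hH3, hH4⟩ :=
    klein_rep hM hcb hcD hV' hmaxH (T := TH) (fun y => Iff.rfl) rfl
  -- transfer of the stabilizers
  have hNH : ∀ h : H, h ∈ Subgroup.normalizer ((P.subgroupOf H : Subgroup H) : Set H) := by
    intro h
    rw [Subgroup.mem_normalizer_iff]
    intro k
    show k ∈ P.subgroupOf H ↔ h * k * h⁻¹ ∈ P.subgroupOf H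
    rw [Subgroup.mem_subgroupOf, Subgroup.mem_subgroupOf]
    exact Subgroup.mem_normalizer_iff.mp (hNrm1 h) (k : G)
  have hstab1 : ∀ h : H, StabilizesBlock (Subgroup.centralizer ((P.subgroupOf H : Subgroup H) : Set H)) c₁ h →
      StabilizesBlock (Subgroup.centralizer (P : Set G)) c₀ (h : G) := by
    intro h hst
    refine ⟨normalizer_le_normalizer_centralizer P (hNrm1 h), ?_⟩
    rintro _ ⟨χ, hχ, rfl⟩
    obtain ⟨χ', hχ', hcj⟩ := hst.2 χ hχ
    refine ⟨irrMap (zIso hz) χ', ⟨χ', hχ', rfl⟩, fun k k' hk => ?_⟩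
    rw [irrMap_apply, irrMap_apply]
    apply hcj
    apply Subtype.ext
    exact hk
  have hstab2 : ∀ h : H, StabilizesBlock (Subgroup.centralizer (P : Set G)) c₀ (h : G) →
      StabilizesBlock (Subgroup.centralizer ((P.subgroupOf H : Subgroup H) : Set H)) c₁ h := by
    intro h hst
    refine ⟨normalizer_le_normalizer_centralizer _ (hNH h), ?_⟩
    intro χ hχ
    obtain ⟨_, ⟨χ', hχ', rfl⟩, hcj⟩ := hst.2 _ ⟨χ, hχ, rfl⟩
    refine ⟨χ', hχ', fun k k' hk => ?_⟩
    have h1 := hcj (zIso hz k) (zIso hz k') (by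
      show (((k' : H)) : G) = (h : G) * ((k : H) : G) * (h : G)⁻¹
      rw [hk]
      rfl)
    rw [irrMap_apply, irrMap_apply, MulEquiv.symm_apply_apply, MulEquiv.symm_apply_apply] at h1
    exact h1
  have hiff : (Subgroup.centralizer (P : Set G)).relIndex TG = 1 ↔
      (Subgroup.centralizer ((P.subgroupOf H : Subgroup H) : Set H)).relIndex TH = 1 := by
    rw [Subgroup.relIndex_eq_one, Subgroup.relIndex_eq_one]
    constructor
    · rintro hle h ⟨-, hst⟩
      have h1 : (h : G) ∈ TG := ⟨hNrm1 h, hstab1 h hst⟩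
      obtain ⟨hx, hx'⟩ := (hz _).mp (hle h1)
      exact hx'
    · rintro hle g ⟨hg, hst⟩
      have h1 : (⟨g, hNrm2 g hg⟩ : H) ∈ TH := ⟨hNH _, hstab2 ⟨g, hNrm2 g hg⟩ hst⟩
      exact (hz g).mpr ⟨hNrm2 g hg, hle h1⟩
  refine perfect_of_klein hM hcardG hcardH hG1 hH1 hG0 hH0 hG2 hH2 hG3 hH3 ?_
  rcases he13G with h1 | h3
  · left
    have h1H := hiff.mp h1
    constructor
    · intro χ hχ χ' hχ' s hs
      have h2 := rp_eq_of_rank_one hM hB hdG hcardG (hlG.trans h1) hχ hχ'
      have h3 := congrFun h2 s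
      rwa [rp_of_reg _ hs, rp_of_reg _ hs] at h3
    · intro χ hχ χ' hχ' s hs
      have h2 := rp_eq_of_rank_one hM hcb hdH hcardH (hlH.trans h1H) hχ hχ'
      have h3 := congrFun h2 s
      rwa [rp_of_reg _ hs, rp_of_reg _ hs] at h3
  · right
    have h3H : (Subgroup.centralizer ((P.subgroupOf H : Subgroup H) : Set H)).relIndex TH = 3 := by
      rcases he13H with h | h
      · have := hiff.mpr h
        omega
      · exact h
    obtain ⟨d₀, hd₀⟩ := hDGne
    obtain ⟨d₀', hd₀'⟩ := hDHne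
    exact ⟨⟨d₀, hd₀, fun d hd => hG4 h3 d hd d₀ hd₀⟩, ⟨d₀', hd₀', fun d hd => hH4 h3H d hd d₀' hd₀'⟩⟩

/-- **S4638.** -/
theorem klein_perfect_main (hM : IsPModular 2 M) {B : Set (IrrCharacter G)} (hB : IsPBlock M B)
    {P : Subgroup G} (hPD : IsDefectGroup 2 M B P) (hV : IsKleinFour P)
    {c : Set (IrrCharacter (Subgroup.normalizer (P : Set G)))}
    (hcD : IsDefectGroup 2 M c (P.subgroupOf (Subgroup.normalizer (P : Set G))))
    (hc : IsInducedBlock M (Subgroup.normalizer (P : Set G)) c B) :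
    ∃ (I : IrrCharacter (Subgroup.normalizer (P : Set G)) → IrrCharacter G)
      (ε : IrrCharacter (Subgroup.normalizer (P : Set G)) → ℤ), IsPerfectIsometry 2 M c B I ε :=
  klein_perfect_aux hM hB hPD hV Subgroup.le_normalizer (Subgroup.centralizer_le_normalizer _) rfl hcD hc

end Transport

end Cfsg.Agent.H22
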