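import Cfsg.Agent.Lib.H21.CharBasis

/-! # Landau's theorem -/

set_option autoImplicit false
set_option linter.unusedSectionVars false
set_option linter.style.haveILetI false
set_option linter.unusedSimpArgs false

namespace Cfsg.Agent.H22

open Cfsg Cfsg.Agent.H21

universe u

/-- Egyptian fractions with a given sum and number of terms have bounded denominators. -/
theorem egyptian_bound (k : ℕ) : ∀ r : ℚ, 0 < r → ∃ N : ℕ, ∀ {ι : Type u} (s : Finset ι) (n : ι → ℕ),
    s.card = k → (∀ i ∈ s, 0 < n i) → ∑ i ∈ s, ((n i : ℚ))⁻¹ = r → ∀ i ∈ s, n i ≤ N := by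
  classical
  induction k with
  | zero =>
    intro r hr
    refine ⟨0, fun s n hs _ _ i hi => ?_⟩
    simp [Finset.card_eq_zero.1 hs] at hi
  | succ k ih =>
    intro r hr
    set M : ℕ := ⌈((k : ℚ) + 1) / r⌉₊ with hM
    have hF : ∀ m : ℕ, ∃ N : ℕ, 0 < r - (m : ℚ)⁻¹ → ∀ {ι : Type u} (s : Finset ι) (n : ι → ℕ),
        s.card = k → (∀ i ∈ s, 0 < n i) → ∑ i ∈ s, ((n i : ℚ))⁻¹ = r - (m : ℚ)⁻¹ →
        ∀ i ∈ s, n i ≤ N := by
      intro m
      by_cases h : 0 < r - (m : ℚ)⁻¹
      · obtain ⟨N, hN⟩ := ih _ h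
        exact ⟨N, fun _ => hN⟩
      · exact ⟨0, fun h' => absurd h' h⟩
    choose F hF using hF
    refine ⟨max M ((Finset.range (M + 1)).sup F), ?_⟩
    intro ι s n hs hn hsum i hi
    obtain ⟨i₀, hi₀, hle⟩ : ∃ i₀ ∈ s, n i₀ ≤ M := by
      by_contra hcon
      push Not at hcon
      have hk : (0 : ℚ) < (k : ℚ) + 1 := by positivity
      have h1 : ∀ j ∈ s, ((n j : ℚ))⁻¹ < r / ((k : ℚ) + 1) := by
        intro j hj
        have h2 : ((k : ℚ) + 1) / r ≤ M := Nat.le_ceil _
        have h3 : (M : ℚ) < n j := by exact_mod_cast hcon j hj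
        have h4 : ((k : ℚ) + 1) / r < n j := lt_of_le_of_lt h2 h3
        have h5 : (0 : ℚ) < ((k : ℚ) + 1) / r := by positivity
        have h6 := inv_strictAnti₀ h5 h4
        rwa [inv_div] at h6
      have hne : s.Nonempty := Finset.card_pos.1 (by omega)
      have h2 := Finset.sum_lt_sum_of_nonempty hne h1
      rw [hsum, Finset.sum_const, hs, nsmul_eq_mul] at h2
      push_cast at h2
      rw [mul_div_cancel₀ _ hk.ne'] at h2
      exact lt_irrefl _ h2
    by_cases hii : i = i₀
    · subst hii
      exact le_trans hle (le_max_left _ _)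
    · have hrem : ∑ j ∈ s.erase i₀, ((n j : ℚ))⁻¹ = r - ((n i₀ : ℕ) : ℚ)⁻¹ := by
        rw [← hsum, ← Finset.add_sum_erase _ _ hi₀]
        ring
      have hi' : i ∈ s.erase i₀ := Finset.mem_erase.2 ⟨hii, hi⟩
      have hpos : 0 < r - ((n i₀ : ℕ) : ℚ)⁻¹ := by
        rw [← hrem]
        refine Finset.sum_pos' (fun j _ => by positivity) ⟨i, hi', ?_⟩
        have := hn i hi
        positivity
      have hcard : (s.erase i₀).card = k := by
        rw [Finset.card_erase_of_mem hi₀, hs]
        rfl
      have h3 := hF (n i₀) hpos (s.erase i₀) n hcard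
        (fun j hj => hn j (Finset.mem_of_mem_erase hj)) hrem i hi'
      have h4 : F (n i₀) ≤ (Finset.range (M + 1)).sup F :=
        Finset.le_sup (Finset.mem_range.2 (by omega))
      exact h3.trans (h4.trans (le_max_right _ _))

/-- The reciprocal class equation. -/
theorem sum_inv_centralizer (G : Type u) [Group G] [Finite G] [Fintype (ConjClasses G)] :
    ∑ c : ConjClasses G, ((Nat.card (Subgroup.centralizer ({Quotient.out c} : Set G)) : ℚ))⁻¹ = 1 := by
  classical
  haveI := Fintype.ofFinite G
  haveI := Fintype.ofFinite (IrrCharacter G)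
  have h1 := sum_conjClasses_card_eq_card G
  have hG : (Nat.card G : ℚ) ≠ 0 := by exact_mod_cast Nat.card_pos.ne'
  have h2 : ∀ c : ConjClasses G, ((Nat.card (Subgroup.centralizer ({Quotient.out c} : Set G)) : ℚ))⁻¹ =
      ((c.carrier.toFinset.card : ℕ) : ℚ) / (Nat.card G : ℚ) := by
    intro c
    have h3 : c = ConjClasses.mk (Quotient.out c) := (Quotient.out_eq c).symm
    have h4 : c.carrier.toFinset.card =
        (Subgroup.centralizer ({Quotient.out c} : Set G)).index := by
      rw [← card_isConj_eq_index, Set.toFinset_card, ← Nat.card_eq_fintype_card]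
      refine Nat.card_congr (Equiv.subtypeEquivRight fun x => ?_)
      rw [ConjClasses.mem_carrier_iff_mk_eq]
      constructor
      · intro h
        have := h.trans h3
        exact ConjClasses.mk_eq_mk_iff_isConj.1 this
      · intro h
        exact (ConjClasses.mk_eq_mk_iff_isConj.2 h).trans h3.symm
    rw [h4]
    have h5 := index_mul_card_centralizer (Quotient.out c)
    have h6 : (Nat.card (Subgroup.centralizer ({Quotient.out c} : Set G)) : ℚ) ≠ 0 := by
      exact_mod_cast Nat.card_pos.ne'
    rw [← h5]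
    push_cast
    have h7 : ((Subgroup.centralizer ({Quotient.out c} : Set G)).index : ℚ) ≠ 0 := by
      exact_mod_cast Subgroup.index_ne_zero_of_finite
    field_simp
  simp only [h2]
  rw [← Finset.sum_div, div_eq_one_iff_eq hG]
  rw [Nat.card_eq_fintype_card, ← h1]
  push_cast
  rfl

/-- **Landau's theorem.** -/
theorem landau_bound (K : ℕ) : ∃ N : ℕ, ∀ (G : Type u) [Group G] [Finite G],
    Nat.card (ConjClasses G) ≤ K → Nat.card G ≤ N := by
  classical
  have h := fun k : ℕ => egyptian_bound.{u} k 1 one_pos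
  choose F hF using h
  refine ⟨(Finset.range (K + 1)).sup F, ?_⟩
  intro G _ _ hG
  haveI : Fintype (ConjClasses G) := Fintype.ofFinite _
  have h1 := hF (Fintype.card (ConjClasses G)) (ι := ConjClasses G) Finset.univ
    (fun c => Nat.card (Subgroup.centralizer ({Quotient.out c} : Set G))) (by simp)
    (fun _ _ => Nat.card_pos) (sum_inv_centralizer G)
  have h2 := h1 (ConjClasses.mk 1) (Finset.mem_univ _)
  have h3 : Quotient.out (ConjClasses.mk (1 : G)) = 1 := by
    have : ConjClasses.mk (Quotient.out (ConjClasses.mk (1 : G))) = ConjClasses.mk 1 :=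
      Quotient.out_eq _
    have h4 := ConjClasses.mk_eq_mk_iff_isConj.1 this
    exact isConj_one_left.1 h4
  simp only [h3] at h2
  have h5 : Subgroup.centralizer ({(1 : G)} : Set G) = ⊤ := by
    ext g
    simp [Subgroup.mem_centralizer_singleton_iff]
  rw [h5, Subgroup.card_top] at h2
  refine h2.trans (Finset.le_sup (Finset.mem_range.2 ?_))
  rw [← Nat.card_eq_fintype_card]
  omega

end Cfsg.Agent.H22
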