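import Cfsg.Agent.Lib.H22.AbelianPair
import Cfsg.Agent.Lib.H22.CycDefect
import Cfsg.Agent.Lib.H22.Inertial

/-!
# The trace of a major block idempotent

For a Brauer pair `(Q, b)` with `Q` abelian, of the same defect as `B`, the central character of `B`
takes a unit value on the relative trace of the idempotent of `b` from `C_G(Q)` to `G`.
-/

set_option autoImplicit false
set_option linter.unusedSectionVars false
set_option linter.style.haveILetI false
set_option linter.unusedSimpArgs false

namespace Cfsg.Agent.H22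

open Cfsg Cfsg.Agent.H21 Module
open scoped ComplexConjugate Pointwise

universe u

section Orbit

variable {M : Ideal AlgInt} [hM : M.IsPrime] {p : ℕ} [hp : Fact p.Prime]

/-- Sums of invariant functions over actions of `p`-groups, modulo `M`. -/
theorem mli_sum_of_pGroup_action (hMp : IsPModular p M) {P : Type*} [Group P] [Finite P]
    (hP : IsPGroup p P) {Ω : Type*} [Finite Ω] [MulAction P Ω] (F : Ω → ℂ)
    (hinv : ∀ (u : P) (ω : Ω), F (u • ω) = F ω) (hR : ∀ ω, MemLocalRing M (F ω))
    (hfix : ∀ ω, (∀ u : P, u • ω = ω) → MemLocalIdeal M (F ω)) :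
    MemLocalIdeal M (∑ ω, F ω) := by
  classical
  have hsum : ∑ ω, F ω = ∑ O : MulAction.orbitRel.Quotient P Ω, ∑ z : MulAction.orbit P (Quotient.out O),
      F ((MulAction.selfEquivSigmaOrbits P Ω).symm ⟨O, z⟩) := by
    rw [← Equiv.sum_comp (MulAction.selfEquivSigmaOrbits P Ω).symm]
    refine Eq.trans ?_ (Fintype.sum_sigma (fun s : (Σ O : MulAction.orbitRel.Quotient P Ω, MulAction.orbit P (Quotient.out O)) =>
      F ((MulAction.selfEquivSigmaOrbits P Ω).symm s)))
    exact Finset.sum_congr (by ext; simp) (fun _ _ => rfl)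
  rw [hsum]
  refine mli_sum _ _ fun O _ => ?_
  set x : Ω := Quotient.out O with hx
  have h1 : ∀ z : MulAction.orbit P x, F ((MulAction.selfEquivSigmaOrbits P Ω).symm ⟨O, z⟩) = F x := by
    rintro ⟨z, hz⟩
    obtain ⟨u, rfl⟩ := hz
    exact hinv u x
  simp only [h1]
  rw [Finset.sum_const, nsmul_eq_mul]
  by_cases hfx : ∀ u : P, u • x = x
  · exact mli_mul_left (hfix x hfx) (mlr_natCast _)
  · refine mli_mul_right ?_ (hR x)
    apply mli_natCast_of_dvd hMp
    have h2 : (MulAction.stabilizer P x).index = Nat.card (MulAction.orbit P x) := by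
      rw [MulAction.index_stabilizer]
      rfl
    have h3 : (Finset.univ : Finset (MulAction.orbit P x)).card = Nat.card (MulAction.orbit P x) := by
      rw [Finset.card_univ, Nat.card_eq_fintype_card]
    rw [h3, ← h2]
    obtain ⟨n, hn⟩ := IsPGroup.iff_card.mp hP
    have h4 : (MulAction.stabilizer P x).index ∣ p ^ n := by
      rw [← hn]
      exact Subgroup.index_dvd_card _
    obtain ⟨j, -, hj⟩ := (Nat.dvd_prime_pow hp.out).mp h4
    rw [hj]
    rcases j with _ | j
    · exfalso
      rw [pow_zero] at hj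
      apply hfx
      intro u
      have h5 : MulAction.stabilizer P x = ⊤ := Subgroup.index_eq_one.mp hj
      have : u ∈ MulAction.stabilizer P x := by
        rw [h5]
        exact Subgroup.mem_top u
      exact this
    · exact dvd_pow_self p (Nat.succ_ne_zero j)

end Orbit

section Trace

variable {G : Type u} [Group G] [Finite G]

/-- The relative trace from `C` to `G` of a function. -/
noncomputable def trF (C : Subgroup G) (a : G → ℂ) : G → ℂ :=
  fun g => ∑ ω : G ⧸ C, a ((Quotient.out ω)⁻¹ * g * Quotient.out ω)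

theorem cj_out {C : Subgroup G} {a : G → ℂ} (ha : Ad C a) (t g : G) :
    a ((Quotient.out (t : G ⧸ C))⁻¹ * g * Quotient.out (t : G ⧸ C)) = a (t⁻¹ * g * t) := by
  obtain ⟨c, hc⟩ := QuotientGroup.mk_out_eq_mul C t
  rw [hc]
  have e : (t * (c : G))⁻¹ * g * (t * (c : G)) = (c : G)⁻¹ * (t⁻¹ * g * t) * ((c : G)⁻¹)⁻¹ := by group
  rw [e]
  exact ha _ (C.inv_mem c.2) _

theorem trF_isClass {C : Subgroup G} {a : G → ℂ} (ha : Ad C a) : IsClassFunction G (trF C a) := by
  intro g k
  unfold trF
  rw [← Equiv.sum_comp (MulAction.toPerm k : Equiv.Perm (G ⧸ C))]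
  refine Finset.sum_congr rfl fun ω _ => ?_
  have h1 : (MulAction.toPerm k : Equiv.Perm (G ⧸ C)) ω = ((k * Quotient.out ω : G) : G ⧸ C) := by
    show k • ω = _
    conv_lhs => rw [← QuotientGroup.out_eq' ω]
    rfl
  rw [h1, cj_out ha]
  congr 1
  group

theorem trF_mlr {M : Ideal AlgInt} [M.IsPrime] {C : Subgroup G} {a : G → ℂ}
    (ha : ∀ g, MemLocalRing M (a g)) (g : G) : MemLocalRing M (trF C a g) :=
  mlr_sum _ _ fun _ _ => ha _

theorem om_trF {C : Subgroup G} {a : G → ℂ} (χ : IrrCharacter G) :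
    om χ (trF C a) = (C.index : ℂ) * om χ a := by
  classical
  unfold om trF
  have h1 : ∀ ω : G ⧸ C, ∑ g, a ((Quotient.out ω)⁻¹ * g * Quotient.out ω) * χ.1 g = ∑ g, a g * χ.1 g := by
    intro ω
    rw [← Equiv.sum_comp (MulAut.conj (Quotient.out ω)).toEquiv]
    refine Finset.sum_congr rfl fun g _ => ?_
    show a ((Quotient.out ω)⁻¹ * (Quotient.out ω * g * (Quotient.out ω)⁻¹) * Quotient.out ω) *
      χ.1 (Quotient.out ω * g * (Quotient.out ω)⁻¹) = _
    rw [irr_conj']
    congr 2
    group
  have h2 : ∑ g, (∑ ω : G ⧸ C, a ((Quotient.out ω)⁻¹ * g * Quotient.out ω)) * χ.1 g =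
      ∑ ω : G ⧸ C, ∑ g, a ((Quotient.out ω)⁻¹ * g * Quotient.out ω) * χ.1 g := by
    simp only [Finset.sum_mul]
    rw [Finset.sum_comm]
  rw [h2]
  simp only [h1]
  rw [Finset.sum_const, nsmul_eq_mul, Finset.card_univ, ← Nat.card_eq_fintype_card,
    Subgroup.index_eq_card]
  ring

end Trace

section Main

variable {G : Type u} [Group G] [Finite G] {M : Ideal AlgInt} [hM : M.IsPrime]
variable {p : ℕ} [hp : Fact p.Prime]

/-- The fixed-coset step: coefficients of `b` at conjugates of elements of `C(P)`. -/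
theorem coeff_mli_of_fixed (hMp : IsPModular p M) {Q P : Subgroup G}
    {Db : Subgroup (Subgroup.centralizer (Q : Set G))}
    {b : Set (IrrCharacter (Subgroup.centralizer (Q : Set G)))} (hb : IsPBlock M b)
    (hDb : IsDefectGroup p M b Db) (hDcard : Nat.card Db = Nat.card P) (hQp : IsPGroup p Q)
    (hPp : IsPGroup p P) (hQab : Q ≤ Subgroup.centralizer (Q : Set G)) {t : G}
    (hfix : ∀ u ∈ P, t⁻¹ * u * t ∈ Subgroup.centralizer (Q : Set G)) (hnot : ¬ cq t Q ≤ P) {c : G}
    (hc : c ∈ Subgroup.centralizer (P : Set G)) :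
    MemLocalIdeal M (subgroupBlockCoeff (Subgroup.centralizer (Q : Set G)) b (t⁻¹ * c * t)) := by
  classical
  by_contra hcon
  have hmem : t⁻¹ * c * t ∈ Subgroup.centralizer (Q : Set G) := by
    by_contra h
    apply hcon
    rw [subgroupBlockCoeff_eq_extK, extK_of_not_mem _ _ h]
    exact mli_zero
  set c' : Subgroup.centralizer (Q : Set G) := ⟨_, hmem⟩ with hc'
  have hcoeff : ¬ MemLocalIdeal M (blockCoeff b c') := by
    rwa [← sbc_of_coe]
  set P' : Subgroup G := cq t⁻¹ P with hP'
  have hP'C : P' ≤ (Subgroup.centralizer (Q : Set G)) := by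
    rintro _ ⟨u, hu, rfl⟩
    show t⁻¹ * u * t⁻¹⁻¹ ∈ (Subgroup.centralizer (Q : Set G))
    rw [inv_inv]
    exact hfix u hu
  set R : Subgroup G := P' ⊔ Q with hR
  have hRp : IsPGroup p R := IsPGroup.to_sup_of_normal_right' (hPp.map _) hQp
    (hP'C.trans (Subgroup.centralizer_le_normalizer _))
  have hRC : R ≤ (Subgroup.centralizer (Q : Set G)) := sup_le hP'C hQab
  have hS : IsPGroup p (R.subgroupOf (Subgroup.centralizer (Q : Set G))) := hRp.comap_subtype
  have hSc : R.subgroupOf (Subgroup.centralizer (Q : Set G)) ≤ Subgroup.centralizer ({c'} : Set (Subgroup.centralizer (Q : Set G))) := by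
    intro s hs
    rw [Subgroup.mem_subgroupOf] at hs
    rw [mem_centralizer_singleton_iff]
    apply Subtype.ext
    show (t⁻¹ * c * t) * (s : G) = (s : G) * (t⁻¹ * c * t)
    have hle : R ≤ Subgroup.centralizer ({t⁻¹ * c * t} : Set G) := by
      apply sup_le
      · rintro _ ⟨u, hu, rfl⟩
        rw [mem_centralizer_singleton_iff]
        show (t⁻¹ * c * t) * (t⁻¹ * u * t⁻¹⁻¹) = t⁻¹ * u * t⁻¹⁻¹ * (t⁻¹ * c * t)
        have h1 : u * c = c * u := ((Subgroup.mem_centralizer_iff.mp hc) u hu)
        rw [inv_inv]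
        calc (t⁻¹ * c * t) * (t⁻¹ * u * t) = t⁻¹ * (c * u) * t := by group
          _ = t⁻¹ * (u * c) * t := by rw [h1]
          _ = _ := by group
      · intro q hq
        rw [mem_centralizer_singleton_iff]
        exact ((Subgroup.mem_centralizer_iff.mp hmem) q hq).symm
    exact ((mem_centralizer_singleton_iff).mp (hle hs))
  obtain ⟨x, hx⟩ := subConj_defect_of_coeff hMp hb hDb hcoeff hS hSc
  have h1 : Nat.card (R.subgroupOf (Subgroup.centralizer (Q : Set G))) ≤ Nat.card Db := by
    have h2 : (R.subgroupOf (Subgroup.centralizer (Q : Set G))).map (MulAut.conj x).toMonoidHom ≤ Db := by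
      rintro _ ⟨s, hs, rfl⟩
      exact hx s hs
    have h3 := Subgroup.card_le_of_le h2
    rwa [Subgroup.card_map_of_injective (MulEquiv.injective _)] at h3
  have h2 : Nat.card (R.subgroupOf (Subgroup.centralizer (Q : Set G))) = Nat.card R :=
    Nat.card_congr (Subgroup.subgroupOfEquivOfLe hRC).toEquiv
  have h3 : Nat.card P' = Nat.card P := Subgroup.card_map_of_injective (MulEquiv.injective _)
  have h4 : P' = R := Subgroup.eq_of_le_of_card_ge le_sup_left (by omega)
  have hQ' : Q ≤ P' := by
    rw [h4]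
    exact le_sup_right
  apply hnot
  rintro _ ⟨q, hq, rfl⟩
  have h5 := mem_cq.mp (hQ' hq)
  rwa [inv_inv] at h5

/-- The good conjugates. -/
def GoodC (Q P : Subgroup G) (t : G) : Prop :=
  cq t Q ≤ P ∧ P ≤ Subgroup.centralizer ((cq t Q : Subgroup G) : Set G)

theorem cq_mul_centralizer (Q : Subgroup G) (t : G) {c : G}
    (hc : c ∈ Subgroup.centralizer (Q : Set G)) : cq (t * c) Q = cq t Q := by
  rw [← cq_mul, cq_eq_of_normalizer (Subgroup.centralizer_le_normalizer _ hc)]

theorem goodC_mul_right {Q P : Subgroup G} {t c : G} (hc : c ∈ Subgroup.centralizer (Q : Set G)) :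
    GoodC Q P (t * c) ↔ GoodC Q P t := by
  unfold GoodC
  rw [cq_mul_centralizer Q t hc]

theorem goodC_mul_left {Q P : Subgroup G} {t u : G} (hu : u ∈ P) (h : GoodC Q P t) :
    GoodC Q P (u * t) := by
  have h1 : cq (u * t) Q = cq t Q := by
    rw [← cq_mul, cq_eq_of_normalizer (Subgroup.centralizer_le_normalizer _ (h.2 hu))]
  unfold GoodC
  rw [h1]
  exact h

variable (hMp : IsPModular p M)
include hMp

/-- Invariant part of the trace: the rest of the sum is in `M`. -/
theorem trace_rest_mli {Q P : Subgroup G} {Db : Subgroup (Subgroup.centralizer (Q : Set G))}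
    {b : Set (IrrCharacter (Subgroup.centralizer (Q : Set G)))} (hb : IsPBlock M b)
    (hDb : IsDefectGroup p M b Db) (hDcard : Nat.card Db = Nat.card P) (hQp : IsPGroup p Q)
    (hPp : IsPGroup p P) (hQab : Q ≤ Subgroup.centralizer (Q : Set G))
    (hPC : P ≤ Subgroup.centralizer (Q : Set G)) {c : G}
    (hc : c ∈ Subgroup.centralizer (P : Set G)) :
    open Classical in
    MemLocalIdeal M (∑ ω : G ⧸ Subgroup.centralizer (Q : Set G),
      if GoodC Q P (Quotient.out ω) then 0 else
        subgroupBlockCoeff (Subgroup.centralizer (Q : Set G)) b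
          ((Quotient.out ω)⁻¹ * c * Quotient.out ω)) := by
  classical
  have hbs : BlockSat M b := blockSat_of_isBlock hb
  have hAd : Ad (Subgroup.centralizer (Q : Set G)) (subgroupBlockCoeff (Subgroup.centralizer (Q : Set G)) b) := sbc_Ad (Subgroup.centralizer (Q : Set G)) b
  apply mli_sum_of_pGroup_action hMp (P := P) hPp
  · rintro ⟨u, hu⟩ ω
    have e1 : (⟨u, hu⟩ : P) • ω = ((u * Quotient.out ω : G) : G ⧸ (Subgroup.centralizer (Q : Set G))) := by
      conv_lhs => rw [← QuotientGroup.out_eq' ω]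
      rfl
    rw [e1]
    obtain ⟨d, hd⟩ := QuotientGroup.mk_out_eq_mul (Subgroup.centralizer (Q : Set G)) (u * Quotient.out ω)
    have e2 : subgroupBlockCoeff (Subgroup.centralizer (Q : Set G)) b
        ((Quotient.out ((u * Quotient.out ω : G) : G ⧸ (Subgroup.centralizer (Q : Set G))))⁻¹ * c * Quotient.out ((u * Quotient.out ω : G) : G ⧸ (Subgroup.centralizer (Q : Set G)))) =
        subgroupBlockCoeff (Subgroup.centralizer (Q : Set G)) b ((Quotient.out ω)⁻¹ * c * Quotient.out ω) := by
      rw [cj_out hAd]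
      congr 1
      have h1 : u * c = c * u := ((Subgroup.mem_centralizer_iff.mp hc) u hu)
      calc (u * Quotient.out ω)⁻¹ * c * (u * Quotient.out ω)
          = (Quotient.out ω)⁻¹ * u⁻¹ * (c * u) * Quotient.out ω := by group
        _ = (Quotient.out ω)⁻¹ * u⁻¹ * (u * c) * Quotient.out ω := by rw [h1]
        _ = _ := by group
    have e3 : GoodC Q P (Quotient.out ((u * Quotient.out ω : G) : G ⧸ (Subgroup.centralizer (Q : Set G)))) ↔ GoodC Q P (Quotient.out ω) := by
      rw [hd, goodC_mul_right d.2]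
      constructor
      · intro h
        have := goodC_mul_left (P.inv_mem hu) h
        rwa [inv_mul_cancel_left] at this
      · exact goodC_mul_left hu
    simp only [e3, e2]
  · intro ω
    split_ifs
    · exact mlr_zero
    · exact sbc_mlr (Subgroup.centralizer (Q : Set G)) hbs _
  · intro ω hfix
    split_ifs with hgood
    · exact mli_zero
    · have hfix' : ∀ u ∈ P, (Quotient.out ω)⁻¹ * u * Quotient.out ω ∈ (Subgroup.centralizer (Q : Set G)) := by
        intro u hu
        have h1 := hfix ⟨u, hu⟩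
        have e1 : (⟨u, hu⟩ : P) • ω = ((u * Quotient.out ω : G) : G ⧸ (Subgroup.centralizer (Q : Set G))) := by
          conv_lhs => rw [← QuotientGroup.out_eq' ω]
          rfl
        rw [e1] at h1
        have h2 : ((u * Quotient.out ω : G) : G ⧸ (Subgroup.centralizer (Q : Set G))) = ((Quotient.out ω : G) : G ⧸ (Subgroup.centralizer (Q : Set G))) := by
          rw [h1, QuotientGroup.out_eq']
        have h3 := QuotientGroup.eq.mp h2
        have h4 := (Subgroup.centralizer (Q : Set G)).inv_mem h3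
        convert h4 using 1
        group
      apply coeff_mli_of_fixed hMp hb hDb hDcard hQp hPp hQab hfix' _ hc
      intro hle
      apply hgood
      refine ⟨hle, fun u hu => ?_⟩
      have h5 := (mem_centralizer_cq (Quotient.out ω) Q ((Quotient.out ω)⁻¹ * u * Quotient.out ω)).mp
        (hfix' u hu)
      convert h5 using 1
      group

/-- The values of the good conjugates. -/
theorem good_values {Q P : Subgroup G}
    {b : Set (IrrCharacter (Subgroup.centralizer (Q : Set G)))} (hb : IsPBlock M b)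
    {e : Set (IrrCharacter (Subgroup.centralizer (P : Set G)))} (he : IsBrauerPair p M P e)
    (hQp : IsPGroup p Q) {t : G} (hgood : GoodC Q P t) {ξ : IrrCharacter (Subgroup.centralizer (P : Set G))}
    (hξ : ξ ∈ e) :
    (MemLocalIdeal M (bw P ξ (fun g => subgroupBlockCoeff (Subgroup.centralizer (Q : Set G)) b (t⁻¹ * g * t)) - 1) ∧
        IsNormalSubpair p M (cq t Q) (conjBlock Q t b) P e) ∨
      (MemLocalIdeal M (bw P ξ (fun g => subgroupBlockCoeff (Subgroup.centralizer (Q : Set G)) b (t⁻¹ * g * t))) ∧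
        ¬ IsNormalSubpair p M (cq t Q) (conjBlock Q t b) P e) := by
  classical
  obtain ⟨h1, h2⟩ := hgood
  set Q' : Subgroup G := cq t Q with hQ'
  set f' := conjBlock Q t b with hf'
  have hf'b : IsPBlock M f' := by
    rw [hf', conjBlock_eq]
    exact isPBlock_image _ hb
  have hQ'f : IsBrauerPair p M Q' f' := ⟨hQp.map _, hf'b⟩
  have hsat : BlockSat M f' := blockSat_of_isBlock hf'b
  set a : G → ℂ := subgroupBlockCoeff (Subgroup.centralizer (Q' : Set G)) f' with ha
  have hae : (fun g => subgroupBlockCoeff (Subgroup.centralizer (Q : Set G)) b (t⁻¹ * g * t)) = a := by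
    funext g
    rw [ha, hf', conjBlock_eq, ← blockCoeff_image_phiC (x := t) b (t⁻¹ * g * t)]
    congr 1
    group
  rw [hae]
  have haR : ∀ g, MemLocalRing M (a g) := sbc_mlr _ hsat
  have haP : Ad P a := sbc_Ad_of_le h2 f'
  have haC : Ad (Subgroup.centralizer (P : Set G)) a := sbc_Ad_of_le (centralizer_le_of_le h1) f'
  have hid : ∀ g, MemLocalIdeal M (conv a a g - a g) := by
    intro g
    rw [ha, sbc_conv_self]
    simpa using mli_zero
  have hiff : IsNormalSubpair p M Q' f' P e ↔ ξ ∈ brSet M P a := by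
    constructor
    · intro h
      exact (isNormalSubpair_iff.mp h).2.2.2.2.2 hξ
    · intro h
      rw [isNormalSubpair_iff]
      refine ⟨hQ'f, he, h1, ?_, ?_, block_subset_brSet haC haR he.2 hξ h⟩
      · exact h2.trans (Subgroup.centralizer_le_normalizer _)
      · intro x hx
        exact stabilizes_of_mem f' (h2 hx)
  rcases bw_values hMp he.1 haR haP haC hid ξ with h3 | h3
  · exact Or.inl ⟨h3, hiff.mpr h3⟩
  · refine Or.inr ⟨h3, fun h => ?_⟩
    have h4 : MemLocalIdeal M (bw P ξ a - 1) := hiff.mp h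
    apply not_mli_one (M := M)
    have := mli_sub h3 h4
    convert this using 1
    ring

omit hMp in
theorem ns_mul_right {Q P : Subgroup G}
    {b : Set (IrrCharacter (Subgroup.centralizer (Q : Set G)))}
    {e : Set (IrrCharacter (Subgroup.centralizer (P : Set G)))} {t c : G}
    (hc : c ∈ Subgroup.centralizer (Q : Set G)) :
    IsNormalSubpair p M (cq (t * c) Q) (conjBlock Q (t * c) b) P e ↔
      IsNormalSubpair p M (cq t Q) (conjBlock Q t b) P e := by
  have h : cp (t * c) (⟨Q, b⟩ : BrauerPairIdx G) = cp t ⟨Q, b⟩ := by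
    rw [← cp_cp c t, cp_fixed (Subgroup.centralizer_le_normalizer _ hc) (stabilizes_of_mem b hc)]
  show NormalSubpairRel p M (cp (t * c) ⟨Q, b⟩) ⟨P, e⟩ ↔ NormalSubpairRel p M (cp t ⟨Q, b⟩) ⟨P, e⟩
  rw [h]

/-- The number of cosets in the correct position is prime to `p`. -/
theorem card_good_not_dvd {Q P : Subgroup G}
    {b : Set (IrrCharacter (Subgroup.centralizer (Q : Set G)))} {B : Set (IrrCharacter G)}
    {e : Set (IrrCharacter (Subgroup.centralizer (P : Set G)))}
    (hb : IsPBlock M b) (hQp : IsPGroup p Q) (hQP : Q ≤ P)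
    (hPC : P ≤ Subgroup.centralizer (Q : Set G))
    (hmax : IsMaximalBrauerPair p M B P e) (hns : IsNormalSubpair p M Q b P e) :
    open Classical in
    ¬ p ∣ (Finset.univ.filter (fun ω : G ⧸ Subgroup.centralizer (Q : Set G) =>
      GoodC Q P (Quotient.out ω) ∧
        IsNormalSubpair p M (cq (Quotient.out ω) Q) (conjBlock Q (Quotient.out ω) b) P e)).card := by
  classical
  set A := (Finset.univ.filter (fun ω : G ⧸ Subgroup.centralizer (Q : Set G) =>
      GoodC Q P (Quotient.out ω) ∧
        IsNormalSubpair p M (cq (Quotient.out ω) Q) (conjBlock Q (Quotient.out ω) b) P e)) with hA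
  let T : Subgroup G := Subgroup.normalizer (P : Set G) ⊓
    stabG (Subgroup.centralizer (P : Set G)) e
  have hT : ∀ y : G, y ∈ T ↔ y ∈ Subgroup.normalizer (P : Set G) ∧
      StabilizesBlock (Subgroup.centralizer (P : Set G)) e y := fun y => Iff.rfl
  let ω₀ : G ⧸ Subgroup.centralizer (Q : Set G) := ((1 : G) : G ⧸ Subgroup.centralizer (Q : Set G))
  have hsmul : ∀ τ : T, τ • ω₀ = (((τ : G)) : G ⧸ Subgroup.centralizer (Q : Set G)) := by
    intro τ
    show ((τ : G) • ((1 : G) : G ⧸ Subgroup.centralizer (Q : Set G))) = _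
    rw [MulAction.Quotient.smul_coe]
    simp
  have horb : (↑A : Set (G ⧸ Subgroup.centralizer (Q : Set G))) = MulAction.orbit T ω₀ := by
    ext ω
    simp only [hA, Finset.coe_filter, Finset.mem_univ, true_and, Set.mem_ofPred_eq]
    constructor
    · rintro ⟨hgood, hns'⟩
      set t := Quotient.out ω with ht
      have h₂ : IsNormalSubpair p M (cq t Q) (conjBlock Q t b) (cq t P) (conjBlock P t e) :=
        isNormalSubpair_conj t hns
      have hF : ∀ s : Subgroup.centralizer ((cq t Q : Subgroup G) : Set G),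
          blockCoeff (conjBlock Q t b) s = subgroupBlockCoeff _ (conjBlock Q t b) (s : G) :=
        fun s => (sbc_of_coe _ _ s).symm
      have hf' : IsPBlock M (conjBlock Q t b) := by
        rw [conjBlock_eq]
        exact isPBlock_image _ hb
      have hCN : Subgroup.centralizer ((cq t Q : Subgroup G) : Set G) ≤
          Subgroup.normalizer ((cq t Q : Subgroup G) : Set G) :=
        Subgroup.centralizer_le_normalizer _
      have hR₂ : cq t P ≤ Subgroup.centralizer ((cq t Q : Subgroup G) : Set G) := by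
        rintro _ ⟨u, hu, rfl⟩
        exact (mem_centralizer_cq t Q u).mp (hPC hu)
      have hQ₂ : cq t Q ≤ cq t P := cq_le hQP
      have hz₁ := zComp_sub (le_refl (Subgroup.centralizer ((cq t Q : Subgroup G) : Set G))) hgood.1 hgood.2
      have hz₂ := zComp_sub (le_refl (Subgroup.centralizer ((cq t Q : Subgroup G) : Set G))) hQ₂ hR₂
      have hmax₁ := maximal_in_H hMp le_rfl hF hf' hgood.1 hgood.2 hz₁ hmax hns'
      obtain ⟨c, hc⟩ := exists_conj_in_H hMp le_rfl hCN hF hf' hgood.2 hR₂ hgood.1 hQ₂ hns' h₂ hz₁ hz₂ hmax₁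
      have h3 : cp (c : G) ⟨cq t P, conjBlock P t e⟩ = cp ((c : G) * t) ⟨P, e⟩ := cp_cp t c ⟨P, e⟩
      rw [h3] at hc
      have h4 : (cp ((c : G) * t) (⟨P, e⟩ : BrauerPairIdx G)).1 = P := by
        have h5 : cq ((c : G) * t) P ≤ P := chain_le hc
        apply Subgroup.eq_of_le_of_card_ge h5
        show Nat.card P ≤ Nat.card (cq ((c : G) * t) P)
        rw [Subgroup.card_map_of_injective (MulEquiv.injective _)]
      have h6 := chain_eq_of_fst_eq hc h4
      have h7 := fixed_of_cp h6
      refine ⟨⟨(c : G) * t, h7⟩, ?_⟩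
      show (⟨(c : G) * t, h7⟩ : T) • ω₀ = ω
      rw [hsmul]
      have h8 : (((c : G) * t : G) : G ⧸ Subgroup.centralizer (Q : Set G)) = ((t : G) : G ⧸ Subgroup.centralizer (Q : Set G)) := by
        apply QuotientGroup.eq.mpr
        have h9 : t⁻¹ * (c : G)⁻¹ * t ∈ Subgroup.centralizer (Q : Set G) := by
          apply (mem_centralizer_cq t Q _).mpr
          have e1 : t * (t⁻¹ * (c : G)⁻¹ * t) * t⁻¹ = (c : G)⁻¹ := by group
          rw [e1]
          exact Subgroup.inv_mem _ c.2
        convert h9 using 1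
        group
      show (((c : G) * t : G) : G ⧸ Subgroup.centralizer (Q : Set G)) = ω
      rw [h8, ht, QuotientGroup.out_eq']
    · rintro ⟨τ, rfl⟩
      have hτ := (hT τ).1 τ.2
      show GoodC Q P (Quotient.out (τ • ω₀)) ∧ IsNormalSubpair p M (cq (Quotient.out (τ • ω₀)) Q)
        (conjBlock Q (Quotient.out (τ • ω₀)) b) P e
      rw [hsmul]
      obtain ⟨d, hd⟩ := QuotientGroup.mk_out_eq_mul (Subgroup.centralizer (Q : Set G)) (τ : G)
      rw [hd, goodC_mul_right d.2, ns_mul_right d.2]
      have hcqP : cq (τ : G) P = P := cq_eq_of_normalizer hτ.1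
      constructor
      · constructor
        · have := cq_le (x := (τ : G)) hQP
          rwa [hcqP] at this
        · intro u hu
          have h1 : (τ : G)⁻¹ * u * (τ : G) ∈ P := by
            have hu' : u ∈ cq (τ : G) P := by rwa [hcqP]
            exact mem_cq.mp hu'
          have h2 := (mem_centralizer_cq (τ : G) Q _).mp (hPC h1)
          convert h2 using 1
          group
      · have h1 := isNormalSubpair_conj (τ : G) hns
        have h2 : cp (τ : G) (⟨P, e⟩ : BrauerPairIdx G) = ⟨P, e⟩ := cp_fixed hτ.1 hτ.2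
        have h3 : NormalSubpairRel p M (cp (τ : G) ⟨Q, b⟩) (cp (τ : G) ⟨P, e⟩) := h1
        rw [h2] at h3
        exact h3
  have hidx : (MulAction.stabilizer T ω₀).index = A.card := by
    rw [MulAction.index_stabilizer, ← horb, Set.ncard_coe_finset]
  have hle : (P ⊔ Subgroup.centralizer (P : Set G)).subgroupOf T ≤ MulAction.stabilizer T ω₀ := by
    intro x hx
    rw [Subgroup.mem_subgroupOf] at hx
    rw [MulAction.mem_stabilizer_iff, hsmul]
    have h1 : P ⊔ Subgroup.centralizer (P : Set G) ≤ Subgroup.centralizer (Q : Set G) :=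
      sup_le hPC (centralizer_le_of_le hQP)
    show ((x : G) : G ⧸ Subgroup.centralizer (Q : Set G)) = ((1 : G) : G ⧸ Subgroup.centralizer (Q : Set G))
    apply QuotientGroup.eq.mpr
    rw [mul_one]
    exact Subgroup.inv_mem _ (h1 hx)
  intro hdvd
  apply inertial_p_index hMp hmax hT
  have h2 := Subgroup.index_dvd_of_le hle
  rw [hidx] at h2
  exact hdvd.trans h2

/-- **The relative trace is a unit**, given the maximal pair. -/
theorem trF_unit_of_pair {Q P : Subgroup G} {Db : Subgroup (Subgroup.centralizer (Q : Set G))}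
    {b : Set (IrrCharacter (Subgroup.centralizer (Q : Set G)))} {B : Set (IrrCharacter G)}
    {e : Set (IrrCharacter (Subgroup.centralizer (P : Set G)))}
    (hb : IsPBlock M b) (hDb : IsDefectGroup p M b Db) (hDcard : Nat.card Db = Nat.card P)
    (hQp : IsPGroup p Q) (hQab : Q ≤ Subgroup.centralizer (Q : Set G)) (hQP : Q ≤ P)
    (hPC : P ≤ Subgroup.centralizer (Q : Set G))
    (hmax : IsMaximalBrauerPair p M B P e) (hns : IsNormalSubpair p M Q b P e)
    {χ : IrrCharacter G} (hχ : χ ∈ B) :
    ¬ MemLocalIdeal M (om χ (trF (Subgroup.centralizer (Q : Set G))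
        (subgroupBlockCoeff (Subgroup.centralizer (Q : Set G)) b))) := by
  classical
  obtain ⟨⟨hPp, he⟩, hB, hsub⟩ := isBrauerPairOf_iff.mp hmax.1
  obtain ⟨ξ, hξ⟩ := block_nonempty he
  set a := subgroupBlockCoeff (Subgroup.centralizer (Q : Set G)) b with ha
  have haAd : Ad (Subgroup.centralizer (Q : Set G)) a := sbc_Ad _ b
  have haR : ∀ g, MemLocalRing M (a g) := sbc_mlr _ (blockSat_of_isBlock hb)
  set X := trF (Subgroup.centralizer (Q : Set G)) a with hX
  have hXc : IsClassFunction G X := trF_isClass haAd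
  have h1 := bw_class_congr hMp hPp hB (hsub hξ) hχ hXc (trF_mlr haR)
  let aω : G ⧸ Subgroup.centralizer (Q : Set G) → G → ℂ :=
    fun ω g => a ((Quotient.out ω)⁻¹ * g * Quotient.out ω)
  set G₃ := Finset.univ.filter (fun ω : G ⧸ Subgroup.centralizer (Q : Set G) => GoodC Q P (Quotient.out ω)) with hG₃
  set X₃ : G → ℂ := ∑ ω ∈ G₃, aω ω with hX₃
  have hX₃app : ∀ g, X₃ g = ∑ ω ∈ G₃, aω ω g := fun g => by
    rw [hX₃, Finset.sum_apply]
  have hAdX : Ad (Subgroup.centralizer (P : Set G)) X := ad_of_class hXc _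
  have hAdaω : ∀ ω ∈ G₃, Ad (Subgroup.centralizer (P : Set G)) (aω ω) := by
    intro ω hω q hq g
    have hgood : GoodC Q P (Quotient.out ω) := (Finset.mem_filter.mp hω).2
    have hq' : (Quotient.out ω)⁻¹ * q * Quotient.out ω ∈ Subgroup.centralizer (Q : Set G) := by
      apply (mem_centralizer_cq (Quotient.out ω) Q _).mpr
      have e1 : Quotient.out ω * ((Quotient.out ω)⁻¹ * q * Quotient.out ω) * (Quotient.out ω)⁻¹ = q := by group
      rw [e1]
      exact centralizer_le_of_le hgood.1 hq
    have := haAd _ hq' ((Quotient.out ω)⁻¹ * g * Quotient.out ω)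
    show a _ = a _
    rw [← this]
    congr 1
    group
  have hAdX₃ : Ad (Subgroup.centralizer (P : Set G)) X₃ := by
    intro q hq g
    rw [hX₃app, hX₃app]
    exact Finset.sum_congr rfl fun ω hω => hAdaω ω hω q hq g
  have hAdR : Ad (Subgroup.centralizer (P : Set G)) (X - X₃) := by
    intro q hq g
    simp only [Pi.sub_apply]
    rw [hAdX q hq, hAdX₃ q hq]
  have h2 : MemLocalIdeal M (bw P ξ (X - X₃)) := by
    refine om_mli (brT_isClass hAdR) (fun c => ?_) ξ
    have h3 := trace_rest_mli hMp hb hDb hDcard hQp hPp hQab hPC c.2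
    convert h3 using 1
    show X c - X₃ c = _
    rw [hX₃app, hG₃, Finset.sum_filter, hX]
    show ∑ ω : G ⧸ Subgroup.centralizer (Q : Set G), a _ - _ = _
    rw [← Finset.sum_sub_distrib]
    refine Finset.sum_congr rfl fun ω _ => ?_
    by_cases hg : GoodC Q P (Quotient.out ω)
    · rw [if_pos hg, if_pos hg]
      exact sub_self _
    · rw [if_neg hg, if_neg hg, sub_zero]
  rw [bw_sub] at h2
  have hA := card_good_not_dvd hMp hb hQp hQP hPC hmax hns
  set A := (Finset.univ.filter (fun ω : G ⧸ Subgroup.centralizer (Q : Set G) =>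
      GoodC Q P (Quotient.out ω) ∧
        IsNormalSubpair p M (cq (Quotient.out ω) Q) (conjBlock Q (Quotient.out ω) b) P e)) with hAdef
  have hAsum : (A.card : ℂ) = ∑ ω ∈ G₃, if IsNormalSubpair p M (cq (Quotient.out ω) Q) (conjBlock Q (Quotient.out ω) b) P e then (1 : ℂ) else 0 := by
    rw [Finset.sum_boole, hAdef, hG₃, Finset.filter_filter]
  have h3 : MemLocalIdeal M (bw P ξ X₃ - (A.card : ℂ)) := by
    rw [hX₃, bw_sum, hAsum, ← Finset.sum_sub_distrib]
    refine mli_sum _ _ fun ω hω => ?_
    have hgood : GoodC Q P (Quotient.out ω) := (Finset.mem_filter.mp hω).2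
    rcases good_values hMp hb ⟨hPp, he⟩ hQp hgood hξ with ⟨h4, h5⟩ | ⟨h4, h5⟩
    · rw [if_pos h5]
      exact h4
    · rw [if_neg h5, sub_zero]
      exact h4
  intro hcon
  apply not_mli_natCast_of_odd hMp hA
  have h6 := mli_sub (mli_sub (mli_add hcon h1) h2) h3
  convert h6 using 1
  ring

/-- **The relative trace of a major block idempotent is a unit.** -/
theorem trF_unit {Q : Subgroup G} (hQp : IsPGroup p Q) (hQab : Q ≤ Subgroup.centralizer (Q : Set G))
    {b : Set (IrrCharacter (Subgroup.centralizer (Q : Set G)))} {B : Set (IrrCharacter G)}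
    (hind : IsInducedBlock M (Subgroup.centralizer (Q : Set G)) b B)
    (hdef : blockDefect p b = blockDefect p B) {χ : IrrCharacter G} (hχ : χ ∈ B) :
    ¬ MemLocalIdeal M (om χ (trF (Subgroup.centralizer (Q : Set G))
        (subgroupBlockCoeff (Subgroup.centralizer (Q : Set G)) b))) := by
  classical
  have hb := hind.1
  have hB := hind.2.1
  obtain ⟨Db, hDb⟩ := isDefectGroup_exists (p := p) hb
  obtain ⟨d, hd⟩ := exists_maximal_on_defect hMp hDb hb
  have hz := zComp_cR Q Db
  have hPp : IsPGroup p (cR Q Db) := isPGroup_cR hQp (defect_isPGroup hDb)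
  have hns : IsNormalSubpair p M Q b (cR Q Db) (irrMap (zIso hz) '' d) :=
    normalSubpair_of_pair hz (fun t => (sbc_of_coe _ b t).symm) ⟨hQp, hb⟩ hPp le_sup_left
      (cR_le_normalizer Q Db) (stabilizes_cR Q Db b) hd.1
  have hpairQ : IsBrauerPairOf p M B Q b := pair_of_induced_centralizer hMp hQp hind
  have hpairP := isBrauerPairOf_of_normalSubpair hMp hns hpairQ
  obtain ⟨DB, hDB⟩ := isDefectGroup_exists (p := p) hB
  have h1 : Nat.card Db = Nat.card DB := by
    rw [card_defect hMp hb hDb, card_defect hMp hB hDB, hdef]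
  have h2 : Nat.card Db ≤ Nat.card (cR Q Db) := by
    have h3 : Db.map (Subgroup.centralizer (Q : Set G)).subtype ≤ cR Q Db := le_sup_right
    have h4 := Subgroup.card_le_of_le h3
    rwa [Subgroup.card_map_of_injective (Subgroup.subtype_injective _)] at h4
  obtain ⟨x, hx⟩ := subConj_of_pair hMp hpairP hDB
  have h3 : Nat.card (cR Q Db) ≤ Nat.card DB := by
    have h4 : (cR Q Db).map (MulAut.conj x).toMonoidHom ≤ DB := by
      rintro _ ⟨s, hs, rfl⟩
      exact hx s hs
    have h5 := Subgroup.card_le_of_le h4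
    rwa [Subgroup.card_map_of_injective (MulEquiv.injective _)] at h5
  have hcard : Nat.card (cR Q Db) = Nat.card DB := by omega
  have hPeq := map_conj_eq_of_card hx hcard
  have hPD : IsDefectGroup p M B (cR Q Db) := by
    have h4 := isDefectGroup_cq x⁻¹ hDB
    have h5 : cq x⁻¹ DB = cR Q Db := by
      rw [← hPeq, cq_mul, inv_mul_cancel, cq_one]
    rwa [h5] at h4
  have hmax := maximal_of_defect hMp hpairP hPD
  have hPC : cR Q Db ≤ Subgroup.centralizer (Q : Set G) :=
    sup_le hQab (Subgroup.map_subtype_le _)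
  exact trF_unit_of_pair hMp hb hDb (h1.trans hcard.symm) hQp hQab le_sup_left hPC hmax hns hχ

end Main

end Cfsg.Agent.H22
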