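import Cfsg.Agent.Lib.H22.HtBdD
import Cfsg.Agent.Lib.H22.ZTransfer
import Cfsg.Agent.Lib.H22.FreeAction
import Cfsg.Agent.Lib.H22.Frobenius
import Cfsg.Agent.Lib.H22.CentralRank
import Cfsg.Agent.Lib.H22.TCase

/-!
# Nilpotent blocks with abelian defect groups have `p`-regular rank one
-/

set_option autoImplicit false
set_option linter.unusedSectionVars false
set_option linter.style.haveILetI false
set_option linter.unusedSimpArgs false
set_option linter.unusedVariables false

namespace Cfsg.Agent.H22

open Cfsg Cfsg.Agent.H21 Module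
open scoped ComplexConjugate

universe u

section

variable {K : Type u} [Group K] [Finite K] {p : ℕ} [hp : Fact p.Prime] {M : Ideal AlgInt}
  [hMp : M.IsPrime]

theorem blockRank_pos_NA {b : Set (IrrCharacter K)} (hb : IsPBlock M b) : 0 < blockRank p b := by
  classical
  obtain ⟨ξ, rfl⟩ := hb
  rw [Nat.pos_iff_ne_zero]
  intro h
  unfold blockRank at h
  rw [Submodule.finrank_eq_zero] at h
  have h1 : pRegularPart p ξ.1 ∈ Submodule.span ℂ
      ((fun χ : IrrCharacter K => pRegularPart p (χ : K → ℂ)) '' blockOf M ξ.1) :=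
    Submodule.subset_span ⟨ξ, self_mem_blockOf ξ, rfl⟩
  rw [h] at h1
  have h2 : pRegularPart p ξ.1 = 0 := (Submodule.mem_bot ℂ).mp h1
  have h3 := congrFun h2 1
  have hone : ¬ p ∣ orderOf (1 : K) := by
    rw [orderOf_one]
    exact hp.out.one_lt.ne' ∘ Nat.dvd_one.mp
  rw [pRegularPart_of_regular p _ hone] at h3
  have h4 : ξ.1 1 = (charDegree ξ.1 : ℂ) := irr_one_eq ξ
  have h5 := irr_charDegree_pos ξ.2
  rw [h4] at h3
  have h6 : (charDegree ξ.1 : ℂ) ≠ 0 := Nat.cast_ne_zero.mpr h5.ne'
  exact h6 h3

end

section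

variable {G : Type u} [Group G] [Finite G] {p : ℕ} [hp : Fact p.Prime] {M : Ideal AlgInt}

/-- The local situation below a maximal pair with abelian defect group, for a given subpair. -/
theorem local_setup_of_le (hM : IsPModular p M) {B : Set (IrrCharacter G)} {P Q : Subgroup G}
    {c : Set (IrrCharacter (Subgroup.centralizer (P : Set G)))}
    {f : Set (IrrCharacter (Subgroup.centralizer (Q : Set G)))}
    (hmax : IsMaximalBrauerPair p M B P c) (hab : ∀ x ∈ P, ∀ y ∈ P, x * y = y * x)
    (hle : SubpairLE p M Q f P c)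
    (hz : ZComp (Subgroup.centralizer (Q : Set G))
      (P.subgroupOf (Subgroup.centralizer (Q : Set G))) P) :
    IsMaximalBrauerPair p M f (P.subgroupOf (Subgroup.centralizer (Q : Set G)))
        (irrMap (zIso hz).symm '' c) ∧
      IsInducedBlockIn M (Subgroup.centralizer (Q : Set G)) (Subgroup.centralizer (P : Set G)) c f := by
  classical
  haveI : M.IsPrime := hM.2.1.isPrime
  have hPe := (isBrauerPairOf_iff.mp hmax.1).1
  have hQP := subpairLE_le hle
  have hPH := le_centralizer_of_abelian hab hQP
  have hf : IsBrauerPair p M Q f := brauerPair_of_chain hle hPe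
  have hN : P ≤ Subgroup.normalizer (Q : Set G) := hPH.trans (Subgroup.centralizer_le_normalizer _)
  have hsub := normalSubpair_of_subpairLE hM hPe hQP hN hle
  have hF : ∀ t : Subgroup.centralizer (Q : Set G),
      blockCoeff f t = subgroupBlockCoeff (Subgroup.centralizer (Q : Set G)) f (t : G) := by
    intro t
    rw [subgroupBlockCoeff_eq_extK, extK_coe]
  have hmaxH := maximal_in_H hM le_rfl hF hf.2 hQP hPH hz hmax hsub
  refine ⟨hmaxH, hPe.2, hf.2, fun ξ hξ χ hχ h => ?_⟩
  have hind := induced_of_pair hM hmaxH.1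
  have h1 := hind.2.2 _ (Set.mem_image_of_mem _ hξ) χ hχ h
  have h2 := inducedIn_eq (zIso hz) (fun k' => rfl) ξ.1 h
  have h3 : (ξ.1 ∘ zIso hz) = (irrMap (zIso hz).symm ξ).1 := rfl
  rw [h2, h3]
  exact h1

/-- The subsections of a block with abelian defect group and trivial inertial quotient. -/
theorem exists_subsection_data (hM : IsPModular p M) {B : Set (IrrCharacter G)} (hB : IsPBlock M B)
    {D : Subgroup G} {e : Set (IrrCharacter (Subgroup.centralizer (D : Set G)))}
    (hmax : IsMaximalBrauerPair p M B D e) (hab : ∀ x ∈ D, ∀ y ∈ D, x * y = y * x)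
    (hTC : ∀ x ∈ Subgroup.normalizer (D : Set G),
      StabilizesBlock (Subgroup.centralizer (D : Set G)) e x → x ∈ Subgroup.centralizer (D : Set G))
    (X : Finset G)
    (hXrep : ∀ g : G, (∃ k : ℕ, orderOf g = p ^ k) → ∃! x, x ∈ X ∧ IsConj g x) :
    ∃ w : D → (Σ x : G, Set (IrrCharacter (Subgroup.centralizer ({x} : Set G)))),
      Function.Injective w ∧ ∀ v : D, (w v).1 ∈ X ∧ IsConj (v : G) (w v).1 ∧
        IsInducedBlock M (Subgroup.centralizer ({(w v).1} : Set G)) (w v).2 B ∧
        blockDefect p (w v).2 = blockDefect p B := by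
  classical
  haveI : M.IsPrime := hM.2.1.isPrime
  have hDp : IsPGroup p D := (isBrauerPairOf_iff.mp hmax.1).1.1
  have hex : ∀ v : D, ∃ a : (Σ x : G, Set (IrrCharacter (Subgroup.centralizer ({x} : Set G)))),
      a.1 ∈ X ∧ IsConj (v : G) a.1 ∧ IsInducedBlock M (Subgroup.centralizer ({a.1} : Set G)) a.2 B ∧
        RelS p M D e a.1 a.2 v := by
    intro v
    obtain ⟨k, hk⟩ := (IsPGroup.iff_orderOf.mp hDp) v
    obtain ⟨x, ⟨hxX, hxc⟩, -⟩ := hXrep (v : G) ⟨k, by rw [← hk, Subgroup.orderOf_coe]⟩
    obtain ⟨g, hg⟩ := isConj_iff.mp hxc.symm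
    obtain ⟨b, hb, hR⟩ := relS_of_conj hM hmax v.2 hg
    exact ⟨⟨x, b⟩, hxX, hxc, hb, hR⟩
  choose w hw1 hw2 hw3 hw4 using hex
  refine ⟨w, ?_, fun v => ⟨hw1 v, hw2 v, hw3 v, ?_⟩⟩
  · intro v v' h
    have h1 := hw4 v
    have h2 := hw4 v'
    rw [← h] at h2
    obtain ⟨τ, ⟨hτ1, hτ2⟩, hτ⟩ := relS_T_cent hM hmax (fun y hy => hab y hy v v.2)
      (fun y hy => hab y hy v' v'.2) h1 h2
    have hτC := hTC τ hτ1 hτ2
    have h3 := Subgroup.mem_centralizer_iff.mp hτC v v.2
    apply Subtype.ext
    rw [← hτ, ← h3]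
    group
  · exact relS_defect_cent hM hmax (fun y hy => hab y hy v v.2) (hw4 v)

/-- Nilpotent blocks with abelian defect groups have `p`-regular rank one. -/
theorem rank_one_of_nilpotent_abelian (hM : IsPModular p M) (n : ℕ) :
    ∀ (G : Type u) [Group G] [Finite G], Nat.card G ≤ n → ∀ B : Set (IrrCharacter G), IsPBlock M B →
      ∀ D : Subgroup G, IsDefectGroup p M B D → (∀ x ∈ D, ∀ y ∈ D, x * y = y * x) →
        IsNilpotentBlock p M B → blockRank p B = 1 := by
  induction n with
  | zero =>
    intro G _ _ h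
    have := Nat.card_pos (α := G)
    omega
  | succ n ih =>
    intro G _ _ hn B hB D hD hab hnil
    classical
    haveI : M.IsPrime := hM.2.1.isPrime
    have hDp := defect_isPGroup hD
    by_cases hc : ∀ z ∈ D, ∀ g : G, z * g = g * z
    · haveI : D.Normal := ⟨fun z hz g => by
        have := hc z hz g
        have h2 : g * z * g⁻¹ = z := by
          rw [← this]
          group
        rwa [h2]⟩
      exact blockRank_central hM D hc hDp hB hD
    · push Not at hc
      obtain ⟨u, huD, g₀, hg₀⟩ := hc
      obtain ⟨e, hmax⟩ := exists_maximal_on_defect hM hD hB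
      have hTC := (nilpotent_iff_abelian hM hmax hab).mp hnil
      have hc' := induced_of_brauerPairOf hM hmax.1
      have hT : ∀ g : G, g ∈ stabN D e ↔ (g ∈ Subgroup.normalizer (D : Set G) ∧
          StabilizesBlock (Subgroup.centralizer (D : Set G)) e g) := fun g => mem_stabN g
      have hfree : ∀ g ∈ stabN D e, ∀ x ∈ D, x ≠ 1 → g * x * g⁻¹ = x →
          g ∈ Subgroup.centralizer (D : Set G) :=
        fun g hg _ _ _ _ => hTC g ((hT g).mp hg).1 ((hT g).mp hg).2
      have hnilloc := (free_iff_nilpotent hM hD hab hc' hT).mp hfree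
      -- the section of `u`
      obtain ⟨b, hind, hS⟩ := relS_of_conj hM hmax huD (g := 1) (x := u) (by simp)
      have hdef := relS_defect_cent hM hmax (fun y hy => hab y hy u huD) hS
      obtain ⟨g', hg', hch⟩ := hS
      have hg'C : g' ∈ Subgroup.centralizer ({u} : Set G) := by
        rw [Subgroup.mem_centralizer_singleton_iff]
        calc g' * u = (g' * u * g'⁻¹) * g' := by group
          _ = u * g' := by rw [hg']
      rw [cp_pairOf_fixed hg'C] at hch
      have hle : SubpairLE p M (pairOf u b).1 (pairOf u b).2 D e := hch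
      have hQD : (pairOf u b).1 ≤ D := subpairLE_le hle
      have hu1 : u ≠ 1 := by
        rintro rfl
        exact hg₀ (by simp)
      have hQ1 : (pairOf u b).1 ≠ ⊥ := by
        show Subgroup.zpowers u ≠ ⊥
        simpa using hu1
      have hDC := le_centralizer_of_abelian hab hQD
      have hz := zComp_sub le_rfl hQD hDC
      obtain ⟨hmaxH, hIn⟩ := local_setup_of_le hM hmax hab hle hz
      have hfn := hnilloc _ hQD hQ1 _ hIn
      have hDf := isDefectGroup_of_maximal hM hmaxH
      have hcardC : Nat.card (Subgroup.centralizer (((pairOf u b).1 : Subgroup G) : Set G)) ≤ n := by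
        have hne : Subgroup.centralizer (((pairOf u b).1 : Subgroup G) : Set G) ≠ ⊤ := by
          intro htop
          have h1 : g₀ ∈ Subgroup.centralizer (((pairOf u b).1 : Subgroup G) : Set G) := by
            rw [htop]
            exact Subgroup.mem_top _
          have h2 := Subgroup.mem_centralizer_iff.mp h1 u (Subgroup.mem_zpowers u)
          exact hg₀ h2
        have h3 : Nat.card (Subgroup.centralizer (((pairOf u b).1 : Subgroup G) : Set G)) < Nat.card G := by
          by_contra hcon
          exact hne (Subgroup.eq_top_of_le_card _ (not_lt.mp hcon))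
        omega
      have habH : ∀ a ∈ D.subgroupOf (Subgroup.centralizer (((pairOf u b).1 : Subgroup G) : Set G)),
          ∀ b' ∈ D.subgroupOf (Subgroup.centralizer (((pairOf u b).1 : Subgroup G) : Set G)),
            a * b' = b' * a := by
        intro a ha b' hb'
        apply Subtype.ext
        exact hab _ (Subgroup.mem_subgroupOf.mp ha) _ (Subgroup.mem_subgroupOf.mp hb')
      have hrankf := ih _ hcardC _ hIn.2.1 _ hDf habH hfn
      have hrankb : blockRank p b = 1 := by
        have h1 : blockRank p (pairOf u b).2 = blockRank p b := trB_rank _ b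
        rw [← h1]
        exact hrankf
      -- the subsections
      obtain ⟨X, hX, hXrep⟩ := exists_reps (G := G) p
      obtain ⟨w, hwinj, hw⟩ := exists_subsection_data hM hB hmax hab hTC X hXrep
      set R : Finset (Σ x : G, Set (IrrCharacter (Subgroup.centralizer ({x} : Set G)))) :=
        Finset.univ.image w with hRdef
      have hRcard : R.card = Nat.card D := by
        rw [hRdef, Finset.card_image_of_injective _ hwinj, Finset.card_univ, Nat.card_eq_fintype_card]
      have hR : ∀ a ∈ R, a.1 ∈ X ∧ IsInducedBlock M (Subgroup.centralizer ({a.1} : Set G)) a.2 B ∧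
          blockDefect p a.2 = blockDefect p B := by
        intro a ha
        obtain ⟨v, -, rfl⟩ := Finset.mem_image.mp ha
        exact ⟨(hw v).1, (hw v).2.2.1, (hw v).2.2.2⟩
      have hcardD := card_defect hM hB hD
      have hheight : ∀ χ ∈ B, (charDegree χ.1).factorization p = minExp p B := by
        intro χ hχ
        have hle' := card_subsections_le hM hB X hX hXrep R hR hχ
        rw [hRcard, hcardD] at hle'
        have h2 := (Nat.pow_le_pow_iff_right hp.out.one_lt).mp hle'
        have hd' := blockDefect_eq p B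
        have hef : minExp p B ≤ (charDegree χ.1).factorization p := minExp_le hχ
        have hfa : (charDegree χ.1).factorization p ≤ (Nat.card G).factorization p := by
          have hdvd : charDegree χ.1 ∣ Nat.card G := charDegree_dvd_card χ
          exact (Nat.factorization_le_iff_dvd (irr_charDegree_pos χ.2).ne' Nat.card_pos.ne').mpr hdvd p
        omega
      obtain ⟨ku, hku⟩ : ∃ k, orderOf u = p ^ k := by
        obtain ⟨k, hk⟩ := (IsPGroup.iff_orderOf.mp hDp) ⟨u, huD⟩
        exact ⟨k, by rw [← hk, Subgroup.orderOf_mk]⟩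
      have hbound := major_bound hM hku hind hdef hheight
      rw [hrankb, mul_one, hdef, ← hcardD] at hbound
      have hupper : Nat.card B ≤ Nat.card D := (Nat.pow_le_pow_iff_left (by norm_num)).mp hbound
      -- the count
      have hcount := card_block_eq hM hB X hX hXrep
      have h1X : (1 : G) ∈ X := by
        obtain ⟨x, ⟨hx, hxc⟩, -⟩ := hXrep 1 ⟨0, by simp⟩
        have : x = 1 := isConj_one_right.mp hxc
        rwa [this] at hx
      rw [← Finset.add_sum_erase _ _ h1X, sum_indBlocks_one hB] at hcount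
      set Sg : Finset (Σ x : G, Set (IrrCharacter (Subgroup.centralizer ({x} : Set G)))) :=
        (X.erase 1).sigma (fun x => indBlocks M x B) with hSg
      have hsum : Sg.card ≤ ∑ x ∈ X.erase 1, ∑ b ∈ indBlocks M x B, blockRank p b := by
        rw [hSg, Finset.card_sigma]
        refine Finset.sum_le_sum fun x hx => ?_
        rw [Finset.card_eq_sum_ones]
        refine Finset.sum_le_sum fun b' hb' => ?_
        exact blockRank_pos_NA (mem_indBlocks'.mp hb').1
      have hSgcard : Nat.card D - 1 ≤ Sg.card := by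
        have hsub : (Finset.univ.erase (1 : D)).image w ⊆ Sg := by
          intro a ha
          obtain ⟨v, hv, rfl⟩ := Finset.mem_image.mp ha
          have hv1 : v ≠ 1 := (Finset.mem_erase.mp hv).1
          obtain ⟨h1, h2, h3, -⟩ := hw v
          refine Finset.mem_sigma.mpr ⟨Finset.mem_erase.mpr ⟨?_, h1⟩, mem_indBlocks'.mpr h3⟩
          intro hone
          rw [hone] at h2
          exact hv1 (Subtype.ext (isConj_one_right.mp h2.symm))
        have h4 := Finset.card_le_card hsub
        rw [Finset.card_image_of_injective _ hwinj, Finset.card_erase_of_mem (Finset.mem_univ _),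
          Finset.card_univ, ← Nat.card_eq_fintype_card] at h4
        exact h4
      have hpos := blockRank_pos_NA (p := p) hB
      have hDpos : 0 < Nat.card D := Nat.card_pos
      omega

end

end Cfsg.Agent.H22

namespace Cfsg.Agent.H22

open Cfsg Cfsg.Agent.H21 Module

universe u

section

variable {G : Type u} [Group G] [Finite G]

/-- Elements of a cyclic subgroup commute. -/
theorem mul_comm' {P : Subgroup G} (hcyc : IsCyclic P) (x : G) (hx : x ∈ P) (y : G) (hy : y ∈ P) :
    x * y = y * x := by
  obtain ⟨g, hg⟩ := hcyc.exists_generator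
  obtain ⟨i, hi⟩ := Subgroup.mem_zpowers_iff.mp (hg ⟨x, hx⟩)
  obtain ⟨j, hj⟩ := Subgroup.mem_zpowers_iff.mp (hg ⟨y, hy⟩)
  have hx' : x = (g : G) ^ i := by
    have := congrArg Subtype.val hi
    simpa using this.symm
  have hy' : y = (g : G) ^ j := by
    have := congrArg Subtype.val hj
    simpa using this.symm
  rw [hx', hy']
  exact ((Commute.refl (g : G)).zpow_zpow i j).eq

/-- A subgroup of a cyclic subgroup is normalized by the normalizer. -/
theorem cyc_le_normalizer {P Q T : Subgroup G} (hcyc : IsCyclic P) (hQP : Q ≤ P)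
    (hTN : T ≤ Subgroup.normalizer (P : Set G)) : T ≤ Subgroup.normalizer (Q : Set G) := by
  classical
  obtain ⟨g, hg⟩ := hcyc.exists_generator
  have hform : ∀ x ∈ P, ∃ i : ℤ, x = (g : G) ^ i := by
    intro x hx
    obtain ⟨i, hi⟩ := Subgroup.mem_zpowers_iff.mp (hg ⟨x, hx⟩)
    refine ⟨i, ?_⟩
    have := congrArg Subtype.val hi
    simpa using this.symm
  have key : ∀ t ∈ T, ∀ q ∈ Q, t * q * t⁻¹ ∈ Q := by
    intro t ht q hq
    have h1 : t * (g : G) * t⁻¹ ∈ P := (Subgroup.mem_normalizer_iff.mp (hTN ht) _).mp g.2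
    obtain ⟨k, hk⟩ := hform _ h1
    obtain ⟨i, hi⟩ := hform q (hQP hq)
    have h2 : t * q * t⁻¹ = q ^ k := by
      rw [hi]
      have h3 : t * ((g : G) ^ i) * t⁻¹ = (t * (g : G) * t⁻¹) ^ i := by
        rw [conj_zpow]
      rw [h3, hk, ← zpow_mul, ← zpow_mul, mul_comm]
    rw [h2]
    exact Subgroup.zpow_mem _ hq _
  intro t ht
  rw [Subgroup.mem_normalizer_iff]
  intro h
  refine ⟨key t ht h, fun h1 => ?_⟩
  have h2 := key t⁻¹ (T.inv_mem ht) _ h1
  have h3 : t⁻¹ * (t * h * t⁻¹) * t⁻¹⁻¹ = h := by group
  rwa [h3] at h2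

end

end Cfsg.Agent.H22
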