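import Cfsg.Agent.Lib.H22.BrauerCorr

/-! # Nilpotent blocks and normal subgroups of `p`-power index -/

set_option autoImplicit false
set_option linter.unusedSectionVars false
set_option linter.style.haveILetI false
set_option linter.unusedSimpArgs false

namespace Cfsg.Agent.H22

open Cfsg Cfsg.Agent.H21 Module
open scoped ComplexConjugate

universe u

section Main

variable {G : Type u} [Group G] [Finite G] {p : ℕ} [hp : Fact p.Prime] {M : Ideal AlgInt}

/-- The normal subgroup `N ∩ C(Q)` inside `C(Q)`. -/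
abbrev LQ (N Q : Subgroup G) : Subgroup (Subgroup.centralizer (Q : Set G)) :=
  N.subgroupOf (Subgroup.centralizer (Q : Set G))

/-- Elements of `N` centralizing `Q ≤ N` are the same in both groups. -/
def psiIso (N Q : Subgroup G) (hQ : Q ≤ N) :
    LQ N Q ≃* Subgroup.centralizer ((Q.subgroupOf N : Subgroup N) : Set N) where
  toFun l := ⟨⟨l.1.1, l.2⟩, by
    rw [Subgroup.mem_centralizer_iff]
    intro q hq
    apply Subtype.ext
    exact Subgroup.mem_centralizer_iff.mp l.1.2 q hq⟩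
  invFun n := ⟨⟨n.1.1, by
    rw [Subgroup.mem_centralizer_iff]
    intro q hq
    have := Subgroup.mem_centralizer_iff.mp n.2 ⟨q, hQ hq⟩ hq
    exact congrArg Subtype.val this⟩, n.1.2⟩
  left_inv _ := rfl
  right_inv _ := rfl
  map_mul' _ _ := rfl

/-- Truncations of a block idempotent of `G` and of the block of `N`. -/
theorem bw_of_constituent {N Q : Subgroup G} [N.Normal] (hQ : Q ≤ N) {B : Set (IrrCharacter G)}
    {c : Set (IrrCharacter N)} (hBc : ∀ g, blockCoeff B g = subgroupBlockCoeff N c g)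
    (ξ : IrrCharacter (Subgroup.centralizer (Q : Set G))) (θ : IrrCharacter (LQ N Q))
    (hne : ∑ n : LQ N Q, conj (θ.1 n) * ξ.1 n ≠ 0) :
    bw Q ξ (blockCoeff B) = bw (Q.subgroupOf N) (irrMap (psiIso N Q hQ) θ) (blockCoeff c) := by
  classical
  let z : LQ N Q → ℂ := fun l => blockCoeff c ⟨l.1.1, l.2⟩
  have h1 : brT Q (blockCoeff B) = extK (LQ N Q) z := by
    funext k
    show blockCoeff B k = _
    rw [hBc, subgroupBlockCoeff_eq_extK]
    by_cases hk : (k : G) ∈ N
    · rw [extK_of_mem _ _ hk, extK_of_mem (LQ N Q) z (Subgroup.mem_subgroupOf.mpr hk)]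
    · rw [extK_of_not_mem _ _ hk,
        extK_of_not_mem (LQ N Q) z (fun h => hk (Subgroup.mem_subgroupOf.mp h))]
  have hcl : IsClassFunction (Subgroup.centralizer (Q : Set G)) (extK (LQ N Q) z) := by
    rw [← h1]
    exact brT_isClass (fun q _ g => blockCoeff_isClass B g q)
  unfold bw
  rw [h1, om_restrict ξ θ hne z hcl, om_irrMap]
  rfl

/-- Conjugation on `N ∩ C(Q)` by an element normalizing `Q`. -/
def sigmaL (N Q : Subgroup G) [hN : N.Normal] (a : G) (ha : a ∈ Subgroup.normalizer (Q : Set G)) :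
    LQ N Q ≃* LQ N Q :=
  have hK := normalizer_le_normalizer_centralizer Q ha
  { toFun := fun l => ⟨⟨a * l.1.1 * a⁻¹, (normalizer_iff_of_mem hK _).mp l.1.2⟩,
      hN.conj_mem _ l.2 a⟩
    invFun := fun l => ⟨⟨a⁻¹ * l.1.1 * a, by
        have := (normalizer_iff_of_mem hK (a⁻¹ * l.1.1 * a)).mpr (by
          have h : a * (a⁻¹ * l.1.1 * a) * a⁻¹ = l.1.1 := by group
          rw [h]
          exact l.1.2)
        exact this⟩,
      by
        refine Subgroup.mem_subgroupOf.mpr ?_
        have := hN.conj_mem _ (Subgroup.mem_subgroupOf.mp l.2) a⁻¹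
        simpa using this⟩
    left_inv := fun l => by
      apply Subtype.ext
      apply Subtype.ext
      simp [mul_assoc]
    right_inv := fun l => by
      apply Subtype.ext
      apply Subtype.ext
      simp [mul_assoc]
    map_mul' := fun l l' => by
      apply Subtype.ext
      apply Subtype.ext
      simp [mul_assoc] }

theorem sigmaL_coe {N Q : Subgroup G} [N.Normal] (a : G) (ha : a ∈ Subgroup.normalizer (Q : Set G))
    (l : LQ N Q) : ((sigmaL N Q a ha l).1 : G) = a * l.1.1 * a⁻¹ := rfl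

theorem sigmaL_mul {N Q : Subgroup G} [N.Normal] {a b : G} (ha : a ∈ Subgroup.normalizer (Q : Set G))
    (hb : b ∈ Subgroup.normalizer (Q : Set G)) (hab : a * b ∈ Subgroup.normalizer (Q : Set G)) :
    sigmaL N Q (a * b) hab = (sigmaL N Q b hb).trans (sigmaL N Q a ha) := by
  apply MulEquiv.ext
  intro l
  apply Subtype.ext
  apply Subtype.ext
  show a * b * l.1.1 * (a * b)⁻¹ = a * (b * l.1.1 * b⁻¹) * a⁻¹
  group

theorem sigmaL_pow_image {N Q : Subgroup G} [N.Normal] {a : G}
    (ha : a ∈ Subgroup.normalizer (Q : Set G)) {f : Set (IrrCharacter (LQ N Q))}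
    (hf : irrMap (sigmaL N Q a ha) '' f = f) (m : ℕ) :
    irrMap (sigmaL N Q (a ^ m) (pow_mem ha m)) '' f = f := by
  induction m with
  | zero =>
    have : sigmaL N Q (a ^ 0) (pow_mem ha 0) = MulEquiv.refl _ := by
      apply MulEquiv.ext
      intro l
      apply Subtype.ext
      apply Subtype.ext
      simp [sigmaL_coe]
    rw [this]
    ext χ
    simp [irrMap_refl]
  | succ m ih =>
    have h1 := sigmaL_mul (N := N) (pow_mem ha m) ha (pow_mem ha (m + 1) |> fun h => by
      rwa [pow_succ] at h)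
    have h2 : sigmaL N Q (a ^ (m + 1)) (pow_mem ha (m + 1)) =
        (sigmaL N Q a ha).trans (sigmaL N Q (a ^ m) (pow_mem ha m)) := by
      rw [← h1]
      congr 1
      exact pow_succ a m
    rw [h2]
    have h3 : irrMap ((sigmaL N Q a ha).trans (sigmaL N Q (a ^ m) (pow_mem ha m))) '' f =
        irrMap (sigmaL N Q (a ^ m) (pow_mem ha m)) '' (irrMap (sigmaL N Q a ha) '' f) := by
      rw [Set.image_image]
      rfl
    rw [h3, hf, ih]

/-- Conjugation of a constituent. -/
theorem sum_conj_sigmaL {N Q : Subgroup G} [N.Normal] {a : G}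
    (ha : a ∈ Subgroup.normalizer (Q : Set G))
    (ξ : IrrCharacter (Subgroup.centralizer (Q : Set G))) (θ : IrrCharacter (LQ N Q)) :
    ∑ n : LQ N Q, conj ((irrMap (sigmaL N Q a ha) θ).1 n) *
        (irrMap (phiK _ (normalizer_le_normalizer_centralizer Q ha)) ξ).1 n =
      ∑ n : LQ N Q, conj (θ.1 n) * ξ.1 n := by
  classical
  rw [← Equiv.sum_comp (sigmaL N Q a ha).toEquiv]
  refine Finset.sum_congr rfl fun l _ => ?_
  show conj ((irrMap (sigmaL N Q a ha) θ).1 (sigmaL N Q a ha l)) *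
    (irrMap (phiK _ (normalizer_le_normalizer_centralizer Q ha)) ξ).1 (sigmaL N Q a ha l) = _
  rw [irrMap_apply']
  congr 1
  rw [irrMap_apply]
  refine congrArg ξ.1 (Subtype.ext ?_)
  show a⁻¹ * (a * l.1.1 * a⁻¹) * a = l.1.1
  group

theorem conjIrr_eq_sigmaL {N Q : Subgroup G} [N.Normal] (t : Subgroup.centralizer (Q : Set G))
    (ψ : IrrCharacter (LQ N Q)) :
    conjIrr (LQ N Q) t ψ = irrMap (sigmaL N Q ((t : G)⁻¹)
      (Subgroup.inv_mem _ (Subgroup.centralizer_le_normalizer _ t.2))) ψ := by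
  apply Subtype.ext
  funext n
  rw [conjIrr_apply, irrMap_apply]
  refine congrArg ψ.1 (Subtype.ext (Subtype.ext ?_))
  show (t : G) * n.1.1 * (t : G)⁻¹ = (t : G)⁻¹⁻¹ * n.1.1 * (t : G)⁻¹
  simp

/-- Index of `N ∩ C(Q)` in `C(Q)`. -/
theorem index_LQ (N Q : Subgroup G) [N.Normal] (hidx : ∃ k : ℕ, N.index = p ^ k) :
    ∃ k : ℕ, (LQ N Q).index = p ^ k := by
  obtain ⟨k, hk⟩ := hidx
  have h1 : (LQ N Q).index ∣ N.index := Subgroup.relIndex_dvd_index_of_normal _ _
  rw [hk] at h1
  obtain ⟨j, -, hj⟩ := (Nat.dvd_prime_pow hp.out).mp h1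
  exact ⟨j, hj⟩

/-- `Q.subgroupOf N` is normalized by elements of `N` normalizing `Q`. -/
theorem normalizer_subgroupOf {N Q : Subgroup G} {y : N}
    (hy : (y : G) ∈ Subgroup.normalizer (Q : Set G)) :
    y ∈ Subgroup.normalizer ((Q.subgroupOf N : Subgroup N) : Set N) := by
  rw [Subgroup.mem_normalizer_iff]
  intro n
  have := Subgroup.mem_normalizer_iff.mp hy (n : G)
  simpa [Subgroup.mem_subgroupOf] using this

theorem normalizer_of_subgroupOf {N Q : Subgroup G} (hQ : Q ≤ N) {y : N}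
    (hy : y ∈ Subgroup.normalizer ((Q.subgroupOf N : Subgroup N) : Set N)) :
    (y : G) ∈ Subgroup.normalizer (Q : Set G) := by
  rw [Subgroup.mem_normalizer_iff]
  intro n
  constructor
  · intro hn
    have hnN := hQ hn
    have := (Subgroup.mem_normalizer_iff.mp hy ⟨n, hnN⟩).mp (by simpa [Subgroup.mem_subgroupOf] using hn)
    simpa [Subgroup.mem_subgroupOf] using this
  · intro hn
    have hnN : n ∈ N := by
      have h1 := hQ hn
      have := N.mul_mem (N.mul_mem (N.inv_mem y.2) h1) y.2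
      simpa [mul_assoc] using this
    have := (Subgroup.mem_normalizer_iff.mp hy ⟨n, hnN⟩).mpr (by simpa [Subgroup.mem_subgroupOf] using hn)
    simpa [Subgroup.mem_subgroupOf] using this

/-- Comparison of the two conjugations. -/
theorem psi_phiK {N Q : Subgroup G} [N.Normal] (hQ : Q ≤ N) {y : N}
    (hy : y ∈ Subgroup.normalizer ((Q.subgroupOf N : Subgroup N) : Set N))
    (hy' : (y : G) ∈ Subgroup.normalizer (Q : Set G)) :
    (psiIso N Q hQ).trans (phiK _ (normalizer_le_normalizer_centralizer _ hy)) =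
      (sigmaL N Q y hy').trans (psiIso N Q hQ) := by
  apply MulEquiv.ext
  intro l
  apply Subtype.ext
  apply Subtype.ext
  rfl

/-- An element normalizing `Q` and stabilizing `f` also stabilizes its transport. -/
theorem stable_transport {N Q : Subgroup G} [N.Normal] (hQ : Q ≤ N) {y : N}
    (hy : y ∈ Subgroup.normalizer ((Q.subgroupOf N : Subgroup N) : Set N))
    (hy' : (y : G) ∈ Subgroup.normalizer (Q : Set G))
    (f : Set (IrrCharacter (LQ N Q))) :
    irrMap (phiK _ (normalizer_le_normalizer_centralizer _ hy)) '' (irrMap (psiIso N Q hQ) '' f) =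
      irrMap (psiIso N Q hQ) '' (irrMap (sigmaL N Q y hy') '' f) := by
  rw [Set.image_image, Set.image_image]
  refine Set.image_congr fun χ _ => ?_
  show irrMap ((psiIso N Q hQ).trans (phiK _ (normalizer_le_normalizer_centralizer _ hy))) χ =
    irrMap ((sigmaL N Q y hy').trans (psiIso N Q hQ)) χ
  rw [psi_phiK hQ hy hy']

/-- Regular elements normalizing `Q` and centralizing `Q ∩ N` centralize `Q`. -/
theorem centralizer_of_regular {N Q : Subgroup G} [hN : N.Normal] (hQp : IsPGroup p Q) {x : G}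
    (hxN : x ∈ N) (hxQ : x ∈ Subgroup.normalizer (Q : Set G)) (hreg : ¬ p ∣ orderOf x)
    (hc : x ∈ Subgroup.centralizer ((Q ⊓ N : Subgroup G) : Set G)) :
    x ∈ Subgroup.centralizer (Q : Set G) := by
  rw [Subgroup.mem_centralizer_iff]
  intro q hq
  have hq : q ∈ Q := hq
  set w : G := x * q * x⁻¹ * q⁻¹ with hw
  have hxq : x * q * x⁻¹ ∈ Q := (normalizer_iff_of_mem hxQ q).mp hq
  have hwQ : w ∈ Q := Q.mul_mem hxq (Q.inv_mem hq)
  have hwN : w ∈ N := by
    have h1 : w = x * (q * x⁻¹ * q⁻¹) := by rw [hw]; group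
    rw [h1]
    exact N.mul_mem hxN (hN.conj_mem _ (N.inv_mem hxN) q)
  have hwc : x * w = w * x := by
    have := Subgroup.mem_centralizer_iff.mp hc w ⟨hwQ, hwN⟩
    exact this.symm
  have hstep : ∀ i : ℕ, x ^ i * q * (x ^ i)⁻¹ = w ^ i * q := by
    intro i
    induction i with
    | zero => simp
    | succ i ih =>
      have h2 : x ^ (i + 1) * q * (x ^ (i + 1))⁻¹ = x * (x ^ i * q * (x ^ i)⁻¹) * x⁻¹ := by
        rw [pow_succ']
        group
      rw [h2, ih]
      have h3 : x * (w ^ i * q) * x⁻¹ = w ^ i * (x * q * x⁻¹) := by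
        have h4 : x * w ^ i = w ^ i * x := (Commute.pow_right hwc i)
        calc x * (w ^ i * q) * x⁻¹ = (x * w ^ i) * q * x⁻¹ := by group
          _ = w ^ i * x * q * x⁻¹ := by rw [h4]
          _ = _ := by group
      rw [h3]
      have h5 : x * q * x⁻¹ = w * q := by rw [hw]; group
      rw [h5, pow_succ]
      group
  have h6 := hstep (orderOf x)
  rw [pow_orderOf_eq_one] at h6
  have h7 : w ^ orderOf x = 1 := by
    have : q = w ^ orderOf x * q := by simpa using h6
    exact (mul_eq_right).mp this.symm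
  obtain ⟨k, hk⟩ := hQp ⟨w, hwQ⟩
  have hk' : w ^ p ^ k = 1 := by
    have := congrArg Subtype.val hk
    simpa using this
  have h8 : w = 1 := by
    have h9 : orderOf w ∣ p ^ k := orderOf_dvd_of_pow_eq_one hk'
    have h10 : orderOf w ∣ orderOf x := orderOf_dvd_of_pow_eq_one h7
    have h11 : Nat.Coprime (p ^ k) (orderOf x) :=
      Nat.Coprime.pow_left _ ((Nat.Prime.coprime_iff_not_dvd hp.out).mpr hreg)
    have h12 := Nat.eq_one_of_dvd_coprimes h11 h9 h10
    exact orderOf_eq_one_iff.mp h12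
  have h13 : x * q * x⁻¹ * q⁻¹ = 1 := h8
  have h14 : x * q = q * x := by
    have h15 : x * q * x⁻¹ = q := by
      have := mul_inv_eq_one.mp h13
      exact this
    calc x * q = x * q * x⁻¹ * x := by group
      _ = q * x := by rw [h15]
  exact h14.symm

/-- The key step: if `c` is nilpotent, stabilizers act trivially on `Q ≤ N`. -/
theorem nilp_key (hM : IsPModular p M) {N : Subgroup G} [N.Normal] (hidx : ∃ k : ℕ, N.index = p ^ k)
    {c : Set (IrrCharacter N)} (hcN : IsNilpotentBlock p M c) {B : Set (IrrCharacter G)}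
    (hBc : ∀ g, blockCoeff B g = subgroupBlockCoeff N c g) {Q : Subgroup G} (hQ : Q ≤ N)
    {e : Set (IrrCharacter (Subgroup.centralizer (Q : Set G)))} (hQe : IsBrauerPairOf p M B Q e)
    {x : G} (hxN : x ∈ Subgroup.normalizer (Q : Set G))
    (hxS : StabilizesBlock (Subgroup.centralizer (Q : Set G)) e x) (hreg : ¬ p ∣ orderOf x) :
    x ∈ Subgroup.centralizer (Q : Set G) := by
  classical
  haveI : M.IsPrime := hM.2.1.isPrime
  obtain ⟨kN, hkN⟩ := hidx
  have hc := hcN.1
  obtain ⟨ξ, hξ⟩ := block_nonempty hQe.1.2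
  obtain ⟨θ, hθ⟩ := exists_constituent (LQ N Q) ξ
  set f : Set (IrrCharacter (LQ N Q)) := blockOf M θ.1 with hf
  have hfB : IsPBlock M f := isBlock_blockOf θ
  have hθf : θ ∈ f := self_mem_blockOf θ
  have hQp : IsPGroup p Q := hQe.1.1
  have hQ'p : IsPGroup p (Q.subgroupOf N) := hQp.comap_of_injective _ (Subgroup.subtype_injective N)
  have hxK := normalizer_le_normalizer_centralizer Q hxN
  -- the pair at the level of `N`
  have hpair : IsBrauerPairOf p M c (Q.subgroupOf N) (irrMap (psiIso N Q hQ) '' f) := by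
    rw [isBrauerPairOf_iff]
    refine ⟨⟨hQ'p, isPBlock_image _ hfB⟩, hc, ?_⟩
    refine block_subset_brSet (fun q _ g => blockCoeff_isClass c g q) (fun g => blockCoeff_mlr hc g)
      (isPBlock_image _ hfB) (Set.mem_image_of_mem _ hθf) ?_
    have h1 := (isBrauerPairOf_iff.mp hQe).2.2 hξ
    show MemLocalIdeal M (bw _ _ _ - 1)
    rw [← bw_of_constituent hQ hBc ξ θ hθ]
    exact h1
  -- conjugation by `x`
  have hξ' : irrMap (phiK _ hxK) ξ ∈ e := (stabilizesBlock_iff hxK).mp hxS ⟨ξ, hξ, rfl⟩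
  have hne' : ∑ n : LQ N Q, conj ((irrMap (sigmaL N Q x hxN) θ).1 n) *
      (irrMap (phiK _ hxK) ξ).1 n ≠ 0 := by
    rw [sum_conj_sigmaL]
    exact hθ
  obtain ⟨t, ht⟩ := exists_conj_of_cover hQe.1.2 hfB hξ hξ' hθf hθ hne'
  rw [conjIrr_eq_sigmaL] at ht
  have htI : (t : G)⁻¹ ∈ Subgroup.normalizer (Q : Set G) :=
    Subgroup.inv_mem _ (Subgroup.centralizer_le_normalizer _ t.2)
  set g : G := (t : G)⁻¹ * x with hg
  have hgN : g ∈ Subgroup.normalizer (Q : Set G) := Subgroup.mul_mem _ htI hxN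
  have hgθ : irrMap (sigmaL N Q g hgN) θ ∈ f := by
    have h := sigmaL_mul (N := N) htI hxN hgN
    rw [h]
    exact ht
  have hgf : irrMap (sigmaL N Q g hgN) '' f = f := by
    have h1 : blockOf M (irrMap (sigmaL N Q g hgN) θ).1 = irrMap (sigmaL N Q g hgN) '' f :=
      blockOf_irrMap _ θ
    rw [← h1]
    exact (block_eq_of_mem hfB hgθ).symm
  -- the `p'`-part of `g`
  set α : ℕ := (orderOf g).factorization p with hα
  set y₀ : G := g ^ p ^ α with hy₀
  have hord : ¬ p ∣ orderOf y₀ := by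
    have hpos : 0 < orderOf g := orderOf_pos g
    have h1 : p ^ α ∣ orderOf g := Nat.ordProj_dvd _ _
    have h2 : orderOf y₀ = orderOf g / p ^ α := orderOf_pow_of_dvd (pow_ne_zero _ hp.out.ne_zero) h1
    rw [h2]
    exact Nat.not_dvd_ordCompl hp.out hpos.ne'
  have hy₀N : y₀ ∈ N := regular_mem_of_index hkN hord
  have hy₀Q : y₀ ∈ Subgroup.normalizer (Q : Set G) := pow_mem hgN _
  have hy₀f : irrMap (sigmaL N Q y₀ hy₀Q) '' f = f := sigmaL_pow_image hgN hgf _
  let y : N := ⟨y₀, hy₀N⟩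
  have hyQ : y ∈ Subgroup.normalizer ((Q.subgroupOf N : Subgroup N) : Set N) :=
    normalizer_subgroupOf hy₀Q
  have hyS : StabilizesBlock (Subgroup.centralizer ((Q.subgroupOf N : Subgroup N) : Set N))
      (irrMap (psiIso N Q hQ) '' f) y := by
    refine stabilizes_of_image_eq (normalizer_le_normalizer_centralizer _ hyQ) ?_
    rw [stable_transport hQ hyQ hy₀Q]
    show irrMap (psiIso N Q hQ) '' (irrMap (sigmaL N Q y₀ hy₀Q) '' f) = _
    rw [hy₀f]
  have hyR : IsPRegular p y := by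
    show ¬ p ∣ orderOf y
    rw [show orderOf y = orderOf y₀ from Subgroup.orderOf_mk _ _]
    exact hord
  have hyC := hcN.2 _ _ hpair y hyQ hyS hyR
  -- `y₀` centralizes `Q`
  have hy₀C : y₀ ∈ Subgroup.centralizer (Q : Set G) := by
    rw [Subgroup.mem_centralizer_iff]
    intro q hq
    have := Subgroup.mem_centralizer_iff.mp hyC ⟨q, hQ hq⟩ hq
    exact congrArg Subtype.val this
  -- powers of `g` and `x` agree on `Q`
  have hpow : ∀ m : ℕ, ∀ q ∈ Q, g ^ m * q * (g ^ m)⁻¹ = x ^ m * q * (x ^ m)⁻¹ := by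
    intro m
    induction m with
    | zero => simp
    | succ m ih =>
      intro q hq
      have h0 : x * q * x⁻¹ ∈ Q := (normalizer_iff_of_mem hxN q).mp hq
      have hgq : g * q * g⁻¹ = x * q * x⁻¹ := by
        have h1 := Subgroup.mem_centralizer_iff.mp t.2 _ h0
        rw [hg]
        calc (t : G)⁻¹ * x * q * ((t : G)⁻¹ * x)⁻¹ = (t : G)⁻¹ * ((x * q * x⁻¹) * t) := by group
          _ = (t : G)⁻¹ * (t * (x * q * x⁻¹)) := by rw [h1]
          _ = x * q * x⁻¹ := by group
      have h2 : g ^ (m + 1) * q * (g ^ (m + 1))⁻¹ = g ^ m * (g * q * g⁻¹) * (g ^ m)⁻¹ := by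
        rw [pow_succ]
        group
      rw [h2, hgq, ih _ h0, pow_succ]
      group
  have hxpow : x ^ p ^ α ∈ Subgroup.centralizer (Q : Set G) := by
    rw [Subgroup.mem_centralizer_iff]
    intro q hq
    have h1 := hpow (p ^ α) q hq
    have h2 := Subgroup.mem_centralizer_iff.mp hy₀C q hq
    have h3 : g ^ p ^ α * q * (g ^ p ^ α)⁻¹ = q := by
      show y₀ * q * y₀⁻¹ = q
      rw [← h2]
      group
    rw [h3] at h1
    have h4 : x ^ p ^ α * q = q * x ^ p ^ α := by
      calc x ^ p ^ α * q = (x ^ p ^ α * q * (x ^ p ^ α)⁻¹) * x ^ p ^ α := by group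
        _ = q * x ^ p ^ α := by rw [← h1]
    exact h4.symm
  -- coprime powers
  by_cases hone : orderOf x = 1
  · rw [orderOf_eq_one_iff.mp hone]
    exact Subgroup.one_mem _
  · have hpos : 0 < orderOf x := orderOf_pos x
    have h1 : 1 < orderOf x := by omega
    have hcop : Nat.Coprime (p ^ α) (orderOf x) :=
      Nat.Coprime.pow_left _ ((Nat.Prime.coprime_iff_not_dvd hp.out).mpr hreg)
    obtain ⟨u, hu⟩ := Nat.exists_mul_mod_eq_one_of_coprime hcop h1
    have h2 : x ^ (p ^ α * u) = x := by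
      rw [← pow_mod_orderOf, hu.2, pow_one]
    rw [← h2, pow_mul]
    exact pow_mem hxpow u

/-- **Up.** -/
theorem nilp_up (hM : IsPModular p M) {N : Subgroup G} [N.Normal] (hidx : ∃ k : ℕ, N.index = p ^ k)
    {c : Set (IrrCharacter N)} (hcN : IsNilpotentBlock p M c) {B : Set (IrrCharacter G)}
    (hB : IsPBlock M B) (hBc : ∀ g, blockCoeff B g = subgroupBlockCoeff N c g) :
    IsNilpotentBlock p M B := by
  classical
  haveI : M.IsPrime := hM.2.1.isPrime
  refine ⟨hB, fun Q e hQe x hxN hxS hxR => ?_⟩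
  obtain ⟨kN, hkN⟩ := hidx
  have hxN' : x ∈ N := regular_mem_of_index hkN hxR
  have hQ₀Q : Q ⊓ N ≤ Q := inf_le_left
  have hQ₀N : Q ⊓ N ≤ N := inf_le_right
  obtain ⟨e₁, he₁, hle⟩ := exists_subpairLE hM hQe.1 (Q ⊓ N) hQ₀Q
  have hbp : IsBrauerPairOf p M B (Q ⊓ N) e₁ :=
    (isBrauerPairOf_iff_of_subpairLE hM he₁ hle).mp hQe
  have hxQ₀ : x ∈ Subgroup.normalizer ((Q ⊓ N : Subgroup G) : Set G) := by
    rw [Subgroup.mem_normalizer_iff]
    intro n
    have h1 := normalizer_iff_of_mem hxN n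
    have h2 : n ∈ N ↔ x * n * x⁻¹ ∈ N := by
      constructor
      · intro h
        exact (inferInstance : N.Normal).conj_mem _ h x
      · intro h
        have := (inferInstance : N.Normal).conj_mem _ h x⁻¹
        simpa [mul_assoc] using this
    simp only [Subgroup.mem_inf]
    rw [h1, h2]
  have hxe₁ : StabilizesBlock _ e₁ x := stabilizes_below hM hQe.1 hle hxQ₀ hxN hxS
  have key := nilp_key hM ⟨kN, hkN⟩ hcN hBc hQ₀N hbp hxQ₀ hxe₁ hxR
  exact centralizer_of_regular hQe.1.1 hxN' hxN hxR key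

/-- **Down.** -/
theorem nilp_down (hM : IsPModular p M) {N : Subgroup G} [N.Normal] (hidx : ∃ k : ℕ, N.index = p ^ k)
    {c : Set (IrrCharacter N)} (hc : IsPBlock M c) {B : Set (IrrCharacter G)}
    (hBN : IsNilpotentBlock p M B) (hBc : ∀ g, blockCoeff B g = subgroupBlockCoeff N c g) :
    IsNilpotentBlock p M c := by
  classical
  haveI : M.IsPrime := hM.2.1.isPrime
  refine ⟨hc, fun Q' f' hQf' y hyN hyS hyR => ?_⟩
  have hB := hBN.1
  obtain ⟨Q, hQ, rfl⟩ : ∃ Q : Subgroup G, Q ≤ N ∧ Q.subgroupOf N = Q' :=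
    ⟨Q'.map N.subtype, Subgroup.map_subtype_le _,
      Subgroup.comap_map_eq_self_of_injective (Subgroup.subtype_injective N) Q'⟩
  have hQp : IsPGroup p Q := by
    intro q
    obtain ⟨k, hk⟩ := hQf'.1.1 ⟨⟨q.1, hQ q.2⟩, Subgroup.mem_subgroupOf.mpr q.2⟩
    refine ⟨k, Subtype.ext ?_⟩
    have := congrArg (fun z : (Q.subgroupOf N : Subgroup N) => ((z : N) : G)) hk
    simpa using this
  have hy' : (y : G) ∈ Subgroup.normalizer (Q : Set G) := normalizer_of_subgroupOf hQ hyN
  have hyK := normalizer_le_normalizer_centralizer Q hy'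
  obtain ⟨θ', hθ'⟩ := block_nonempty hQf'.1.2
  set θ : IrrCharacter (LQ N Q) := irrMap (psiIso N Q hQ).symm θ' with hθdef
  have hθθ' : irrMap (psiIso N Q hQ) θ = θ' := irrMap_irrMap_symm _ _
  set f : Set (IrrCharacter (LQ N Q)) := irrMap (psiIso N Q hQ).symm '' f' with hf
  have hfB : IsPBlock M f := isPBlock_image _ hQf'.1.2
  have hθf : θ ∈ f := Set.mem_image_of_mem _ hθ'
  have hf' : irrMap (psiIso N Q hQ) '' f = f' := by
    rw [hf, Set.image_image]
    simp [irrMap_irrMap_symm]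
  obtain ⟨ξ, hξ⟩ := exists_above (G := Subgroup.centralizer (Q : Set G)) θ
  set e := blockOf M ξ.1 with he
  have heB : IsPBlock M e := isBlock_blockOf ξ
  have hξe : ξ ∈ e := self_mem_blockOf ξ
  have hpair : IsBrauerPairOf p M B Q e := by
    rw [isBrauerPairOf_iff]
    refine ⟨⟨hQp, heB⟩, hB, ?_⟩
    refine block_subset_brSet (fun q _ g => blockCoeff_isClass B g q) (fun g => blockCoeff_mlr hB g)
      heB hξe ?_
    have h1 := (isBrauerPairOf_iff.mp hQf').2.2 hθ'
    show MemLocalIdeal M (bw _ _ _ - 1)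
    rw [bw_of_constituent hQ hBc ξ θ hξ, hθθ']
    exact h1
  -- stability of `f`
  have hyf : irrMap (sigmaL N Q y hy') '' f = f := by
    have h1 := image_phiK_eq_of_stabilizes (normalizer_le_normalizer_centralizer _ hyN) hyS
    rw [← hf', stable_transport hQ hyN hy' f] at h1
    exact Set.image_injective.mpr (irrMap_injective _) h1
  -- stability of `e`
  have hindex := index_LQ N Q hidx
  have hψ : irrMap (sigmaL N Q y hy') θ ∈ f := by
    rw [← hyf]
    exact Set.mem_image_of_mem _ hθf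
  have hne' : ∑ n : LQ N Q, conj ((irrMap (sigmaL N Q y hy') θ).1 n) *
      (irrMap (phiK _ hyK) ξ).1 n ≠ 0 := by
    rw [sum_conj_sigmaL]
    exact hξ
  have huniq := (existsUnique_cover_pIndex hM hindex hfB).unique
    (y₁ := irrMap (phiK _ hyK) '' e) (y₂ := e)
    ⟨isPBlock_image _ heB, _, Set.mem_image_of_mem _ hξe, _, hψ, hne'⟩
    ⟨heB, ξ, hξe, θ, hθf, hξ⟩
  have hst : StabilizesBlock (Subgroup.centralizer (Q : Set G)) e (y : G) :=
    stabilizes_of_image_eq hyK huniq
  have hreg : IsPRegular p (y : G) := by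
    show ¬ p ∣ orderOf (y : G)
    rw [Subgroup.orderOf_coe]
    exact hyR
  have hC := hBN.2 Q e hpair (y : G) hy' hst hreg
  rw [Subgroup.mem_centralizer_iff]
  intro q hq
  apply Subtype.ext
  exact Subgroup.mem_centralizer_iff.mp hC q (Subgroup.mem_subgroupOf.mp hq)

end Main

end Cfsg.Agent.H22
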