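import Cfsg.Agent.Lib.H22.PDegCount
import Cfsg.Agent.Lib.H22.Ord
import Cfsg.Agent.Lib.H23.AcdTwo
import Cfsg.Agent.Lib.H23.Ito2

/-! # One character of degree divisible by `p` and one class of size divisible by `p` -/

set_option autoImplicit false
set_option linter.unusedSectionVars false
set_option linter.style.haveILetI false
set_option linter.unusedSimpArgs false
set_option linter.unusedVariables false

namespace Cfsg.Agent.H22

open Cfsg Cfsg.Agent.H21 Cfsg.Agent.H23
open scoped ComplexConjugate Pointwise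

universe u

attribute [-instance] Cfsg.Agent.H22.fintypeOfFiniteH22

section Rank

variable {G : Type u} [Group G] [Fintype G] [Fintype (IrrCharacter G)]

/-- The number of pairwise non-conjugate elements is bounded by the rank of the rows. -/
theorem card_le_of_rows {R : Type*} [Fintype R] (r : R → IrrCharacter G) (T : Finset G)
    (hT : ∀ g ∈ T, ∀ g' ∈ T, IsConj g g' → g = g')
    (hrow : ∀ χ : IrrCharacter G, (∀ g ∈ T, χ.1 g = 0) ∨
      ∃ (i : R) (s : ℂ), ∀ g ∈ T, χ.1 g = s * (r i).1 g) :
    T.card ≤ Fintype.card R := by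
  classical
  let w : T → (R → ℂ) := fun g i => (r i).1 g
  have hli : LinearIndependent ℂ w := by
    rw [Fintype.linearIndependent_iff]
    intro c hc g₀
    have h1 : ∀ χ : IrrCharacter G, ∑ g : T, c g * χ.1 (g : G) = 0 := by
      intro χ
      rcases hrow χ with h | ⟨i, s, h⟩
      · apply Finset.sum_eq_zero
        intro g _
        rw [h g g.2, mul_zero]
      · have h2 := congrFun hc i
        simp only [Finset.sum_apply, Pi.smul_apply, smul_eq_mul, Pi.zero_apply, w] at h2
        have h3 : ∀ g : T, c g * χ.1 (g : G) = s * (c g * (r i).1 (g : G)) := by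
          intro g
          rw [h g g.2]
          ring
        simp only [h3]
        rw [← Finset.mul_sum, h2, mul_zero]
    have h2 : ∑ χ : IrrCharacter G, (∑ g : T, c g * χ.1 (g : G)) * conj (χ.1 (g₀ : G)) = 0 := by
      simp only [h1, zero_mul, Finset.sum_const_zero]
    simp only [Finset.sum_mul] at h2
    rw [Finset.sum_comm] at h2
    have h3 : ∀ g : T, ∑ χ : IrrCharacter G, c g * χ.1 (g : G) * conj (χ.1 (g₀ : G)) =
        if g = g₀ then c g₀ * (Nat.card (Subgroup.centralizer ({(g₀ : G)} : Set G)) : ℂ) else 0 := by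
      intro g
      simp only [mul_assoc]
      rw [← Finset.mul_sum]
      by_cases hg : g = g₀
      · rw [if_pos hg, hg, column_orthogonality_of_isConj (IsConj.refl _)]
      · rw [if_neg hg, column_orthogonality_of_not_isConj, mul_zero]
        intro hc2
        exact hg (Subtype.ext (hT g g.2 g₀ g₀.2 hc2))
    simp only [h3, Finset.sum_ite_eq', Finset.mem_univ, if_true] at h2
    have h4 : (Nat.card (Subgroup.centralizer ({(g₀ : G)} : Set G)) : ℂ) ≠ 0 := by
      simp [Nat.card_pos.ne']
    exact (mul_eq_zero.mp h2).resolve_right h4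
  have h5 := hli.fintype_card_le_finrank
  simpa using h5

end Rank

section Transversal

/-- A free action has a transversal. -/
theorem exists_transversalH {Λ : Type*} {X : Type u} [Group Λ] [MulAction Λ X]
    (hfree : ∀ (l : Λ) (x : X), l • x = x → l = 1) :
    ∃ (Ξ : Type u) (r : Ξ → X), Function.Bijective (fun q : Ξ × Λ => q.2 • r q.1) := by
  classical
  refine ⟨MulAction.orbitRel.Quotient Λ X, Quotient.out, ?_, ?_⟩
  · rintro ⟨ξ, l⟩ ⟨ξ', l'⟩ h
    simp only at h
    have h1 : (Quotient.mk _ (l • Quotient.out ξ) : MulAction.orbitRel.Quotient Λ X) =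
        Quotient.mk _ (Quotient.out ξ) := by
      apply Quotient.sound
      exact ⟨l, rfl⟩
    have h2 : (Quotient.mk _ (l' • Quotient.out ξ') : MulAction.orbitRel.Quotient Λ X) =
        Quotient.mk _ (Quotient.out ξ') := by
      apply Quotient.sound
      exact ⟨l', rfl⟩
    have h3 : ξ = ξ' := by
      have e1 : (Quotient.mk _ (Quotient.out ξ) : MulAction.orbitRel.Quotient Λ X) = ξ :=
        Quotient.out_eq ξ
      have e2 : (Quotient.mk _ (Quotient.out ξ') : MulAction.orbitRel.Quotient Λ X) = ξ' :=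
        Quotient.out_eq ξ'
      rw [← e1, ← e2, ← h1, ← h2, h]
    subst h3
    have h4 : l'⁻¹ * l = 1 := by
      apply hfree _ (Quotient.out ξ)
      rw [mul_smul, h, inv_smul_smul]
    have h5 : l = l' := (inv_mul_eq_one.mp h4).symm
    rw [h5]
  · intro x
    have h1 : (Quotient.mk _ (Quotient.out (Quotient.mk _ x : MulAction.orbitRel.Quotient Λ X)) :
        MulAction.orbitRel.Quotient Λ X) = Quotient.mk _ x := Quotient.out_eq _
    obtain ⟨l, hl⟩ := Quotient.exact h1
    refine ⟨⟨Quotient.mk _ x, l⁻¹⟩, ?_⟩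
    simp only
    have hl' : l • x = Quotient.out (Quotient.mk _ x : MulAction.orbitRel.Quotient Λ X) := hl
    rw [← hl', inv_smul_smul]

end Transversal

section Twist

variable {G : Type u} [Group G] [Fintype G] [Fintype (IrrCharacter G)]
variable {Q : Type*} [CommGroup Q] [Finite Q] (π : G →* Q)

theorem norm_hom_val (ω : Q →* ℂˣ) (x : Q) : ‖((ω x : ℂˣ) : ℂ)‖ = 1 := by
  have h := linear_norm (isCharacter_hom ω) (charDegree_hom ω) x
  exact h

/-- Twisting by a linear character of the abelian quotient. -/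
noncomputable def twistH (ω : Q →* ℂˣ) (χ : IrrCharacter G) : IrrCharacter G :=
  ⟨fun g => ((ω (π g) : ℂˣ) : ℂ) * χ.1 g, by
    classical
    have hc : IsCharacter G (fun g => ((ω (π g) : ℂˣ) : ℂ)) :=
      isCharacter_comp π (isCharacter_hom ω)
    refine isIrrCharacter_of_inner_self_eq_one (isCharacter_mul hc (isCharacter_of_irr χ.2)) ?_
    have h1 : ∀ g : G, ((ω (π g) : ℂˣ) : ℂ) * χ.1 g * conj (((ω (π g) : ℂˣ) : ℂ) * χ.1 g) =
        χ.1 g * conj (χ.1 g) := by
      intro g
      have h2 : ((ω (π g) : ℂˣ) : ℂ) * conj ((ω (π g) : ℂˣ) : ℂ) = 1 := by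
        rw [Complex.mul_conj, Complex.normSq_eq_norm_sq, norm_hom_val]
        simp
      rw [map_mul]
      calc _ = (((ω (π g) : ℂˣ) : ℂ) * conj ((ω (π g) : ℂˣ) : ℂ)) * (χ.1 g * conj (χ.1 g)) := by ring
        _ = _ := by rw [h2, one_mul]
    have h3 := classInner_irr χ χ
    rw [if_pos rfl] at h3
    simp only [classInner] at h3 ⊢
    simp only [h1]
    exact h3⟩

theorem twistH_apply (ω : Q →* ℂˣ) (χ : IrrCharacter G) (g : G) :
    (twistH π ω χ).1 g = ((ω (π g) : ℂˣ) : ℂ) * χ.1 g := rfl

theorem twistH_degree (ω : Q →* ℂˣ) (χ : IrrCharacter G) :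
    charDegree (twistH π ω χ).1 = charDegree χ.1 := by
  unfold charDegree
  rw [twistH_apply]
  simp

theorem twistH_one (χ : IrrCharacter G) : twistH π (1 : Q →* ℂˣ) χ = χ := by
  apply Subtype.ext
  funext g
  simp [twistH_apply]

theorem twistH_mul (a b : Q →* ℂˣ) (χ : IrrCharacter G) :
    twistH π (a * b) χ = twistH π a (twistH π b χ) := by
  apply Subtype.ext
  funext g
  simp [twistH_apply, mul_assoc]

end Twist

section Data

variable {G : Type u} [Group G] [Fintype G] [Fintype (IrrCharacter G)]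
variable {Q : Type*} [CommGroup Q] [Finite Q] {p : ℕ} [hp : Fact p.Prime]

/-- The situation in the abelian Sylow case. -/
structure OCData (p : ℕ) [Fact p.Prime] (N : Subgroup G) (P : Sylow p G) (π : G →* Q)
    (χ₀ : IrrCharacter G) : Prop where
  hker : ∀ g, π g = 1 ↔ g ∈ N
  hsurj : Function.Surjective π
  hNP : N ⊓ (P : Subgroup G) = ⊥
  hsup : ∀ g : G, ∃ n ∈ N, ∃ u ∈ (P : Subgroup G), g = n * u
  hPab : ∀ x ∈ (P : Subgroup G), ∀ y ∈ (P : Subgroup G), x * y = y * x
  hNc : (Nat.card N).Coprime p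
  hcard : Nat.card N * Nat.card (P : Subgroup G) = Nat.card G
  hQ : Nat.card Q = Nat.card (P : Subgroup G)
  hχ₀ : p ∣ charDegree χ₀.1
  huniq : ∀ χ : IrrCharacter G, p ∣ charDegree χ.1 → χ = χ₀

variable {N : Subgroup G} {P : Sylow p G} {π : G →* Q} {χ₀ : IrrCharacter G}

theorem OCData.vanish (D : OCData p N P π χ₀) {g : G} (hg : g ∉ N) : χ₀.1 g = 0 := by
  have h1 : π g ≠ 1 := fun h => hg ((D.hker g).mp h)
  obtain ⟨ω, hω⟩ := CommGroup.exists_apply_ne_one_of_hasEnoughRootsOfUnity Q ℂ h1
  have h2 : twistH π ω χ₀ = χ₀ := D.huniq _ (by rw [twistH_degree]; exact D.hχ₀)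
  have h3 := congrArg (fun χ : IrrCharacter G => χ.1 g) h2
  simp only [twistH_apply] at h3
  have h4 : ((ω (π g) : ℂˣ) : ℂ) - 1 ≠ 0 := by
    rw [sub_ne_zero]
    intro h5
    exact hω (Units.ext h5)
  have h5 : (((ω (π g) : ℂˣ) : ℂ) - 1) * χ₀.1 g = 0 := by linear_combination h3
  exact (mul_eq_zero.mp h5).resolve_left h4

theorem OCData.ne_zero (D : OCData p N P π χ₀) {χ : IrrCharacter G} (hχ : χ ≠ χ₀) {u : G}
    (hu : u ∈ (P : Subgroup G)) : χ.1 u ≠ 0 := by
  classical
  have hnd : ¬ p ∣ charDegree χ.1 := fun h => hχ (D.huniq χ h)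
  obtain ⟨M, hM⟩ := exists_pModular hp.out
  have hPp : IsPGroup p (P : Subgroup G) := P.isPGroup'
  obtain ⟨j, hj⟩ := (IsPGroup.iff_orderOf.mp hPp) ⟨u, hu⟩
  rw [Subgroup.orderOf_mk] at hj
  obtain ⟨a, ha, hae⟩ := character_sub_degree_mem hM (isCharacter_of_irr χ.2) hj
  intro h0
  rw [h0, zero_sub] at hae
  apply hnd
  haveI : M.IsPrime := hM.2.1.isPrime
  rw [← natCast_mem_iff hM]
  have h1 : ((charDegree χ.1 : ℕ) : AlgInt) = -a := by
    apply Subtype.ext
    show ((charDegree χ.1 : ℕ) : ℂ) = -(a : ℂ)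
    rw [hae]
    ring
  rw [h1]
  exact M.neg_mem ha

theorem OCData.free (D : OCData p N P π χ₀) {χ : IrrCharacter G} (hχ : χ ≠ χ₀) (ω : Q →* ℂˣ)
    (h : twistH π ω χ = χ) : ω = 1 := by
  ext x
  obtain ⟨g, rfl⟩ := D.hsurj x
  obtain ⟨n, hn, u, hu, rfl⟩ := D.hsup g
  have h1 : π n = 1 := (D.hker n).mpr hn
  rw [map_mul, h1, one_mul]
  have h2 := congrArg (fun ψ : IrrCharacter G => ψ.1 u) h
  simp only [twistH_apply] at h2
  have h3 := D.ne_zero hχ hu
  have h4 : (((ω (π u) : ℂˣ) : ℂ) - 1) * χ.1 u = 0 := by linear_combination h2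
  have h5 := (mul_eq_zero.mp h4).resolve_right h3
  simpa [sub_eq_zero] using h5

/-- The transversal for the twisting action. -/
theorem OCData.transversal (D : OCData p N P π χ₀) :
    ∃ (Ξ : Type u) (_ : Fintype Ξ) (_ : Fintype (Q →* ℂˣ)) (r : Ξ → IrrCharacter G),
      (∀ χ, χ ≠ χ₀ → ∃ ξ, ∃ ω : Q →* ℂˣ, χ = twistH π ω (r ξ)) ∧
      (∀ f : IrrCharacter G → ℂ,
        ∑ χ, f χ = f χ₀ + ∑ ξ, ∑ ω : Q →* ℂˣ, f (twistH π ω (r ξ))) ∧
      Fintype.card (IrrCharacter G) = 1 + Fintype.card Ξ * Nat.card Q := by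
  classical
  let X := {χ : IrrCharacter G // χ ≠ χ₀}
  have hne : ∀ (ω : Q →* ℂˣ) (χ : X), twistH π ω χ.1 ≠ χ₀ := by
    intro ω χ h
    apply χ.2
    apply D.huniq
    rw [← twistH_degree π ω, h]
    exact D.hχ₀
  letI : MulAction (Q →* ℂˣ) X :=
    { smul := fun ω χ => ⟨twistH π ω χ.1, hne ω χ⟩
      one_smul := fun χ => Subtype.ext (twistH_one π χ.1)
      mul_smul := fun a b χ => Subtype.ext (twistH_mul π a b χ.1) }
  have hsm : ∀ (ω : Q →* ℂˣ) (χ : X), ((ω • χ : X) : IrrCharacter G) = twistH π ω χ.1 := fun _ _ => rfl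
  obtain ⟨Ξ, r, hbij⟩ := exists_transversalH (Λ := Q →* ℂˣ) (X := X) (by
    intro ω χ h
    exact D.free χ.2 ω (congrArg Subtype.val h))
  haveI : Finite (Q →* ℂˣ) := inferInstance
  letI hΛ : Fintype (Q →* ℂˣ) := Fintype.ofFinite _
  haveI : Finite Ξ := by
    apply Finite.of_injective (fun ξ : Ξ => (1 : Q →* ℂˣ) • r ξ)
    intro a b hab
    have h1 := hbij.1 (a₁ := (a, (1 : Q →* ℂˣ))) (a₂ := (b, (1 : Q →* ℂˣ))) hab
    exact congrArg Prod.fst h1
  letI hΞ : Fintype Ξ := Fintype.ofFinite _
  have hsum : ∀ f : IrrCharacter G → ℂ,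
      ∑ χ, f χ = f χ₀ + ∑ ξ, ∑ ω : Q →* ℂˣ, f (twistH π ω (r ξ).1) := by
    intro f
    rw [Fintype.sum_eq_add_sum_subtype_ne f χ₀]
    congr 1
    rw [← Fintype.sum_prod_type']
    symm
    exact Fintype.sum_equiv (Equiv.ofBijective _ hbij)
      (fun q : Ξ × (Q →* ℂˣ) => f (twistH π q.2 (r q.1).1)) (fun χ : {i // i ≠ χ₀} => f χ.1)
      (fun _ => rfl)
  refine ⟨Ξ, hΞ, hΛ, fun ξ => (r ξ).1, ?_, hsum, ?_⟩
  · intro χ hχ
    obtain ⟨⟨ξ, ω⟩, h⟩ := hbij.2 ⟨χ, hχ⟩
    refine ⟨ξ, ω, ?_⟩
    have := congrArg Subtype.val h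
    exact this.symm
  · have h1 := hsum (fun _ => (1 : ℂ))
    simp only [Finset.sum_const, Finset.card_univ, nsmul_eq_mul, mul_one] at h1
    have h2 : Fintype.card (Q →* ℂˣ) = Nat.card Q := by
      rw [← Nat.card_eq_fintype_card, CommGroup.card_monoidHom_of_hasEnoughRootsOfUnity Q ℂ]
    rw [h2] at h1
    exact_mod_cast h1

theorem pi_conj (π : G →* Q) {a b : G} (h : IsConj a b) : π a = π b := by
  obtain ⟨c, rfl⟩ := isConj_iff.mp h
  simp only [map_mul, map_inv]
  rw [mul_comm (π c), mul_inv_cancel_right]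

/-- A representative of a class. -/
noncomputable def rpH (K : ConjClasses G) : G := (ConjClasses.exists_rep K).choose

theorem rpH_spec (K : ConjClasses G) : ConjClasses.mk (rpH K) = K :=
  (ConjClasses.exists_rep K).choose_spec

theorem rpH_inj {K K' : ConjClasses G} (h : IsConj (rpH K) (rpH K')) : K = K' := by
  rw [← rpH_spec K, ← rpH_spec K']
  exact ConjClasses.mk_eq_mk_iff_isConj.mpr h

theorem isConj_rpH_mk (g : G) : IsConj g (rpH (ConjClasses.mk g)) :=
  ConjClasses.mk_eq_mk_iff_isConj.mp (rpH_spec (ConjClasses.mk g)).symm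

/-- The fibre of classes over a point of the quotient. -/
noncomputable def fibH [Fintype (ConjClasses G)] [DecidableEq Q] (π : G →* Q) (x : Q) :
    Finset (ConjClasses G) :=
  Finset.univ.filter fun K => π (rpH K) = x

theorem mem_fibH [Fintype (ConjClasses G)] [DecidableEq Q] (π : G →* Q) (x : Q) (K : ConjClasses G) :
    K ∈ fibH π x ↔ π (rpH K) = x := by
  simp [fibH]

theorem OCData.fibre_counts (D : OCData p N P π χ₀) [Fintype Q] [DecidableEq Q]
    [Fintype (ConjClasses G)] {Ξ : Type u} [Fintype Ξ] [Fintype (Q →* ℂˣ)] (r : Ξ → IrrCharacter G)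
    (hr : ∀ χ, χ ≠ χ₀ → ∃ ξ, ∃ ω : Q →* ℂˣ, χ = twistH π ω (r ξ))
    (hc : Fintype.card (IrrCharacter G) = 1 + Fintype.card Ξ * Nat.card Q) :
    (∀ x : Q, x ≠ 1 → (fibH π x).card = Fintype.card Ξ) ∧ (fibH π 1).card = Fintype.card Ξ + 1 := by
  classical
  have hinj : Function.Injective (rpH : ConjClasses G → G) := by
    intro K K' h
    exact rpH_inj (by rw [h])
  have hpair : ∀ x : Q, ∀ g ∈ (fibH π x).image rpH, ∀ g' ∈ (fibH π x).image rpH,
      IsConj g g' → g = g' := by
    intro x g hg g' hg' hc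
    obtain ⟨K, -, rfl⟩ := Finset.mem_image.mp hg
    obtain ⟨K', -, rfl⟩ := Finset.mem_image.mp hg'
    rw [rpH_inj hc]
  have hcard : ∀ x : Q, ((fibH π x).image rpH).card = (fibH π x).card := fun x =>
    Finset.card_image_of_injective _ hinj
  have hup1 : ∀ x : Q, x ≠ 1 → (fibH π x).card ≤ Fintype.card Ξ := by
    intro x hx
    rw [← hcard x]
    apply card_le_of_rows r _ (hpair x)
    intro χ
    by_cases hχ : χ = χ₀
    · left
      intro g hg
      obtain ⟨K, hK, rfl⟩ := Finset.mem_image.mp hg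
      rw [hχ]
      apply D.vanish
      intro hmem
      apply hx
      rw [← (mem_fibH π x K).mp hK]
      exact (D.hker _).mpr hmem
    · right
      obtain ⟨ξ, ω, rfl⟩ := hr χ hχ
      refine ⟨ξ, ((ω x : ℂˣ) : ℂ), ?_⟩
      intro g hg
      obtain ⟨K, hK, rfl⟩ := Finset.mem_image.mp hg
      rw [twistH_apply, (mem_fibH π x K).mp hK]
  have hup2 : (fibH π 1).card ≤ Fintype.card Ξ + 1 := by
    rw [← hcard 1]
    have h1 := card_le_of_rows (R := Option Ξ) (fun o => o.elim χ₀ r) ((fibH π 1).image rpH)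
      (hpair 1) (by
        intro χ
        right
        by_cases hχ : χ = χ₀
        · refine ⟨none, 1, ?_⟩
          intro g _
          rw [hχ]
          simp
        · obtain ⟨ξ, ω, rfl⟩ := hr χ hχ
          refine ⟨some ξ, 1, ?_⟩
          intro g hg
          obtain ⟨K, hK, rfl⟩ := Finset.mem_image.mp hg
          rw [twistH_apply, (mem_fibH π 1 K).mp hK]
          simp)
    rwa [Fintype.card_option] at h1
  have hsum : ∑ x : Q, (fibH π x).card = 1 + Fintype.card Ξ * Nat.card Q := by
    rw [← hc]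
    have h1 : Fintype.card (IrrCharacter G) = Fintype.card (ConjClasses G) := by
      have := card_irr_eq_card_conjClasses (G := G)
      rwa [Nat.card_eq_fintype_card, Nat.card_eq_fintype_card] at this
    rw [h1, ← Finset.card_univ]
    have h2 := Finset.card_eq_sum_card_fiberwise (s := (Finset.univ : Finset (ConjClasses G)))
      (t := (Finset.univ : Finset Q)) (f := fun K => π (rpH K)) (fun _ _ => Finset.mem_coe.mpr (Finset.mem_univ _))
    rw [h2]
    rfl
  let g : Q → ℕ := fun x => Fintype.card Ξ + if x = 1 then 1 else 0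
  have hle : ∀ x ∈ (Finset.univ : Finset Q), (fibH π x).card ≤ g x := by
    intro x _
    by_cases hx : x = 1
    · simp only [g, if_pos hx, hx]
      exact hup2
    · simp only [g, if_neg hx, add_zero]
      exact hup1 x hx
  have hsg : ∑ x : Q, g x = 1 + Fintype.card Ξ * Nat.card Q := by
    simp only [g, Finset.sum_add_distrib, Finset.sum_const, Finset.card_univ, smul_eq_mul,
      Finset.sum_ite_eq', Finset.mem_univ, if_true]
    rw [Nat.card_eq_fintype_card]
    ring
  have heq := (Finset.sum_eq_sum_iff_of_le hle).mp (hsum.trans hsg.symm)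
  constructor
  · intro x hx
    have := heq x (Finset.mem_univ x)
    simpa [g, hx] using this
  · have := heq 1 (Finset.mem_univ 1)
    simpa [g] using this

theorem OCData.card_dvd (D : OCData p N P π χ₀) {g : G} (hg : g ∉ N) :
    Nat.card (P : Subgroup G) ∣ Nat.card (Subgroup.centralizer ({g} : Set G)) := by
  classical
  obtain ⟨Ξ, iΞ, iΛ, r, hr, hsum, hc⟩ := D.transversal
  have h1 := column_orthogonality_of_isConj (IsConj.refl g)
  have h2 := hsum (fun χ => χ.1 g * conj (χ.1 g))
  rw [D.vanish hg] at h2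
  simp only [map_zero, mul_zero, zero_add] at h2
  have h3 : ∀ (ξ : Ξ) (ω : Q →* ℂˣ), (twistH π ω (r ξ)).1 g * conj ((twistH π ω (r ξ)).1 g) =
      (r ξ).1 g * conj ((r ξ).1 g) := by
    intro ξ ω
    have h4 : ((ω (π g) : ℂˣ) : ℂ) * conj ((ω (π g) : ℂˣ) : ℂ) = 1 := by
      rw [Complex.mul_conj, Complex.normSq_eq_norm_sq, norm_hom_val]
      simp
    rw [twistH_apply, map_mul]
    calc _ = (((ω (π g) : ℂˣ) : ℂ) * conj ((ω (π g) : ℂˣ) : ℂ)) * ((r ξ).1 g * conj ((r ξ).1 g)) := by
          ring
      _ = _ := by rw [h4, one_mul]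
  simp only [h3, Finset.sum_const, Finset.card_univ, nsmul_eq_mul] at h2
  have h5 : Fintype.card (Q →* ℂˣ) = Nat.card Q := by
    rw [← Nat.card_eq_fintype_card, CommGroup.card_monoidHom_of_hasEnoughRootsOfUnity Q ℂ]
  rw [h5, D.hQ] at h2
  rw [h2, ← Finset.mul_sum] at h1
  have hPpos : (Nat.card (P : Subgroup G) : ℂ) ≠ 0 := by simp [Nat.card_pos.ne']
  apply Cfsg.Agent.H23.dvd_of_isIntegral_div Nat.card_pos
  rw [← h1]
  rw [mul_div_cancel_left₀ _ hPpos]
  apply IsIntegral.sum
  intro ξ _
  apply IsIntegral.mul (isCharacter_isIntegral (isCharacter_of_irr (r ξ).2) g)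
  rw [← isCharacter_inv (isCharacter_of_irr (r ξ).2)]
  exact isCharacter_isIntegral (isCharacter_of_irr (r ξ).2) _

/-- An element whose centralizer has order divisible by `|P|` is conjugate into `C(P)`. -/
theorem exists_conj_comm_sylow (P : Sylow p G) {g : G}
    (hd : Nat.card (P : Subgroup G) ∣ Nat.card (Subgroup.centralizer ({g} : Set G))) :
    ∃ x : G, ∀ u ∈ (P : Subgroup G), u * (x * g * x⁻¹) = (x * g * x⁻¹) * u := by
  classical
  have hc := P.card_eq_multiplicity
  rw [hc] at hd
  obtain ⟨S, hS⟩ := Sylow.exists_subgroup_card_pow_prime (G := Subgroup.centralizer ({g} : Set G)) p hd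
  let S' : Subgroup G := S.map (Subgroup.centralizer ({g} : Set G)).subtype
  have hS' : Nat.card S' = p ^ (Nat.card G).factorization p := by
    rw [← hS]
    exact Nat.card_congr (Subgroup.equivMapOfInjective S _ (Subgroup.subtype_injective _)).symm.toEquiv
  let T : Sylow p G := Sylow.ofCard S' hS'
  obtain ⟨x, hx⟩ := MulAction.exists_smul_eq G T P
  refine ⟨x, fun u hu => ?_⟩
  have h1 : u ∈ ((x • T : Sylow p G) : Subgroup G) := by
    rw [hx]
    exact hu
  rw [Sylow.coe_subgroup_smul, Subgroup.mem_pointwise_smul_iff_inv_smul_mem] at h1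
  have h2 : (MulAut.conj x)⁻¹ • u = x⁻¹ * u * x := by
    simp [MulAut.smul_def, MulAut.conj_inv_apply]
  rw [h2] at h1
  have h3 : x⁻¹ * u * x ∈ S' := h1
  obtain ⟨s, hs, hse⟩ := Subgroup.mem_map.mp h3
  have h4 : g * (x⁻¹ * u * x) = (x⁻¹ * u * x) * g := by
    rw [← hse]
    exact mem_centralizer_singleton_iff.mp s.2
  have h5 : u = x * (x⁻¹ * u * x) * x⁻¹ := by group
  rw [h5]
  calc x * (x⁻¹ * u * x) * x⁻¹ * (x * g * x⁻¹) = x * ((x⁻¹ * u * x) * g) * x⁻¹ := by group
    _ = x * (g * (x⁻¹ * u * x)) * x⁻¹ := by rw [h4]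
    _ = _ := by group

theorem OCData.conj_lift (D : OCData p N P π χ₀) {c c' u : G}
    (hc : ∀ v ∈ (P : Subgroup G), v * c = c * v) (hc' : ∀ v ∈ (P : Subgroup G), v * c' = c' * v)
    (hu : u ∈ (P : Subgroup G)) (h : IsConj c c') : IsConj (u * c) (u * c') := by
  classical
  obtain ⟨x, hx⟩ := isConj_iff.mp h
  let C := Subgroup.centralizer ({c'} : Set G)
  have hPp : IsPGroup p (P : Subgroup G) := P.isPGroup'
  have hPC : (P : Subgroup G) ≤ C := by
    intro v hv
    exact mem_centralizer_singleton_iff.mpr (hc' v hv).symm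
  have hP1 : IsPGroup p ((P : Subgroup G).subgroupOf C) :=
    hPp.comap_of_injective C.subtype (Subgroup.subtype_injective C)
  obtain ⟨T, hT⟩ := hP1.exists_le_sylow
  have hTeq : (T : Subgroup C).map C.subtype = (P : Subgroup G) := by
    apply P.is_maximal'
    · exact (T.isPGroup').map C.subtype
    · intro v hv
      exact Subgroup.mem_map.mpr ⟨⟨v, hPC hv⟩, hT (by simpa [Subgroup.mem_subgroupOf] using hv), rfl⟩
  let S : Subgroup G := (P : Subgroup G).map (MulAut.conj x).toMonoidHom
  have hS : IsPGroup p S := hPp.map _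
  have hSC : S ≤ C := by
    rintro _ ⟨v, hv, rfl⟩
    apply mem_centralizer_singleton_iff.mpr
    show c' * (x * v * x⁻¹) = (x * v * x⁻¹) * c'
    rw [← hx]
    have h1 := hc v hv
    calc x * c * x⁻¹ * (x * v * x⁻¹) = x * (c * v) * x⁻¹ := by group
      _ = x * (v * c) * x⁻¹ := by rw [h1]
      _ = _ := by group
  obtain ⟨y, hyC, hy⟩ := exists_conj_in_sylow C hS hSC T
  rw [hTeq] at hy
  set z := y * x with hz
  have hzP : ∀ v ∈ (P : Subgroup G), z * v * z⁻¹ ∈ (P : Subgroup G) := by
    intro v hv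
    have h1 := hy (x * v * x⁻¹) ⟨v, hv, rfl⟩
    have h2 : y * (x * v * x⁻¹) * y⁻¹ = z * v * z⁻¹ := by rw [hz]; group
    rwa [h2] at h1
  have hzc : z * c * z⁻¹ = c' := by
    have h1 : y * c' * y⁻¹ = c' := by
      have h2 := mem_centralizer_singleton_iff.mp hyC
      rw [← h2]
      group
    calc z * c * z⁻¹ = y * (x * c * x⁻¹) * y⁻¹ := by rw [hz]; group
      _ = y * c' * y⁻¹ := by rw [hx]
      _ = c' := h1
  obtain ⟨n, hn, w, hw, hzw⟩ := D.hsup z
  haveI hNn : N.Normal := by
    constructor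
    intro a ha g
    rw [← D.hker] at ha ⊢
    rw [map_mul, map_mul, map_inv, ha, mul_one, mul_inv_cancel]
  have hnP : ∀ v ∈ (P : Subgroup G), n * v = v * n := by
    intro v hv
    have hv1 : w⁻¹ * v * w ∈ (P : Subgroup G) :=
      mul_mem (mul_mem (inv_mem hw) hv) hw
    have h1 := hzP _ hv1
    have h2 : z * (w⁻¹ * v * w) * z⁻¹ = n * v * n⁻¹ := by rw [hzw]; group
    rw [h2] at h1
    have h3 : n * v * n⁻¹ * v⁻¹ ∈ (P : Subgroup G) := mul_mem h1 (inv_mem hv)
    have h4 : n * v * n⁻¹ * v⁻¹ ∈ N := by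
      have h5 : n * v * n⁻¹ * v⁻¹ = n * (v * n⁻¹ * v⁻¹) := by group
      rw [h5]
      exact mul_mem hn (hNn.conj_mem _ (inv_mem hn) v)
    have h5 : n * v * n⁻¹ * v⁻¹ ∈ N ⊓ (P : Subgroup G) := ⟨h4, h3⟩
    rw [D.hNP, Subgroup.mem_bot] at h5
    calc n * v = (n * v * n⁻¹ * v⁻¹) * (v * n) := by group
      _ = v * n := by rw [h5, one_mul]
  have hzu : z * u = u * z := by
    rw [hzw]
    calc n * w * u = n * (u * w) := by rw [mul_assoc, D.hPab w hw u hu]
      _ = (n * u) * w := by group
      _ = (u * n) * w := by rw [hnP u hu]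
      _ = u * (n * w) := by group
  rw [isConj_iff]
  refine ⟨z, ?_⟩
  calc z * (u * c) * z⁻¹ = (z * u) * c * z⁻¹ := by group
    _ = (u * z) * c * z⁻¹ := by rw [hzu]
    _ = u * (z * c * z⁻¹) := by group
    _ = u * c' := by rw [hzc]

theorem OCData.conj_drop (D : OCData p N P π χ₀) {c c' u : G} (hcN : c ∈ N) (hcN' : c' ∈ N)
    (hc : u * c = c * u) (hc' : u * c' = c' * u)
    (hu : u ∈ (P : Subgroup G)) (h : IsConj (u * c) (u * c')) : IsConj c c' := by
  classical
  have hPp : IsPGroup p (P : Subgroup G) := P.isPGroup'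
  obtain ⟨k, hk⟩ := IsPGroup.iff_card.mp hPp
  have hcop : (Nat.card (P : Subgroup G)).Coprime (Nat.card N) := by
    rw [hk]
    exact Nat.Coprime.pow_left _ D.hNc.symm
  let m := Nat.chineseRemainder hcop 0 1
  have hm1 : (m : ℕ) ≡ 0 [MOD Nat.card (P : Subgroup G)] := m.2.1
  have hm2 : (m : ℕ) ≡ 1 [MOD Nat.card N] := m.2.2
  have key : ∀ d : G, d ∈ N → u * d = d * u → (u * d) ^ (m : ℕ) = d := by
    intro d hd hud
    have hcomm : Commute u d := hud
    rw [hcomm.mul_pow]
    have h1 : u ^ (m : ℕ) = 1 := by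
      have h2 : orderOf u ∣ (m : ℕ) := by
        have h3 : orderOf u ∣ Nat.card (P : Subgroup G) := by
          rw [← Subgroup.orderOf_mk u hu]
          exact orderOf_dvd_natCard _
        exact h3.trans ((Nat.modEq_zero_iff_dvd).mp hm1)
      exact orderOf_dvd_iff_pow_eq_one.mp h2
    have h2 : d ^ (m : ℕ) = d := by
      have h3 : orderOf d ∣ Nat.card N := by
        rw [← Subgroup.orderOf_mk d hd]
        exact orderOf_dvd_natCard _
      have h4 : (m : ℕ) ≡ 1 [MOD orderOf d] := hm2.of_dvd h3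
      have := (pow_eq_pow_iff_modEq (x := d)).mpr h4
      rwa [pow_one] at this
    rw [h1, h2, one_mul]
  obtain ⟨x, hx⟩ := isConj_iff.mp h
  rw [isConj_iff]
  refine ⟨x, ?_⟩
  have h1 := key c hcN hc
  have h2 := key c' hcN' hc'
  rw [← h1, ← h2, ← hx, conj_pow]

theorem card_carrier_mk (g : G) :
    Nat.card (ConjClasses.mk g).carrier = (Subgroup.centralizer ({g} : Set G)).index := by
  rw [← card_isConj_eq_index]
  refine Nat.card_congr (Equiv.subtypeEquivRight fun x => ?_)
  rw [ConjClasses.mem_carrier_iff_mk_eq, ConjClasses.mk_eq_mk_iff_isConj]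

theorem OCData.dvd_class_iff (D : OCData p N P π χ₀) (g : G) :
    p ∣ Nat.card (ConjClasses.mk g).carrier ↔
      ¬ Nat.card (P : Subgroup G) ∣ Nat.card (Subgroup.centralizer ({g} : Set G)) := by
  rw [card_carrier_mk]
  have h1 := index_mul_card_centralizer g
  rw [← D.hcard] at h1
  have hPp : IsPGroup p (P : Subgroup G) := P.isPGroup'
  obtain ⟨k, hk⟩ := IsPGroup.iff_card.mp hPp
  have hnd : ¬ p ∣ Nat.card N := fun h => by
    have := Nat.Coprime.coprime_dvd_left h D.hNc
    rw [Nat.coprime_self] at this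
    exact hp.out.one_lt.ne this.symm
  constructor
  · intro hd ⟨t, ht⟩
    apply hnd
    rw [ht] at h1
    have h2 : (Subgroup.centralizer ({g} : Set G)).index * t * Nat.card (P : Subgroup G) =
        Nat.card N * Nat.card (P : Subgroup G) := by
      rw [← h1]
      ring
    have h3 := Nat.eq_of_mul_eq_mul_right Nat.card_pos h2
    rw [← h3]
    exact Dvd.dvd.mul_right hd t
  · intro hn
    by_contra hd
    apply hn
    have hcop : Nat.Coprime (Nat.card (P : Subgroup G))
        (Subgroup.centralizer ({g} : Set G)).index := by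
      rw [hk]
      exact Nat.Coprime.pow_left _ ((Nat.Prime.coprime_iff_not_dvd hp.out).mpr hd)
    apply hcop.dvd_of_dvd_mul_left
    rw [h1]
    exact Dvd.intro_left _ rfl

/-- The main count. -/
theorem OCData.main (D : OCData p N P π χ₀) (hPne : ∃ u ∈ (P : Subgroup G), u ≠ 1) :
    Nat.card {C : ConjClasses G // p ∣ Nat.card C.carrier} = 1 := by
  classical
  obtain ⟨Ξ, iΞ, iΛ, r, hr, hsum, hc⟩ := D.transversal
  letI : Fintype Q := Fintype.ofFinite Q
  letI : Fintype (ConjClasses G) := Fintype.ofFinite _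
  obtain ⟨hf1, hf2⟩ := D.fibre_counts r hr hc
  obtain ⟨u, hu, hu1⟩ := hPne
  have huN : u ∉ N := by
    intro h
    have h1 : u ∈ N ⊓ (P : Subgroup G) := ⟨h, hu⟩
    rw [D.hNP, Subgroup.mem_bot] at h1
    exact hu1 h1
  have hx₀ : π u ≠ 1 := fun h => huN ((D.hker u).mp h)
  let isC : G → Prop := fun c => c ∈ N ∧ ∀ v ∈ (P : Subgroup G), v * c = c * v
  have hcomm_elt : ∀ g : G, g ∉ N → ∃ h : G, IsConj g h ∧ ∀ v ∈ (P : Subgroup G), v * h = h * v := by
    intro g hg
    obtain ⟨x, hx⟩ := exists_conj_comm_sylow P (D.card_dvd hg)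
    exact ⟨x * g * x⁻¹, isConj_iff.mpr ⟨x, rfl⟩, hx⟩
  let Au : Finset (ConjClasses G) := Finset.univ.filter fun K => ∃ c, isC c ∧ K = ConjClasses.mk (u * c)
  let A1 : Finset (ConjClasses G) := Finset.univ.filter fun K => ∃ c, isC c ∧ K = ConjClasses.mk c
  let J : Finset (ConjClasses G) := Finset.univ.filter fun K => p ∣ Nat.card K.carrier
  have hAu : Au = fibH π (π u) := by
    ext K
    rw [mem_fibH]
    simp only [Au, Finset.mem_filter, Finset.mem_univ, true_and]
    constructor
    · rintro ⟨c, hc, rfl⟩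
      have h1 := pi_conj π (isConj_rpH_mk (u * c))
      rw [← h1, map_mul, (D.hker c).mpr hc.1, mul_one]
    · intro hK
      have hg : rpH K ∉ N := by
        intro h
        apply hx₀
        rw [← hK]
        exact (D.hker _).mpr h
      obtain ⟨h, hh, hcm⟩ := hcomm_elt _ hg
      obtain ⟨n, hn, w, hw, hnw⟩ := D.hsup h
      have h1 : π w = π u := by
        have h2 := pi_conj π hh
        rw [hK, hnw, map_mul, (D.hker n).mpr hn, one_mul] at h2
        exact h2.symm
      have h3 : w = u := by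
        have h4 : w * u⁻¹ ∈ N := by
          rw [← D.hker, map_mul, map_inv, h1, mul_inv_cancel]
        have h5 : w * u⁻¹ ∈ N ⊓ (P : Subgroup G) := Subgroup.mem_inf.mpr ⟨h4, mul_mem hw (inv_mem hu)⟩
        rw [D.hNP, Subgroup.mem_bot] at h5
        exact mul_inv_eq_one.mp h5
      subst h3
      have hn2 : ∀ v ∈ (P : Subgroup G), v * n = n * v := by
        intro v hv
        have h2 := hcm v hv
        rw [hnw] at h2
        have h3 : v * (n * w) = (n * v) * w := by
          calc v * (n * w) = n * w * v := h2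
            _ = n * (w * v) := by group
            _ = n * (v * w) := by rw [D.hPab w hw v hv]
            _ = (n * v) * w := by group
        have h4 : (v * n) * w = (n * v) * w := by rw [← h3]; group
        exact mul_right_cancel h4
      refine ⟨n, ⟨hn, hn2⟩, ?_⟩
      rw [← rpH_spec K, ConjClasses.mk_eq_mk_iff_isConj]
      refine hh.trans ?_
      rw [hnw, hn2 w hu]
  have hA1card : A1.card = Au.card := by
    have hmem : ∀ K ∈ A1, ∃ c, isC c ∧ K = ConjClasses.mk c := by
      intro K hK
      simpa [A1] using hK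
    refine Finset.card_bij (fun K hK => ConjClasses.mk (u * (hmem K hK).choose)) ?_ ?_ ?_
    · intro K hK
      simp only [Au, Finset.mem_filter, Finset.mem_univ, true_and]
      exact ⟨_, (hmem K hK).choose_spec.1, rfl⟩
    · intro K hK K' hK' h
      have h1 := ConjClasses.mk_eq_mk_iff_isConj.mp h
      have hs := (hmem K hK).choose_spec
      have hs' := (hmem K' hK').choose_spec
      have h2 := D.conj_drop hs.1.1 hs'.1.1 (hs.1.2 u hu) (hs'.1.2 u hu) hu h1
      rw [hs.2, hs'.2]
      exact ConjClasses.mk_eq_mk_iff_isConj.mpr h2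
    · intro b hb
      simp only [Au, Finset.mem_filter, Finset.mem_univ, true_and] at hb
      obtain ⟨c, hcc, rfl⟩ := hb
      have hK : ConjClasses.mk c ∈ A1 := by
        simp only [A1, Finset.mem_filter, Finset.mem_univ, true_and]
        exact ⟨c, hcc, rfl⟩
      refine ⟨_, hK, ?_⟩
      have hs := (hmem _ hK).choose_spec
      have h1 : IsConj (hmem _ hK).choose c :=
        ConjClasses.mk_eq_mk_iff_isConj.mp hs.2.symm
      exact ConjClasses.mk_eq_mk_iff_isConj.mpr (D.conj_lift hs.1.2 hcc.2 hu h1)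
  have hdisj : Disjoint A1 J := by
    rw [Finset.disjoint_left]
    intro K hK hKJ
    simp only [A1, Finset.mem_filter, Finset.mem_univ, true_and] at hK
    simp only [J, Finset.mem_filter, Finset.mem_univ, true_and] at hKJ
    obtain ⟨c, hcc, rfl⟩ := hK
    apply (D.dvd_class_iff c).mp hKJ
    apply Subgroup.card_dvd_of_le
    intro v hv
    exact mem_centralizer_singleton_iff.mpr (hcc.2 v hv).symm
  have hunion : fibH π 1 = A1 ∪ J := by
    ext K
    rw [mem_fibH, Finset.mem_union]
    constructor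
    · intro hK
      by_cases hd : p ∣ Nat.card K.carrier
      · right
        simp only [J, Finset.mem_filter, Finset.mem_univ, true_and]
        exact hd
      · left
        simp only [A1, Finset.mem_filter, Finset.mem_univ, true_and]
        have hgN : rpH K ∈ N := (D.hker _).mp hK
        have h1 : Nat.card (P : Subgroup G) ∣ Nat.card (Subgroup.centralizer ({rpH K} : Set G)) := by
          by_contra hn
          apply hd
          have := (D.dvd_class_iff (rpH K)).mpr hn
          rwa [rpH_spec] at this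
        obtain ⟨x, hx⟩ := exists_conj_comm_sylow P h1
        have hNn : N.Normal := by
          constructor
          intro a ha g
          rw [← D.hker] at ha ⊢
          rw [map_mul, map_mul, map_inv, ha, mul_one, mul_inv_cancel]
        refine ⟨x * rpH K * x⁻¹, ⟨hNn.conj_mem _ hgN x, hx⟩, ?_⟩
        rw [← rpH_spec K, ConjClasses.mk_eq_mk_iff_isConj, rpH_spec]
        exact isConj_iff.mpr ⟨x, rfl⟩
    · rintro (hK | hK)
      · simp only [A1, Finset.mem_filter, Finset.mem_univ, true_and] at hK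
        obtain ⟨c, hcc, rfl⟩ := hK
        rw [← pi_conj π (isConj_rpH_mk c)]
        exact (D.hker c).mpr hcc.1
      · simp only [J, Finset.mem_filter, Finset.mem_univ, true_and] at hK
        by_contra hne
        have hg : rpH K ∉ N := fun h => hne ((D.hker _).mpr h)
        have h1 := D.card_dvd hg
        rw [← rpH_spec K] at hK
        exact (D.dvd_class_iff _).mp hK h1
  have hJcard : J.card = 1 := by
    have h1 := Finset.card_union_of_disjoint hdisj
    rw [← hunion, hf2, hA1card, hAu, hf1 _ hx₀] at h1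
    omega
  rw [Nat.card_eq_fintype_card, Fintype.card_subtype]
  exact hJcard

end Data

section Final

variable {G : Type u} [Group G] [Finite G] {p : ℕ} [hp : Fact p.Prime]

/-- The degree is prime to `p` if the Sylow `p`-subgroup is abelian and central. -/
theorem no_p_degree_of_central [Fintype G] (N : Subgroup G) (P : Subgroup G) [hPn : P.Normal]
    (hidx : P.index = Nat.card N) (hNc : (Nat.card N).Coprime p) (hcen : P ≤ Subgroup.center G)
    (χ : IrrCharacter G) : ¬ p ∣ charDegree χ.1 := by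
  intro h
  have h1 := degree_dvd_index_of_norm χ.2 P (fun a ha => irr_norm_central χ.2 (hcen ha))
  rw [hidx] at h1
  have := Nat.Coprime.coprime_dvd_left (h.trans h1) hNc
  rw [Nat.coprime_self] at this
  exact hp.out.one_lt.ne this.symm

/-- The main theorem. -/
theorem one_class_main (hnil : ¬ Group.IsNilpotent G) (N : Subgroup G) [hN : N.Normal]
    (hNc : (Nat.card N).Coprime p) (hidx : ∃ k : ℕ, N.index = p ^ k)
    (hone : Nat.card {χ : IrrCharacter G // p ∣ charDegree χ.1} = 1) :
    Nat.card {C : ConjClasses G // p ∣ Nat.card C.carrier} = 1 := by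
  classical
  letI : Fintype G := Fintype.ofFinite G
  letI : Fintype (IrrCharacter G) := Fintype.ofFinite _
  obtain ⟨χ₀, huniq0⟩ : ∃ χ₀ : {χ : IrrCharacter G // p ∣ charDegree χ.1}, ∀ y, y = χ₀ := by
    have := (Nat.card_eq_one_iff_unique.mp hone)
    obtain ⟨h1, ⟨a⟩⟩ := this
    exact ⟨a, fun y => h1.elim y a⟩
  have huniq : ∀ χ : IrrCharacter G, p ∣ charDegree χ.1 → χ = χ₀.1 := fun χ hχ =>
    congrArg Subtype.val (huniq0 ⟨χ, hχ⟩)
  have hχ₀ := χ₀.2
  obtain ⟨k, hk⟩ := hidx
  obtain ⟨P⟩ : Nonempty (Sylow p G) := inferInstance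
  have hPp : IsPGroup p (P : Subgroup G) := P.isPGroup'
  have hcardG : Nat.card N * p ^ k = Nat.card G := by
    rw [← hk]
    exact N.card_mul_index
  have hPcard : Nat.card (P : Subgroup G) = p ^ k := by
    rw [P.card_eq_multiplicity, ← hcardG]
    have hnd : ¬ p ∣ Nat.card N := fun h => by
      have := Nat.Coprime.coprime_dvd_left h hNc
      rw [Nat.coprime_self] at this
      exact hp.out.one_lt.ne this.symm
    rw [Nat.factorization_mul Nat.card_pos.ne' (pow_ne_zero _ hp.out.ne_zero), Finsupp.add_apply,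
      Nat.factorization_eq_zero_of_not_dvd hnd, zero_add, Nat.factorization_pow, Finsupp.smul_apply,
      hp.out.factorization_self]
    simp
  have hcard : Nat.card N * Nat.card (P : Subgroup G) = Nat.card G := by rw [hPcard, hcardG]
  have hcop : (Nat.card N).Coprime (Nat.card (P : Subgroup G)) := by
    rw [hPcard]
    exact Nat.Coprime.pow_right _ hNc
  have hcompl : Subgroup.IsComplement' N (P : Subgroup G) := Subgroup.isComplement'_of_coprime hcard hcop
  have hNP : N ⊓ (P : Subgroup G) = ⊥ := hcompl.disjoint.eq_bot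
  have hsupT : N ⊔ (P : Subgroup G) = ⊤ := hcompl.sup_eq_top
  have hsup : ∀ g : G, ∃ n ∈ N, ∃ u ∈ (P : Subgroup G), g = n * u := by
    intro g
    have hg : g ∈ (P : Subgroup G) ⊔ N := by rw [sup_comm, hsupT]; exact Subgroup.mem_top g
    obtain ⟨u, hu, n, hn, rfl⟩ := Subgroup.mem_sup_of_normal_right.mp hg
    refine ⟨u * n * u⁻¹, hN.conj_mem n hn u, u, hu, ?_⟩
    group
  -- the quotient is a `p`-group
  have hQp : IsPGroup p (G ⧸ N) := by
    apply IsPGroup.of_card (n := k)
    rw [← hk]
    rfl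
  have hQcard : Nat.card (G ⧸ N) = Nat.card (P : Subgroup G) := by
    rw [hPcard, ← hk]
    rfl
  by_cases hcent : ∀ x ∈ (P : Subgroup G), ∀ n ∈ N, x * n * x⁻¹ = n
  · -- the centralizing case is impossible
    exfalso
    have hcom : ∀ x ∈ (P : Subgroup G), ∀ n ∈ N, x * n = n * x := by
      intro x hx n hn
      calc x * n = (x * n * x⁻¹) * x := by group
        _ = n * x := by rw [hcent x hx n hn]
    haveI hPn : (P : Subgroup G).Normal := by
      constructor
      intro v hv g
      obtain ⟨n, hn, w, hw, rfl⟩ := hsup g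
      have h1 : (n * w) * v * (n * w)⁻¹ = w * v * w⁻¹ := by
        have h2 : n * (w * v * w⁻¹) * n⁻¹ = w * v * w⁻¹ := by
          have h3 := hcom (w * v * w⁻¹) (mul_mem (mul_mem hw hv) (inv_mem hw)) n hn
          rw [← h3]
          group
        rw [← h2]
        group
      rw [h1]
      exact mul_mem (mul_mem hw hv) (inv_mem hw)
    have hPidx : (P : Subgroup G).index = Nat.card N := by
      have h1 := (P : Subgroup G).card_mul_index
      rw [← hcard, mul_comm] at h1
      exact Nat.eq_of_mul_eq_mul_right Nat.card_pos h1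
    by_cases hab : ∀ x ∈ (P : Subgroup G), ∀ y ∈ (P : Subgroup G), x * y = y * x
    · -- abelian: no degree divisible by `p`
      have hcen : (P : Subgroup G) ≤ Subgroup.center G := by
        intro x hx
        rw [Subgroup.mem_center_iff]
        intro g
        obtain ⟨n, hn, w, hw, rfl⟩ := hsup g
        calc n * w * x = n * (x * w) := by rw [mul_assoc, hab w hw x hx]
          _ = (n * x) * w := by group
          _ = (x * n) * w := by rw [hcom x hx n hn]
          _ = x * (n * w) := by group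
      exact no_p_degree_of_central N (P : Subgroup G) hPidx hNc hcen χ₀.1 hχ₀
    · -- non-abelian
      have hQnc : ¬ ∀ a b : G ⧸ N, a * b = b * a := by
        intro hQc
        apply hab
        intro x hx y hy
        have h1 := hQc (x : G ⧸ N) (y : G ⧸ N)
        have h2 : ((x * y * x⁻¹ * y⁻¹ : G) : G ⧸ N) = 1 := by
          show (x : G ⧸ N) * y * (x : G ⧸ N)⁻¹ * (y : G ⧸ N)⁻¹ = 1
          rw [h1]
          group
        have h3 : x * y * x⁻¹ * y⁻¹ ∈ N := (QuotientGroup.eq_one_iff _).mp h2
        have h4 : x * y * x⁻¹ * y⁻¹ ∈ N ⊓ (P : Subgroup G) :=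
          Subgroup.mem_inf.mpr ⟨h3, mul_mem (mul_mem (mul_mem hx hy) (inv_mem hx)) (inv_mem hy)⟩
        rw [hNP, Subgroup.mem_bot] at h4
        calc x * y = (x * y * x⁻¹ * y⁻¹) * (y * x) := by group
          _ = y * x := by rw [h4, one_mul]
      have hexβ : ∃ β : IrrCharacter (G ⧸ N), p ∣ charDegree β.1 := by
        by_contra hcon
        push Not at hcon
        exact hQnc (comm_of_pgroup_degrees hQp hcon)
      obtain ⟨β, hβ⟩ := hexβ
      -- `χ₀` is the inflation of `β`
      have hinf : (⟨β.1 ∘ QuotientGroup.mk' N, isIrr_inflate N β.2⟩ : IrrCharacter G) = χ₀.1 := by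
        apply huniq
        show p ∣ charDegree (β.1 ∘ QuotientGroup.mk' N)
        rw [charDegree_comp_mk]
        exact hβ
      have hNker : ∀ n ∈ N, χ₀.1.1 n = χ₀.1.1 1 := by
        intro n hn
        rw [← hinf]
        show β.1 (QuotientGroup.mk' N n) = β.1 (QuotientGroup.mk' N 1)
        have hq : QuotientGroup.mk' N n = 1 := (QuotientGroup.eq_one_iff n).mpr hn
        rw [map_one, hq]
      by_cases hN1 : N = ⊥
      · -- `G` is a `p`-group
        apply hnil
        have hG : IsPGroup p G := by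
          apply IsPGroup.of_card (n := k)
          rw [← hcardG, hN1]
          simp
        exact hG.isNilpotent
      · -- a second character of degree divisible by `p`
        obtain ⟨⟨n₀, hn₀⟩, hn₀1⟩ := Subgroup.ne_bot_iff_exists_ne_one.mp hN1
        have hn₀1' : n₀ ≠ 1 := fun h => hn₀1 (Subtype.ext h)
        have hn₀P : (n₀ : G ⧸ (P : Subgroup G)) ≠ 1 := by
          intro h
          have h1 : n₀ ∈ (P : Subgroup G) := (QuotientGroup.eq_one_iff n₀).mp h
          have h2 : n₀ ∈ N ⊓ (P : Subgroup G) := Subgroup.mem_inf.mpr ⟨hn₀, h1⟩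
          rw [hNP, Subgroup.mem_bot] at h2
          exact hn₀1' h2
        letI : Fintype (G ⧸ (P : Subgroup G)) := Fintype.ofFinite _
        letI : Fintype (IrrCharacter (G ⧸ (P : Subgroup G))) := Fintype.ofFinite _
        obtain ⟨θ, hθ⟩ : ∃ θ : IrrCharacter (G ⧸ (P : Subgroup G)),
            θ.1 (n₀ : G ⧸ (P : Subgroup G)) ≠ θ.1 1 := by
          by_contra hcon
          push Not at hcon
          have h1 := isConj_of_forall_irr_eq hcon
          exact hn₀P (isConj_one_right.mp h1.symm)
        let θ' : G → ℂ := θ.1 ∘ QuotientGroup.mk' (P : Subgroup G)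
        have hθc : IsIrrCharacter G θ' := isIrr_inflate (P : Subgroup G) θ.2
        have hθP : ∀ g : G, ∀ v ∈ (P : Subgroup G), θ' (g * v) = θ' g := by
          intro g v hv
          show θ.1 (QuotientGroup.mk' _ (g * v)) = θ.1 (QuotientGroup.mk' _ g)
          have hq : QuotientGroup.mk' (P : Subgroup G) v = 1 := (QuotientGroup.eq_one_iff v).mpr hv
          rw [map_mul, hq, mul_one]
        have hχN : ∀ n ∈ N, ∀ v : G, χ₀.1.1 (n * v) = χ₀.1.1 v := by
          intro n hn v
          exact character_mul_of_mem_ker (isCharacter_of_irr χ₀.1.2) (hNker n hn) v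
        -- sums over the complement
        have hsplit : ∀ f : G → ℂ, ∑ g, f g = ∑ n : N, ∑ v : (P : Subgroup G), f (n * v) := by
          intro f
          rw [← Fintype.sum_prod_type']
          exact (Fintype.sum_equiv (Equiv.ofBijective _ hcompl)
            (fun q : N × (P : Subgroup G) => f ((q.1 : G) * (q.2 : G))) f (fun _ => rfl)).symm
        have hN0 : (Nat.card N : ℂ) ≠ 0 := by simp [Nat.card_pos.ne']
        have hP0 : (Nat.card (P : Subgroup G) : ℂ) ≠ 0 := by simp [Nat.card_pos.ne']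
        have hGe : (Nat.card G : ℂ) = Nat.card N * Nat.card (P : Subgroup G) := by
          rw [← hcard]
          push_cast
          rfl
        have hPP : Fintype.card (P : Subgroup G) = Nat.card (P : Subgroup G) :=
          Nat.card_eq_fintype_card.symm
        have hNN : Fintype.card N = Nat.card N := Nat.card_eq_fintype_card.symm
        have hnθ : ∑ n : N, θ' n * conj (θ' n) = Nat.card N := by
          have h1 := classInner_irr (⟨θ', hθc⟩ : IrrCharacter G) ⟨θ', hθc⟩
          rw [if_pos rfl] at h1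
          unfold classInner at h1
          rw [hsplit] at h1
          have h2 : ∀ (n : N) (v : (P : Subgroup G)),
              θ' ((n : G) * (v : G)) * conj (θ' ((n : G) * (v : G))) = θ' n * conj (θ' n) := by
            intro n v
            rw [hθP _ _ v.2]
          simp only [h2, Finset.sum_const, Finset.card_univ, nsmul_eq_mul] at h1
          rw [hPP, ← Finset.mul_sum, hGe] at h1
          field_simp at h1
          exact h1
        have hnχ : ∑ v : (P : Subgroup G), χ₀.1.1 v * conj (χ₀.1.1 v) = Nat.card (P : Subgroup G) := by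
          have h1 := classInner_irr χ₀.1 χ₀.1
          rw [if_pos rfl] at h1
          unfold classInner at h1
          rw [hsplit] at h1
          have h2 : ∀ (n : N) (v : (P : Subgroup G)),
              χ₀.1.1 ((n : G) * (v : G)) * conj (χ₀.1.1 ((n : G) * (v : G))) =
                χ₀.1.1 v * conj (χ₀.1.1 v) := by
            intro n v
            rw [hχN _ n.2]
          simp only [h2] at h1
          simp only [Finset.sum_const, Finset.card_univ, nsmul_eq_mul] at h1
          rw [hNN, hGe] at h1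
          field_simp at h1
          exact h1
        have hprodc : IsCharacter G (fun g => θ' g * χ₀.1.1 g) :=
          isCharacter_mul (isCharacter_of_irr hθc) (isCharacter_of_irr χ₀.1.2)
        have hprodn : classInner (fun g => θ' g * χ₀.1.1 g) (fun g => θ' g * χ₀.1.1 g) = 1 := by
          unfold classInner
          rw [hsplit]
          have h2 : ∀ (n : N) (v : (P : Subgroup G)),
              θ' ((n : G) * (v : G)) * χ₀.1.1 ((n : G) * (v : G)) *
                conj (θ' ((n : G) * (v : G)) * χ₀.1.1 ((n : G) * (v : G))) =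
                (θ' n * conj (θ' n)) * (χ₀.1.1 v * conj (χ₀.1.1 v)) := by
            intro n v
            rw [hθP _ _ v.2, hχN _ n.2, map_mul]
            ring
          simp only [h2]
          simp only [← Finset.mul_sum, ← Finset.sum_mul]
          rw [hnχ, hnθ, hGe]
          field_simp
        have hprodi : IsIrrCharacter G (fun g => θ' g * χ₀.1.1 g) :=
          isIrrCharacter_of_inner_self_eq_one hprodc hprodn
        have hprodeq : (⟨_, hprodi⟩ : IrrCharacter G) = χ₀.1 := by
          apply huniq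
          show p ∣ charDegree (fun g => θ' g * χ₀.1.1 g)
          have h1 : charDegree (fun g => θ' g * χ₀.1.1 g) =
              charDegree θ' * charDegree χ₀.1.1 := by
            have h2 := one_eq_charDegree hprodc
            have h3 := one_eq_charDegree (isCharacter_of_irr hθc)
            have h4 := one_eq_charDegree (isCharacter_of_irr χ₀.1.2)
            rw [h3, h4] at h2
            exact_mod_cast h2.symm
          rw [h1]
          exact Dvd.dvd.mul_left hχ₀ _
        have hval : ∀ g, θ' g * χ₀.1.1 g = χ₀.1.1 g := fun g =>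
          congrFun (congrArg Subtype.val hprodeq) g
        have hdeg0 : χ₀.1.1 1 ≠ 0 := by
          have h5 := irr_charDegree_pos χ₀.1.2
          rw [one_eq_charDegree (isCharacter_of_irr χ₀.1.2)]
          exact_mod_cast h5.ne'
        have h1 : θ' 1 = 1 := by
          have h2 := hval 1
          exact mul_right_cancel₀ hdeg0 (by rw [h2, one_mul])
        have h3 : θ' n₀ = 1 := by
          have h2 := hval n₀
          rw [hNker n₀ hn₀] at h2
          exact mul_right_cancel₀ hdeg0 (by rw [h2, one_mul])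
        apply hθ
        have h4 : θ' n₀ = θ.1 (n₀ : G ⧸ (P : Subgroup G)) := rfl
        have h5 : θ' 1 = θ.1 1 := by
          show θ.1 (QuotientGroup.mk' _ 1) = θ.1 1
          rw [map_one]
        rw [← h4, ← h5, h3, h1]
  · -- the main case
    obtain ⟨ψ, hψd, n, hn, hne⟩ := exists_over_noncentral N (P : Subgroup G) hNc hPp hsupT hcent
    have hψ := huniq ψ hψd
    rw [hψ] at hne
    have hdeg : ∀ β : IrrCharacter (G ⧸ N), ¬ p ∣ charDegree β.1 := by
      intro β hβ
      have hinf : (⟨β.1 ∘ QuotientGroup.mk' N, isIrr_inflate N β.2⟩ : IrrCharacter G) = χ₀.1 := by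
        apply huniq
        show p ∣ charDegree (β.1 ∘ QuotientGroup.mk' N)
        rw [charDegree_comp_mk]
        exact hβ
      apply hne
      rw [← hinf]
      show β.1 (QuotientGroup.mk' N n) = β.1 (QuotientGroup.mk' N 1)
      have hq : QuotientGroup.mk' N n = 1 := (QuotientGroup.eq_one_iff n).mpr hn
      rw [map_one, hq]
    have hQc := comm_of_pgroup_degrees hQp hdeg
    have hPab : ∀ x ∈ (P : Subgroup G), ∀ y ∈ (P : Subgroup G), x * y = y * x := by
      intro x hx y hy
      have h1 := hQc (x : G ⧸ N) (y : G ⧸ N)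
      have h2 : ((x * y * x⁻¹ * y⁻¹ : G) : G ⧸ N) = 1 := by
        show (x : G ⧸ N) * y * (x : G ⧸ N)⁻¹ * (y : G ⧸ N)⁻¹ = 1
        rw [h1]
        group
      have h3 : x * y * x⁻¹ * y⁻¹ ∈ N := (QuotientGroup.eq_one_iff _).mp h2
      have h4 : x * y * x⁻¹ * y⁻¹ ∈ N ⊓ (P : Subgroup G) :=
        Subgroup.mem_inf.mpr ⟨h3, mul_mem (mul_mem (mul_mem hx hy) (inv_mem hx)) (inv_mem hy)⟩
      rw [hNP, Subgroup.mem_bot] at h4
      calc x * y = (x * y * x⁻¹ * y⁻¹) * (y * x) := by group
        _ = y * x := by rw [h4, one_mul]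
    have hPne : ∃ u ∈ (P : Subgroup G), u ≠ 1 := by
      push Not at hcent
      obtain ⟨x, hx, n', hn', hne'⟩ := hcent
      refine ⟨x, hx, ?_⟩
      rintro rfl
      apply hne'
      group
    letI : CommGroup (G ⧸ N) := { (inferInstance : Group (G ⧸ N)) with mul_comm := hQc }
    have D : OCData p N P (QuotientGroup.mk' N) χ₀.1 :=
      { hker := fun g => QuotientGroup.eq_one_iff g
        hsurj := QuotientGroup.mk'_surjective N
        hNP := hNP
        hsup := hsup
        hPab := hPab
        hNc := hNc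
        hcard := hcard
        hQ := hQcard
        hχ₀ := hχ₀
        huniq := huniq }
    exact D.main hPne

end Final

end Cfsg.Agent.H22
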