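import Cfsg.Agent.Lib.H22.Local
import Cfsg.Agent.Lib.H21.CharLinear
import Cfsg.Agent.Lib.H06.Brauer4

/-!
# Perfect groups with a faithful character of small degree in the principal block
-/

set_option autoImplicit false
set_option linter.unusedSectionVars false
set_option linter.style.haveILetI false
set_option linter.unusedSimpArgs false

namespace Cfsg.Agent.H22

open Cfsg Cfsg.Agent.H21 Module
open scoped ComplexConjugate commutatorElement

universe u

variable {G : Type u} [Group G] [Finite G]

theorem rep_pow_eigen {n : ℕ} (ρ : Representation ℂ G (Fin n → ℂ)) (y : G) {ι : Type} [Fintype ι]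
    (b : Basis ι ℂ (Fin n → ℂ)) (μ : ι → ℂ) (h : ∀ i, ρ y (b i) = μ i • b i) (j : ℕ) :
    ρ.character (y ^ j) = ∑ i, μ i ^ j := by
  have h1 : ∀ i, ρ (y ^ j) (b i) = μ i ^ j • b i := by
    intro i
    induction j with
    | zero => simp
    | succ k ih =>
      rw [pow_succ, map_mul, Module.End.mul_apply, h, map_smul, ih, smul_smul, pow_succ]
      ring_nf
  exact trace_of_eigenbasis _ b _ h1

theorem geom_sum_root {w : ℂ} {N : ℕ} (hw : w ≠ 1) (hN : w ^ N = 1) :
    ∑ j ∈ Finset.range N, w ^ j = 0 := by
  rw [geom_sum_eq hw, hN]; simp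

theorem mult_eq_sum {ι : Type} [Fintype ι] [DecidableEq ℂ] (μ : ι → ℂ) {N : ℕ} (hμ : ∀ i, μ i ^ N = 1) {η : ℂ}
    (hη : η ^ N = 1) :
    (N : ℂ) * ((Finset.univ.filter fun i => μ i = η).card : ℂ) =
      ∑ j ∈ Finset.range N, (∑ i, μ i ^ j) * (η⁻¹) ^ j := by
  have hη0 : η ≠ 0 ∨ N = 0 := by
    by_cases hN : N = 0
    · exact Or.inr hN
    · left
      rintro rfl
      rw [zero_pow hN] at hη
      exact zero_ne_one hη
  rcases hη0 with hη0 | hN
  · simp_rw [Finset.sum_mul]
    rw [Finset.sum_comm]
    have hterm : ∀ i, ∑ j ∈ Finset.range N, μ i ^ j * (η⁻¹) ^ j = if μ i = η then (N : ℂ) else 0 := by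
      intro i
      simp_rw [← mul_pow]
      split_ifs with h
      · rw [h, mul_inv_cancel₀ hη0]; simp
      · apply geom_sum_root
        · intro h1
          apply h
          field_simp at h1
          exact h1
        · rw [mul_pow, hμ, inv_pow, hη]; simp
    simp_rw [hterm]
    rw [Finset.sum_ite]
    simp
    ring
  · subst hN
    simp

variable {p : ℕ} [hp : Fact p.Prime] {M : Ideal AlgInt}

/-- Eigenvalue multiplicities are divisible by `p`. -/
theorem eig_mult_dvd (hM : IsPModular p M) [M.IsPrime] {d : ℕ} {N : ℕ} (hN : ¬ p ∣ N)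
    {ι : Type} [Fintype ι] [DecidableEq ℂ] (μ : ι → ℂ) (hμ : ∀ i, μ i ^ N = 1)
    (hq : ∀ j : ℕ, MemLocalIdeal M (1 - (∑ i, μ i ^ j) / (d : ℂ))) (hd : (d : ℂ) ≠ 0)
    {η : ℂ} (hη : η ^ N = 1) (hη1 : η ≠ 1) :
    p ∣ (Finset.univ.filter fun i => μ i = η).card := by
  have h1 := mult_eq_sum μ hμ hη
  have hη' : (η⁻¹) ^ N = 1 := by rw [inv_pow, hη]; simp
  have hη'1 : η⁻¹ ≠ 1 := by
    intro h; exact hη1 (by rw [← inv_inv η, h]; simp)
  have hNpos : 0 < N := by
    rcases Nat.eq_zero_or_pos N with h | h
    · subst h; simp at hN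
    · exact h
  have hint : IsIntegral ℤ (η⁻¹) := by
    apply IsIntegral.of_pow hNpos
    rw [hη']
    exact isIntegral_one
  have h2 : ∀ j ∈ Finset.range N, (∑ i, μ i ^ j) * (η⁻¹) ^ j =
      (d : ℂ) * (η⁻¹) ^ j - (d : ℂ) * ((1 - (∑ i, μ i ^ j) / (d : ℂ)) * (η⁻¹) ^ j) := by
    intro j _
    field_simp
    ring
  rw [Finset.sum_congr rfl h2, Finset.sum_sub_distrib, ← Finset.mul_sum, ← Finset.mul_sum,
    geom_sum_root hη'1 hη', mul_zero, zero_sub] at h1
  have h3 : MemLocalIdeal M ((N : ℂ) * ((Finset.univ.filter fun i => μ i = η).card : ℂ)) := by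
    rw [h1]
    apply mli_neg
    apply mli_mul_left _ (mlr_natCast d)
    apply mli_sum
    intro j _
    exact mli_mul_right (hq j) (mlr_of_isIntegral (IsIntegral.pow hint j))
  have h4 : MemLocalIdeal M (((N * (Finset.univ.filter fun i => μ i = η).card : ℕ)) : ℂ) := by
    push_cast; exact h3
  rw [mli_natCast_iff hM] at h4
  exact ((Nat.Prime.dvd_mul hp.out).1 h4).resolve_left hN

/-- The main theorem. -/
theorem perfect_principal_centralizer (hM : IsPModular p M) (hperf : commutator G = ⊤) (P : Sylow p G)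
    (χ : IrrCharacter G) (hχ : χ ∈ principalBlock M G)
    (hfaith : ∀ g : G, χ.1 g = χ.1 1 → g = 1) (hdeg : charDegree χ.1 < 2 * p) :
    IsPGroup p (Subgroup.centralizer ((P : Subgroup G) : Set G)) := by
  classical
  haveI : Fintype G := Fintype.ofFinite G
  haveI : M.IsPrime := hM.2.1.isPrime
  have hregular : ∀ y : G, y ∈ Subgroup.centralizer ((P : Subgroup G) : Set G) → ¬ p ∣ orderOf y → y = 1 := by
    intro y hy hyp
    obtain ⟨n, ρ, -, hρ⟩ := χ.2
    obtain ⟨ι, hι, b, μ, h1, h2, -, -⟩ := exists_eigenbasis ρ y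
    have hval : ∀ j : ℕ, χ.1 (y ^ j) = ∑ i, μ i ^ j := by
      intro j
      rw [← hρ]
      exact rep_pow_eigen ρ y b μ h1 j
    have hdeg1 := one_eq_charDegree (isCharacter_of_irr χ.2)
    set d := charDegree χ.1 with hd
    have hdpos : 0 < d := irr_charDegree_pos χ.2
    have hd0 : (d : ℂ) ≠ 0 := by exact_mod_cast hdpos.ne'
    have hcardι : Fintype.card ι = d := by
      have := hval 0
      rw [pow_zero, hdeg1] at this
      simp at this
      exact_mod_cast this.symm
    -- the local congruences
    have hq : ∀ j : ℕ, MemLocalIdeal M (1 - (∑ i, μ i ^ j) / (d : ℂ)) := by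
      intro j
      have h3 := hχ (y ^ j)
      unfold centralChar at h3
      have hle : (P : Subgroup G) ≤ Subgroup.centralizer ({y ^ j} : Set G) := by
        intro u hu
        rw [Subgroup.mem_centralizer_iff]
        rintro x hx
        rw [Set.mem_singleton_iff.1 hx]
        have h4 := Subgroup.mem_centralizer_iff.1 hy u hu
        exact ((Commute.pow_right (show Commute u y from h4) j).eq).symm
      have hidx : ¬ p ∣ (Subgroup.centralizer ({y ^ j} : Set G)).index := by
        intro h5
        exact P.not_dvd_index (h5.trans (Subgroup.index_dvd_of_le hle))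
      set I := (Subgroup.centralizer ({y ^ j} : Set G)).index with hI
      have h6 : ¬ MemLocalIdeal M (I : ℂ) := by
        rw [mli_natCast_iff hM]; exact hidx
      have h7 : (I : ℂ) * (1 : ℂ) / (1 : ℂ) - (I : ℂ) * χ.1 (y ^ j) / χ.1 1
          = (I : ℂ) * (1 - (∑ i, μ i ^ j) / (d : ℂ)) := by
        rw [hval j, hdeg1]; field_simp
      have h8 : MemLocalIdeal M ((I : ℂ) * (1 - (∑ i, μ i ^ j) / (d : ℂ))) := by
        rw [← h7]; exact h3
      have hmr : MemLocalRing M (1 - (∑ i, μ i ^ j) / (d : ℂ)) := by
        have h9 : (1 - (∑ i, μ i ^ j) / (d : ℂ)) = (I : ℂ)⁻¹ * ((I : ℂ) * (1 - (∑ i, μ i ^ j) / (d : ℂ))) := by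
          have : (I : ℂ) ≠ 0 := by
            intro h0
            apply h6
            rw [h0]
            exact mli_zero
          field_simp
        rw [h9]
        exact mlr_mul (mlr_inv (mlr_natCast I) h6).2 (mli_mlr h8)
      exact ((mli_mul_iff (mlr_natCast I) hmr).1 h8).resolve_left h6
    -- all eigenvalues equal to one
    have hall : ∀ i, μ i = 1 := by
      by_contra hcon
      push Not at hcon
      obtain ⟨i₀, hi₀⟩ := hcon
      set η₀ := μ i₀ with hη₀
      have hmdvd : ∀ η : ℂ, η ^ orderOf y = 1 → η ≠ 1 → p ∣ (Finset.univ.filter fun i => μ i = η).card :=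
        fun η h3 h4 => eig_mult_dvd hM hyp μ h2 hq hd0 h3 h4
      have hm0 := hmdvd η₀ (h2 i₀) hi₀
      have hm0pos : 0 < (Finset.univ.filter fun i => μ i = η₀).card :=
        Finset.card_pos.2 ⟨i₀, by simp [hη₀]⟩
      have hcase : ∀ i, μ i = 1 ∨ μ i = η₀ := by
        intro i
        by_contra hc
        push Not at hc
        have hm1 := hmdvd (μ i) (h2 i) hc.1
        have hm1pos : 0 < (Finset.univ.filter fun k => μ k = μ i).card :=
          Finset.card_pos.2 ⟨i, by simp⟩
        have hdisj : Disjoint (Finset.univ.filter fun k => μ k = η₀) (Finset.univ.filter fun k => μ k = μ i) := by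
          rw [Finset.disjoint_filter]
          intro k _ h4 h5
          exact hc.2 (h5.symm.trans h4)
        have hle := Finset.card_le_univ ((Finset.univ.filter fun k => μ k = η₀) ∪ (Finset.univ.filter fun k => μ k = μ i))
        rw [Finset.card_union_of_disjoint hdisj, hcardι] at hle
        have h5 := Nat.le_of_dvd hm0pos hm0
        have h6 := Nat.le_of_dvd hm1pos hm1
        omega
      have hmp : (Finset.univ.filter fun i => μ i = η₀).card = p := by
        obtain ⟨k, hk⟩ := hm0
        have hle := Finset.card_le_univ (Finset.univ.filter fun i => μ i = η₀)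
        rw [hcardι] at hle
        have hp2 := hp.out.pos
        have hk1 : k < 2 := by
          by_contra h5
          have : p * 2 ≤ p * k := Nat.mul_le_mul_left p (by omega)
          omega
        have hk2 : k ≠ 0 := by
          rintro rfl
          omega
        have : k = 1 := by omega
        rw [hk, this, mul_one]
      -- the determinant
      have hdetμ : LinearMap.det (ρ y) = ∏ i, μ i := by
        rw [← LinearMap.det_toMatrix b]
        have : LinearMap.toMatrix b b (ρ y) = Matrix.diagonal μ := by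
          ext i j
          rw [LinearMap.toMatrix_apply, h1, map_smul, Basis.repr_self, Matrix.diagonal_apply]
          by_cases hij : i = j
          · subst hij; simp
          · simp [hij, Finsupp.single_apply, Ne.symm hij]
        rw [this, Matrix.det_diagonal]
      have hprod : ∏ i, μ i = η₀ ^ p := by
        have h3 : ∀ i, μ i = if μ i = η₀ then η₀ else 1 := by
          intro i
          rcases hcase i with h | h
          · by_cases h4 : μ i = η₀
            · rw [if_pos h4, h4]
            · rw [if_neg h4, h]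
          · rw [if_pos h, h]
        rw [Finset.prod_congr rfl (fun i _ => h3 i), Finset.prod_ite]
        simp only [Finset.prod_const, one_pow, mul_one, hmp]
      have hdet1 : LinearMap.det (ρ y) = 1 := by
        let f : G →* ℂ := (LinearMap.det : (Module.End ℂ (Fin n → ℂ)) →* ℂ).comp ρ
        let l : G →* ℂˣ := f.toHomUnits
        have hker : commutator G ≤ l.ker := by
          rw [_root_.commutator_def, Subgroup.commutator_le]
          intro a _ c _
          rw [MonoidHom.mem_ker, commutatorElement_def]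
          simp only [map_mul, map_inv]
          rw [mul_comm (l a) (l c)]
          group
        have h3 : l y = 1 := hker (by rw [hperf]; trivial)
        have h4 : ((l y : ℂˣ) : ℂ) = f y := rfl
        rw [h3] at h4
        exact h4.symm.trans (by simp)
      rw [hdetμ, hprod] at hdet1
      have hN := h2 i₀
      have h5 : orderOf η₀ ∣ Nat.gcd (orderOf y) p := Nat.dvd_gcd (orderOf_dvd_of_pow_eq_one hN)
        (orderOf_dvd_of_pow_eq_one hdet1)
      have hcop : Nat.gcd (orderOf y) p = 1 :=
        Nat.Coprime.symm ((Nat.Prime.coprime_iff_not_dvd hp.out).2 hyp)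
      rw [hcop, Nat.dvd_one, orderOf_eq_one_iff] at h5
      exact hi₀ h5
    apply hfaith
    have h3 := hval 1
    rw [pow_one] at h3
    rw [h3, hdeg1]
    simp only [pow_one, hall]
    simp [hcardι]
  -- general elements
  rw [IsPGroup.iff_orderOf]
  rintro ⟨g, hg⟩
  have hpos := orderOf_pos g
  obtain ⟨a, m, hm, hfac⟩ := Nat.exists_eq_pow_mul_and_not_dvd hpos.ne' p hp.out.ne_one
  have hmem : g ^ (p ^ a) ∈ Subgroup.centralizer ((P : Subgroup G) : Set G) := Subgroup.pow_mem _ hg _
  have hordy : orderOf (g ^ (p ^ a)) = m := by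
    rw [orderOf_pow' g (pow_ne_zero a hp.out.ne_zero), hfac, Nat.gcd_mul_right_left]
    exact Nat.mul_div_cancel_left m (pow_pos hp.out.pos a)
  have h1 := hregular _ hmem (by rw [hordy]; exact hm)
  have h2 : orderOf g ∣ p ^ a := orderOf_dvd_of_pow_eq_one h1
  obtain ⟨k, -, hk⟩ := (Nat.dvd_prime_pow hp.out).1 h2
  refine ⟨k, ?_⟩
  rw [Subgroup.orderOf_mk]
  exact hk

end Cfsg.Agent.H22
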