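import Cfsg.Agent.Lib.H04.Cliff.BurnsideV
import Cfsg.Agent.Lib.H21.RegProj
import Cfsg.Agent.Lib.H22.Brauer2

/-! # Characters of prime power degree and blocks -/

set_option autoImplicit false
set_option linter.unusedSectionVars false
set_option linter.style.haveILetI false
set_option linter.unusedSimpArgs false
set_option linter.unusedVariables false

namespace Cfsg.Agent.H22

open Cfsg Cfsg.Agent.H21 Module
open scoped ComplexConjugate

universe u

variable {G : Type u} [Group G] [Finite G] {p : ℕ} [hp : Fact p.Prime] {M : Ideal AlgInt}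

theorem sum_subgroup_char (ψ : IrrCharacter G) (Z : Subgroup G) :
    ∃ m : ℕ, ∑ y : Z, ψ.1 y = (Nat.card Z : ℂ) * m := by
  classical
  obtain ⟨m, hm⟩ := classInner_isCharacter_nat (isCharacter_restrict Z
    (Cfsg.Agent.H21.isCharacter_of_irr ψ.2))
    (Cfsg.Agent.H21.isCharacter_of_irr (isIrrCharacter_one (G := Z)))
  refine ⟨m, ?_⟩
  rw [← hm]
  unfold classInner
  have h1 : (Nat.card Z : ℂ) ≠ 0 := by
    exact_mod_cast (Nat.card_pos (α := Z)).ne'
  simp only [map_one, mul_one]
  rw [mul_inv_cancel_left₀ h1]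

/-- If `ψ y / ψ 1` lies in the local ideal for all `y ≠ 1` of a `p`-subgroup `Z`, then the order of
`Z` divides `ψ 1`. -/
theorem card_dvd_degree_of_mli (hM : IsPModular p M) (ψ : IrrCharacter G) (Z : Subgroup G) {b : ℕ}
    (hZ : Nat.card Z = p ^ b) (h : ∀ y ∈ Z, y ≠ 1 → MemLocalIdeal M (ψ.1 y / ψ.1 1)) :
    p ^ b ∣ charDegree ψ.1 := by
  classical
  haveI hMp : M.IsPrime := hM.2.1.isPrime
  obtain ⟨m, hm⟩ := sum_subgroup_char ψ Z
  have hψ1 : ψ.1 1 ≠ 0 := irr_one_ne_zero' ψ
  set u : ℂ := ∑ y : Z, ψ.1 y / ψ.1 1 with hu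
  have hu1 : MemLocalIdeal M (u - 1) := by
    have h1 : u - 1 = ∑ y ∈ Finset.univ.erase (1 : Z), ψ.1 y / ψ.1 1 := by
      rw [hu, ← Finset.add_sum_erase _ _ (Finset.mem_univ (1 : Z))]
      have h2 : ψ.1 ((1 : Z) : G) / ψ.1 1 = 1 := by
        rw [Subgroup.coe_one]
        exact div_self hψ1
      rw [h2]
      ring
    rw [h1]
    refine mli_sum _ _ fun y hy => ?_
    refine h y y.2 ?_
    intro h3
    exact (Finset.mem_erase.1 hy).1 (Subtype.ext h3)
  have hun : ¬ MemLocalIdeal M u := by
    intro h1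
    have := mli_sub h1 hu1
    rw [sub_sub_cancel] at this
    exact not_mli_one this
  have hulr : MemLocalRing M u := by
    have h1 : u = (u - 1) + 1 := by ring
    rw [h1]
    exact mlr_add (mli_mlr hu1) mlr_one
  have hd0 : charDegree ψ.1 ≠ 0 := (irr_charDegree_pos ψ.2).ne'
  have heq : (((p ^ b * m : ℕ) : ℤ) : ℂ) = (charDegree ψ.1 : ℂ) * u := by
    have h1 : ψ.1 1 * u = ∑ y : Z, ψ.1 y := by
      rw [hu, Finset.mul_sum]
      refine Finset.sum_congr rfl fun y _ => ?_
      field_simp
    rw [← Cfsg.Agent.H21.one_eq_charDegree (Cfsg.Agent.H21.isCharacter_of_irr ψ.2), h1, hm, hZ]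
    push_cast
    rfl
  obtain ⟨-, h2⟩ := int_val_of_local hM hd0 hulr heq
  have h3 := h2.mp hun
  by_contra hcon
  have h4 : (charDegree ψ.1).factorization p + 1 ≤ b := by
    by_contra h5
    apply hcon
    exact (Nat.Prime.pow_dvd_iff_le_factorization hp.out hd0).2 (by omega)
  apply h3
  have h5 : p ^ ((charDegree ψ.1).factorization p + 1) ∣ p ^ b * m :=
    Dvd.dvd.mul_right (pow_dvd_pow p h4) m
  exact_mod_cast Int.natCast_dvd_natCast.2 h5

/-- S4730. -/
theorem defect_le_of_power_degree (hM : IsPModular p M) (hZ : Subgroup.center G = ⊥) (P : Sylow p G)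
    (a b : ℕ) (ha : Nat.card P = p ^ a) (hb : Nat.card (Subgroup.center ↥(P : Subgroup G)) = p ^ b)
    (χ : IrrCharacter G) (hfaith : ∀ g : G, χ.1 g = χ.1 1 → g = 1) (n : ℕ)
    (hdeg : charDegree χ.1 = p ^ n) :
    blockDefect p (blockOf M χ.1) ≤ a - b ∧
      (IsMulCommutative ↥(P : Subgroup G) → blockDefect p (blockOf M χ.1) = 0) := by
  classical
  haveI hMp : M.IsPrime := hM.2.1.isPrime
  set Z : Subgroup G := (Subgroup.center ↥(P : Subgroup G)).map (P : Subgroup G).subtype with hZd
  have hcardZ : Nat.card Z = p ^ b := by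
    rw [← hb]
    exact Nat.card_congr (Subgroup.equivMapOfInjective _ _ (Subgroup.subtype_injective _)).symm.toEquiv
  have hker : charKer χ.1 (Cfsg.Agent.H21.isCharacter_of_irr χ.2) = ⊥ := by
    rw [eq_bot_iff]
    intro g hg
    exact hfaith g hg
  -- class sizes of elements of `Z`
  have hidx : ∀ y ∈ Z, ¬ p ∣ (Subgroup.centralizer ({y} : Set G)).index := by
    rintro _ ⟨z, hz, rfl⟩ hd
    have h1 : (P : Subgroup G) ≤ Subgroup.centralizer ({((z : ↥(P : Subgroup G)) : G)} : Set G) := by
      intro x hx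
      rw [Subgroup.mem_centralizer_iff]
      intro w hw
      rw [Set.mem_singleton_iff] at hw
      subst hw
      have h2 := (Subgroup.mem_center_iff.1 hz) ⟨x, hx⟩
      exact (congrArg Subtype.val h2).symm
    exact P.not_dvd_index (hd.trans (Subgroup.index_dvd_of_le h1))
  -- vanishing of `χ`
  have hvan : ∀ y ∈ Z, y ≠ 1 → χ.1 y = 0 := by
    intro y hy hy1
    have hc : Nat.Coprime (Subgroup.centralizer ({y} : Set G)).index (charDegree χ.1) := by
      rw [hdeg]
      exact Nat.Coprime.pow_right _ ((Nat.Prime.coprime_iff_not_dvd hp.out).2 (hidx y hy)).symm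
    rcases H04.Cliff.burnside_vanish χ y hc with h | h
    · exact h
    · exact absurd (H04.Cliff.norm_eq_degree_one χ hker hZ h) hy1
  -- all characters in the block have degree divisible by `p ^ b`
  have hdvd : ∀ ψ ∈ blockOf M χ.1, p ^ b ∣ charDegree ψ.1 := by
    intro ψ hψ
    refine card_dvd_degree_of_mli hM ψ Z hcardZ fun y hy hy1 => ?_
    have h1 := hψ y
    have h2 : centralChar χ.1 y = 0 := by
      unfold centralChar
      rw [hvan y hy hy1]
      simp
    rw [h2, zero_sub] at h1
    have h3 := mli_neg h1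
    rw [neg_neg] at h3
    have hidx0 : ((Subgroup.centralizer ({y} : Set G)).index : ℂ) ≠ 0 :=
      Nat.cast_ne_zero.mpr Subgroup.index_ne_zero_of_finite
    have h4 : ψ.1 y / ψ.1 1 =
        ((Subgroup.centralizer ({y} : Set G)).index : ℂ)⁻¹ * centralChar ψ.1 y := by
      unfold centralChar
      field_simp
    rw [h4]
    exact mli_mul_left h3 ((mlr_inv (mlr_natCast _) (not_mli_natCast_of_odd hM (hidx y hy))).2)
  have hle : b ≤ minExp p (blockOf M χ.1) := by
    obtain ⟨ψ, hψ, hψe⟩ := exists_min_height (p := p) (isBlock_blockOf (M := M) χ)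
    rw [← hψe]
    exact (Nat.Prime.pow_dvd_iff_le_factorization hp.out (irr_charDegree_pos ψ.2).ne').1 (hdvd ψ hψ)
  have hfac : (Nat.card G).factorization p = a := by
    have h1 : Nat.card (P : Subgroup G) = p ^ (Nat.card G).factorization p := P.card_eq_multiplicity
    have h2 : p ^ (Nat.card G).factorization p = p ^ a := h1.symm.trans ha
    exact Nat.pow_right_injective hp.out.two_le h2
  have h1 : blockDefect p (blockOf M χ.1) ≤ a - b := by
    rw [blockDefect_eq, hfac]
    omega
  refine ⟨h1, fun hab => ?_⟩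
  have h2 : Subgroup.center ↥(P : Subgroup G) = ⊤ := by
    rw [eq_top_iff]
    intro x _
    rw [Subgroup.mem_center_iff]
    intro y
    exact hab.is_comm.comm y x
  have h3 : b = a := by
    rw [h2, Subgroup.card_top] at hb
    have h4 : p ^ b = p ^ a := hb.symm.trans ha
    exact Nat.pow_right_injective hp.out.two_le h4
  subst h3
  omega

end Cfsg.Agent.H22
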