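import Cfsg.Agent.Lib.H22.RegInt
import Cfsg.Agent.Lib.H22.BlockRank
import Cfsg.Agent.Lib.H21.CentralDefect

/-! # Blocks with one Brauer character: the Cartan invariant is the order of the defect group -/

set_option autoImplicit false
set_option linter.unusedSectionVars false
set_option linter.style.haveILetI false
set_option linter.unusedSimpArgs false
set_option linter.unusedVariables false

namespace Cfsg.Agent.H22

open Cfsg Cfsg.Agent.H21 Module
open scoped ComplexConjugate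

universe u

/-- Bezout for the gcd of a finite family. -/
theorem exists_bezout_finset {ι : Type*} [DecidableEq ι] (s : Finset ι) (f : ι → ℕ) :
    ∃ n : ι → ℤ, ∑ i ∈ s, n i * (f i : ℤ) = (s.gcd f : ℕ) := by
  induction s using Finset.induction_on with
  | empty => exact ⟨0, by simp⟩
  | insert a s ha ih =>
    obtain ⟨n, hn⟩ := ih
    rw [Finset.gcd_insert]
    have h := Nat.gcd_eq_gcd_ab (f a) (s.gcd f)
    refine ⟨fun i => if i = a then Nat.gcdA (f a) (s.gcd f) else Nat.gcdB (f a) (s.gcd f) * n i, ?_⟩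
    rw [Finset.sum_insert ha]
    beta_reduce
    rw [if_pos rfl]
    have h2 : ∑ i ∈ s, (if i = a then Nat.gcdA (f a) (s.gcd f) else Nat.gcdB (f a) (s.gcd f) * n i) * (f i : ℤ) =
        Nat.gcdB (f a) (s.gcd f) * ∑ i ∈ s, n i * (f i : ℤ) := by
      rw [Finset.mul_sum]
      refine Finset.sum_congr rfl fun i hi => ?_
      rw [if_neg (ne_of_mem_of_not_mem hi ha)]
      ring
    rw [h2, hn]
    show _ = ((Nat.gcd (f a) (s.gcd f) : ℕ) : ℤ)
    rw [h]
    ring

theorem finsum_mem_eq_filter {X A : Type*} [Fintype X] [AddCommMonoid A] (B : Set X)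
    [DecidablePred (· ∈ B)] (f : X → A) : ∑ᶠ x ∈ B, f x = ∑ x ∈ Finset.univ.filter (· ∈ B), f x := by
  classical
  rw [finsum_mem_eq_finite_toFinset_sum f (Set.toFinite B)]
  refine Finset.sum_congr ?_ fun _ _ => rfl
  ext x
  simp

variable {G : Type u} [Group G] [Fintype G] [Fintype (IrrCharacter G)] {p : ℕ} [hp : Fact p.Prime]
  {M : Ideal AlgInt} [hMp : M.IsPrime]

open Classical in
theorem rank_one_main (hM : IsPModular p M) {B : Set (IrrCharacter G)} (hB : IsPBlock M B)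
    {P : Subgroup G} (hP : IsDefectGroup p M B P) (hl : blockRank p B = 1) :
    ∃ φ : G → ℂ, ∃ d : IrrCharacter G → ℕ,
      (∃ n : IrrCharacter G → ℤ, ∀ x : G, IsPRegular p x → φ x = ∑ᶠ ψ ∈ B, (n ψ : ℂ) * (ψ : G → ℂ) x) ∧
      (∀ χ ∈ B, ∀ x : G, IsPRegular p x → (χ : G → ℂ) x = (d χ : ℂ) * φ x) ∧
      ∑ᶠ χ ∈ B, d χ ^ 2 = Nat.card P := by
  set T : Finset (IrrCharacter G) := Finset.univ.filter (· ∈ B) with hT
  have hmemT : ∀ χ, χ ∈ T ↔ χ ∈ B := by simp [T]
  let deg : IrrCharacter G → ℕ := fun χ => charDegree χ.1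
  have hdeg1 : ∀ χ : IrrCharacter G, χ.1 1 = (deg χ : ℂ) := fun χ =>
    Cfsg.Agent.H21.one_eq_charDegree (Cfsg.Agent.H21.isCharacter_of_irr χ.2)
  have hdeg0 : ∀ χ : IrrCharacter G, deg χ ≠ 0 := fun χ => (irr_charDegree_pos χ.2).ne'
  set g := T.gcd deg with hg
  obtain ⟨χ₀, hχ₀⟩ := block_nonempty hB
  have hgd : ∀ χ ∈ T, g ∣ deg χ := fun χ hχ => Finset.gcd_dvd hχ
  have hg0 : g ≠ 0 := by
    intro h
    have := hgd χ₀ ((hmemT _).2 hχ₀)
    rw [h, zero_dvd_iff] at this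
    exact hdeg0 χ₀ this
  have hgC : (g : ℂ) ≠ 0 := Nat.cast_ne_zero.mpr hg0
  let d : IrrCharacter G → ℕ := fun χ => deg χ / g
  have hd : ∀ χ ∈ T, deg χ = g * d χ := fun χ hχ => (Nat.mul_div_cancel' (hgd χ hχ)).symm
  obtain ⟨n, hn⟩ := exists_bezout_finset T deg
  have hn1 : ∑ i ∈ T, n i * (d i : ℤ) = 1 := by
    have h1 : (g : ℤ) * ∑ i ∈ T, n i * (d i : ℤ) = (g : ℤ) := by
      rw [← hg] at hn
      conv_rhs => rw [← hn]
      rw [Finset.mul_sum]
      refine Finset.sum_congr rfl fun i hi => ?_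
      rw [hd i hi]
      push_cast
      ring
    have h2 : (g : ℤ) ≠ 0 := Int.natCast_ne_zero.mpr hg0
    exact mul_left_cancel₀ h2 (h1.trans (mul_one _).symm)
  -- the rank one hypothesis
  have hreg1 : ¬ p ∣ orderOf (1 : G) := by
    rw [orderOf_one]
    exact hp.out.one_lt.ne' ∘ Nat.dvd_one.mp
  have hrank : ∃ w : G → ℂ, ∀ χ ∈ B, ∀ x : G, ¬ p ∣ orderOf x → χ.1 x = (deg χ : ℂ) * w x := by
    unfold blockRank at hl
    obtain ⟨v, hv0, hv⟩ := finrank_eq_one_iff'.1 hl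
    have h1 : ∀ χ ∈ B, ∃ c : ℂ, c • (v : G → ℂ) = pRegularPart p χ.1 := by
      intro χ hχ
      obtain ⟨c, hc⟩ := hv ⟨pRegularPart p χ.1, Submodule.subset_span ⟨χ, hχ, rfl⟩⟩
      exact ⟨c, congrArg Subtype.val hc⟩
    have hv1 : (v : G → ℂ) 1 ≠ 0 := by
      intro h0
      obtain ⟨c, hc⟩ := h1 χ₀ hχ₀
      have h2 := congrFun hc 1
      rw [pRegularPart_of_regular p _ hreg1, Pi.smul_apply, h0, smul_zero, hdeg1] at h2
      exact hdeg0 χ₀ (by exact_mod_cast h2.symm)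
    refine ⟨fun x => (v : G → ℂ) x / (v : G → ℂ) 1, fun χ hχ x hx => ?_⟩
    obtain ⟨c, hc⟩ := h1 χ hχ
    have h2 := congrFun hc 1
    have h3 := congrFun hc x
    rw [pRegularPart_of_regular p _ hreg1, Pi.smul_apply, hdeg1, smul_eq_mul] at h2
    rw [pRegularPart_of_regular p _ hx, Pi.smul_apply, smul_eq_mul] at h3
    rw [← h3, ← h2]
    field_simp
  obtain ⟨w, hw⟩ := hrank
  let φ : G → ℂ := fun x => ∑ ψ ∈ T, (n ψ : ℂ) * ψ.1 x
  have hφ : ∀ x, ¬ p ∣ orderOf x → φ x = (g : ℂ) * w x := by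
    intro x hx
    have h1 : ((∑ i ∈ T, n i * (deg i : ℤ) : ℤ) : ℂ) = ((g : ℕ) : ℂ) := by
      rw [hn]
      push_cast
      rfl
    push_cast at h1
    rw [← h1, Finset.sum_mul]
    refine Finset.sum_congr rfl fun ψ hψ => ?_
    rw [hw ψ ((hmemT ψ).1 hψ) x hx]
    ring
  have h2 : ∀ χ ∈ T, ∀ x, ¬ p ∣ orderOf x → χ.1 x = (d χ : ℂ) * φ x := by
    intro χ hχ x hx
    rw [hw χ ((hmemT χ).1 hχ) x hx, hφ x hx, hd χ hχ]
    push_cast
    ring
  set c := ∑ χ ∈ T, d χ ^ 2 with hc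
  let Φ : G → ℂ := ∑ χ ∈ T, (d χ : ℂ) • χ.1
  have hΦapp : ∀ x, Φ x = ∑ χ ∈ T, (d χ : ℂ) * χ.1 x := by
    intro x
    simp only [Φ, Finset.sum_apply, Pi.smul_apply, smul_eq_mul]
  have hΦs : ∀ x, p ∣ orderOf x → Φ x = 0 := by
    intro x hx
    have h3 := block_orth_singular_regular hM hB hx hreg1
    have h4 : ∑ χ : IrrCharacter G, eB B χ * (χ.1 x * conj (χ.1 1)) = (g : ℂ) * Φ x := by
      rw [hΦapp, Finset.mul_sum, hT, Finset.sum_filter]
      refine Finset.sum_congr rfl fun χ _ => ?_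
      by_cases hχ : χ ∈ B
      · rw [if_pos hχ, eB_apply_mem hχ, hdeg1, Complex.conj_natCast, hd χ ((hmemT χ).2 hχ)]
        push_cast
        ring
      · rw [if_neg hχ, eB_apply_not_mem hχ, zero_mul]
    rw [h4] at h3
    exact (mul_eq_zero.mp h3).resolve_left hgC
  have hΦr : ∀ x, ¬ p ∣ orderOf x → Φ x = (c : ℂ) * φ x := by
    intro x hx
    rw [hΦapp, hc]
    push_cast
    rw [Finset.sum_mul]
    refine Finset.sum_congr rfl fun χ hχ => ?_
    rw [h2 χ hχ x hx]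
    ring
  have hrp : ∀ χ ∈ T, (c : ℂ) • rp p χ.1 = (d χ : ℂ) • Φ := by
    intro χ hχ
    funext x
    simp only [Pi.smul_apply, smul_eq_mul]
    by_cases hx : p ∣ orderOf x
    · rw [rp_of_sing _ hx, hΦs x hx]
      simp
    · rw [rp_of_reg _ hx, hΦr x hx, h2 χ hχ x hx]
      ring
  have hinner : ∀ ψ ∈ T, classInner Φ ψ.1 = (d ψ : ℂ) := by
    intro ψ hψ
    show classInner (∑ χ ∈ T, (d χ : ℂ) • χ.1) ψ.1 = _
    rw [classInner_sum_left, Finset.sum_eq_single ψ]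
    · rw [classInner_smul_left, classInner_irr, if_pos rfl, mul_one]
    · intro χ _ hne
      rw [classInner_smul_left, classInner_irr, if_neg hne, mul_zero]
    · intro h
      exact absurd hψ h
  have hcrt : ∀ χ ∈ T, ∀ ψ ∈ T, (c : ℂ) * crt p χ ψ = (d χ : ℂ) * (d ψ : ℂ) := by
    intro χ hχ ψ hψ
    have h3 : (c : ℂ) * crt p χ ψ = classInner ((c : ℂ) • rp p χ.1) ψ.1 := by
      rw [classInner_smul_left]
      rfl
    rw [h3, hrp χ hχ, classInner_smul_left, hinner ψ hψ]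
  -- integrality
  have hdvd1 : c ∣ p ^ blockDefect p B := by
    have h0 : ∀ ψ ξ : IrrCharacter G, ∃ k : ℤ, ψ ∈ B → (p : ℂ) ^ blockDefect p B * crt p ψ ξ = k := by
      intro ψ ξ
      by_cases hψ : ψ ∈ B
      · obtain ⟨k, hk⟩ := crt_block_int hM hB hψ ξ
        exact ⟨k, fun _ => hk⟩
      · exact ⟨0, fun h => absurd h hψ⟩
    choose k hk using h0
    have h3 : ∀ χ ∈ T, ∀ ψ ∈ T, (c : ℤ) * k χ ψ = (p : ℤ) ^ blockDefect p B * ((d χ : ℤ) * (d ψ : ℤ)) := by
      intro χ hχ ψ hψ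
      have h4 := hcrt χ hχ ψ hψ
      have h5 := hk χ ψ ((hmemT χ).1 hχ)
      have h6 : (((c : ℤ) * k χ ψ : ℤ) : ℂ) = (((p : ℤ) ^ blockDefect p B * ((d χ : ℤ) * (d ψ : ℤ)) : ℤ) : ℂ) := by
        push_cast
        rw [← h5, ← h4]
        ring
      exact_mod_cast h6
    have h7 : (c : ℤ) ∣ (p : ℤ) ^ blockDefect p B := by
      refine ⟨∑ χ ∈ T, ∑ ψ ∈ T, n χ * n ψ * k χ ψ, ?_⟩
      have h8 : (p : ℤ) ^ blockDefect p B =
          (p : ℤ) ^ blockDefect p B * ((∑ i ∈ T, n i * (d i : ℤ)) * (∑ i ∈ T, n i * (d i : ℤ))) := by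
        rw [hn1]
        ring
      rw [h8, Finset.sum_mul_sum, Finset.mul_sum, Finset.mul_sum]
      refine Finset.sum_congr rfl fun χ hχ => ?_
      rw [Finset.mul_sum, Finset.mul_sum]
      refine Finset.sum_congr rfl fun ψ hψ => ?_
      have := h3 χ hχ ψ hψ
      calc (p : ℤ) ^ blockDefect p B * (n χ * (d χ : ℤ) * (n ψ * (d ψ : ℤ)))
          = n χ * n ψ * ((p : ℤ) ^ blockDefect p B * ((d χ : ℤ) * (d ψ : ℤ))) := by ring
        _ = n χ * n ψ * ((c : ℤ) * k χ ψ) := by rw [this]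
        _ = (c : ℤ) * (n χ * n ψ * k χ ψ) := by ring
    exact_mod_cast h7
  -- the Sylow estimate
  obtain ⟨S⟩ : Nonempty (Sylow p G) := inferInstance
  have hcardS : Nat.card (S : Subgroup G) = p ^ (Nat.card G).factorization p := S.card_eq_multiplicity
  have hSp : IsPGroup p (S : Subgroup G) := S.isPGroup'
  have hsum1 : ∑ y : (S : Subgroup G), Φ y = Φ 1 := by
    rw [Finset.sum_eq_single (1 : (S : Subgroup G))]
    · rfl
    · intro y _ hy
      apply hΦs
      obtain ⟨k, hk⟩ := IsPGroup.iff_orderOf.mp hSp y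
      have hk0 : k ≠ 0 := by
        rintro rfl
        apply hy
        rw [pow_zero, orderOf_eq_one_iff] at hk
        exact hk
      rw [show orderOf (y : G) = orderOf y from Subgroup.orderOf_coe y, hk]
      exact dvd_pow_self p hk0
    · intro h
      exact absurd (Finset.mem_univ _) h
  have hm : ∀ χ : IrrCharacter G, ∃ m : ℕ, ∑ y : (S : Subgroup G), χ.1 y = (Nat.card (S : Subgroup G) : ℂ) * m := by
    intro χ
    obtain ⟨m, hm⟩ := classInner_isCharacter_nat (isCharacter_restrict (S : Subgroup G)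
      (Cfsg.Agent.H21.isCharacter_of_irr χ.2)) (Cfsg.Agent.H21.isCharacter_of_irr (isIrrCharacter_one (G := (S : Subgroup G))))
    refine ⟨m, ?_⟩
    rw [← hm]
    unfold classInner
    have h1 : (Nat.card (S : Subgroup G) : ℂ) ≠ 0 := by
      exact_mod_cast (Nat.card_pos (α := (S : Subgroup G))).ne'
    simp only [map_one, mul_one]
    rw [mul_inv_cancel_left₀ h1]
  choose m hm using hm
  have hΦ1 : Φ 1 = ((g * c : ℕ) : ℂ) := by
    rw [hΦapp, hc]
    push_cast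
    rw [Finset.mul_sum]
    refine Finset.sum_congr rfl fun χ hχ => ?_
    rw [hdeg1, hd χ hχ]
    push_cast
    ring
  have hdvd2 : p ^ (Nat.card G).factorization p ∣ g * c := by
    have h3 : ((g * c : ℕ) : ℂ) = ((p ^ (Nat.card G).factorization p * ∑ χ ∈ T, d χ * m χ : ℕ) : ℂ) := by
      rw [← hΦ1, ← hsum1]
      simp only [hΦapp]
      rw [Finset.sum_comm]
      push_cast
      rw [Finset.mul_sum]
      refine Finset.sum_congr rfl fun χ _ => ?_
      rw [← Finset.mul_sum, hm χ, hcardS]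
      push_cast
      ring
    exact ⟨_, by exact_mod_cast h3⟩
  -- numerics
  obtain ⟨e, he, hce⟩ := (Nat.dvd_prime_pow hp.out).mp hdvd1
  have hcpos : c ≠ 0 := by
    rw [hce]
    exact pow_ne_zero _ hp.out.ne_zero
  have h5 := (Nat.factorization_le_iff_dvd (pow_ne_zero _ hp.out.ne_zero)
    (Nat.mul_ne_zero hg0 hcpos)).2 hdvd2 p
  rw [Nat.factorization_mul hg0 hcpos, Nat.factorization_pow, Finsupp.add_apply, Finsupp.smul_apply,
    hp.out.factorization_self, hce, Nat.factorization_pow, Finsupp.smul_apply,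
    hp.out.factorization_self] at h5
  simp only [smul_eq_mul, mul_one] at h5
  obtain ⟨χ₁, hχ₁, h₁⟩ := exists_min_height (p := p) hB
  have h6 : g.factorization p ≤ minExp p B := by
    rw [← h₁]
    exact (Nat.factorization_le_iff_dvd hg0 (hdeg0 χ₁)).2 (hgd χ₁ ((hmemT _).2 hχ₁)) p
  have h7 := blockDefect_eq p B
  have h8 := minExp_le_card (p := p) hB
  have heq : e = blockDefect p B := by omega
  refine ⟨φ, d, ⟨n, fun x _ => ?_⟩, fun χ hχ x hx => h2 χ ((hmemT χ).2 hχ) x hx, ?_⟩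
  · rw [finsum_mem_eq_filter]
  · rw [finsum_mem_eq_filter, ← hT, ← hc, hce, heq, card_defect hM hB hP]

end Cfsg.Agent.H22
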