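import Cfsg.Agent.Lib.H21.RegProj

/-! # `p^d` times the truncation of a character of a block -/

set_option autoImplicit false
set_option linter.unusedSectionVars false
set_option linter.style.haveILetI false
set_option linter.unusedSimpArgs false
set_option linter.unusedVariables false

namespace Cfsg.Agent.H22

open Cfsg Cfsg.Agent.H21 Module
open scoped ComplexConjugate

universe u

variable {G : Type u} [Group G] [Fintype G] [Fintype (IrrCharacter G)] {p : ℕ} [hp : Fact p.Prime]
  {M : Ideal AlgInt} [hMp : M.IsPrime]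

theorem crt_block_int (hM : IsPModular p M) {B : Set (IrrCharacter G)} (hB : IsPBlock M B)
    {ψ : IrrCharacter G} (hψ : ψ ∈ B) (ξ : IrrCharacter G) :
    ∃ k : ℤ, (p : ℂ) ^ blockDefect p B * crt p ψ ξ = k := by
  classical
  by_cases hξ : ξ ∈ B
  · obtain ⟨n, hn⟩ := crt_int (p := p) ψ ξ
    have h1 : (n : ℂ) = (charDegree ψ.1 : ℂ) * om ψ (bz p ξ) := by
      rw [← hn, ← om_bz, Cfsg.Agent.H21.one_eq_charDegree (Cfsg.Agent.H21.isCharacter_of_irr ψ.2)]
      ring
    obtain ⟨h2, -⟩ := int_val_of_local hM (irr_charDegree_pos ψ.2).ne' (om_bz_mlr hM ξ ψ) h1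
    have h3 : (p : ℤ) ^ minExp p B ∣ n := (pow_dvd_pow _ (minExp_le hψ)).trans h2
    obtain ⟨k, hk⟩ := h3
    refine ⟨k, ?_⟩
    have hp0 : (p : ℂ) ≠ 0 := by exact_mod_cast hp.out.ne_zero
    apply mul_left_cancel₀ (pow_ne_zero (minExp p B) hp0)
    have hle := minExp_le_card (p := p) hB
    have hd := blockDefect_eq p B
    have h4 : (Nat.card G).factorization p = minExp p B + blockDefect p B := by omega
    rw [← mul_assoc, ← pow_add, ← h4]
    push_cast at hn
    rw [hn, hk]
    push_cast
    ring
  · refine ⟨0, ?_⟩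
    have : crt p ψ ξ = 0 := by
      apply crt_eq_zero hM
      intro hs
      apply hξ
      rw [H22.block_eq_of_mem hB hψ]
      exact sameBlock_symm hs
    rw [this]
    simp

end Cfsg.Agent.H22
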