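import Cfsg.Agent.Lib.H22.Frobenius

/-!
# The fusion system of a block is saturated
-/

set_option autoImplicit false
set_option linter.unusedSectionVars false
set_option linter.style.haveILetI false
set_option linter.unusedSimpArgs false

namespace Cfsg.Agent.H22

open Cfsg Cfsg.Agent.H21 Module
open scoped ComplexConjugate Pointwise

universe u

section

variable {G : Type u} [Group G] [Finite G] {M : Ideal AlgInt} [hM : M.IsPrime]
variable {p : ℕ} [hp : Fact p.Prime] (hMp : IsPModular p M)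
include hMp

/-- Two pairs below the same pair, on the same subgroup, coincide. -/
theorem chain_unique {a b c : BrauerPairIdx G} (hc : IsBrauerPair p M c.1 c.2)
    (h1 : Relation.ReflTransGen (NormalSubpairRel p M) a c)
    (h2 : Relation.ReflTransGen (NormalSubpairRel p M) b c) (h : a.1 = b.1) : a = b := by
  obtain ⟨A, f⟩ := a
  obtain ⟨B, g⟩ := b
  obtain ⟨C, e⟩ := c
  obtain rfl : A = B := h
  have : f = g := subpairLE_unique hMp hc h1 h2
  rw [this]

omit hM hMp hp in
theorem cp_fixed_of_mem {P : Subgroup G} (e : Set (IrrCharacter (Subgroup.centralizer (P : Set G))))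
    {y : G} (hy : y ∈ P) : cp y ⟨P, e⟩ = ⟨P, e⟩ := by
  refine cp_fixed (Subgroup.le_normalizer hy) (stabilizes_of_centralizer e ?_)
  rw [Subgroup.mem_centralizer_iff]
  intro c hc
  exact ((Subgroup.mem_centralizer_iff.mp hc) y hy).symm

/-- The fusion system of a block on a maximal pair. -/
def blockFusion {B : Set (IrrCharacter G)} {P : Subgroup G}
    {e : Set (IrrCharacter (Subgroup.centralizer (P : Set G)))}
    (hmax : IsMaximalBrauerPair p M B P e) : FusionSystem P where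
  Hom Q := {φ | Q ≤ P ∧ ∃ g : G, (∀ u : Q, φ u = g * (u : G) * g⁻¹) ∧
        Q.map (MulAut.conj g).toMonoidHom ≤ P ∧
        ∃ f : Set (IrrCharacter (Subgroup.centralizer (Q : Set G))),
          SubpairLE p M Q f P e ∧
            SubpairLE p M (Q.map (MulAut.conj g).toMonoidHom) (conjBlock Q g f) P e}
  le_of_mem := by
    rintro Q φ ⟨hQ, g, hg, hQ', -⟩
    refine ⟨hQ, fun x => ?_⟩
    rw [hg]
    exact hQ' ⟨x, x.2, rfl⟩
  injective_of_mem := by
    rintro Q φ ⟨-, g, hg, -⟩ a b hab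
    rw [hg, hg] at hab
    exact Subtype.ext (mul_left_cancel (mul_right_cancel hab))
  conj_mem := by
    intro Q g hQ hgP
    have hPe := (isBrauerPairOf_iff.mp hmax.1).1
    obtain ⟨f, -, hf⟩ := exists_subpairLE hMp hPe Q hQ
    have h1 : Relation.ReflTransGen (NormalSubpairRel p M) (cp g ⟨Q, f⟩) ⟨P, e⟩ := by
      have := chain_conj g hf
      rwa [cp_fixed_of_mem e hgP] at this
    exact ⟨hQ, g, fun _ => rfl, chain_le h1, f, hf, h1⟩
  comp_mem := by
    rintro Q R φ ψ ⟨hQ, g, hg, hQ', f, hf, hf'⟩ ⟨hR, k, hk, hR', r, hr, hr'⟩ h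
    have hPe := (isBrauerPairOf_iff.mp hmax.1).1
    have hle : cq g Q ≤ R := by
      rintro _ ⟨q, hq, rfl⟩
      have := h ⟨q, hq⟩
      rwa [hg] at this
    have h1 := subpairLE_intermediate hMp hPe hf' hr hle
    have h2 : Relation.ReflTransGen (NormalSubpairRel p M) (cp k (cp g ⟨Q, f⟩)) ⟨P, e⟩ :=
      (chain_conj k h1).trans hr'
    rw [cp_cp] at h2
    refine ⟨hQ, k * g, fun u => ?_, chain_le h2, f, hf, h2⟩
    show ψ (φ.codRestrict R h u) = _
    rw [hk]
    show k * φ u * k⁻¹ = _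
    rw [hg]
    group
  inv_mem := by
    rintro Q φ ⟨hQ, g, hg, hQ', f, hf, hf'⟩
    have hPe := (isBrauerPairOf_iff.mp hmax.1).1
    have hrange : φ.range = cq g Q := by
      ext y
      constructor
      · rintro ⟨q, rfl⟩
        rw [hg]
        exact ⟨q, q.2, rfl⟩
      · rintro ⟨q, hq, rfl⟩
        exact ⟨⟨q, hq⟩, hg ⟨q, hq⟩⟩
    have hRP : φ.range ≤ P := by
      rw [hrange]
      exact hQ'
    obtain ⟨f', -, hf'₁⟩ := exists_subpairLE hMp hPe φ.range hRP
    have h1 : (⟨φ.range, f'⟩ : BrauerPairIdx G) = cp g ⟨Q, f⟩ :=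
      chain_unique hMp hPe hf'₁ hf' hrange
    have h2 : cp g⁻¹ ⟨φ.range, f'⟩ = ⟨Q, f⟩ := by
      rw [h1, cp_cp, inv_mul_cancel, cp_one]
    have h3 : Relation.ReflTransGen (NormalSubpairRel p M) (cp g⁻¹ ⟨φ.range, f'⟩) ⟨P, e⟩ := by
      rw [h2]
      exact hf
    refine ⟨conjHom φ.range g⁻¹, ⟨hRP, g⁻¹, fun _ => rfl, chain_le h3, f', hf'₁, h3⟩, fun x => ?_⟩
    show g⁻¹ * φ x * g⁻¹⁻¹ = x
    rw [hg]
    group

theorem isBlockFusion_blockFusion {B : Set (IrrCharacter G)} {P : Subgroup G}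
    {e : Set (IrrCharacter (Subgroup.centralizer (P : Set G)))}
    (hmax : IsMaximalBrauerPair p M B P e) :
    IsBlockFusionSystemOn p M B P e (blockFusion hMp hmax) :=
  ⟨hmax, fun _ _ => Iff.rfl⟩

/-- A block of `S` (between `C(Q)` and the stabilizer, containing `N_P(Q)`) has `N_P(Q)` as a
defect group, when `(Q, f)` is fully normalized. -/
theorem defect_of_full {B : Set (IrrCharacter G)} {P Q S : Subgroup G}
    {e : Set (IrrCharacter (Subgroup.centralizer (P : Set G)))}
    {f : Set (IrrCharacter (Subgroup.centralizer (Q : Set G)))} {E : Set (IrrCharacter S)}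
    (hmax : IsMaximalBrauerPair p M B P e) (hle : SubpairLE p M Q f P e)
    (hfull : FullN p M P ⟨Q, f⟩) (hCS : Subgroup.centralizer (Q : Set G) ≤ S)
    (hST : S ≤ stabN Q f) (hRS : P ⊓ Subgroup.normalizer (Q : Set G) ≤ S)
    (hEb : IsPBlock M E)
    (hE : ∀ t : S, blockCoeff E t = subgroupBlockCoeff (Subgroup.centralizer (Q : Set G)) f (t : G)) :
    IsDefectGroup p M E ((P ⊓ Subgroup.normalizer (Q : Set G)).subgroupOf S) := by
  classical
  have hPb := isBrauerPairOf_iff.mp hmax.1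
  have hPe := hPb.1
  have hQb := brauerPair_of_chain hle hPe
  obtain ⟨F₀, hF₀b, hF₀, hD₀⟩ := hfull
  change IsPBlock M F₀ at hF₀b
  change ∀ t : stabN Q f, blockCoeff F₀ t =
      subgroupBlockCoeff (Subgroup.centralizer (Q : Set G)) f (t : G) at hF₀
  change IsDefectGroup p M F₀ ((P ⊓ Subgroup.normalizer (Q : Set G)).subgroupOf (stabN Q f)) at hD₀
  have hQP := subpairLE_le hle
  have hQR : Q ≤ P ⊓ Subgroup.normalizer (Q : Set G) := le_inf hQP Subgroup.le_normalizer
  have hT : ∀ y : G, y ∈ stabN Q f ↔ y ∈ Subgroup.normalizer (Q : Set G) ∧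
      StabilizesBlock (Subgroup.centralizer (Q : Set G)) f y := fun y => mem_stabN y
  have hz := zComp_sub hCS hQR hRS
  obtain ⟨D', hD', hle'⟩ := exists_defect_above hMp hPe hle hz hE hEb hQR inf_le_left inf_le_right
    (hPe.1.to_le inf_le_left).comap_subtype
  -- `D'` lies in the stabilizer
  have hDp : IsPGroup p D' := defect_isPGroup hD'
  have hQD : Q ≤ D'.map S.subtype := hQR.trans (by
    intro r hr
    exact ⟨⟨r, hRS hr⟩, hle' (Subgroup.mem_subgroupOf.mpr hr), rfl⟩)
  have hz' := zComp_map' hCS hQD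
  obtain ⟨d, hd⟩ := exists_maximal_on_defect hMp hD' hEb
  have hDN : D'.map S.subtype ≤ Subgroup.normalizer (Q : Set G) :=
    (Subgroup.map_subtype_le D').trans (hST.trans inf_le_left)
  have hn := normalSubpair_of_pair hz' hE hQb (hDp.map _) hQD hDN
    (fun x hx => ((hT x).mp (hST (Subgroup.map_subtype_le D' hx))).2) hd.1
  have hDT : D'.map S.subtype ≤ stabN Q f := (Subgroup.map_subtype_le D').trans hST
  have hz₂ := zComp_sub (centralizer_le_T hT) hQD hDT
  have hpair := pair_of_normalSubpair hz₂ hF₀ hF₀b (hDp.map _).comap_subtype hn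
  obtain ⟨z, hz₃⟩ := subConj_of_pair hMp hpair hD₀
  have hcard : Nat.card D' ≤ Nat.card ((P ⊓ Subgroup.normalizer (Q : Set G)).subgroupOf S) := by
    have h1 : ((D'.map S.subtype).subgroupOf (stabN Q f)).map (MulAut.conj z).toMonoidHom ≤
        (P ⊓ Subgroup.normalizer (Q : Set G)).subgroupOf (stabN Q f) := by
      rintro _ ⟨s, hs, rfl⟩
      exact hz₃ s hs
    have h2 := Subgroup.card_le_of_le h1
    rw [Subgroup.card_map_of_injective (MulEquiv.injective _), card_subgroupOf_eq hDT,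
      Subgroup.card_map_of_injective S.subtype_injective,
      card_subgroupOf_eq (normalizer_inf_le_T hMp hT hPe hle)] at h2
    rwa [card_subgroupOf_eq hRS]
  have h3 := Subgroup.eq_of_le_of_card_ge hle' hcard
  rw [h3]
  exact hD'

/-- The factorization of an overgroup of `p`-power index, for a fully normalized pair. -/
theorem factor_of_full {B : Set (IrrCharacter G)} {P Q S : Subgroup G}
    {e : Set (IrrCharacter (Subgroup.centralizer (P : Set G)))}
    {f : Set (IrrCharacter (Subgroup.centralizer (Q : Set G)))}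
    (hmax : IsMaximalBrauerPair p M B P e) (hle : SubpairLE p M Q f P e)
    (hfull : FullN p M P ⟨Q, f⟩) (hCS : Subgroup.centralizer (Q : Set G) ≤ S)
    (hST : S ≤ stabN Q f) (hRS : P ⊓ Subgroup.normalizer (Q : Set G) ≤ S)
    (hidx : ∃ k : ℕ, (Subgroup.centralizer (Q : Set G)).relIndex S = p ^ k) {t : G} (ht : t ∈ S) :
    ∃ c ∈ Subgroup.centralizer (Q : Set G), ∃ w ∈ P ⊓ Subgroup.normalizer (Q : Set G), t = c * w := by
  classical
  have hPe := (isBrauerPairOf_iff.mp hmax.1).1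
  have hQb := brauerPair_of_chain hle hPe
  have hSNC : S ≤ Subgroup.normalizer ((Subgroup.centralizer (Q : Set G) : Subgroup G) : Set G) :=
    (hST.trans inf_le_left).trans (normalizer_le_normalizer_centralizer Q)
  have hst : ∀ x ∈ S, StabilizesBlock (Subgroup.centralizer (Q : Set G)) f x :=
    fun x hx => ((mem_stabN x).mp (hST hx)).2
  obtain ⟨E, hEb, hE⟩ := exists_block_pIndex_sub hMp hCS hSNC hidx hQb.2 hst
  have hD := defect_of_full hMp hmax hle hfull hCS hST hRS hEb hE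
  obtain ⟨hsup, -⟩ := pIndex_defect_sub hMp hCS hSNC hidx hQb.2 hst hEb hE hD
  haveI hnorm : ((Subgroup.centralizer (Q : Set G)).subgroupOf S).Normal :=
    (Subgroup.normal_subgroupOf_iff_le_normalizer hCS).mpr hSNC
  have hmem : (⟨t, ht⟩ : S) ∈ (Subgroup.centralizer (Q : Set G)).subgroupOf S ⊔
      (P ⊓ Subgroup.normalizer (Q : Set G)).subgroupOf S := by
    rw [hsup]
    trivial
  obtain ⟨c, hc, w, hw, hcw⟩ := Subgroup.mem_sup_of_normal_left.mp hmem
  exact ⟨c, Subgroup.mem_subgroupOf.mp hc, w, Subgroup.mem_subgroupOf.mp hw,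
    (congrArg Subtype.val hcw).symm⟩

/-- The extension step behind receptivity. -/
theorem exists_extension {B : Set (IrrCharacter G)} {P R N : Subgroup G} {g : G}
    {e : Set (IrrCharacter (Subgroup.centralizer (P : Set G)))}
    {r : Set (IrrCharacter (Subgroup.centralizer (R : Set G)))}
    (hmax : IsMaximalBrauerPair p M B P e) (hr : SubpairLE p M R r P e)
    (hr' : Relation.ReflTransGen (NormalSubpairRel p M) (cp g ⟨R, r⟩) ⟨P, e⟩)
    (hfull : FullN p M P (cp g ⟨R, r⟩)) (hRN : R ≤ N) (hNP : N ≤ P)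
    (hNN : N ≤ Subgroup.normalizer (R : Set G))
    (hcond : ∀ n ∈ N, ∃ h ∈ P, ∀ x ∈ R, g * (n * x * n⁻¹) * g⁻¹ = h * (g * x * g⁻¹) * h⁻¹) :
    ∃ t : G, (∀ x ∈ R, t * x * t⁻¹ = g * x * g⁻¹) ∧
      ∃ n' : Set (IrrCharacter (Subgroup.centralizer (N : Set G))), SubpairLE p M N n' P e ∧
        Relation.ReflTransGen (NormalSubpairRel p M) (cp t ⟨N, n'⟩) ⟨P, e⟩ := by
  classical
  have hPb := isBrauerPairOf_iff.mp hmax.1
  have hPe := hPb.1
  have hQle : SubpairLE p M (cq g R) (conjBlock R g r) P e := hr'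
  have hfull' : FullN p M P ⟨cq g R, conjBlock R g r⟩ := hfull
  have hQb := brauerPair_of_chain hQle hPe
  obtain ⟨n', -, hn'⟩ := exists_subpairLE hMp hPe N hNP
  have h3 := subpairLE_intermediate hMp hPe hr hn' hRN
  have hNb : IsBrauerPair p M N n' := brauerPair_of_chain hn' hPe
  have h4 := normalSubpair_of_subpairLE hMp hNb hRN hNN h3
  have h5 := isNormalSubpair_conj g h4
  have h5b := isNormalSubpair_iff.mp h5
  have hT : ∀ y : G, y ∈ stabN (cq g R) (conjBlock R g r) ↔
      y ∈ Subgroup.normalizer ((cq g R : Subgroup G) : Set G) ∧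
      StabilizesBlock (Subgroup.centralizer ((cq g R : Subgroup G) : Set G)) (conjBlock R g r) y :=
    fun y => mem_stabN y
  have hR₁T := normalizer_inf_le_T hMp hT hPe hQle
  have hQ₀R : cq g R ≤ P ⊓ Subgroup.normalizer ((cq g R : Subgroup G) : Set G) :=
    le_inf (subpairLE_le hQle) Subgroup.le_normalizer
  obtain ⟨r₁, hr₁b, hr₁le⟩ := exists_subpairLE hMp hPe
    (P ⊓ Subgroup.normalizer ((cq g R : Subgroup G) : Set G)) inf_le_left
  have h6 := normalSubpair_of_subpairLE hMp hr₁b hQ₀R inf_le_right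
    (subpairLE_intermediate hMp hPe hQle hr₁le hQ₀R)
  have hWC : P ⊓ Subgroup.normalizer ((cq g R : Subgroup G) : Set G) ≤
      Subgroup.normalizer ((Subgroup.centralizer ((cq g R : Subgroup G) : Set G) : Subgroup G) : Set G) :=
    inf_le_right.trans (normalizer_le_normalizer_centralizer _)
  set S : Subgroup G := mulSub _ _ hWC with hS
  have hCS : Subgroup.centralizer ((cq g R : Subgroup G) : Set G) ≤ S := le_mulSub_right hWC
  have hR₁S : P ⊓ Subgroup.normalizer ((cq g R : Subgroup G) : Set G) ≤ S := le_mulSub_left hWC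
  have hSNC := mulSub_le_normalizer hWC
  have hST : S ≤ stabN (cq g R) (conjBlock R g r) := by
    rintro _ ⟨w, hw, c, hc, rfl⟩
    exact Subgroup.mul_mem _ (hR₁T hw) (centralizer_le_T hT hc)
  have hidx : ∃ k : ℕ, (Subgroup.centralizer ((cq g R : Subgroup G) : Set G)).relIndex S = p ^ k := by
    have h1 : (Subgroup.centralizer ((cq g R : Subgroup G) : Set G)).relIndex S =
        (Subgroup.centralizer ((cq g R : Subgroup G) : Set G)).relIndex
          (P ⊓ Subgroup.normalizer ((cq g R : Subgroup G) : Set G)) :=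
      relIndex_of_factor hR₁S hCS hSNC (fun x hx => hx)
    rw [h1]
    obtain ⟨n, hn⟩ := IsPGroup.iff_card.mp (hPe.1.to_le
      (inf_le_left : P ⊓ Subgroup.normalizer ((cq g R : Subgroup G) : Set G) ≤ P))
    have h2 : (Subgroup.centralizer ((cq g R : Subgroup G) : Set G)).relIndex
        (P ⊓ Subgroup.normalizer ((cq g R : Subgroup G) : Set G)) ∣ p ^ n := by
      rw [← hn]
      exact Subgroup.relIndex_dvd_card _ _
    obtain ⟨j, -, hj⟩ := (Nat.dvd_prime_pow hp.out).mp h2
    exact ⟨j, hj⟩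
  -- the conjugate of `N` lies in `S`
  have hN₂S : cq g N ≤ S := by
    rintro _ ⟨n, hn, rfl⟩
    obtain ⟨h, hhP, hx⟩ := hcond n hn
    have hyN : g * n * g⁻¹ ∈ Subgroup.normalizer ((cq g R : Subgroup G) : Set G) :=
      cq_normalizer (hNN hn)
    have hconj : ∀ q ∈ cq g R, (g * n * g⁻¹) * q * (g * n * g⁻¹)⁻¹ = h * q * h⁻¹ := by
      rintro _ ⟨x, hx', rfl⟩
      have := hx x hx'
      calc (g * n * g⁻¹) * ((MulAut.conj g).toMonoidHom x) * (g * n * g⁻¹)⁻¹
          = g * (n * x * n⁻¹) * g⁻¹ := by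
            show (g * n * g⁻¹) * (g * x * g⁻¹) * (g * n * g⁻¹)⁻¹ = _
            group
        _ = h * (g * x * g⁻¹) * h⁻¹ := this
    have hhN : h ∈ Subgroup.normalizer ((cq g R : Subgroup G) : Set G) := by
      apply normalizer_of_cq_eq
      apply Subgroup.eq_of_le_of_card_ge
      · rintro _ ⟨q, hq, rfl⟩
        show h * q * h⁻¹ ∈ cq g R
        rw [← hconj q hq]
        exact (normalizer_iff_of_mem hyN q).mp hq
      · have h1 : Nat.card (cq h (cq g R)) = Nat.card (cq g R) :=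
          Subgroup.card_map_of_injective (MulEquiv.injective _)
        rw [h1]
    refine ⟨h, ⟨hhP, hhN⟩, h⁻¹ * (g * n * g⁻¹), ?_, by
      show g * n * g⁻¹ = _
      group⟩
    rw [Subgroup.mem_centralizer_iff]
    intro q hq
    have e1 := hconj q hq
    have e2 : (g * n * g⁻¹) * q = h * q * h⁻¹ * (g * n * g⁻¹) := by
      rw [← e1]
      group
    calc q * (h⁻¹ * (g * n * g⁻¹)) = h⁻¹ * (h * q * h⁻¹ * (g * n * g⁻¹)) := by group
      _ = h⁻¹ * ((g * n * g⁻¹) * q) := by rw [e2]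
      _ = _ := by group
  have hQ₂ : cq g R ≤ cq g N := h5b.2.2.1
  obtain ⟨E, hEb, hE⟩ := exists_block_pIndex_sub hMp hCS hSNC hidx hQb.2
    (fun x hx => ((mem_stabN x).mp (hST hx)).2)
  have hD := defect_of_full hMp hmax hQle hfull' hCS hST hR₁S hEb hE
  have hz₁ := zComp_sub hCS hQ₀R hR₁S
  have hz₂ := zComp_sub hCS hQ₂ hN₂S
  have hpair := pair_of_normalSubpair hz₁ hE hEb (defect_isPGroup hD) h6
  have hmaxE := maximal_of_defect hMp hpair hD
  obtain ⟨s, hs⟩ := exists_conj_in_H hMp hCS (hST.trans inf_le_left) hE hEb hR₁S hN₂S hQ₀R hQ₂ h6 h5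
    hz₁ hz₂ hmaxE
  obtain ⟨w, hw, c, hc, hsw⟩ := s.2
  refine ⟨c * g, fun x hx => ?_, n', hn', ?_⟩
  · have hq : g * x * g⁻¹ ∈ cq g R := ⟨x, hx, rfl⟩
    have hcq : c * (g * x * g⁻¹) = (g * x * g⁻¹) * c :=
      ((Subgroup.mem_centralizer_iff.mp hc) _ hq).symm
    calc c * g * x * (c * g)⁻¹ = c * (g * x * g⁻¹) * c⁻¹ := by group
      _ = (g * x * g⁻¹) * c * c⁻¹ := by rw [hcq]
      _ = _ := by group
  · have h7 : Relation.ReflTransGen (NormalSubpairRel p M) (cp (s : G) (cp g ⟨N, n'⟩)) ⟨P, e⟩ :=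
      hs.trans hr₁le
    have h8 := chain_conj w⁻¹ h7
    rw [cp_fixed_of_mem e (P.inv_mem hw.1), cp_cp, cp_cp, hsw] at h8
    rw [show c * g = w⁻¹ * (w * c) * g by group]
    exact h8

/-- Fully normalized pairs are receptive. -/
theorem isReceptive_of_full {B : Set (IrrCharacter G)} {P Q : Subgroup G}
    {e : Set (IrrCharacter (Subgroup.centralizer (P : Set G)))} {F : FusionSystem P}
    {f : Set (IrrCharacter (Subgroup.centralizer (Q : Set G)))}
    (hF : IsBlockFusionSystemOn p M B P e F) (hle : SubpairLE p M Q f P e)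
    (hfull : FullN p M P ⟨Q, f⟩) : F.IsReceptive Q := by
  classical
  have hmax := hF.1
  have hPe := (isBrauerPairOf_iff.mp hmax.1).1
  refine ⟨subpairLE_le hle, fun R φ hφ hrange => ?_⟩
  obtain ⟨hRP, g, hg, hR', r, hr, hr'⟩ := (hF.2 R φ).mp hφ
  have hcq : cq g R = Q := by
    rw [← hrange]
    ext y
    constructor
    · rintro ⟨x, hx, rfl⟩
      exact ⟨⟨x, hx⟩, hg ⟨x, hx⟩⟩
    · rintro ⟨x, rfl⟩
      rw [hg]
      exact ⟨x, x.2, rfl⟩
  have hcp : cp g ⟨R, r⟩ = ⟨Q, f⟩ := chain_unique hMp hPe hr' hle hcq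
  have hfull' : FullN p M P (cp g ⟨R, r⟩) := by
    rw [hcp]
    exact hfull
  -- the extender
  let W : Subgroup G :=
    { carrier := {n | n ∈ P ∧ n ∈ Subgroup.normalizer (R : Set G) ∧
        ∃ h ∈ P, ∀ x ∈ R, g * (n * x * n⁻¹) * g⁻¹ = h * (g * x * g⁻¹) * h⁻¹}
      one_mem' := ⟨P.one_mem, Subgroup.one_mem _, 1, P.one_mem, fun x _ => by simp⟩
      mul_mem' := by
        rintro a b ⟨haP, haN, h₁, hh₁, ha⟩ ⟨hbP, hbN, h₂, hh₂, hb⟩
        refine ⟨P.mul_mem haP hbP, Subgroup.mul_mem _ haN hbN, h₁ * h₂, P.mul_mem hh₁ hh₂,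
          fun x hx => ?_⟩
        have h1 : b * x * b⁻¹ ∈ R := (normalizer_iff_of_mem hbN x).mp hx
        calc g * (a * b * x * (a * b)⁻¹) * g⁻¹ = g * (a * (b * x * b⁻¹) * a⁻¹) * g⁻¹ := by group
          _ = h₁ * (g * (b * x * b⁻¹) * g⁻¹) * h₁⁻¹ := ha _ h1
          _ = h₁ * (h₂ * (g * x * g⁻¹) * h₂⁻¹) * h₁⁻¹ := by rw [hb x hx]
          _ = _ := by group
      inv_mem' := by
        rintro a ⟨haP, haN, h, hh, ha⟩
        refine ⟨P.inv_mem haP, Subgroup.inv_mem _ haN, h⁻¹, P.inv_mem hh, fun x hx => ?_⟩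
        have h1 : a⁻¹ * x * a⁻¹⁻¹ ∈ R := (normalizer_iff_of_mem (Subgroup.inv_mem _ haN) x).mp hx
        have h2 := ha _ h1
        have h3 : a * (a⁻¹ * x * a⁻¹⁻¹) * a⁻¹ = x := by group
        rw [h3] at h2
        rw [h2]
        group }
  have hNW : FusionSystem.extender P R φ ≤ W := by
    apply (Subgroup.closure_le _).mpr
    rintro n ⟨hnP, hnN, h, hh, hx⟩
    refine ⟨hnP, hnN, h, hh, fun x hx' => ?_⟩
    have hmem : n * x * n⁻¹ ∈ R := (normalizer_iff_of_mem hnN x).mp hx'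
    have h1 := hx ⟨x, hx'⟩ hmem
    rw [hg, hg] at h1
    exact h1
  have hRN : R ≤ FusionSystem.extender P R φ := by
    intro x hx
    apply Subgroup.subset_closure
    refine ⟨hRP hx, Subgroup.le_normalizer hx, g * x * g⁻¹, hR' ⟨x, hx, rfl⟩, fun y hy => ?_⟩
    rw [hg, hg]
    show g * (x * y * x⁻¹) * g⁻¹ = _
    group
  obtain ⟨t, ht, n', hn', hn''⟩ := exists_extension hMp hmax hr hr' hfull' hRN
    (fun n hn => (hNW hn).1) (fun n hn => (hNW hn).2.1) (fun n hn => (hNW hn).2.2)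
  refine ⟨conjHom _ t, conjHom_mem_block hF hn' (fun n hn => (hNW hn).1) hn'' (chain_le hn''),
    fun x hP hN => ?_⟩
  show t * x * t⁻¹ = _
  rw [ht x hP, hg]

omit hMp hM hp in
/-- The action of the stabilizer on `Q`. -/
def thetaT (Q : Subgroup G) (f : Set (IrrCharacter (Subgroup.centralizer (Q : Set G)))) :
    stabN Q f →* MulAut Q where
  toFun t := phiK Q ((mem_stabN _).mp t.2).1
  map_one' := by
    apply MulEquiv.ext
    intro x
    apply Subtype.ext
    show (1 : G) * x * (1 : G)⁻¹ = x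
    group
  map_mul' a b := by
    apply MulEquiv.ext
    intro x
    apply Subtype.ext
    show ((a : G) * b) * x * ((a : G) * b)⁻¹ = (a : G) * ((b : G) * x * (b : G)⁻¹) * (a : G)⁻¹
    group

omit hMp hM hp in
@[simp] theorem thetaT_coe (Q : Subgroup G) (f : Set (IrrCharacter (Subgroup.centralizer (Q : Set G))))
    (t : stabN Q f) (x : Q) : ((thetaT Q f t x : Q) : G) = t * x * (t : G)⁻¹ := rfl

omit hMp hM hp in
theorem thetaT_of_centralizer (Q : Subgroup G)
    (f : Set (IrrCharacter (Subgroup.centralizer (Q : Set G)))) (t : stabN Q f)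
    (ht : (t : G) ∈ Subgroup.centralizer (Q : Set G)) : thetaT Q f t = 1 := by
  apply MulEquiv.ext
  intro x
  apply Subtype.ext
  rw [thetaT_coe]
  have : (t : G) * x = x * t := ((Subgroup.mem_centralizer_iff.mp ht) x x.2).symm
  show (t : G) * x * (t : G)⁻¹ = x
  rw [this]
  group

omit hMp hM hp in
theorem mem_centralizer_of_thetaT (Q : Subgroup G)
    (f : Set (IrrCharacter (Subgroup.centralizer (Q : Set G)))) (t : stabN Q f)
    (ht : thetaT Q f t = 1) : (t : G) ∈ Subgroup.centralizer (Q : Set G) := by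
  rw [Subgroup.mem_centralizer_iff]
  intro q hq
  have h1 : ((thetaT Q f t ⟨q, hq⟩ : Q) : G) = q := by rw [ht]; rfl
  rw [thetaT_coe] at h1
  have h2 : (t : G) * q * (t : G)⁻¹ = q := h1
  calc q * (t : G) = (t : G) * q * (t : G)⁻¹ * t := by rw [h2]
    _ = _ := by group

/-- Fully normalized pairs are fully automized. -/
theorem isFullyAutomized_of_full {B : Set (IrrCharacter G)} {P Q : Subgroup G}
    {e : Set (IrrCharacter (Subgroup.centralizer (P : Set G)))} {F : FusionSystem P}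
    {f : Set (IrrCharacter (Subgroup.centralizer (Q : Set G)))}
    (hF : IsBlockFusionSystemOn p M B P e F) (hle : SubpairLE p M Q f P e)
    (hfull : FullN p M P ⟨Q, f⟩) : F.IsFullyAutomized p Q := by
  classical
  have hmax := hF.1
  have hPb := isBrauerPairOf_iff.mp hmax.1
  have hPe := hPb.1
  have hQP : Q ≤ P := subpairLE_le hle
  have hQb : IsBrauerPair p M Q f := brauerPair_of_chain hle hPe
  have hT : ∀ y : G, y ∈ stabN Q f ↔ y ∈ Subgroup.normalizer (Q : Set G) ∧
      StabilizesBlock (Subgroup.centralizer (Q : Set G)) f y := fun y => mem_stabN y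
  have hCT := centralizer_le_T hT
  have hR₁T := normalizer_inf_le_T hMp hT hPe hle
  -- the automorphism group of the system is the image of the stabilizer
  have hAle : F.autGroup Q ≤ (thetaT Q f).range := by
    apply (Subgroup.closure_le _).mpr
    intro α hα
    obtain ⟨-, g, hg, hQ', f₁, hf₁, hf₁'⟩ := (hF.2 Q _).mp hα
    have hf₁e : f₁ = f := subpairLE_unique hMp hPe hf₁ hle
    subst hf₁e
    have hcq : cq g Q = Q := by
      apply Subgroup.eq_of_le_of_card_ge
      · rintro _ ⟨q, hq, rfl⟩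
        have h1 := hg ⟨q, hq⟩
        have h2 : (α ⟨q, hq⟩ : G) ∈ Q := (α ⟨q, hq⟩).2
        have h3 : (α ⟨q, hq⟩ : G) = g * q * g⁻¹ := h1
        rw [h3] at h2
        exact h2
      · rw [Subgroup.card_map_of_injective (MulEquiv.injective _)]
    have hcp : cp g ⟨Q, f₁⟩ = ⟨Q, f₁⟩ := chain_unique hMp hPe hf₁' hf₁ hcq
    obtain ⟨hgN, hgst⟩ := fixed_of_cp hcp
    refine ⟨⟨g, (hT g).mpr ⟨hgN, hgst⟩⟩, ?_⟩
    apply MulEquiv.ext
    intro x
    apply Subtype.ext
    rw [thetaT_coe]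
    exact (hg x).symm
  have hgen : ∀ t : stabN Q f, thetaT Q f t ∈ F.autGroup Q := by
    intro t
    apply Subgroup.subset_closure
    obtain ⟨h1, h2⟩ := (hT t).mp t.2
    have h3 : Relation.ReflTransGen (NormalSubpairRel p M) (cp (t : G) ⟨Q, f⟩) ⟨P, e⟩ := by
      rw [cp_fixed h1 h2]
      exact hle
    exact (hF.2 Q _).mpr ⟨hQP, t, fun u => rfl, chain_le h3, f, hle, h3⟩
  have hAPle : autInducedBy P Q ≤
      (((P ⊓ Subgroup.normalizer (Q : Set G)).subgroupOf (stabN Q f))).map (thetaT Q f) := by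
    apply (Subgroup.closure_le _).mpr
    rintro α ⟨g, hgP, hg⟩
    have hgN : g ∈ Subgroup.normalizer (Q : Set G) := by
      apply normalizer_of_cq_eq
      apply Subgroup.eq_of_le_of_card_ge
      · rintro _ ⟨q, hq, rfl⟩
        have h2 : (α ⟨q, hq⟩ : G) ∈ Q := (α ⟨q, hq⟩).2
        rw [hg] at h2
        exact h2
      · rw [Subgroup.card_map_of_injective (MulEquiv.injective _)]
    have hgR : g ∈ P ⊓ Subgroup.normalizer (Q : Set G) := ⟨hgP, hgN⟩
    refine ⟨⟨g, hR₁T hgR⟩, Subgroup.mem_subgroupOf.mpr hgR, ?_⟩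
    apply MulEquiv.ext
    intro x
    apply Subtype.ext
    rw [thetaT_coe]
    exact (hg x).symm
  have hAPp : IsPGroup p (autInducedBy P Q) := by
    have h1 : IsPGroup p (((P ⊓ Subgroup.normalizer (Q : Set G)).subgroupOf (stabN Q f))) :=
      (hPe.1.to_le inf_le_left).comap_subtype
    exact (h1.map _).to_le hAPle
  refine ⟨hQP, ⟨⟨(autInducedBy P Q).subgroupOf (F.autGroup Q), hAPp.comap_subtype, ?_⟩, rfl⟩⟩
  intro U hU hAPU
  apply le_antisymm _ hAPU
  intro u hu
  obtain ⟨t, ht⟩ := hAle u.2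
  -- the pull-back of `U`
  set S : Subgroup G := ((U.map (F.autGroup Q).subtype).comap (thetaT Q f)).map (stabN Q f).subtype with hS
  have hmemS : ∀ x (hx : x ∈ stabN Q f), thetaT Q f ⟨x, hx⟩ ∈ U.map (F.autGroup Q).subtype → x ∈ S :=
    fun x hx h => ⟨⟨x, hx⟩, h, rfl⟩
  have hCS : Subgroup.centralizer (Q : Set G) ≤ S := by
    intro c hc
    apply hmemS c (hCT hc)
    rw [thetaT_of_centralizer Q f ⟨c, hCT hc⟩ hc]
    exact Subgroup.one_mem _
  have hST : S ≤ stabN Q f := Subgroup.map_subtype_le _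
  have hRS : P ⊓ Subgroup.normalizer (Q : Set G) ≤ S := by
    intro w hw
    apply hmemS w (hR₁T hw)
    have h1 : thetaT Q f ⟨w, hR₁T hw⟩ ∈ autInducedBy P Q :=
      Subgroup.subset_closure ⟨w, hw.1, fun x => rfl⟩
    have h2 : (⟨_, hgen ⟨w, hR₁T hw⟩⟩ : F.autGroup Q) ∈
        (autInducedBy P Q).subgroupOf (F.autGroup Q) := Subgroup.mem_subgroupOf.mpr h1
    exact ⟨_, hAPU h2, rfl⟩
  have hidx : ∃ k : ℕ, (Subgroup.centralizer (Q : Set G)).relIndex S = p ^ k := by
    let κ : S →* MulAut Q := (thetaT Q f).comp (Subgroup.inclusion hST)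
    have hker : κ.ker = (Subgroup.centralizer (Q : Set G)).subgroupOf S := by
      ext x
      rw [MonoidHom.mem_ker, Subgroup.mem_subgroupOf]
      constructor
      · intro h
        exact mem_centralizer_of_thetaT Q f (Subgroup.inclusion hST x) h
      · intro h
        exact thetaT_of_centralizer Q f (Subgroup.inclusion hST x) h
    have hrange : IsPGroup p κ.range := by
      have h1 : κ.range ≤ U.map (F.autGroup Q).subtype := by
        rintro _ ⟨x, rfl⟩
        obtain ⟨y, hy, hyx⟩ := x.2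
        have h2 : (Subgroup.inclusion hST x) = y := Subtype.ext hyx.symm
        show thetaT Q f (Subgroup.inclusion hST x) ∈ _
        rw [h2]
        exact hy
      exact (hU.map _).to_le h1
    obtain ⟨n, hn⟩ := IsPGroup.iff_card.mp hrange
    refine ⟨n, ?_⟩
    show ((Subgroup.centralizer (Q : Set G)).subgroupOf S).index = _
    rw [← hker, Subgroup.index_ker, hn]
  have htS : (t : G) ∈ S := by
    apply hmemS _ t.2
    show thetaT Q f t ∈ _
    rw [ht]
    exact ⟨u, hu, rfl⟩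
  obtain ⟨c, hc, w, hw, hcw⟩ := factor_of_full hMp hmax hle hfull hCS hST hRS hidx htS
  have hteq : t = ⟨c, hCT hc⟩ * ⟨w, hR₁T hw⟩ := Subtype.ext hcw
  have h1 : (u : MulAut Q) = thetaT Q f ⟨w, hR₁T hw⟩ := by
    rw [← ht, hteq, map_mul, thetaT_of_centralizer Q f ⟨c, hCT hc⟩ hc, one_mul]
  show (u : MulAut Q) ∈ autInducedBy P Q
  rw [h1]
  exact Subgroup.subset_closure ⟨w, hw.1, fun x => rfl⟩

/-- **The fusion system of a block is saturated.** -/
theorem blockFusion_saturated {B : Set (IrrCharacter G)} {P : Subgroup G}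
    {e : Set (IrrCharacter (Subgroup.centralizer (P : Set G)))}
    (hmax : IsMaximalBrauerPair p M B P e) : (blockFusion hMp hmax).IsSaturated p := by
  classical
  have hPe := (isBrauerPairOf_iff.mp hmax.1).1
  have hF := isBlockFusion_blockFusion hMp hmax
  intro Q hQ
  obtain ⟨f, hfb, hf⟩ := exists_subpairLE hMp hPe Q hQ
  have hT : ∀ y : G, y ∈ stabN Q f ↔ y ∈ Subgroup.normalizer (Q : Set G) ∧
      StabilizesBlock (Subgroup.centralizer (Q : Set G)) f y := fun y => mem_stabN y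
  obtain ⟨F, hFb, hFc⟩ := exists_block_stabilizer hMp hT hfb.1 hfb.2
  obtain ⟨x, hx, hxfull⟩ := exists_conj_defect_normalizer hMp hmax hf hfb.2 hT hFb hFc
  have hfull : FullN p M P ⟨cq x Q, conjBlock Q x f⟩ := hxfull _ (fun y => mem_stabN y)
  exact ⟨cq x Q, isConj_cq hF hf hQ hx (subpairLE_le hx), isFullyAutomized_of_full hMp hF hx hfull,
    isReceptive_of_full hMp hF hx hfull⟩

end

end Cfsg.Agent.H22
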