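import Cfsg.Agent.Lib.H22.ValRed
import Mathlib.RepresentationTheory.Irreducible
import Mathlib.LinearAlgebra.Eigenspace.Zero
import Mathlib.GroupTheory.SpecificGroups.Cyclic
import Mathlib.Algebra.CharP.Lemmas
import Mathlib.Algebra.Polynomial.CoeffMem
import Mathlib.Algebra.Polynomial.Eval.Defs
import Mathlib.LinearAlgebra.Charpoly.Basic

/-! # Faithful irreducible modular representations with a cyclic TI Sylow subgroup -/

set_option autoImplicit false
set_option linter.unusedSectionVars false
set_option linter.style.haveILetI false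
set_option linter.unusedSimpArgs false
set_option linter.unusedVariables false

namespace Cfsg.Agent.H22

open Module Polynomial

universe u v w

section General

variable {G : Type u} [Group G] [Fintype G] {p : ℕ} [hp : Fact p.Prime]
variable {k : Type w} [Semiring k] {Y : Type v} [AddCommGroup Y] [Module k Y]

/-- A TI Sylow subgroup `P`: the sum of the translates by `G/N` of an `N`-fixed vector is the vector
plus a sum of `P`-traces. -/
theorem ti_sum_mem (P : Sylow p G) [Fintype ↥(P : Subgroup G)]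
    (hTI : ∀ g : G, g ∉ Subgroup.normalizer ((P : Subgroup G) : Set G) →
      ∀ x ∈ (P : Subgroup G), g⁻¹ * x * g ∈ (P : Subgroup G) → x = 1)
    (r : G →* Module.End k Y) (T : Y)
    (hv : ∀ n ∈ Subgroup.normalizer ((P : Subgroup G) : Set G), r n T = T)
    (𝒯 : AddSubmonoid Y) (h𝒯 : ∀ A : Y, ∑ y : ↥(P : Subgroup G), r y A ∈ 𝒯) :
    ∃ T' : Y, (∀ h, r h T' = T') ∧ ∃ A ∈ 𝒯, T' = T + A := by
  classical
  set N : Subgroup G := Subgroup.normalizer ((P : Subgroup G) : Set G) with hN
  let F : G ⧸ N → Y := fun q => r q.out T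
  have hF : ∀ g : G, F (g : G ⧸ N) = r g T := by
    intro g
    obtain ⟨h, hh⟩ := QuotientGroup.mk_out_eq_mul N g
    show r (g : G ⧸ N).out T = r g T
    rw [hh, map_mul, Module.End.mul_apply, hv h h.2]
  haveI : Fintype (G ⧸ N) := Fintype.ofFinite _
  let q₀ : G ⧸ N := ((1 : G) : G ⧸ N)
  let X := ↥(P : Subgroup G)
  have hPN : (P : Subgroup G) ≤ N := Subgroup.le_normalizer
  have hfix0 : ∀ x : X, (x : G) • q₀ = q₀ := by
    intro x
    have h1 : (x : G) • q₀ = (((x : G) * 1 : G) : G ⧸ N) := rfl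
    rw [h1]
    refine QuotientGroup.eq.mpr ?_
    have : ((x : G) * 1)⁻¹ * 1 = (x : G)⁻¹ := by group
    rw [this]
    exact N.inv_mem (hPN x.2)
  letI : MulAction X {q : G ⧸ N // q ≠ q₀} :=
    { smul := fun x q => ⟨(x : G) • q.1, fun h => q.2 (by
        have h2 := congrArg (fun a => ((x : G))⁻¹ • a) h
        simp only [inv_smul_smul] at h2
        rw [h2]
        have h3 := hfix0 x⁻¹
        rw [Subgroup.coe_inv] at h3
        exact h3)⟩
      one_smul := fun q => Subtype.ext (one_smul G q.1)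
      mul_smul := fun x y q => Subtype.ext (mul_smul (x : G) (y : G) q.1) }
  have hFrep : ∀ q : G ⧸ N, ((q.out : G) : G ⧸ N) = q := fun q => QuotientGroup.out_eq' q
  have hFsm : ∀ (x : G) (q : G ⧸ N), F (x • q) = r x (F q) := by
    intro x q
    have h1 : x • q = ((x * q.out : G) : G ⧸ N) := by
      conv_lhs => rw [← hFrep q]
      rfl
    rw [h1, hF, map_mul, Module.End.mul_apply]
  have hfree : ∀ (x : X) (y : {q : G ⧸ N // q ≠ q₀}), x • y = y → x = 1 := by
    intro x y hxy
    have h1 : (x : G) • y.1 = y.1 := congrArg Subtype.val hxy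
    set g : G := y.1.out with hg
    have h3 : (((x : G) * g : G) : G ⧸ N) = (g : G ⧸ N) := by
      have h4 : (x : G) • ((g : G) : G ⧸ N) = (((x : G) * g : G) : G ⧸ N) := rfl
      rw [← h4, hg, hFrep, h1]
    have h5 : g⁻¹ * ((x : G) * g) ∈ N := by
      have := QuotientGroup.eq.mp h3.symm
      exact this
    have hgN : g ∉ N := by
      intro hc
      apply y.2
      rw [← hFrep y.1]
      refine QuotientGroup.eq.mpr ?_
      have : (y.1.out)⁻¹ * 1 = g⁻¹ := by rw [hg]; group
      rw [this]
      exact N.inv_mem hc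
    let Q : Subgroup G := (P : Subgroup G).map (MulAut.conj g⁻¹).toMonoidHom
    have hQ : IsPGroup p Q := P.isPGroup'.map _
    have h6 : g⁻¹ * ((x : G) * g) ∈ Q := by
      refine ⟨x, x.2, ?_⟩
      simp [mul_assoc]
    have h7 : g⁻¹ * ((x : G) * g) ∈ Q ⊓ N := ⟨h6, h5⟩
    have h71 := (SetLike.ext_iff.mp (hQ.inf_normalizer_sylow P) _).mp h7
    have h8 : g⁻¹ * (x : G) * g ∈ (P : Subgroup G) := by
      rw [mul_assoc]
      exact h71.2
    exact Subtype.ext (hTI g hgN (x : G) x.2 h8)
  refine ⟨∑ q, F q, ?_, ∑ q : {q : G ⧸ N // q ≠ q₀}, F q.1, ?_, ?_⟩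
  · intro h
    rw [map_sum]
    simp only [← hFsm]
    exact Equiv.sum_comp (MulAction.toPerm h) F
  · refine sum_mem_of_free hfree (fun q : {q : G ⧸ N // q ≠ q₀} => F q.1) 𝒯 ?_
    intro y
    have h5 : ∀ x : X, F (x • y).1 = r (x : G) (F y.1) := fun x => hFsm x y.1
    simp only [h5]
    exact h𝒯 _
  · have h1 : ∑ q, F q = F q₀ + ∑ q : {q : G ⧸ N // q ≠ q₀}, F q.1 :=
      Fintype.sum_eq_add_sum_subtype_ne F q₀
    have h2 : F q₀ = T := by
      rw [hF 1]
      simp
    rw [h1, h2]

end General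

section Poly

variable {p : ℕ} [hp : Fact p.Prime] {F : Type w} [Field F] [CharP F p]

theorem sub_one_pow_char (n : ℕ) : ((X : F[X]) - 1) ^ (p ^ n) = X ^ (p ^ n) - 1 := by
  have := sub_pow_char_pow (p := p) (n := n) (X : F[X]) 1
  simpa using this

theorem geom_poly (n : ℕ) :
    ∑ i ∈ Finset.range (p ^ n), (X : F[X]) ^ i = ((X : F[X]) - 1) ^ (p ^ n - 1) := by
  have h1 := mul_geom_sum (X : F[X]) (p ^ n)
  have h2 : (0 : ℕ) < p ^ n := pow_pos (Fact.out : p.Prime).pos n
  have h3 : ((X : F[X]) - 1) ^ (p ^ n) = ((X : F[X]) - 1) * ((X : F[X]) - 1) ^ (p ^ n - 1) := by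
    rw [← pow_succ', Nat.sub_add_cancel h2]
  rw [← sub_one_pow_char, h3] at h1
  have h4 : (X : F[X]) - 1 ≠ 0 := by
    have := X_sub_C_ne_zero (1 : F)
    simpa using this
  exact mul_left_cancel₀ h4 h1

end Poly

section Main

variable {G : Type u} [Group G] [Fintype G] {p : ℕ} [hp : Fact p.Prime]
variable {F : Type w} [Field F] [CharP F p] {V : Type v} [AddCommGroup V] [Module F V]
  [FiniteDimensional F V]

/-- The conjugation action on endomorphisms. -/
noncomputable def adRep (ρ : Representation F G V) : G →* Module.End F (Module.End F V) where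
  toFun g :=
    { toFun := fun A => ρ g * A * ρ g⁻¹
      map_add' := fun A B => by simp [mul_add, add_mul]
      map_smul' := fun c A => by
        simp [mul_assoc, Algebra.mul_smul_comm, Algebra.smul_mul_assoc] }
  map_one' := by
    ext A v
    simp
  map_mul' := fun a b => by
    ext A v
    simp [mul_assoc]

theorem adRep_apply (ρ : Representation F G V) (g : G) (A : Module.End F V) :
    adRep ρ g A = ρ g * A * ρ g⁻¹ := rfl

theorem adRep_mul (ρ : Representation F G V) (g : G) (A B : Module.End F V) :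
    adRep ρ g (A * B) = adRep ρ g A * adRep ρ g B := by
  simp only [adRep_apply]
  have h : ρ g⁻¹ * ρ g = 1 := by rw [← map_mul, inv_mul_cancel, map_one]
  calc ρ g * (A * B) * ρ g⁻¹ = ρ g * A * 1 * B * ρ g⁻¹ := by simp [mul_assoc]
    _ = ρ g * A * (ρ g⁻¹ * ρ g) * B * ρ g⁻¹ := by rw [h]
    _ = _ := by simp [mul_assoc]

theorem adRep_pow (ρ : Representation F G V) (g : G) (A : Module.End F V) (k : ℕ) :
    adRep ρ g (A ^ k) = (adRep ρ g A) ^ k := by
  induction k with
  | zero =>
    simp [adRep_apply, ← map_mul]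
  | succ k ih => rw [pow_succ, adRep_mul, ih, pow_succ]

/-- **Theorem.** A faithful irreducible representation over a field of characteristic `p` of a group
with a cyclic TI Sylow `p`-subgroup of order `p ^ n`, `n ≥ 2`, has dimension at least
`p ^ n - (p - 1)`. -/
theorem ti_cyclic_bound (P : Sylow p G) (hcyc : IsCyclic ↥(P : Subgroup G)) {n : ℕ} (hn : 2 ≤ n)
    (hPn : Nat.card ↥(P : Subgroup G) = p ^ n)
    (hTI : ∀ g : G, g ∉ Subgroup.normalizer ((P : Subgroup G) : Set G) →
      ∀ x ∈ (P : Subgroup G), g⁻¹ * x * g ∈ (P : Subgroup G) → x = 1)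
    (ρ : Representation F G V) (hfaith : Function.Injective ρ) (hirr : ρ.IsIrreducible) :
    p ^ n - (p - 1) ≤ finrank F V := by
  classical
  haveI := hcyc
  have hpp : p.Prime := Fact.out
  by_contra hd
  push Not at hd
  haveI : Fintype ↥(P : Subgroup G) := Fintype.ofFinite _
  obtain ⟨x₀, hx₀⟩ := hcyc.exists_generator
  set x : G := (x₀ : G) with hx
  set g : Module.End F V := ρ x with hg
  set h : Module.End F V := ρ x⁻¹ with hh
  set u : Module.End F V := g - 1 with hu
  have hgh : g * h = 1 := by rw [hg, hh, ← map_mul, mul_inv_cancel, map_one]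
  have hhg : h * g = 1 := by rw [hg, hh, ← map_mul, inv_mul_cancel, map_one]
  set q : ℕ := p ^ n with hq
  have hqpos : 0 < q := pow_pos hpp.pos n
  have hox : orderOf x₀ = q := by
    rw [orderOf_eq_card_of_forall_mem_zpowers hx₀, hPn]
  have hpowu : ∀ k : ℕ, u ^ (p ^ k) = ρ (x ^ (p ^ k)) - 1 := by
    intro k
    have h1 : u = aeval g ((X : F[X]) - 1) := by simp [hu]
    rw [h1, ← map_pow, sub_one_pow_char]
    simp [hg]
  have hxq : x ^ q = 1 := by
    have : x₀ ^ q = 1 := by rw [← hox]; exact pow_orderOf_eq_one _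
    simpa using congrArg Subtype.val this
  have huq : u ^ q = 0 := by
    rw [hq, hpowu, ← hq, hxq]
    simp
  have hex : ∃ r, u ^ r = 0 := ⟨q, huq⟩
  set m : ℕ := Nat.find hex with hm
  have hm0 : u ^ m = 0 := Nat.find_spec hex
  have hmin : ∀ r < m, u ^ r ≠ 0 := fun r hr => Nat.find_min hex hr
  have hnil : IsNilpotent u := ⟨q, huq⟩
  have hud : u ^ finrank F V = 0 := by
    have h1 := hnil.charpoly_eq_X_pow_finrank
    have h2 := LinearMap.aeval_self_charpoly u
    rw [h1] at h2
    simpa using h2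
  have hmd : m ≤ finrank F V := Nat.find_min' hex hud
  -- `m` is large
  have hmp : p ^ (n - 1) < m := by
    by_contra hc
    push Not at hc
    have h1 : u ^ (p ^ (n - 1)) = 0 := pow_eq_zero_of_le hc hm0
    rw [hpowu, sub_eq_zero] at h1
    have h2 : x ^ (p ^ (n - 1)) = 1 := by
      apply hfaith
      rw [h1, map_one]
    have h3 : x₀ ^ (p ^ (n - 1)) = 1 := by
      apply Subtype.ext
      simpa using h2
    have h4 := orderOf_dvd_of_pow_eq_one h3
    rw [hox, hq] at h4
    have h5 := (Nat.pow_dvd_pow_iff_le_right hpp.one_lt).mp h4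
    omega
  -- the group of automorphisms induced by the normalizer
  let φ := (P : Subgroup G).normalizerMonoidHom
  let E := φ.range
  haveI : Fintype E := Fintype.ofFinite _
  set e : ℕ := Nat.card E with he
  have hφ : ∀ (c : Subgroup.normalizer (((P : Subgroup G)) : Set G)) (y : ↥(P : Subgroup G)),
      ((φ c y : ↥(P : Subgroup G)) : G) = (c : G) * y * (c : G)⁻¹ := fun _ _ => rfl
  have hecop : ¬ p ∣ e := by
    have h1 : e = φ.ker.index := (Subgroup.index_ker φ).symm
    have h2 : ((P : Subgroup G).subgroupOf (Subgroup.normalizer (((P : Subgroup G)) : Set G))) ≤ φ.ker := by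
      intro c hc
      rw [MonoidHom.mem_ker]
      ext y
      rw [hφ]
      have hc' : (c : G) ∈ (P : Subgroup G) := hc
      have hcomm : ∀ a b : ↥(P : Subgroup G), a * b = b * a := by
        intro a b
        haveI : IsCyclic ↥(P : Subgroup G) := hcyc
        exact mul_comm' a b
      have h3 := congrArg Subtype.val (hcomm ⟨c, hc'⟩ y)
      simp only [Subgroup.coe_mul] at h3
      simp only [h3, mul_assoc, mul_inv_cancel, mul_one, MulAut.one_apply]
    intro hc
    rw [h1] at hc
    have h3 := hc.trans (Subgroup.index_dvd_of_le h2)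
    have h4 : ((P : Subgroup G).subgroupOf (Subgroup.normalizer (((P : Subgroup G)) : Set G))).index =
        (P : Subgroup G).relIndex (Subgroup.normalizer (((P : Subgroup G)) : Set G)) := rfl
    rw [h4] at h3
    have h5 := Subgroup.relIndex_mul_index
      (H := (P : Subgroup G)) (K := Subgroup.normalizer (((P : Subgroup G)) : Set G)) Subgroup.le_normalizer
    exact P.not_dvd_index (h5 ▸ h3.trans (dvd_mul_right _ _))
  have hedvd : e ∣ p - 1 := by
    have h1 : e ∣ Nat.card (MulAut ↥(P : Subgroup G)) := Subgroup.card_subgroup_dvd_card E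
    rw [IsCyclic.card_mulAut, hPn, Nat.totient_prime_pow hpp (by omega)] at h1
    exact (Nat.Coprime.dvd_of_dvd_mul_left
      (Nat.Coprime.pow_right _ (Nat.Coprime.symm ((Nat.Prime.coprime_iff_not_dvd hpp).mpr hecop))) h1)
  have hepos : 0 < e := Nat.card_pos
  have hele : e ≤ p - 1 := Nat.le_of_dvd (Nat.sub_pos_of_lt hpp.one_lt) hedvd
  have hpq : p ≤ p ^ (n - 1) := by
    calc p = p ^ 1 := (pow_one p).symm
      _ ≤ p ^ (n - 1) := Nat.pow_le_pow_right hpp.pos (by omega)
  have hme : e < m := by omega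
  -- exponents of the automorphisms
  have hexp : ∀ σ : E, ∃ a : ℕ, x₀ ^ a = σ.1 x₀ := by
    intro σ
    have h1 : σ.1 x₀ ∈ Subgroup.zpowers x₀ := hx₀ _
    exact Submonoid.mem_powers_iff _ _ |>.mp (mem_powers_iff_mem_zpowers.mpr h1)
  choose a ha using hexp
  have hpowσ : ∀ (σ : E) (k : ℕ), (σ.1 ^ k) x₀ = x₀ ^ ((a σ) ^ k) := by
    intro σ k
    induction k with
    | zero => simp
    | succ k ih =>
      rw [pow_succ, MulAut.mul_apply, ← ha σ, map_pow, ih, pow_succ, pow_mul]
  have hae : ∀ σ : E, (((a σ : ℕ) : F)) ^ e = 1 := by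
    intro σ
    have h1 : σ ^ e = 1 := pow_card_eq_one'
    have h2 : σ.1 ^ e = 1 := by
      have := congrArg Subtype.val h1
      simpa using this
    have h3 := hpowσ σ e
    rw [h2, MulAut.one_apply] at h3
    have h4 : x₀ ^ 1 = x₀ ^ ((a σ) ^ e) := by rw [pow_one]; exact h3
    have h5 := (pow_eq_pow_iff_modEq).mp h4
    rw [hox] at h5
    have h6 : (1 : ℕ) ≡ (a σ) ^ e [MOD p] := h5.of_dvd (dvd_pow_self p (by omega))
    have h7 := (CharP.natCast_eq_natCast F p).mpr h6
    push_cast at h7
    exact h7.symm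
  -- the polynomials
  let W : ℕ → F[X] := fun b => ∑ i ∈ Finset.range b, X ^ i
  have hW : ∀ b, (X : F[X]) ^ b - 1 = (X - 1) * W b := fun b => (mul_geom_sum (X : F[X]) b).symm
  let H : F[X] := ∑ σ : E, (W (a σ)) ^ e
  have hHev : H.eval 1 = (e : F) := by
    have h1 : ∀ σ, (W (a σ)).eval 1 = ((a σ : ℕ) : F) := by
      intro σ
      simp [W, eval_finsetSum]
    calc H.eval 1 = ∑ σ : E, ((a σ : ℕ) : F) ^ e := by
          simp only [H, eval_finsetSum, eval_pow, h1]
      _ = ∑ σ : E, (1 : F) := Finset.sum_congr rfl fun σ _ => hae σ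
      _ = (e : F) := by simp [he, Nat.card_eq_fintype_card]
  obtain ⟨R, hR⟩ := X_sub_C_dvd_sub_C_eval (a := (1 : F)) (p := H)
  rw [hHev] at hR
  have hHR : H = C (e : F) + (X - 1) * R := by
    have h1 : (X : F[X]) - C (1 : F) = X - 1 := by simp
    rw [h1] at hR
    rw [← hR]
    ring
  set T : Module.End F V := aeval g (((X : F[X]) - 1) ^ e * H) with hT
  have hauX : aeval g ((X : F[X]) - 1) = u := by simp [hu]
  have hTsum : T = ∑ σ : E, (ρ ((σ.1 x₀ : ↥(P : Subgroup G)) : G) - 1) ^ e := by
    rw [hT]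
    simp only [H, Finset.mul_sum, map_sum]
    refine Finset.sum_congr rfl fun σ _ => ?_
    rw [← mul_pow, ← hW, map_pow, map_sub, map_pow, aeval_X, map_one, ← ha σ]
    congr 2
    simp [hg, hx]
  have hTN : ∀ n ∈ Subgroup.normalizer ((P : Subgroup G) : Set G), adRep ρ n T = T := by
    intro c hc
    let σc : E := ⟨φ ⟨c, hc⟩, MonoidHom.mem_range.mpr ⟨_, rfl⟩⟩
    rw [hTsum, map_sum]
    refine Fintype.sum_equiv (Equiv.mulLeft σc) _ _ fun σ => ?_
    rw [adRep_pow, map_sub]
    congr 2
    · rw [adRep_apply, ← map_mul, ← map_mul]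
      congr 1
    · simp [adRep_apply, ← map_mul]
  -- values
  have hT1 : ∀ k, u ^ k * T = aeval g (((X : F[X]) - 1) ^ k * (((X : F[X]) - 1) ^ e * H)) := by
    intro k
    rw [map_mul, map_pow, hauX]
  have hT2 : u ^ (m - 1 - e) * T = (e : F) • u ^ (m - 1) := by
    rw [hT1]
    have h1 : ((X : F[X]) - 1) ^ (m - 1 - e) * (((X : F[X]) - 1) ^ e * H) =
        C (e : F) * (X - 1) ^ (m - 1) + (X - 1) ^ m * R := by
      have h2 : ((X : F[X]) - 1) ^ m = (X - 1) ^ (m - 1) * (X - 1) := by
        rw [← pow_succ, Nat.sub_add_cancel (by omega)]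
      have h3 : ((X : F[X]) - 1) ^ (m - 1) = (X - 1) ^ (m - 1 - e) * (X - 1) ^ e := by
        rw [← pow_add, Nat.sub_add_cancel (by omega)]
      rw [h2, h3, hHR]
      ring
    rw [h1, map_add, map_mul, map_mul, map_pow, map_pow, hauX, hm0, zero_mul, add_zero, aeval_C]
    rw [Algebra.algebraMap_eq_smul_one, smul_mul_assoc, one_mul]
  have hT3 : T * u ^ (m - 1) = 0 := by
    have h1 : T * u ^ (m - 1) = aeval g ((((X : F[X]) - 1) ^ e * H) * ((X : F[X]) - 1) ^ (m - 1)) := by
      rw [map_mul (aeval g) _ (((X : F[X]) - 1) ^ (m - 1)), map_pow (aeval g), hauX]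
    have h2 : (((X : F[X]) - 1) ^ e * H) * ((X : F[X]) - 1) ^ (m - 1) =
        ((X : F[X]) - 1) ^ m * (((X : F[X]) - 1) ^ (e - 1) * H) := by
      have h3 : ((X : F[X]) - 1) ^ m = (X - 1) ^ (m - 1) * (X - 1) := by
        rw [← pow_succ, Nat.sub_add_cancel (by omega)]
      have h4 : ((X : F[X]) - 1) ^ e = (X - 1) ^ (e - 1) * (X - 1) := by
        rw [← pow_succ, Nat.sub_add_cancel (by omega)]
      rw [h3, h4]
      ring
    rw [h1, h2, map_mul, map_pow, hauX, hm0, zero_mul]
  -- the vanishing lemma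
  set Q : Module.End F (Module.End F V) := adRep ρ x with hQ
  have hQ1 : ∀ C, (Q - 1) C = (u * C - C * u) * h := by
    intro C
    have h1 : (u * C - C * u) = g * C - C * g := by
      rw [hu]
      noncomm_ring
    rw [h1, sub_mul, mul_assoc C g h, hgh, mul_one]
    rfl
  have hcomm : Commute h u := by
    have h1 : Commute h g := by
      show h * g = g * h
      rw [hhg, hgh]
    rw [hu]
    exact h1.sub_right (Commute.one_right h)
  have hvan : ∀ (s c d : ℕ) (A : Module.End F V), 2 * m ≤ c + d + s + 1 →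
      u ^ c * (((Q - 1) ^ s) A) * u ^ d = 0 := by
    intro s
    induction s with
    | zero =>
      intro c d A hle
      simp only [pow_zero, Module.End.one_apply]
      by_cases hc : m ≤ c
      · rw [pow_eq_zero_of_le hc hm0]
        simp
      · have hd' : m ≤ d := by omega
        rw [pow_eq_zero_of_le hd' hm0]
        simp
    | succ s ih =>
      intro c d A hle
      rw [pow_succ', Module.End.mul_apply, hQ1]
      set C := ((Q - 1) ^ s) A with hC
      have h1 : u ^ c * ((u * C - C * u) * h) * u ^ d =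
          (u ^ (c + 1) * C * u ^ d - u ^ c * C * u ^ (d + 1)) * h := by
        have h2 : h * u ^ d = u ^ d * h := (hcomm.pow_right d).eq
        calc u ^ c * ((u * C - C * u) * h) * u ^ d = u ^ c * (u * C - C * u) * (h * u ^ d) := by
              noncomm_ring
          _ = u ^ c * (u * C - C * u) * (u ^ d * h) := by rw [h2]
          _ = _ := by
              rw [pow_succ u c, pow_succ' u d]
              noncomm_ring
      rw [h1, ih (c + 1) d A (by omega), ih c (d + 1) A (by omega), sub_zero, zero_mul]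
  -- the trace
  let Tr : Module.End F (Module.End F V) := ∑ y : ↥(P : Subgroup G), adRep ρ (y : G)
  have hTr : Tr = (Q - 1) ^ (q - 1) := by
    have h1 : Tr = ∑ i ∈ Finset.range q, Q ^ i := by
      symm
      refine Finset.sum_bij (fun i _ => x₀ ^ i) (fun _ _ => Finset.mem_univ _) ?_ ?_ ?_
      · intro i hi j hj hij
        have h2 : Set.InjOn (fun k : ℕ => x₀ ^ k) (Set.Iio (orderOf x₀)) := pow_injOn_Iio_orderOf
        apply h2 _ _ hij
        · rw [hox]; simpa using hi
        · rw [hox]; simpa using hj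
      · intro y _
        have h3 : y ∈ Submonoid.powers x₀ := mem_powers_iff_mem_zpowers.mpr (hx₀ y)
        obtain ⟨k, rfl⟩ := (Submonoid.mem_powers_iff _ _).mp h3
        refine ⟨k % q, ?_, ?_⟩
        · exact Finset.mem_range.mpr (Nat.mod_lt _ hqpos)
        · rw [← hox]
          exact pow_mod_orderOf x₀ k
      · intro i _
        rw [hQ, ← map_pow]
        simp [hx]
    rw [h1]
    have h2 := congrArg (aeval Q) (geom_poly (F := F) (p := p) n)
    simpa [map_sum] using h2
  -- the decomposition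
  obtain ⟨T', hT'fix, A₀, hA₀, hT'⟩ := ti_sum_mem (k := F) P hTI (adRep ρ) T hTN
    (LinearMap.range Tr).toAddSubmonoid (fun A => by
      refine ⟨A, ?_⟩
      simp [Tr, LinearMap.sum_apply])
  obtain ⟨B, rfl⟩ := hA₀
  rw [hTr] at hT'
  have hq1 : m + 1 + e ≤ q := by
    have h1 : p - 1 < q := by
      have h2 : p ≤ p ^ (n - 1) := hpq
      have h3 : p ^ (n - 1) ≤ q := Nat.pow_le_pow_right hpp.pos (by omega)
      have h4 := hpp.two_le
      omega
    omega
  have hT'u : T' * u ^ (m - 1) = 0 := by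
    rw [hT', add_mul, hT3, zero_add]
    have h1 := hvan (q - 1) 0 (m - 1) B (by omega)
    simpa using h1
  have hT'0 : T' = 0 := by
    have hcom : ∀ g₁ : G, ρ g₁ * T' = T' * ρ g₁ := by
      intro g₁
      have h1 := hT'fix g₁
      rw [adRep_apply] at h1
      calc ρ g₁ * T' = ρ g₁ * T' * (ρ g₁⁻¹ * ρ g₁) := by
            rw [← map_mul, inv_mul_cancel, map_one, mul_one]
        _ = (ρ g₁ * T' * ρ g₁⁻¹) * ρ g₁ := by noncomm_ring
        _ = T' * ρ g₁ := by rw [h1]
    let K : Subrepresentation ρ :=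
      { toSubmodule := LinearMap.ker T'
        apply_mem_toSubmodule := by
          intro g₁ v hv
          rw [LinearMap.mem_ker] at hv ⊢
          have h1 := congrArg (fun A : Module.End F V => A v) (hcom g₁)
          simp only [Module.End.mul_apply, hv, map_zero] at h1
          exact h1.symm }
    rcases hirr.eq_bot_or_eq_top K with hK | hK
    · exfalso
      have h1 : LinearMap.ker T' = ⊥ := congrArg Subrepresentation.toSubmodule hK
      apply hmin (m - 1) (by omega)
      ext v
      have h2 : T' ((u ^ (m - 1)) v) = 0 := by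
        have := congrArg (fun A : Module.End F V => A v) hT'u
        simpa using this
      have h3 : (u ^ (m - 1)) v ∈ LinearMap.ker T' := h2
      rw [h1] at h3
      simpa using h3
    · have h1 : LinearMap.ker T' = ⊤ := congrArg Subrepresentation.toSubmodule hK
      exact LinearMap.ker_eq_top.mp h1
  -- the contradiction
  have hfinal : u ^ (m - 1 - e) * T = 0 := by
    have h1 : T = - ((Q - 1) ^ (q - 1)) B := by
      rw [hT'0] at hT'
      exact eq_neg_of_add_eq_zero_left hT'.symm
    rw [h1, mul_neg, neg_eq_zero]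
    have h2 := hvan (q - 1) (m - 1 - e) 0 B (by omega)
    simpa using h2
  rw [hT2] at hfinal
  rcases smul_eq_zero.mp hfinal with h1 | h1
  · exact hecop ((CharP.cast_eq_zero_iff F p e).mp h1)
  · exact hmin (m - 1) (by omega) h1

end Main

end Cfsg.Agent.H22
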