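import Cfsg.Agent.Lib.H21.Second4
import Cfsg.Agent.Lib.H22.GalLocal
import Cfsg.Agent.Lib.H22.BlockField

/-! # Blocks for two primes in groups without elements of order `p q` -/

set_option autoImplicit false
set_option linter.unusedSectionVars false
set_option linter.style.haveILetI false
set_option linter.unusedSimpArgs false
set_option linter.unusedVariables false

namespace Cfsg.Agent.H22

open Cfsg Cfsg.Agent.H21 Module
open scoped ComplexConjugate

universe u

variable {G : Type u} [Group G] [Finite G] {p q : ℕ} [hp : Fact p.Prime] [hq : Fact q.Prime]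
  {Mp Mq : Ideal AlgInt}

/-- Uniqueness of the induced block. -/
theorem induced_unique' {H : Subgroup G} {b : Set (IrrCharacter H)} {B B' : Set (IrrCharacter G)}
    [hMp : Mp.IsPrime] (h : IsInducedBlock Mp H b B) (h' : IsInducedBlock Mp H b B') : B = B' := by
  obtain ⟨ξ, hξ⟩ := block_nonempty h.1
  obtain ⟨χ, hχ⟩ := block_nonempty h.2.1
  obtain ⟨χ', hχ'⟩ := block_nonempty h'.2.1
  have h1 : SameBlock Mp χ.1 χ'.1 := by
    intro g
    have h2 := h.2.2 ξ hξ χ hχ g
    have h3 := h'.2.2 ξ hξ χ' hχ' g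
    have h4 := mli_sub h3 h2
    convert h4 using 1
    ring
  have h5 : χ' ∈ B := blockSat_of_isBlock h.2.1 _ _ h1 hχ
  exact block_eq_of_inter h.2.1 h'.2.1 h5 hχ'

/-- The sum attached to two blocks. -/
noncomputable def twoSum (Bp Bq : Set (IrrCharacter G)) (y : G) : ℂ :=
  ∑ χ : IrrCharacter G, eB Bq χ * (eB Bp χ * ((charDegree χ.1 : ℂ) * χ.1 y))

theorem centralizer_not_dvd (hno : ∀ g : G, orderOf g ≠ p * q) (hpq : p ≠ q) {z : G} {k : ℕ}
    (hz : orderOf z = p ^ k) (hk : k ≠ 0) :
    ¬ q ∣ Nat.card (Subgroup.centralizer ({z} : Set G)) := by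
  intro hd
  obtain ⟨g, hg⟩ := exists_prime_orderOf_dvd_card' (G := Subgroup.centralizer ({z} : Set G)) q hd
  obtain ⟨k', rfl⟩ : ∃ k', k = k' + 1 := ⟨k - 1, by omega⟩
  set w := z ^ (p ^ k') with hw
  have hwo : orderOf w = p := by
    rw [hw, orderOf_pow_of_dvd (pow_ne_zero _ hp.out.ne_zero)]
    · rw [hz, pow_succ]
      exact Nat.mul_div_cancel_left p (pow_pos hp.out.pos _)
    · rw [hz, pow_succ]
      exact dvd_mul_right _ _
  have hgo : orderOf (g : G) = q := by
    rw [Subgroup.orderOf_coe, hg]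
  have hcomm : Commute w (g : G) := by
    have h1 : (g : G) * z = z * (g : G) := Subgroup.mem_centralizer_singleton_iff.mp g.2
    have h2 : Commute z (g : G) := h1.symm
    exact h2.pow_left _
  have hcop : Nat.Coprime (orderOf w) (orderOf (g : G)) := by
    rw [hwo, hgo]
    exact (Nat.coprime_primes hp.out hq.out).2 hpq
  have := hcomm.orderOf_mul_eq_mul_orderOf_of_coprime hcop
  rw [hwo, hgo] at this
  exact hno _ this

/-- Local integrality. -/
theorem twoSum_local [hMpp : Mp.IsPrime] [hMqp : Mq.IsPrime] (hpq : p ≠ q) (hMp : IsPModular p Mp)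
    (hMq : IsPModular q Mq) (hno : ∀ g : G, orderOf g ≠ p * q) {b : ℕ}
    (hb : (Nat.card G).factorization q = b) {Bp Bq : Set (IrrCharacter G)} (hBp : IsPBlock Mp Bp)
    (hBq : IsPBlock Mq Bq) {y : G} (hy : p ∣ orderOf y) :
    MemLocalRing Mq (twoSum Bp Bq y / (q : ℂ) ^ b) := by
  classical
  obtain ⟨z, c, hzc, hcomm, ⟨k, hk⟩, hc⟩ := exists_pPart (p := p) y
  have hk0 : k ≠ 0 := by
    rintro rfl
    rw [pow_zero, orderOf_eq_one_iff] at hk
    subst hk
    rw [one_mul] at hzc
    subst hzc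
    exact hc hy
  set C := Subgroup.centralizer ({z} : Set G) with hCd
  have hcC : c ∈ C := Subgroup.mem_centralizer_singleton_iff.mpr hcomm.eq.symm
  have hqC : ¬ q ∣ Nat.card C := centralizer_not_dvd hno hpq hk hk0
  let c' : C := ⟨c, hcC⟩
  have hc' : ¬ p ∣ orderOf c' := by
    rw [← Subgroup.orderOf_coe]
    exact hc
  let F₁ : Finset (Set (IrrCharacter C)) :=
    (blocksF Mp C).filter (fun b => IsInducedBlock Mp C b Bp)
  -- the block parts
  have hsplit : ∀ χ : IrrCharacter G, ∑ b ∈ F₁, blockPart b (fun u : C => χ.1 (z * (u : G))) c' =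
      eB Bp χ * χ.1 y := by
    intro χ
    by_cases hχ : χ ∈ Bp
    · rw [eB_apply_mem hχ, one_mul]
      have h1 := sum_blockPart (M := Mp) (fun u : C => χ.1 (z * (u : G))) (section_isClass χ z) c'
      have h2 : (fun u : C => χ.1 (z * (u : G))) c' = χ.1 y := by
        simp only [c']
        rw [hzc]
      rw [← h2]
      refine Eq.trans ?_ h1
      refine Finset.sum_subset (Finset.filter_subset _ _) fun b hb hb' => ?_
      have hbB := mem_blocksF.mp hb
      have hnot : ¬ IsInducedBlock Mp C b Bp := fun hi =>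
        hb' (Finset.mem_filter.mpr ⟨hb, hi⟩)
      exact second_main hMp hk hBp hχ hbB hnot c' hc'
    · rw [eB_apply_not_mem hχ, zero_mul]
      refine Finset.sum_eq_zero fun b hb => ?_
      obtain ⟨hb1, hb2⟩ := Finset.mem_filter.mp hb
      have hB' : IsPBlock Mp (blockOf Mp χ.1) := isBlock_blockOf χ
      refine second_main hMp hk hB' (self_mem_blockOf χ) (mem_blocksF.mp hb1) ?_ c' hc'
      intro hi
      have := induced_unique' hb2 hi
      apply hχ
      rw [this]
      exact self_mem_blockOf χ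
  -- the function on `G`
  let f : G → ℂ := fun g => ∑ χ : IrrCharacter G, eB Bq χ * ((charDegree χ.1 : ℂ) * χ.1 g)
  have hfb : ∀ g, f g = (Nat.card G : ℂ) * blockCoeff Bq g⁻¹ := by
    intro g
    unfold blockCoeff
    rw [finsum_mem_irr, mul_inv_cancel_left₀ card_ne_zero_C]
    refine Finset.sum_congr rfl fun χ _ => ?_
    rw [← irr_inv', inv_inv, Cfsg.Agent.H21.one_eq_charDegree (Cfsg.Agent.H21.isCharacter_of_irr χ.2)]
  have hq0 : ((q : ℂ) ^ b) ≠ 0 := pow_ne_zero _ (by exact_mod_cast hq.out.ne_zero)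
  have hdvd : q ^ b ∣ Nat.card G := by
    rw [← hb]
    exact Nat.ordProj_dvd _ _
  obtain ⟨w, hw⟩ := hdvd
  have hfloc : ∀ g, MemLocalRing Mq (f g / (q : ℂ) ^ b) := by
    intro g
    have h1 : f g / (q : ℂ) ^ b = (w : ℂ) * blockCoeff Bq g⁻¹ := by
      rw [hfb, hw]
      push_cast
      field_simp
    rw [h1]
    exact mlr_mul (mlr_natCast _) (blockCoeff_mlr hBq _)
  have hmain : twoSum Bp Bq y = ∑ b ∈ F₁, ∑ u : C, blockCoeff b u * f (z * ((u * c' : C) : G)) := by
    unfold twoSum
    have h1 : ∀ χ : IrrCharacter G, eB Bq χ * (eB Bp χ * ((charDegree χ.1 : ℂ) * χ.1 y)) =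
        ∑ b ∈ F₁, ∑ u : C, blockCoeff b u * (eB Bq χ * ((charDegree χ.1 : ℂ) * χ.1 (z * ((u * c' : C) : G)))) := by
      intro χ
      have h2 := hsplit χ
      calc eB Bq χ * (eB Bp χ * ((charDegree χ.1 : ℂ) * χ.1 y))
          = eB Bq χ * (charDegree χ.1 : ℂ) * (eB Bp χ * χ.1 y) := by ring
        _ = eB Bq χ * (charDegree χ.1 : ℂ) * ∑ b ∈ F₁, blockPart b (fun u : C => χ.1 (z * (u : G))) c' := by
            rw [h2]
        _ = _ := by
            rw [Finset.mul_sum]
            refine Finset.sum_congr rfl fun b _ => ?_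
            rw [blockPart_eq_sum b (section_isClass χ z), Finset.mul_sum]
            refine Finset.sum_congr rfl fun u _ => ?_
            ring
    rw [Finset.sum_congr rfl fun χ _ => h1 χ, Finset.sum_comm]
    refine Finset.sum_congr rfl fun b _ => ?_
    rw [Finset.sum_comm]
    refine Finset.sum_congr rfl fun u _ => ?_
    rw [← Finset.mul_sum]
  have hcoef : ∀ (b : Set (IrrCharacter C)) (u : C), MemLocalRing Mq (blockCoeff b u) := by
    intro b u
    unfold blockCoeff
    rw [finsum_mem_irr]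
    refine mlr_mul (mlr_inv (mlr_natCast _) (not_mli_natCast_of_odd hMq hqC)).2 ?_
    refine mlr_sum _ _ fun ξ _ => ?_
    refine mlr_mul ?_ ?_
    · by_cases hξ : ξ ∈ b
      · rw [eB_apply_mem hξ]
        exact mlr_one
      · rw [eB_apply_not_mem hξ]
        exact mlr_zero
    · rw [← irr_inv']
      exact mlr_mul (mlr_of_isIntegral (irr_isIntegral' ξ _)) (mlr_of_isIntegral (irr_isIntegral' ξ _))
  rw [hmain, Finset.sum_div]
  refine mlr_sum _ _ fun b _ => ?_
  rw [Finset.sum_div]
  refine mlr_sum _ _ fun u _ => ?_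
  rw [mul_div_assoc]
  exact mlr_mul (hcoef b u) (hfloc _)

/-- **S4731.** -/
theorem twoSum_integral (hpq : p ≠ q) (hMp : IsPModular p Mp) (hMq : IsPModular q Mq)
    (hno : ∀ g : G, orderOf g ≠ p * q) {b : ℕ} (hb : (Nat.card G).factorization q = b)
    {Bp Bq : Set (IrrCharacter G)} (hBp : IsPBlock Mp Bp) (hBq : IsPBlock Mq Bq) {y : G}
    (hy : p ∣ orderOf y) : IsIntegral ℤ (twoSum Bp Bq y / (q : ℂ) ^ b) := by
  classical
  haveI hMpp : Mp.IsPrime := hMp.2.1.isPrime
  haveI hMqp : Mq.IsPrime := hMq.2.1.isPrime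
  have hq0 : ((q : ℂ) ^ b) ≠ 0 := pow_ne_zero _ (by exact_mod_cast hq.out.ne_zero)
  set n := Nat.card G with hn
  have hn0 : n ≠ 0 := Nat.card_pos.ne'
  set ζ := Complex.exp (2 * Real.pi * Complex.I / (n : ℂ)) with hζd
  have hζ : IsPrimitiveRoot ζ n := Complex.isPrimitiveRoot_exp n hn0
  set E : IntermediateField ℚ ℂ := IntermediateField.adjoin ℚ {ζ} with hE
  have hζE : ζ ∈ E := IntermediateField.mem_adjoin_simple_self ℚ ζ
  have hcharE : ∀ (χ : IrrCharacter G) (g : G), χ.1 g ∈ E := by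
    intro χ g
    obtain ⟨ι, _, e, he⟩ := character_eq_sum_pow (Cfsg.Agent.H21.isCharacter_of_irr χ.2) g hζ
    have h1 := he 1
    rw [pow_one, pow_one] at h1
    rw [h1]
    exact sum_mem fun i _ => pow_mem hζE _
  have heB : ∀ (S : Set (IrrCharacter G)) (χ : IrrCharacter G), eB S χ ∈ E := by
    intro S χ
    by_cases hχ : χ ∈ S
    · rw [eB_apply_mem hχ]
      exact one_mem _
    · rw [eB_apply_not_mem hχ]
      exact zero_mem _
  have hxE : twoSum Bp Bq y / (q : ℂ) ^ b ∈ E := by
    refine div_mem (sum_mem fun χ _ => ?_) (pow_mem (natCast_mem E q) b)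
    exact mul_mem (heB _ _) (mul_mem (heB _ _) (mul_mem (natCast_mem E _) (hcharE _ _)))
  refine isIntegral_of_local_conj (q := q) hn0 hMq hxE (N := b) ?_ ?_
  · rw [mul_div_cancel₀ _ hq0]
    refine IsIntegral.sum _ fun χ _ => ?_
    have heBi : ∀ (S : Set (IrrCharacter G)), IsIntegral ℤ (eB S χ) := by
      intro S
      by_cases hχ : χ ∈ S
      · rw [eB_apply_mem hχ]
        exact isIntegral_one
      · rw [eB_apply_not_mem hχ]
        exact isIntegral_zero
    exact (heBi _).mul ((heBi _).mul ((isIntegral_natCast _).mul (irr_isIntegral' χ y)))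
  · intro τ
    have hτζ : (τ ζ) ^ n = 1 := by
      rw [← map_pow, hζ.pow_eq_one, map_one]
    obtain ⟨k, -, hk⟩ := hζ.eq_pow_of_pow_eq_one hτζ
    have hprim : IsPrimitiveRoot (τ ζ) n := hζ.map_of_injective τ.injective
    rw [← hk] at hprim
    have hcop : k.Coprime n := (hζ.pow_iff_coprime (Nat.pos_of_ne_zero hn0) k).mp hprim
    have hcopy : (orderOf y).Coprime k :=
      (Nat.Coprime.coprime_dvd_right (orderOf_dvd_natCard y) hcop).symm
    have hy' : p ∣ orderOf (y ^ k) := by
      rw [hcopy.orderOf_pow]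
      exact hy
    have h1 : τ (twoSum Bp Bq y / (q : ℂ) ^ b) = twoSum Bp Bq (y ^ k) / (q : ℂ) ^ b := by
      rw [map_div₀, map_pow, map_natCast]
      congr 1
      unfold twoSum
      rw [map_sum]
      refine Finset.sum_congr rfl fun χ _ => ?_
      have h0 : ∀ S : Set (IrrCharacter G), τ (eB S χ) = eB S χ := by
        intro S
        by_cases hχ : χ ∈ S
        · rw [eB_apply_mem hχ, map_one]
        · rw [eB_apply_not_mem hχ, map_zero]
      rw [map_mul, map_mul, map_mul, h0, h0, map_natCast,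
        character_map (Cfsg.Agent.H21.isCharacter_of_irr χ.2) y hζ hk.symm]
    rw [h1]
    exact twoSum_local hpq hMp hMq hno hb hBp hBq hy'

end Cfsg.Agent.H22
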