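import Mathlib

/-! Groups with a four-group of automorphisms with small fixed-point subgroups. -/

namespace Cfsg.Agent.H22

universe u

/-- Two commuting involutory endomorphisms. -/
structure VAct (K : Type u) [Group K] where
  a : K →* K
  b : K →* K
  aa : ∀ x, a (a x) = x
  bb : ∀ x, b (b x) = x
  ab : ∀ x, a (b x) = b (a x)

/-- The fixed-point subgroup. -/
def fixS {K : Type u} [Group K] (f : K →* K) : Subgroup K where
  carrier := {x | f x = x}
  mul_mem' := by
    intro x y hx hy
    show f (x * y) = x * y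
    rw [map_mul, show f x = x from hx, show f y = y from hy]
  one_mem' := map_one f
  inv_mem' := by
    intro x hx
    show f x⁻¹ = x⁻¹
    rw [map_inv, show f x = x from hx]

theorem mem_fixS {K : Type u} [Group K] {f : K →* K} {x : K} : x ∈ fixS f ↔ f x = x := Iff.rfl

/-- An invariant subgroup. -/
def VAct.Inv {K : Type u} [Group K] (V : VAct K) (L : Subgroup K) : Prop :=
  ∀ x ∈ L, V.a x ∈ L ∧ V.b x ∈ L

/-- Restriction to an invariant subgroup. -/
def VAct.res {K : Type u} [Group K] (V : VAct K) (L : Subgroup K) (h : V.Inv L) : VAct L where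
  a := (V.a.comp L.subtype).codRestrict L (fun x => (h x x.2).1)
  b := (V.b.comp L.subtype).codRestrict L (fun x => (h x x.2).2)
  aa := fun x => Subtype.ext (V.aa x)
  bb := fun x => Subtype.ext (V.bb x)
  ab := fun x => Subtype.ext (V.ab x)

/-- The induced action on a quotient. -/
def VAct.quo {K : Type u} [Group K] (V : VAct K) (L : Subgroup K) [L.Normal] (h : V.Inv L) :
    VAct (K ⧸ L) where
  a := QuotientGroup.map L L V.a (fun x hx => (h x hx).1)
  b := QuotientGroup.map L L V.b (fun x hx => (h x hx).2)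
  aa := by
    intro x
    obtain ⟨x, rfl⟩ := QuotientGroup.mk_surjective x
    show ((V.a (V.a x) : K) : K ⧸ L) = x
    rw [V.aa]
  bb := by
    intro x
    obtain ⟨x, rfl⟩ := QuotientGroup.mk_surjective x
    show ((V.b (V.b x) : K) : K ⧸ L) = x
    rw [V.bb]
  ab := by
    intro x
    obtain ⟨x, rfl⟩ := QuotientGroup.mk_surjective x
    show ((V.a (V.b x) : K) : K ⧸ L) = ((V.b (V.a x) : K) : K ⧸ L)
    rw [V.ab]

/-- The three fixed-point bounds. -/
def VAct.Bd {K : Type u} [Group K] (V : VAct K) (c : ℕ) : Prop :=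
  Nat.card (fixS V.a) ≤ c ∧ Nat.card (fixS V.b) ≤ c ∧ Nat.card (fixS (V.a.comp V.b)) ≤ c

section Counting

variable {K : Type u} [Group K] [Finite K]

theorem card_le_fiber_mul {X Y : Type*} [Finite X] [Finite Y] (φ : X → Y) (n : ℕ)
    (h : ∀ y, Nat.card {x // φ x = y} ≤ n) : Nat.card X ≤ n * Nat.card Y := by
  classical
  haveI := Fintype.ofFinite X
  haveI := Fintype.ofFinite Y
  rw [Nat.card_eq_fintype_card, Nat.card_eq_fintype_card]
  have h1 : (Finset.univ : Finset X).card ≤ n * (Finset.univ.image φ).card := by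
    apply Finset.card_le_mul_card_image
    intro y _
    have := h y
    rw [Nat.card_eq_fintype_card, Fintype.card_subtype] at this
    exact this
  have h2 : (Finset.univ.image φ).card ≤ (Finset.univ : Finset Y).card :=
    Finset.card_le_card (Finset.subset_univ _)
  calc Fintype.card X = (Finset.univ : Finset X).card := rfl
    _ ≤ n * (Finset.univ.image φ).card := h1
    _ ≤ n * Fintype.card Y := Nat.mul_le_mul_left _ h2

/-- The preimage of a subgroup of the quotient has the expected order. -/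
theorem card_comap_mk (L : Subgroup K) [L.Normal] (A : Subgroup (K ⧸ L)) :
    Nat.card (A.comap (QuotientGroup.mk' L)) = Nat.card A * Nat.card L := by
  have h1 : (A.comap (QuotientGroup.mk' L)).index = A.index :=
    Subgroup.index_comap_of_surjective _ (QuotientGroup.mk'_surjective L)
  have h2 := Subgroup.card_mul_index (A.comap (QuotientGroup.mk' L))
  have h3 := Subgroup.card_mul_index A
  have h4 := Subgroup.card_mul_index L
  rw [Subgroup.index_eq_card] at h4
  rw [h1] at h2
  have hi : 0 < A.index := Nat.pos_of_ne_zero Subgroup.FiniteIndex.index_ne_zero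
  apply Nat.eq_of_mul_eq_mul_right hi
  rw [h2, ← h4, ← h3]
  ring

/-- Fixed points do not increase in quotients. -/
theorem card_fix_quot_le (f : K →* K) (L : Subgroup K) [L.Normal]
    (g : (K ⧸ L) →* (K ⧸ L)) (hg : ∀ x : K, g (x : K ⧸ L) = (f x : K ⧸ L)) :
    Nat.card (fixS g) ≤ Nat.card (fixS f) := by
  classical
  set W := (fixS g).comap (QuotientGroup.mk' L) with hW
  have hWc := card_comap_mk L (fixS g)
  have hmem : ∀ w : W, (w : K)⁻¹ * f w ∈ L := by
    intro w
    have h1 : g ((w : K) : K ⧸ L) = ((w : K) : K ⧸ L) := w.2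
    rw [hg] at h1
    have h2 := QuotientGroup.eq.mp h1.symm
    exact h2
  let φ : W → L := fun w => ⟨(w : K)⁻¹ * f w, hmem w⟩
  have hφ : ∀ y, Nat.card {x // φ x = y} ≤ Nat.card (fixS f) := by
    intro y
    by_cases hy : ∃ w₀, φ w₀ = y
    · obtain ⟨w₀, rfl⟩ := hy
      let ψ : {x // φ x = φ w₀} → fixS f := fun x => ⟨(x.1 : K) * (w₀ : K)⁻¹, by
        have h1 : (x.1 : K)⁻¹ * f x.1 = (w₀ : K)⁻¹ * f w₀ := congrArg Subtype.val x.2
        show f ((x.1 : K) * (w₀ : K)⁻¹) = (x.1 : K) * (w₀ : K)⁻¹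
        rw [map_mul, map_inv]
        have h2 : f x.1 = (x.1 : K) * ((w₀ : K)⁻¹ * f w₀) := by
          rw [← h1]; group
        rw [h2]; group⟩
      apply Nat.card_le_card_of_injective ψ
      intro x x' h
      have h1 : (x.1 : K) * (w₀ : K)⁻¹ = (x'.1 : K) * (w₀ : K)⁻¹ := congrArg Subtype.val h
      exact Subtype.ext (Subtype.ext (mul_right_cancel h1))
    · have : IsEmpty {x // φ x = y} := ⟨fun x => hy ⟨x.1, x.2⟩⟩
      rw [Nat.card_of_isEmpty]
      exact Nat.zero_le _
  have h1 := card_le_fiber_mul φ _ hφ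
  rw [hWc] at h1
  exact Nat.le_of_mul_le_mul_right h1 Nat.card_pos

/-- If `N` is fixed pointwise by an involution and has no involutions, the fixed points
of the quotient lift. -/
theorem card_fix_quot_eq (f : K →* K) (hf : ∀ x, f (f x) = x) (L : Subgroup K) [L.Normal]
    (hLf : L ≤ fixS f) (hodd : ∀ x ∈ L, x * x = 1 → x = 1)
    (g : (K ⧸ L) →* (K ⧸ L)) (hg : ∀ x : K, g (x : K ⧸ L) = (f x : K ⧸ L)) :
    Nat.card (fixS f) = Nat.card (fixS g) * Nat.card L := by
  have hWc := card_comap_mk L (fixS g)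
  rw [← hWc]
  have : (fixS g).comap (QuotientGroup.mk' L) = fixS f := by
    ext x
    constructor
    · intro hx
      have h1 : g (x : K ⧸ L) = (x : K ⧸ L) := hx
      rw [hg] at h1
      have h2 : x⁻¹ * f x ∈ L := QuotientGroup.eq.mp h1.symm
      set w := x⁻¹ * f x with hw
      have h3 : f w = w := hLf h2
      have h4 : f x = x * w := by rw [hw]; group
      have h5 := hf x
      rw [h4, map_mul, h4, h3, mul_assoc] at h5
      have h6 : w * w = 1 := mul_left_cancel (a := x) (by rw [h5, mul_one])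
      have h7 := hodd w h2 h6
      show f x = x
      rw [h4, h7, mul_one]
    · intro hx
      have h1 : f x = x := hx
      show g (x : K ⧸ L) = (x : K ⧸ L)
      rw [hg, h1]
  rw [this]

/-- Fixed points of a restriction. -/
theorem card_fix_res_dvd (f : K →* K) (L : Subgroup K) (g : L →* L)
    (hg : ∀ x : L, (g x : K) = f x) : Nat.card (fixS g) ∣ Nat.card (fixS f) := by
  have h1 : (fixS g).map L.subtype ≤ fixS f := by
    rintro _ ⟨x, hx, rfl⟩
    show f (x : K) = x
    rw [← hg]
    exact congrArg Subtype.val hx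
  have h2 := Subgroup.card_dvd_of_le h1
  rwa [Subgroup.card_map_of_injective L.subtype_injective] at h2

theorem card_fix_res_le (f : K →* K) (L : Subgroup K) (g : L →* L)
    (hg : ∀ x : L, (g x : K) = f x) : Nat.card (fixS g) ≤ Nat.card (fixS f) :=
  Nat.le_of_dvd Nat.card_pos (card_fix_res_dvd f L g hg)

/-- A group of odd order has no involutions. -/
theorem eq_one_of_mul_self_of_odd (hodd : Odd (Nat.card K)) {x : K} (hx : x * x = 1) : x = 1 := by
  by_contra hne
  have h1 : orderOf x = 2 := orderOf_eq_prime (by rw [pow_two]; exact hx) hne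
  have h2 : orderOf x ∣ Nat.card K := orderOf_dvd_natCard x
  rw [h1] at h2
  exact (Nat.not_even_iff_odd.mpr hodd) (even_iff_two_dvd.mpr h2)

end Counting

theorem VAct.Bd_quo {K : Type u} [Group K] [Finite K] {V : VAct K} {c : ℕ} (hV : V.Bd c)
    (L : Subgroup K) [L.Normal] (h : V.Inv L) : (V.quo L h).Bd c := by
  refine ⟨(card_fix_quot_le V.a L _ fun x => rfl).trans hV.1,
    (card_fix_quot_le V.b L _ fun x => rfl).trans hV.2.1,
    (card_fix_quot_le (V.a.comp V.b) L _ fun x => rfl).trans hV.2.2⟩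

theorem VAct.Bd_res {K : Type u} [Group K] [Finite K] {V : VAct K} {c : ℕ} (hV : V.Bd c)
    (L : Subgroup K) (h : V.Inv L) : (V.res L h).Bd c := by
  refine ⟨(card_fix_res_le V.a L _ fun x => rfl).trans hV.1,
    (card_fix_res_le V.b L _ fun x => rfl).trans hV.2.1,
    (card_fix_res_le (V.a.comp V.b) L _ fun x => rfl).trans hV.2.2⟩

/-- The `q`-group case. -/
theorem qgroup_le {q : ℕ} [hq : Fact q.Prime] (hq2 : q ≠ 2) :
    ∀ (n : ℕ) (Q : Type u) [Group Q] [Finite Q] (_ : IsPGroup q Q) (_ : Nat.card Q = n)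
      (V : VAct Q),
      Nat.card Q ≤ Nat.card (fixS V.a) * Nat.card (fixS V.b) * Nat.card (fixS (V.a.comp V.b)) := by
  intro n
  induction n using Nat.strong_induction_on with
  | _ n ih =>
    intro Q _ _ hQ hn V
    by_cases htriv : Nat.card Q = 1
    · rw [htriv]
      exact Nat.mul_pos (Nat.mul_pos Nat.card_pos Nat.card_pos) Nat.card_pos
    have hnt : Nontrivial Q := by
      rw [← Finite.one_lt_card_iff_nontrivial]
      have := Nat.card_pos (α := Q)
      omega
    haveI := hQ.center_nontrivial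
    have hoddQ : Odd (Nat.card Q) := by
      obtain ⟨k, hk⟩ := IsPGroup.iff_card.mp hQ
      rw [hk]
      exact (hq.out.odd_of_ne_two hq2).pow
    -- endomorphisms preserve the centre
    have hsurj : ∀ (f : Q →* Q), (∀ x, f (f x) = x) → ∀ z ∈ Subgroup.center Q, f z ∈ Subgroup.center Q := by
      intro f hf z hz
      rw [Subgroup.mem_center_iff] at hz ⊢
      intro g
      have h1 := hz (f g)
      have h2 := congrArg f h1
      rw [map_mul, map_mul, hf] at h2
      exact h2
    obtain ⟨z₁, hz₁⟩ := exists_ne (1 : Subgroup.center Q)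
    have hz : (z₁ : Q) ≠ 1 := fun h => hz₁ (Subtype.ext h)
    have hzc : (z₁ : Q) ∈ Subgroup.center Q := z₁.2
    generalize (z₁ : Q) = z at hz hzc
    -- step A
    have hA : ∃ x : Q, x ≠ 1 ∧ x ∈ Subgroup.center Q ∧ (V.a x = x ∨ V.a x = x⁻¹) := by
      by_cases hy : z * V.a z = 1
      · refine ⟨z, hz, hzc, Or.inr ?_⟩
        exact eq_inv_of_mul_eq_one_right hy
      · refine ⟨z * V.a z, hy, Subgroup.mul_mem _ hzc (hsurj _ V.aa _ hzc), Or.inl ?_⟩
        rw [map_mul, V.aa]
        exact (Subgroup.mem_center_iff.mp hzc _)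
    obtain ⟨x₀, hx₀, hx₀c, hx₀a⟩ := hA
    -- step B
    have hB : ∃ x : Q, x ≠ 1 ∧ x ∈ Subgroup.center Q ∧ (V.a x = x ∨ V.a x = x⁻¹) ∧
        (V.b x = x ∨ V.b x = x⁻¹) := by
      by_cases hy : x₀ * V.b x₀ = 1
      · refine ⟨x₀, hx₀, hx₀c, hx₀a, Or.inr ?_⟩
        exact eq_inv_of_mul_eq_one_right hy
      · refine ⟨x₀ * V.b x₀, hy, Subgroup.mul_mem _ hx₀c (hsurj _ V.bb _ hx₀c), ?_, Or.inl ?_⟩
        · rcases hx₀a with h | h
          · left
            rw [map_mul, V.ab, h]
          · right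
            rw [map_mul, V.ab, h, map_inv, mul_inv_rev]
            exact (Subgroup.mem_center_iff.mp (inv_mem (hsurj _ V.bb _ hx₀c)) _)
        · rw [map_mul, V.bb]
          exact (Subgroup.mem_center_iff.mp hx₀c _)
    obtain ⟨x, hx, hxc, hxa, hxb⟩ := hB
    set N := Subgroup.zpowers x with hN
    haveI hNn : N.Normal := by
      have : N ≤ Subgroup.center Q := by
        rw [hN, Subgroup.zpowers_le]
        exact hxc
      refine ⟨fun y hy g => ?_⟩
      have h5 := Subgroup.mem_center_iff.mp (this hy) g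
      rw [h5, mul_assoc, mul_inv_cancel, mul_one]
      exact hy
    have hpm : ∀ (f : Q →* Q), (f x = x ∨ f x = x⁻¹) → ∀ y ∈ N, f y ∈ N := by
      intro f hf y hy
      obtain ⟨k, rfl⟩ := Subgroup.mem_zpowers_iff.mp hy
      rw [map_zpow]
      apply Subgroup.zpow_mem
      rcases hf with h | h <;> rw [h]
      · exact Subgroup.mem_zpowers x
      · exact inv_mem (Subgroup.mem_zpowers x)
    have hinv : V.Inv N := fun y hy => ⟨hpm _ hxa y hy, hpm _ hxb y hy⟩
    have hcardQ : Nat.card Q = Nat.card (Q ⧸ N) * Nat.card N := by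
      have := Subgroup.card_mul_index N
      rw [Subgroup.index_eq_card] at this
      rw [← this]; ring
    have hN1 : 1 < Nat.card N := by
      rw [Nat.card_zpowers]
      exact (orderOf_pos_iff.mpr (isOfFinOrder_of_finite x)) |> fun h => by
        have h2 : orderOf x ≠ 1 := by rwa [Ne, orderOf_eq_one_iff]
        omega
    have hlt : Nat.card (Q ⧸ N) < n := by
      rw [← hn, hcardQ]
      have := Nat.card_pos (α := Q ⧸ N)
      nlinarith
    have hih := ih _ hlt (Q ⧸ N) (hQ.to_quotient N) rfl (V.quo N hinv)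
    have hodd : ∀ y ∈ N, y * y = 1 → y = 1 := fun y _ hy => eq_one_of_mul_self_of_odd hoddQ hy
    have hfa := card_fix_quot_le V.a N (V.quo N hinv).a fun _ => rfl
    have hfb := card_fix_quot_le V.b N (V.quo N hinv).b fun _ => rfl
    have hfc := card_fix_quot_le (V.a.comp V.b) N ((V.quo N hinv).a.comp (V.quo N hinv).b) fun _ => rfl
    set A := Nat.card (fixS (V.quo N hinv).a)
    set B := Nat.card (fixS (V.quo N hinv).b)
    set C := Nat.card (fixS ((V.quo N hinv).a.comp (V.quo N hinv).b))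
    have hle : Nat.card Q ≤ A * B * C * Nat.card N := by
      rw [hcardQ]
      exact Nat.mul_le_mul_right _ hih
    have hfix : ∀ (f : Q →* Q), f x = x → N ≤ fixS f := by
      intro f hf
      rw [hN, Subgroup.zpowers_le]
      exact hf
    by_cases h1 : V.a x = x
    · have h := card_fix_quot_eq V.a V.aa N (hfix _ h1) hodd (V.quo N hinv).a fun _ => rfl
      rw [h]
      calc Nat.card Q ≤ A * B * C * Nat.card N := hle
        _ = (A * Nat.card N) * B * C := by ring
        _ ≤ (A * Nat.card N) * Nat.card (fixS V.b) * Nat.card (fixS (V.a.comp V.b)) :=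
          Nat.mul_le_mul (Nat.mul_le_mul_left _ hfb) hfc
    by_cases h2 : V.b x = x
    · have h := card_fix_quot_eq V.b V.bb N (hfix _ h2) hodd (V.quo N hinv).b fun _ => rfl
      rw [h]
      calc Nat.card Q ≤ A * B * C * Nat.card N := hle
        _ = A * (B * Nat.card N) * C := by ring
        _ ≤ Nat.card (fixS V.a) * (B * Nat.card N) * Nat.card (fixS (V.a.comp V.b)) :=
          Nat.mul_le_mul (Nat.mul_le_mul_right _ hfa) hfc
    · have h3 : (V.a.comp V.b) x = x := by
        rw [MonoidHom.comp_apply, hxb.resolve_left h2, map_inv, hxa.resolve_left h1, inv_inv]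
      have hcc : ∀ y, (V.a.comp V.b) ((V.a.comp V.b) y) = y := by
        intro y
        show V.a (V.b (V.a (V.b y))) = y
        rw [← V.ab (V.b y), V.bb, V.aa]
      have h := card_fix_quot_eq (V.a.comp V.b) hcc N (hfix _ h3) hodd
        ((V.quo N hinv).a.comp (V.quo N hinv).b) fun _ => rfl
      rw [h]
      calc Nat.card Q ≤ A * B * C * Nat.card N := hle
        _ = A * B * (C * Nat.card N) := by ring
        _ ≤ Nat.card (fixS V.a) * Nat.card (fixS V.b) * (C * Nat.card N) :=
          Nat.mul_le_mul_right _ (Nat.mul_le_mul hfa hfb)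

/-- Involution on a finite set: parity of fixed points. -/
theorem odd_card_fixed_of_invol {X : Type*} [Finite X] (σ : X → X) (hσ : ∀ x, σ (σ x) = x)
    (hodd : Odd (Nat.card X)) : Odd (Nat.card {x // σ x = x}) := by
  classical
  haveI := Fintype.ofFinite X
  have hp : Fact (Nat.Prime 2) := ⟨Nat.prime_two⟩
  let f : Function.End X := σ
  have hf : f ^ 2 ^ 1 = 1 := by
    funext x
    exact hσ x
  have h := Equiv.Perm.card_fixedPoints_modEq (f := f) (p := 2) (n := 1) hf
  have h1 : Fintype.card (Function.fixedPoints f) = Nat.card {x // σ x = x} := by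
    rw [Nat.card_eq_fintype_card]
    rfl
  rw [h1, ← Nat.card_eq_fintype_card] at h
  rw [Nat.odd_iff] at hodd ⊢
  have := h.symm
  unfold Nat.ModEq at this
  omega

/-- An invariant Sylow subgroup. -/
theorem exists_inv_sylow {K : Type u} [Group K] [Finite K] (V : VAct K)
    (hodd : Odd (Nat.card K)) (q : ℕ) [hq : Fact q.Prime] :
    ∃ Q : Sylow q K, V.Inv (Q : Subgroup K) := by
  classical
  have hS : Odd (Nat.card (Sylow q K)) := by
    obtain ⟨P⟩ : Nonempty (Sylow q K) := inferInstance
    have h1 := P.card_dvd_index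
    have h2 : (P : Subgroup K).index ∣ Nat.card K := Subgroup.index_dvd_card _
    exact Odd.of_dvd_nat hodd (h1.trans h2)
  have ha : Function.Surjective V.a := fun y => ⟨V.a y, V.aa y⟩
  have hb : Function.Surjective V.b := fun y => ⟨V.b y, V.bb y⟩
  let σa : Sylow q K → Sylow q K := fun Q => Sylow.mapSurjective ha Q
  let σb : Sylow q K → Sylow q K := fun Q => Sylow.mapSurjective hb Q
  have hσa : ∀ Q, σa (σa Q) = Q := by
    intro Q
    apply Sylow.ext
    show ((Q : Subgroup K).map V.a).map V.a = Q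
    rw [Subgroup.map_map]
    have : V.a.comp V.a = MonoidHom.id K := MonoidHom.ext V.aa
    rw [this, Subgroup.map_id]
  have hσb : ∀ Q, σb (σb Q) = Q := by
    intro Q
    apply Sylow.ext
    show ((Q : Subgroup K).map V.b).map V.b = Q
    rw [Subgroup.map_map]
    have : V.b.comp V.b = MonoidHom.id K := MonoidHom.ext V.bb
    rw [this, Subgroup.map_id]
  have hab : ∀ Q, σa (σb Q) = σb (σa Q) := by
    intro Q
    apply Sylow.ext
    show ((Q : Subgroup K).map V.b).map V.a = ((Q : Subgroup K).map V.a).map V.b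
    rw [Subgroup.map_map, Subgroup.map_map]
    have : V.a.comp V.b = V.b.comp V.a := MonoidHom.ext V.ab
    rw [this]
  have hY := odd_card_fixed_of_invol σa hσa hS
  let τ : {Q // σa Q = Q} → {Q // σa Q = Q} := fun Q => ⟨σb Q.1, by rw [hab, Q.2]⟩
  have hτ : ∀ Q, τ (τ Q) = Q := fun Q => Subtype.ext (hσb Q.1)
  have hZ := odd_card_fixed_of_invol τ hτ hY
  have hne : Nonempty {x // τ x = x} := by
    by_contra h
    rw [not_nonempty_iff] at h
    rw [Nat.card_of_isEmpty] at hZ
    exact Nat.not_odd_zero hZ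
  obtain ⟨⟨⟨Q, hQa⟩, hQb⟩⟩ := hne
  refine ⟨Q, fun x hx => ⟨?_, ?_⟩⟩
  · have h1 : V.a x ∈ ((σa Q : Sylow q K) : Subgroup K) := ⟨x, hx, rfl⟩
    rwa [hQa] at h1
  · have hQb' : σb Q = Q := congrArg Subtype.val hQb
    have h1 : V.b x ∈ ((σb Q : Sylow q K) : Subgroup K) := ⟨x, hx, rfl⟩
    rwa [hQb'] at h1

/-- The fixed-point bound in odd order. -/
theorem odd_card_dvd {K : Type u} [Group K] [Finite K] (V : VAct K) (hodd : Odd (Nat.card K)) :
    Nat.card K ∣ Nat.card (fixS V.a) * Nat.card (fixS V.b) * Nat.card (fixS (V.a.comp V.b)) := by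
  have hne : ∀ (f : K →* K), Nat.card (fixS f) ≠ 0 := fun f => Nat.card_pos.ne'
  rw [← Nat.factorization_prime_le_iff_dvd Nat.card_pos.ne'
    (mul_ne_zero (mul_ne_zero (hne _) (hne _)) (hne _))]
  intro q hqp
  haveI : Fact q.Prime := ⟨hqp⟩
  have hq2 : q ≠ 2 ∨ ¬ q ∣ Nat.card K := by
    by_cases h : q = 2
    · right
      subst h
      intro h2
      exact (Nat.not_even_iff_odd.mpr hodd) (even_iff_two_dvd.mpr h2)
    · exact Or.inl h
  by_cases hdv : q ∣ Nat.card K
  · have hq2' : q ≠ 2 := hq2.resolve_right (not_not.mpr hdv)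
    obtain ⟨Q, hQ⟩ := exists_inv_sylow V hodd q
    have hpg : IsPGroup q (Q : Subgroup K) := Q.isPGroup'
    have hmain := qgroup_le hq2' _ (Q : Subgroup K) hpg rfl (V.res (Q : Subgroup K) hQ)
    have hcQ := Q.card_eq_multiplicity
    have hfac : ∀ (f : K →* K) (g : (Q : Subgroup K) →* (Q : Subgroup K)),
        (∀ x, (g x : K) = f x) → ∃ m, Nat.card (fixS g) = q ^ m ∧ m ≤ (Nat.card (fixS f)).factorization q := by
      intro f g hg
      obtain ⟨m, hm⟩ := IsPGroup.iff_card.mp (hpg.to_subgroup (fixS g))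
      refine ⟨m, hm, ?_⟩
      have h1 := card_fix_res_dvd f _ g hg
      rw [hm] at h1
      exact (hqp.pow_dvd_iff_le_factorization (hne f)).mp h1
    obtain ⟨m₁, hm₁, hm₁'⟩ := hfac V.a (V.res (Q : Subgroup K) hQ).a fun _ => rfl
    obtain ⟨m₂, hm₂, hm₂'⟩ := hfac V.b (V.res (Q : Subgroup K) hQ).b fun _ => rfl
    obtain ⟨m₃, hm₃, hm₃'⟩ := hfac (V.a.comp V.b)
      ((V.res (Q : Subgroup K) hQ).a.comp (V.res (Q : Subgroup K) hQ).b) fun _ => rfl
    rw [hm₁, hm₂, hm₃, hcQ, ← pow_add, ← pow_add] at hmain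
    have h2 := (Nat.pow_le_pow_iff_right hqp.one_lt).mp hmain
    rw [Nat.factorization_mul (mul_ne_zero (hne _) (hne _)) (hne _),
      Nat.factorization_mul (hne _) (hne _)]
    simp only [Finsupp.add_apply]
    omega
  · rw [Nat.factorization_eq_zero_of_not_dvd hdv]
    exact Nat.zero_le _

theorem odd_card_le {K : Type u} [Group K] [Finite K] (V : VAct K) (hodd : Odd (Nat.card K))
    {c : ℕ} (hV : V.Bd c) : Nat.card K ≤ c ^ 3 := by
  have h1 := Nat.le_of_dvd (Nat.mul_pos (Nat.mul_pos Nat.card_pos Nat.card_pos) Nat.card_pos)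
    (odd_card_dvd V hodd)
  calc Nat.card K ≤ _ := h1
    _ ≤ c * c * c := Nat.mul_le_mul (Nat.mul_le_mul hV.1 hV.2.1) hV.2.2
    _ = c ^ 3 := by ring

end Cfsg.Agent.H22
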