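import Cfsg.Agent.Lib.H22.VAutA

/-! Brauer–Fowler type counting and the bound for groups with a four-group of automorphisms. -/

namespace Cfsg.Agent.H22

universe u

theorem finset_card_le_nat_card {α β : Type*} [Finite β] (S : Finset α) (φ : S → β)
    (h : Function.Injective φ) : S.card ≤ Nat.card β := by
  have := Nat.card_le_card_of_injective φ h
  rwa [Nat.card_eq_fintype_card, Fintype.card_coe] at this

section BF

variable {K : Type u} [Group K] [Finite K]

/-- Brauer–Fowler counting, for an involutory endomorphism. -/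
theorem bf_exists (f : K →* K) (hf : ∀ x, f (f x) = x) {c : ℕ} (hc : Nat.card (fixS f) ≤ c) :
    Nat.card K ≤ c ∨ ∃ x : K, x ≠ 1 ∧ (Subgroup.centralizer ({x} : Set K)).index ≤ 2 * c ^ 2 := by
  classical
  haveI := Fintype.ofFinite K
  set u : K → K := fun k => k⁻¹ * f k with hu
  set U : Finset K := Finset.univ.image u with hU
  have hUf : ∀ v ∈ U, f v = v⁻¹ := by
    intro v hv
    obtain ⟨k, -, rfl⟩ := Finset.mem_image.mp hv
    simp only [hu, map_mul, map_inv, hf, mul_inv_rev, inv_inv]
  have hKU : Nat.card K ≤ c * U.card := by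
    have h1 : (Finset.univ : Finset K).card ≤ c * (Finset.univ.image u).card := by
      apply Finset.card_le_mul_card_image
      intro y hy
      obtain ⟨k₀, -, rfl⟩ := Finset.mem_image.mp hy
      have h2 : (Finset.univ.filter (fun x => u x = u k₀)).card ≤ Nat.card (fixS f) := by
        refine finset_card_le_nat_card _ (fun x => ⟨(x : K) * k₀⁻¹, ?_⟩) ?_
        · have h3 : u (x : K) = u k₀ := (Finset.mem_filter.mp x.2).2
          simp only [hu] at h3
          show f ((x : K) * k₀⁻¹) = (x : K) * k₀⁻¹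
          rw [map_mul, map_inv]
          have h4 : f (x : K) = (x : K) * (k₀⁻¹ * f k₀) := by
            rw [← h3]; group
          rw [h4]; group
        · intro x y hxy
          have h3 : (x : K) * k₀⁻¹ = (y : K) * k₀⁻¹ := congrArg Subtype.val hxy
          exact Subtype.ext (mul_right_cancel h3)
      exact h2.trans hc
    rw [Nat.card_eq_fintype_card]
    exact h1
  by_cases hW : U.card ≤ 1
  · left
    calc Nat.card K ≤ c * U.card := hKU
      _ ≤ c * 1 := Nat.mul_le_mul_left _ hW
      _ = c := mul_one c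
  right
  by_contra hno
  push Not at hno
  set S : K → Finset K := fun x => U.filter (fun v => x * v ∈ U) with hS
  have hsum : ∑ x, (S x).card = U.card * U.card := by
    have h1 : ∀ x, (S x).card = ∑ v ∈ U, if x * v ∈ U then 1 else 0 := by
      intro x
      simp only [hS]
      rw [Finset.card_filter]
    simp only [h1]
    rw [Finset.sum_comm]
    have h2 : ∀ v ∈ U, (∑ x, if x * v ∈ U then 1 else 0) = U.card := by
      intro v _
      rw [← Finset.card_filter]
      refine Finset.card_bij (fun x _ => x * v) ?_ ?_ ?_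
      · intro x hx
        exact (Finset.mem_filter.mp hx).2
      · intro x _ y _ h
        exact mul_right_cancel h
      · intro w hw
        refine ⟨w * v⁻¹, ?_, ?_⟩
        · rw [Finset.mem_filter]
          refine ⟨Finset.mem_univ _, ?_⟩
          simpa using hw
        · simp
    rw [Finset.sum_congr rfl h2, Finset.sum_const, smul_eq_mul]
  have hS1 : (S 1).card = U.card := by
    simp only [hS, one_mul]
    congr 1
    exact Finset.filter_true_of_mem fun _ h => h
  have hSx : ∀ x, x ≠ 1 → (S x).card * (2 * c ^ 2 + 1) ≤ Nat.card K := by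
    intro x hx
    have h1 : (S x).card ≤ Nat.card (Subgroup.centralizer ({x} : Set K)) := by
      by_cases hne : (S x).Nonempty
      · obtain ⟨v₀, hv₀⟩ := hne
        have hv₀' := Finset.mem_filter.mp hv₀
        have hkey : ∀ v ∈ S x, f x = v⁻¹ * x⁻¹ * v := by
          intro v hv
          have hv' := Finset.mem_filter.mp hv
          have h2 := hUf _ hv'.2
          rw [map_mul, hUf v hv'.1, mul_inv_rev] at h2
          have h3 : f x = v⁻¹ * x⁻¹ * v := by
            calc f x = f x * v⁻¹ * v := by group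
              _ = v⁻¹ * x⁻¹ * v := by rw [h2]
          exact h3
        refine finset_card_le_nat_card _ (fun v => ⟨(v : K) * v₀⁻¹, ?_⟩) ?_
        · rw [Subgroup.mem_centralizer_singleton_iff]
          have h2 := hkey v v.2
          have h3 := hkey v₀ hv₀
          rw [h3] at h2
          have h4 : x⁻¹ * ((v : K) * v₀⁻¹) = ((v : K) * v₀⁻¹) * x⁻¹ := by
            have h5 : (v : K) * v₀⁻¹ * x⁻¹ * (v₀ * (v : K)⁻¹)
                = (v : K) * (v₀⁻¹ * x⁻¹ * v₀) * (v : K)⁻¹ := by group
            rw [h2] at h5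
            have h6 : ((v : K) * v₀⁻¹) * x⁻¹ = ((v : K) * ((v : K)⁻¹ * x⁻¹ * (v : K)) * (v : K)⁻¹) * ((v : K) * v₀⁻¹) := by
              rw [← h5]; group
            rw [h6]; group
          have h7 : x * (x⁻¹ * ((v : K) * v₀⁻¹)) * x = x * (((v : K) * v₀⁻¹) * x⁻¹) * x := by rw [h4]
          have h8 : ((v : K) * v₀⁻¹) * x = x * ((v : K) * v₀⁻¹) := by
            calc ((v : K) * v₀⁻¹) * x = x * (x⁻¹ * ((v : K) * v₀⁻¹)) * x := by group
              _ = x * (((v : K) * v₀⁻¹) * x⁻¹) * x := h7
              _ = x * ((v : K) * v₀⁻¹) := by group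
          exact h8
        · intro v w h
          have h3 : (v : K) * v₀⁻¹ = (w : K) * v₀⁻¹ := congrArg Subtype.val h
          exact Subtype.ext (mul_right_cancel h3)
      · rw [Finset.not_nonempty_iff_eq_empty] at hne
        rw [hne, Finset.card_empty]
        exact Nat.zero_le _
    have h2 := Subgroup.card_mul_index (Subgroup.centralizer ({x} : Set K))
    have h3 := hno x hx
    calc (S x).card * (2 * c ^ 2 + 1)
        ≤ Nat.card (Subgroup.centralizer ({x} : Set K)) * (Subgroup.centralizer ({x} : Set K)).index :=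
          Nat.mul_le_mul h1 h3
      _ = Nat.card K := h2
  set n := Nat.card K with hn
  set W := U.card with hWd
  set Y := ∑ x ∈ Finset.univ.erase (1 : K), (S x).card with hY
  have hYW : W + Y = W * W := by
    rw [← hsum, ← Finset.add_sum_erase _ _ (Finset.mem_univ (1 : K)), hS1]
  have hYle : Y * (2 * c ^ 2 + 1) ≤ (n - 1) * n := by
    rw [hY, Finset.sum_mul]
    have h1 : ((Finset.univ : Finset K).erase 1).card = n - 1 := by
      rw [Finset.card_erase_of_mem (Finset.mem_univ _), Finset.card_univ, hn, Nat.card_eq_fintype_card]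
    rw [← h1, ← smul_eq_mul]
    apply Finset.sum_le_card_nsmul
    intro x hx
    exact hSx x (Finset.ne_of_mem_erase hx)
  have hn1 : 1 ≤ n := Nat.card_pos
  have hW2 : 2 ≤ W := by omega
  have h1 : W * W ≤ 2 * Y := by nlinarith
  have h2 : n * n ≤ c ^ 2 * (W * W) := by
    calc n * n ≤ (c * W) * (c * W) := Nat.mul_le_mul hKU hKU
      _ = c ^ 2 * (W * W) := by ring
  have h3 : (n - 1) * n < n * n := by
    apply Nat.mul_lt_mul_of_pos_right (by omega) (by omega)
  have h4 : W * W * (2 * c ^ 2 + 1) ≤ 2 * (Y * (2 * c ^ 2 + 1)) := by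
    calc W * W * (2 * c ^ 2 + 1) ≤ (2 * Y) * (2 * c ^ 2 + 1) := Nat.mul_le_mul_right _ h1
      _ = 2 * (Y * (2 * c ^ 2 + 1)) := by ring
  have h5 : W * W * (2 * c ^ 2 + 1) < 2 * (n * n) := by
    calc _ ≤ 2 * (Y * (2 * c ^ 2 + 1)) := h4
      _ ≤ 2 * ((n - 1) * n) := Nat.mul_le_mul_left _ hYle
      _ < 2 * (n * n) := by omega
  have h6 : 2 * (n * n) ≤ 2 * c ^ 2 * (W * W) := by
    calc 2 * (n * n) ≤ 2 * (c ^ 2 * (W * W)) := Nat.mul_le_mul_left _ h2
      _ = 2 * c ^ 2 * (W * W) := by ring
  have h7 : 2 * c ^ 2 * (W * W) ≤ W * W * (2 * c ^ 2 + 1) := by nlinarith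
  omega

end BF

section Core

variable {X : Type u} [Group X] [Finite X]

/-- Generation by `2`-elements. -/
def GenTwo (X : Type u) [Group X] : Prop :=
  Subgroup.closure {x : X | ∃ n : ℕ, x ^ 2 ^ n = 1} = ⊤

/-- No nontrivial invariant normal subgroup of odd order. -/
def VAct.NoOdd (V : VAct X) : Prop :=
  ∀ R : Subgroup X, R.Normal → V.Inv R → Odd (Nat.card R) → R = ⊥

theorem eq_top_of_genTwo (hX : GenTwo X) (R : Subgroup X) [hR : R.Normal]
    (hodd : Odd R.index) : R = ⊤ := by
  rw [eq_top_iff, ← hX, Subgroup.closure_le]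
  rintro x ⟨n, hn⟩
  have h1 : ((x : X ⧸ R)) ^ 2 ^ n = 1 := by
    rw [← QuotientGroup.mk_pow, hn, QuotientGroup.mk_one]
  have h2 : orderOf (x : X ⧸ R) ∣ 2 ^ n := orderOf_dvd_of_pow_eq_one h1
  have h3 : orderOf (x : X ⧸ R) ∣ Nat.card (X ⧸ R) := orderOf_dvd_natCard _
  rw [← Subgroup.index_eq_card] at h3
  have h4 : Odd (orderOf (x : X ⧸ R)) := Odd.of_dvd_nat hodd h3
  obtain ⟨k, -, hk⟩ := (Nat.dvd_prime_pow Nat.prime_two).mp h2
  rw [hk] at h4
  have h5 : k = 0 := by
    by_contra hne
    exact (Nat.not_even_iff_odd.mpr h4) ((Nat.even_pow' hne).mpr even_two)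
  rw [h5, pow_zero, orderOf_eq_one_iff] at hk
  exact (QuotientGroup.eq_one_iff x).mp hk

/-- `index (normalCore) ≤ (index)!`. -/
theorem index_normalCore_le (H : Subgroup X) : H.normalCore.index ≤ H.index.factorial := by
  classical
  rw [Subgroup.normalCore_eq_ker, Subgroup.index_ker]
  haveI : Finite (X ⧸ H) := inferInstance
  have h1 : Nat.card (MulAction.toPermHom X (X ⧸ H)).range ≤ Nat.card (Equiv.Perm (X ⧸ H)) :=
    Nat.card_le_card_of_injective (fun x => (x : Equiv.Perm (X ⧸ H))) Subtype.val_injective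
  rw [Nat.card_perm] at h1
  rwa [Subgroup.index_eq_card]

/-- The order of `X` when `X` has generation by `2`-elements and no odd invariant normal subgroup. -/
theorem core_bound {a c N' : ℕ}
    (IH : ∀ (Y : Type u) [Group Y] [Finite Y] (W : VAct Y), W.Bd c →
      (Nat.card Y).factorization 2 ≤ a → Nat.card Y ≤ N')
    (V : VAct X) (hV : V.Bd c) (hG : GenTwo X) (hNO : V.NoOdd)
    (hfac : (Nat.card X).factorization 2 ≤ a + 1) :
    Nat.card X ≤ max c (max (2 ^ (a + 1) * N') ((2 * c ^ 2).factorial ^ 4 * N')) := by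
  classical
  have hX0 : Nat.card X ≠ 0 := Nat.card_pos.ne'
  rcases bf_exists V.a V.aa hV.1 with h | ⟨x, hx, hxi⟩
  · exact h.trans (le_max_left _ _)
  apply le_max_of_le_right
  by_cases hC : Subgroup.centralizer ({x} : Set X) = ⊤
  · -- central case
    apply le_max_of_le_left
    have hxZ : x ∈ Subgroup.center X := by
      rw [Subgroup.mem_center_iff]
      intro g
      have : g ∈ Subgroup.centralizer ({x} : Set X) := by rw [hC]; trivial
      rw [Subgroup.mem_centralizer_singleton_iff] at this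
      exact this
    have hcen : ∀ (f : X →* X), (∀ y, f (f y) = y) → ∀ z ∈ Subgroup.center X, f z ∈ Subgroup.center X := by
      intro f hf z hz
      rw [Subgroup.mem_center_iff] at hz ⊢
      intro g
      have h1 := hz (f g)
      have h2 := congrArg f h1
      rw [map_mul, map_mul, hf] at h2
      exact h2
    have hZinv : V.Inv (Subgroup.center X) := fun z hz => ⟨hcen _ V.aa z hz, hcen _ V.bb z hz⟩
    have hZne : Subgroup.center X ≠ ⊥ := by
      intro h
      rw [h, Subgroup.mem_bot] at hxZ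
      exact hx hxZ
    have hZev : ¬ Odd (Nat.card (Subgroup.center X)) := fun h => hZne (hNO _ inferInstance hZinv h)
    have h2Z : 2 ∣ Nat.card (Subgroup.center X) := by
      rw [Nat.not_odd_iff_even] at hZev
      exact even_iff_two_dvd.mp hZev
    haveI : Fact (Nat.Prime 2) := ⟨Nat.prime_two⟩
    obtain ⟨z, hz⟩ := exists_prime_orderOf_dvd_card' (G := Subgroup.center X) 2 h2Z
    let R : Subgroup X :=
      { carrier := {y | y ∈ Subgroup.center X ∧ y * y = 1}
        mul_mem' := by
          rintro y w ⟨hy, hy2⟩ ⟨hw, hw2⟩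
          refine ⟨Subgroup.mul_mem _ hy hw, ?_⟩
          have := Subgroup.mem_center_iff.mp hy w
          calc y * w * (y * w) = y * (w * y) * w := by group
            _ = y * (y * w) * w := by rw [this]
            _ = (y * y) * (w * w) := by group
            _ = 1 := by rw [hy2, hw2, one_mul]
        one_mem' := ⟨Subgroup.one_mem _, one_mul 1⟩
        inv_mem' := by
          rintro y ⟨hy, hy2⟩
          refine ⟨inv_mem hy, ?_⟩
          rw [← mul_inv_rev, hy2, inv_one] }
    have hRle : R ≤ Subgroup.center X := fun y hy => hy.1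
    haveI hRn : R.Normal := by
      refine ⟨fun y hy g => ?_⟩
      have h5 := Subgroup.mem_center_iff.mp (hRle hy) g
      rw [h5, mul_assoc, mul_inv_cancel, mul_one]
      exact hy
    have hRinv : V.Inv R := by
      intro y hy
      refine ⟨⟨hcen _ V.aa y hy.1, ?_⟩, ⟨hcen _ V.bb y hy.1, ?_⟩⟩
      · rw [← map_mul, hy.2, map_one]
      · rw [← map_mul, hy.2, map_one]
    have hRp : IsPGroup 2 R := by
      intro y
      refine ⟨1, ?_⟩
      apply Subtype.ext
      show ((y : X)) ^ 2 ^ 1 = 1
      rw [pow_one, pow_two]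
      exact y.2.2
    obtain ⟨s, hs⟩ := IsPGroup.iff_card.mp hRp
    have hz1 : ((z : X)) ^ 2 = 1 := by
      have h3 : z ^ 2 = 1 := by rw [← hz]; exact pow_orderOf_eq_one z
      exact congrArg Subtype.val h3
    have hzne : (z : X) ≠ 1 := by
      intro h
      have h3 : z = 1 := Subtype.ext h
      rw [h3, orderOf_one] at hz
      omega
    have hzR : (z : X) ∈ R := ⟨z.2, by rw [← pow_two]; exact hz1⟩
    have hs1 : 1 ≤ s := by
      by_contra hne
      have h0 : s = 0 := by omega
      rw [h0, pow_zero] at hs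
      have h3 : Subsingleton R := (Nat.card_eq_one_iff_unique.mp hs).1
      have h4 : (⟨(z : X), hzR⟩ : R) = 1 := Subsingleton.elim _ _
      exact hzne (congrArg Subtype.val h4)
    have hcard : Nat.card X = Nat.card (X ⧸ R) * Nat.card R := by
      have := Subgroup.card_mul_index R
      rw [Subgroup.index_eq_card] at this
      rw [← this]; ring
    have hQ0 : Nat.card (X ⧸ R) ≠ 0 := Nat.card_pos.ne'
    have hfq : (Nat.card (X ⧸ R)).factorization 2 + s ≤ a + 1 := by
      rw [hcard, hs, Nat.factorization_mul hQ0 (pow_ne_zero _ (by norm_num))] at hfac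
      simp only [Finsupp.add_apply, Nat.factorization_pow, Finsupp.smul_apply, smul_eq_mul,
        Nat.Prime.factorization_self Nat.prime_two, mul_one] at hfac
      exact hfac
    have h1 := IH (X ⧸ R) (V.quo R hRinv) (V.Bd_quo hV R hRinv) (by omega)
    have hs2 : s ≤ a + 1 := by omega
    rw [hcard, hs, mul_comm]
    exact Nat.mul_le_mul (Nat.pow_le_pow_right (by norm_num) hs2) h1
  · -- the proper subgroup case
    apply le_max_of_le_right
    set C₀ := (Subgroup.centralizer ({x} : Set X)).normalCore with hC₀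
    set m := 2 * c ^ 2 with hm
    have hC₀i : C₀.index ≤ m.factorial :=
      (index_normalCore_le _).trans (Nat.factorial_le hxi)
    have hcomap : ∀ (f : X →* X), (∀ y, f (f y) = y) → (C₀.comap f).index = C₀.index := by
      intro f hf
      exact Subgroup.index_comap_of_surjective _ (fun y => ⟨f y, hf y⟩)
    have hcc : ∀ y, (V.a.comp V.b) ((V.a.comp V.b) y) = y := by
      intro y
      show V.a (V.b (V.a (V.b y))) = y
      rw [← V.ab (V.b y), V.bb, V.aa]
    set L := C₀ ⊓ C₀.comap V.a ⊓ C₀.comap V.b ⊓ C₀.comap (V.a.comp V.b) with hL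
    haveI hLn : L.Normal := by
      haveI h1 : C₀.Normal := Subgroup.normalCore_normal _
      haveI h2 : (C₀.comap V.a).Normal := h1.comap _
      haveI h3 : (C₀.comap V.b).Normal := h1.comap _
      haveI h4 : (C₀.comap (V.a.comp V.b)).Normal := h1.comap _
      infer_instance
    have hLinv : V.Inv L := by
      rintro y ⟨⟨⟨h0, h1⟩, h2⟩, h3⟩
      have h1' : V.a y ∈ C₀ := h1
      have h2' : V.b y ∈ C₀ := h2
      have h3' : V.a (V.b y) ∈ C₀ := h3
      refine ⟨⟨⟨⟨h1', ?_⟩, ?_⟩, ?_⟩, ⟨⟨⟨h2', ?_⟩, ?_⟩, ?_⟩⟩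
      · show V.a (V.a y) ∈ C₀
        rwa [V.aa]
      · show V.b (V.a y) ∈ C₀
        rwa [← V.ab]
      · show V.a (V.b (V.a y)) ∈ C₀
        rwa [← V.ab, V.aa]
      · show V.a (V.b y) ∈ C₀
        exact h3'
      · show V.b (V.b y) ∈ C₀
        rwa [V.bb]
      · show V.a (V.b (V.b y)) ∈ C₀
        rwa [V.bb]
    have hLle : L ≤ Subgroup.centralizer ({x} : Set X) :=
      fun y hy => Subgroup.normalCore_le _ hy.1.1.1
    have hLi : L.index ≤ m.factorial ^ 4 := by
      have h1 : L.index ≤ (C₀ ⊓ C₀.comap V.a ⊓ C₀.comap V.b).index * (C₀.comap (V.a.comp V.b)).index :=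
        Subgroup.index_inf_le
      have h2 : (C₀ ⊓ C₀.comap V.a ⊓ C₀.comap V.b).index ≤ (C₀ ⊓ C₀.comap V.a).index * (C₀.comap V.b).index :=
        Subgroup.index_inf_le
      have h3 : (C₀ ⊓ C₀.comap V.a).index ≤ C₀.index * (C₀.comap V.a).index := Subgroup.index_inf_le
      rw [hcomap _ hcc] at h1
      rw [hcomap _ V.bb] at h2
      rw [hcomap _ V.aa] at h3
      calc L.index ≤ (C₀ ⊓ C₀.comap V.a ⊓ C₀.comap V.b).index * C₀.index := h1
        _ ≤ ((C₀ ⊓ C₀.comap V.a).index * C₀.index) * C₀.index := Nat.mul_le_mul_right _ h2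
        _ ≤ ((C₀.index * C₀.index) * C₀.index) * C₀.index :=
          Nat.mul_le_mul_right _ (Nat.mul_le_mul_right _ h3)
        _ ≤ ((m.factorial * m.factorial) * m.factorial) * m.factorial := by gcongr
        _ = m.factorial ^ 4 := by ring
    have hLtop : L ≠ ⊤ := by
      intro h
      apply hC
      rw [eq_top_iff, ← h]
      exact hLle
    have hLev : ¬ Odd L.index := fun h => hLtop (eq_top_of_genTwo hG L h)
    rw [Nat.not_odd_iff_even] at hLev
    have h2L : 2 ∣ L.index := even_iff_two_dvd.mp hLev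
    have hcard : Nat.card X = Nat.card L * L.index := (Subgroup.card_mul_index L).symm
    have hfL : (Nat.card L).factorization 2 ≤ a := by
      have hi0 : L.index ≠ 0 := Subgroup.FiniteIndex.index_ne_zero
      rw [hcard, Nat.factorization_mul Nat.card_pos.ne' hi0] at hfac
      simp only [Finsupp.add_apply] at hfac
      have h4 : 1 ≤ L.index.factorization 2 :=
        (Nat.prime_two.dvd_iff_one_le_factorization hi0).mp h2L
      omega
    have h1 := IH L (V.res L hLinv) (V.Bd_res hV L hLinv) hfL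
    rw [hcard, mul_comm]
    exact Nat.mul_le_mul hLi h1

end Core

section Main

/-- The subgroup generated by the `2`-elements. -/
def twoGen (K : Type u) [Group K] : Subgroup K := Subgroup.closure {x : K | ∃ n : ℕ, x ^ 2 ^ n = 1}

variable {K : Type u} [Group K] [Finite K]

theorem twoGen_map (f : K →* K) : ∀ x ∈ twoGen K, f x ∈ twoGen K := by
  intro x hx
  induction hx using Subgroup.closure_induction with
  | mem y hy =>
    obtain ⟨n, hn⟩ := hy
    exact Subgroup.subset_closure ⟨n, by rw [← map_pow, hn, map_one]⟩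
  | one => rw [map_one]; exact Subgroup.one_mem _
  | mul y z _ _ hy hz => rw [map_mul]; exact Subgroup.mul_mem _ hy hz
  | inv y _ hy => rw [map_inv]; exact inv_mem hy

instance twoGen_normal : (twoGen K).Normal := by
  refine ⟨fun n hn g => ?_⟩
  exact twoGen_map (MulAut.conj g).toMonoidHom n hn

theorem twoGen_odd_index : Odd (twoGen K).index := by
  haveI : Fact (Nat.Prime 2) := ⟨Nat.prime_two⟩
  obtain ⟨P⟩ : Nonempty (Sylow 2 K) := inferInstance
  have h1 : (P : Subgroup K) ≤ twoGen K := by
    intro x hx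
    obtain ⟨n, hn⟩ := (IsPGroup.iff_orderOf.mp P.isPGroup') ⟨x, hx⟩
    apply Subgroup.subset_closure
    refine ⟨n, ?_⟩
    have h2 : (⟨x, hx⟩ : (P : Subgroup K)) ^ 2 ^ n = 1 := by
      rw [← hn]; exact pow_orderOf_eq_one _
    exact congrArg Subtype.val h2
  have h2 : (twoGen K).index ∣ (P : Subgroup K).index := Subgroup.index_dvd_of_le h1
  have h3 := P.not_dvd_index
  rw [← Nat.not_even_iff_odd, even_iff_two_dvd]
  exact fun h => h3 (h.trans h2)

theorem genTwo_twoGen : GenTwo (twoGen K) := by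
  unfold GenTwo
  rw [eq_top_iff]
  have h1 : Subgroup.closure (((↑) : Subgroup.closure {x : K | ∃ n : ℕ, x ^ 2 ^ n = 1} → K) ⁻¹'
      {x : K | ∃ n : ℕ, x ^ 2 ^ n = 1}) = ⊤ := Subgroup.closure_closure_coe_preimage
  show ⊤ ≤ Subgroup.closure {x : Subgroup.closure {x : K | ∃ n : ℕ, x ^ 2 ^ n = 1} | ∃ n : ℕ, x ^ 2 ^ n = 1}
  rw [← h1]
  apply Subgroup.closure_mono
  rintro x ⟨n, hn⟩
  exact ⟨n, Subtype.ext hn⟩

theorem genTwo_quot {X : Type u} [Group X] (hX : GenTwo X) (O : Subgroup X) [O.Normal] :
    GenTwo (X ⧸ O) := by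
  unfold GenTwo at *
  rw [eq_top_iff]
  have h1 := Subgroup.map_top_of_surjective (QuotientGroup.mk' O) (QuotientGroup.mk'_surjective O)
  rw [← h1, ← hX, MonoidHom.map_closure]
  apply Subgroup.closure_mono
  rintro _ ⟨x, ⟨n, hn⟩, rfl⟩
  exact ⟨n, by rw [← map_pow, hn, map_one]⟩

/-- A maximal invariant normal subgroup of odd order. -/
theorem exists_max_odd {X : Type u} [Group X] [Finite X] (V : VAct X) :
    ∃ O : Subgroup X, O.Normal ∧ V.Inv O ∧ Odd (Nat.card O) ∧
      ∀ R : Subgroup X, R.Normal → V.Inv R → Odd (Nat.card R) → Nat.card R ≤ Nat.card O := by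
  classical
  let S := {R : Subgroup X // R.Normal ∧ V.Inv R ∧ Odd (Nat.card R)}
  haveI : Nonempty S := ⟨⟨⊥, inferInstance, fun x hx => by
    rw [Subgroup.mem_bot] at hx
    rw [hx, map_one, map_one]
    exact ⟨Subgroup.one_mem _, Subgroup.one_mem _⟩, by simp⟩⟩
  obtain ⟨O, hO⟩ := Finite.exists_max (fun R : S => Nat.card R.1)
  exact ⟨O.1, O.2.1, O.2.2.1, O.2.2.2, fun R h1 h2 h3 => hO ⟨R, h1, h2, h3⟩⟩

/-- **The bound.** -/
theorem vact_bound (c a : ℕ) : ∃ N : ℕ, ∀ (K : Type u) [Group K] [Finite K] (V : VAct K), V.Bd c →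
    (Nat.card K).factorization 2 ≤ a → Nat.card K ≤ N := by
  induction a with
  | zero =>
    refine ⟨c ^ 3, fun K _ _ V hV hf => ?_⟩
    apply odd_card_le V _ hV
    rw [← Nat.not_even_iff_odd, even_iff_two_dvd]
    intro h
    have := (Nat.prime_two.dvd_iff_one_le_factorization Nat.card_pos.ne').mp h
    omega
  | succ a ih =>
    obtain ⟨N', hN'⟩ := ih
    refine ⟨c ^ 3 * (c ^ 3 * max c (max (2 ^ (a + 1) * N') ((2 * c ^ 2).factorial ^ 4 * N'))),
      fun K _ _ V hV hf => ?_⟩
    set T := twoGen K with hT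
    have hTinv : V.Inv T := fun x hx => ⟨twoGen_map _ x hx, twoGen_map _ x hx⟩
    have hQ : Nat.card (K ⧸ T) ≤ c ^ 3 := by
      apply odd_card_le (V.quo T hTinv) _ (V.Bd_quo hV T hTinv)
      rw [← Subgroup.index_eq_card]
      exact twoGen_odd_index
    have hK : Nat.card K = Nat.card (K ⧸ T) * Nat.card T := by
      have := Subgroup.card_mul_index T
      rw [Subgroup.index_eq_card] at this
      rw [← this]; ring
    set V₁ := V.res T hTinv with hV₁
    have hV₁B : V₁.Bd c := V.Bd_res hV T hTinv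
    obtain ⟨O, hOn, hOi, hOo, hOmax⟩ := exists_max_odd V₁
    haveI := hOn
    have hO : Nat.card O ≤ c ^ 3 := odd_card_le (V₁.res O hOi) hOo (V₁.Bd_res hV₁B O hOi)
    have hT' : Nat.card T = Nat.card (T ⧸ O) * Nat.card O := by
      have := Subgroup.card_mul_index O
      rw [Subgroup.index_eq_card] at this
      rw [← this]; ring
    have hfT : (Nat.card T).factorization 2 ≤ a + 1 := by
      rw [hK, Nat.factorization_mul Nat.card_pos.ne' Nat.card_pos.ne'] at hf
      simp only [Finsupp.add_apply] at hf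
      omega
    have hfX : (Nat.card (T ⧸ O)).factorization 2 ≤ a + 1 := by
      rw [hT', Nat.factorization_mul Nat.card_pos.ne' Nat.card_pos.ne'] at hfT
      simp only [Finsupp.add_apply] at hfT
      omega
    have hNO : (V₁.quo O hOi).NoOdd := by
      intro R hRn hRi hRo
      set R' := R.comap (QuotientGroup.mk' O) with hR'
      have hR'c := card_comap_mk O R
      have hR'n : R'.Normal := hRn.comap _
      have hR'i : V₁.Inv R' := by
        intro x hx
        exact ⟨(hRi _ hx).1, (hRi _ hx).2⟩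
      have hR'o : Odd (Nat.card R') := by
        rw [hR'c]
        exact hRo.mul hOo
      have h1 := hOmax R' hR'n hR'i hR'o
      rw [hR'c] at h1
      have h2 : Nat.card R ≤ 1 := by
        by_contra hne
        have : 2 ≤ Nat.card R := by omega
        have h3 : 0 < Nat.card O := Nat.card_pos
        nlinarith
      exact Subgroup.card_eq_one.mp (le_antisymm h2 Nat.card_pos)
    have hX := core_bound hN' (V₁.quo O hOi) (V₁.Bd_quo hV₁B O hOi) (genTwo_quot genTwo_twoGen O) hNO hfX
    rw [hK, hT']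
    calc Nat.card (K ⧸ T) * (Nat.card (T ⧸ O) * Nat.card O)
        = Nat.card (K ⧸ T) * (Nat.card O * Nat.card (T ⧸ O)) := by ring
      _ ≤ _ := Nat.mul_le_mul hQ (Nat.mul_le_mul hO hX)

end Main

end Cfsg.Agent.H22
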