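import Cfsg.Agent.Lib.H22.VAutB
import Cfsg.Agent.Lib.H22.Landau
import Cfsg.Agent.Lib.H21.Subsec3
import Cfsg.Agent.Lib.H21.Second4
import Cfsg.Agent.Lib.H21.RegProj
import Cfsg.Agent.Lib.H21.InflateBlocks
import Cfsg.Agent.Lib.H21.CentralDefect
import Cfsg.Agent.Lib.H21.MinMax2
import Cfsg.Agent.Lib.H21.CharBasis

/-! Bounds for groups with few large `2`-blocks. -/

set_option autoImplicit false
set_option linter.unusedSectionVars false
set_option linter.style.haveILetI false
set_option linter.unusedSimpArgs false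

namespace Cfsg.Agent.H22

open Cfsg Cfsg.Agent.H21

universe u

section

variable {G : Type u} [Group G] [Finite G] {M : Ideal AlgInt} [hMp : M.IsPrime]

theorem quot_defect_lt [Fact (Nat.Prime 2)] (hM : IsPModular 2 M) (Q : Subgroup G) (hQ : IsPGroup 2 Q)
    (hcomm : Q ≤ Subgroup.centralizer (Q : Set G)) (hQ2 : Nat.card Q = 2) (r : ℕ)
    (hG : ∀ B : Set (IrrCharacter G), IsPBlock M B → B ≠ principalBlock M G → blockDefect 2 B < r + 1)
    [hTn : (Q.subgroupOf (Subgroup.centralizer (Q : Set G))).Normal]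
    (b : Set (IrrCharacter (Subgroup.centralizer (Q : Set G) ⧸ Q.subgroupOf (Subgroup.centralizer (Q : Set G)))))
    (hb : IsPBlock M b) (hne : b ≠ principalBlock M _) : blockDefect 2 b < r := by
  classical
  set H := Subgroup.centralizer (Q : Set G) with hH
  set T := Q.subgroupOf H with hT
  have hidx : (Subgroup.centralizer (T : Set H)).index = 2 ^ 0 := by
    have : Subgroup.centralizer (T : Set H) = ⊤ := by
      rw [eq_top_iff]
      intro x _
      rw [Subgroup.mem_centralizer_iff]
      intro y hy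
      have h1 : (y : G) ∈ Q := hy
      have h2 := Subgroup.mem_centralizer_iff.mp x.2 _ h1
      exact Subtype.ext h2
    rw [this, Subgroup.index_top, pow_zero]
  have hTp : IsPGroup 2 T := hQ.comap_subtype
  obtain ⟨χ, hχ⟩ := hb
  have hb' : IsPBlock M b := ⟨χ, hχ⟩
  let ψ : IrrCharacter H := ⟨χ.1 ∘ QuotientGroup.mk' T, isIrr_inflate T χ.2⟩
  have hψ : IsPBlock M (blockOf M ψ.1) := ⟨ψ, rfl⟩
  have hχb : χ ∈ b := by rw [hχ]; exact self_mem_blockOf χ
  have hbne : blockOf M ψ.1 ≠ principalBlock M H := by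
    intro h
    have h1 : ψ ∈ principalBlock M H := h ▸ self_mem_blockOf ψ
    have h2 : SameBlock M ((oneIrr (H ⧸ T)).1 ∘ QuotientGroup.mk' T) (χ.1 ∘ QuotientGroup.mk' T) := h1
    have h3 := (sameBlock_quot_iff hM hTp hidx (oneIrr _) χ).mpr h2
    have h4 : χ ∈ principalBlock M (H ⧸ T) := h3
    apply hne
    rw [hχ, ← block_eq_of_mem principalBlock_isBlock h4]
  by_contra hge
  push Not at hge
  obtain ⟨χ₀, hχ₀, hmin⟩ := exists_min_height (p := 2) hb'
  let ψ₀ : IrrCharacter H := ⟨χ₀.1 ∘ QuotientGroup.mk' T, isIrr_inflate T χ₀.2⟩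
  have hψ₀ : ψ₀ ∈ blockOf M ψ.1 := by
    have h1 : SameBlock M χ.1 χ₀.1 := by
      have h2 : χ₀ ∈ blockOf M χ.1 := hχ ▸ hχ₀
      exact h2
    exact sameBlock_inflate T h1
  have hdeg : charDegree ψ₀.1 = charDegree χ₀.1 := by
    unfold charDegree
    show ⌊(χ₀.1 ((QuotientGroup.mk' T) 1)).re⌋₊ = _
    rw [map_one]
  have hmin2 : minExp 2 (blockOf M ψ.1) ≤ minExp 2 b := by
    rw [← hmin, ← hdeg]
    exact minExp_le hψ₀
  have hcT : Nat.card T = 2 := by
    rw [← hQ2]
    exact Nat.card_congr (Subgroup.subgroupOfEquivOfLe hcomm).toEquiv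
  have hcH : Nat.card H = Nat.card (H ⧸ T) * 2 := by
    have := Subgroup.card_mul_index T
    rw [Subgroup.index_eq_card, hcT] at this
    rw [← this]; ring
  have hvH : (Nat.card H).factorization 2 = (Nat.card (H ⧸ T)).factorization 2 + 1 := by
    rw [hcH, Nat.factorization_mul Nat.card_pos.ne' (by norm_num)]
    simp [Nat.Prime.factorization_self Nat.prime_two]
  have hdb : r + 1 ≤ blockDefect 2 (blockOf M ψ.1) := by
    have h1 : minExp 2 b ≤ (Nat.card (H ⧸ T)).factorization 2 := minExp_le_card (p := 2) hb'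
    have hge' : r ≤ (Nat.card (H ⧸ T)).factorization 2 - minExp 2 b := hge
    rw [blockDefect_eq]
    omega
  obtain ⟨B, hind⟩ := exists_induced_centralizer hM hQ hψ
  by_cases hBp : B = principalBlock M G
  · rw [hBp] at hind
    exact hbne ((induced_principal_iff_aux hM hQ hψ).mp hind)
  · have h1 := hG B hind.2.1 hBp
    obtain ⟨D, hD⟩ := isDefectGroup_exists (p := 2) hind.1
    obtain ⟨E, hE, hle⟩ := induced_defect_le hM hind hD
    have h2 := Subgroup.card_le_of_le hle
    rw [Subgroup.card_map_of_injective (Subgroup.subtype_injective _), card_defect hM hind.1 hD,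
      card_defect hM hind.2.1 hE] at h2
    have h3 := (Nat.pow_le_pow_iff_right (by norm_num : 1 < 2)).mp h2
    omega

end

/-- The inductive statement. -/
def BlockBd (a N : ℕ) : Prop :=
  ∀ (G : Type u) [Group G] [Finite G] (M : Ideal AlgInt) (r : ℕ), IsPModular 2 M →
    (Nat.card G).factorization 2 ≤ a →
    (∀ B : Set (IrrCharacter G), IsPBlock M B → B ≠ principalBlock M G → blockDefect 2 B < r) →
    (∃ E : Subgroup G, IsMulCommutative E ∧ (∀ x ∈ E, x * x = 1) ∧ Nat.card E = 2 ^ (r + 1)) →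
    Nat.card G ≤ N

section

variable {G : Type u} [Group G] [Finite G] {M : Ideal AlgInt}

/-- Centralizers of involutions in `E` are bounded. -/
theorem cent_card_le {a r N' : ℕ} (IH : BlockBd.{u} a N') (hM : IsPModular 2 M)
    (hfac : (Nat.card G).factorization 2 ≤ a + 1)
    (hG : ∀ B : Set (IrrCharacter G), IsPBlock M B → B ≠ principalBlock M G → blockDefect 2 B < r + 1)
    (E : Subgroup G) (hEc : IsMulCommutative E) (hE2 : ∀ x ∈ E, x * x = 1)
    (hEcard : Nat.card E = 2 ^ (r + 1 + 1)) (t : G) (htE : t ∈ E) (ht : t ≠ 1) :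
    Nat.card (Subgroup.centralizer ((Subgroup.zpowers t : Subgroup G) : Set G)) ≤ 2 * N' := by
  classical
  haveI : Fact (Nat.Prime 2) := ⟨Nat.prime_two⟩
  haveI : M.IsPrime := hM.2.1.isPrime
  have ht2 : orderOf t = 2 := orderOf_eq_prime (by rw [pow_two]; exact hE2 t htE) ht
  set Q := Subgroup.zpowers t with hQ
  have hQc : Nat.card Q = 2 := by rw [hQ, Nat.card_zpowers, ht2]
  have hQp : IsPGroup 2 Q := IsPGroup.of_card (n := 1) (by rw [hQc, pow_one])
  have hcomm : Q ≤ Subgroup.centralizer (Q : Set G) := by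
    intro x hx
    rw [Subgroup.mem_centralizer_iff]
    intro y hy
    obtain ⟨k, rfl⟩ := Subgroup.mem_zpowers_iff.mp hx
    obtain ⟨l, rfl⟩ := Subgroup.mem_zpowers_iff.mp hy
    rw [← zpow_add, ← zpow_add, add_comm]
  set H := Subgroup.centralizer (Q : Set G) with hH
  set T := Q.subgroupOf H with hT
  haveI hTn : T.Normal := by
    refine ⟨fun n hn g => ?_⟩
    have h1 : (n : G) ∈ Q := hn
    have h2 := Subgroup.mem_centralizer_iff.mp g.2 _ h1
    have h3 : g * n * g⁻¹ = n := by
      apply Subtype.ext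
      show (g : G) * n * (g : G)⁻¹ = n
      rw [← h2, mul_assoc, mul_inv_cancel, mul_one]
    rw [h3]
    exact hn
  have hcT : Nat.card T = 2 := by
    rw [← hQc]
    exact Nat.card_congr (Subgroup.subgroupOfEquivOfLe hcomm).toEquiv
  have hcH : Nat.card H = Nat.card (H ⧸ T) * 2 := by
    have := Subgroup.card_mul_index T
    rw [Subgroup.index_eq_card, hcT] at this
    rw [← this]; ring
  have hEH : E ≤ H := by
    intro x hx
    rw [hH, Subgroup.mem_centralizer_iff]
    intro y hy
    obtain ⟨k, rfl⟩ := Subgroup.mem_zpowers_iff.mp hy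
    have h1 : Commute t x := by
      have := hEc.is_comm.comm ⟨t, htE⟩ ⟨x, hx⟩
      exact congrArg Subtype.val this
    exact (h1.zpow_left k)
  have hfH : (Nat.card (H ⧸ T)).factorization 2 ≤ a := by
    have h1 : Nat.card H ∣ Nat.card G := Subgroup.card_subgroup_dvd_card H
    have h2 := (Nat.factorization_le_iff_dvd Nat.card_pos.ne' Nat.card_pos.ne').mpr h1 2
    rw [hcH, Nat.factorization_mul Nat.card_pos.ne' (by norm_num)] at h2
    simp only [Finsupp.add_apply, Nat.Prime.factorization_self Nat.prime_two] at h2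
    omega
  -- the image of `E`
  set EH := E.subgroupOf H with hEHd
  set Ebar := EH.map (QuotientGroup.mk' T) with hEbar
  have hTEH : T ≤ EH := by
    intro x hx
    have h1 : (x : G) ∈ Q := hx
    have h2 : Q ≤ E := by
      rw [hQ, Subgroup.zpowers_le]
      exact htE
    exact h2 h1
  have hcE : Nat.card Ebar * 2 = 2 ^ (r + 1 + 1) := by
    have h1 := card_comap_mk T Ebar
    have h2 : Ebar.comap (QuotientGroup.mk' T) = EH := by
      rw [hEbar, Subgroup.comap_map_eq_self]
      rwa [QuotientGroup.ker_mk']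
    rw [h2, hcT] at h1
    rw [← h1, ← hEcard]
    exact Nat.card_congr (Subgroup.subgroupOfEquivOfLe hEH).toEquiv
  have hcE' : Nat.card Ebar = 2 ^ (r + 1) := by
    rw [pow_succ 2 (r + 1)] at hcE
    exact Nat.eq_of_mul_eq_mul_right (by norm_num) hcE
  have hEbc : IsMulCommutative Ebar := by
    refine ⟨⟨?_⟩⟩
    rintro ⟨_, x, hx, rfl⟩ ⟨_, y, hy, rfl⟩
    apply Subtype.ext
    show ((x * y : H) : H ⧸ T) = ((y * x : H) : H ⧸ T)
    have h1 : x * y = y * x := by
      have := hEc.is_comm.comm ⟨(x : G), hx⟩ ⟨(y : G), hy⟩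
      have h0 : (x : G) * (y : G) = (y : G) * (x : G) := congrArg Subtype.val this
      exact Subtype.ext h0
    rw [h1]
  have hEb2 : ∀ x ∈ Ebar, x * x = 1 := by
    rintro _ ⟨x, hx, rfl⟩
    have h1 : x * x = 1 := Subtype.ext (hE2 _ hx)
    rw [← map_mul, h1, map_one]
  have hbar := IH (H ⧸ T) M r hM hfH
    (fun b hb hne => quot_defect_lt hM Q hQp hcomm hQc r hG b hb hne)
    ⟨Ebar, hEbc, hEb2, hcE'⟩
  rw [hcH]
  omega

end

/-- The conjugation action of two commuting involutions. -/
def conjVAct {G : Type u} [Group G] (s t : G) (hs : s * s = 1) (ht : t * t = 1) (hst : s * t = t * s) :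
    VAct G where
  a := (MulAut.conj s).toMonoidHom
  b := (MulAut.conj t).toMonoidHom
  aa := by
    intro x
    show s * (s * x * s⁻¹) * s⁻¹ = x
    have h : s⁻¹ = s := (eq_inv_of_mul_eq_one_left hs).symm
    rw [h]
    calc s * (s * x * s) * s = (s * s) * x * (s * s) := by group
      _ = x := by rw [hs]; group
  bb := by
    intro x
    show t * (t * x * t⁻¹) * t⁻¹ = x
    have h : t⁻¹ = t := (eq_inv_of_mul_eq_one_left ht).symm
    rw [h]
    calc t * (t * x * t) * t = (t * t) * x * (t * t) := by group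
      _ = x := by rw [ht]; group
  ab := by
    intro x
    show s * (t * x * t⁻¹) * s⁻¹ = t * (s * x * s⁻¹) * t⁻¹
    have h1 : s * (t * x * t⁻¹) * s⁻¹ = (s * t) * x * (s * t)⁻¹ := by group
    have h2 : t * (s * x * s⁻¹) * t⁻¹ = (t * s) * x * (t * s)⁻¹ := by group
    rw [h1, h2, hst]

theorem fix_conj_le {G : Type u} [Group G] (t : G) (f : G →* G) (hf : ∀ x, f x = t * x * t⁻¹) :
    fixS f ≤ Subgroup.centralizer ((Subgroup.zpowers t : Subgroup G) : Set G) := by
  intro x hx
  rw [Subgroup.mem_centralizer_iff]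
  intro y hy
  obtain ⟨k, rfl⟩ := Subgroup.mem_zpowers_iff.mp hy
  have h1 : t * x * t⁻¹ = x := by rw [← hf]; exact hx
  have h2 : Commute t x := by
    show t * x = x * t
    calc t * x = (t * x * t⁻¹) * t := by group
      _ = x * t := by rw [h1]
  exact h2.zpow_left k

/-- **Main bound.** -/
theorem block_bound (a : ℕ) : ∃ N : ℕ, BlockBd.{u} a N := by
  induction a with
  | zero =>
    refine ⟨0, fun G _ _ M r hM hf _ hE => ?_⟩
    obtain ⟨E, -, -, hE⟩ := hE
    exfalso
    have h1 : Nat.card E ∣ Nat.card G := Subgroup.card_subgroup_dvd_card E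
    have h2 : 2 ∣ Nat.card G := by
      refine Dvd.dvd.trans ?_ h1
      rw [hE, pow_succ]
      exact Dvd.intro_left _ rfl
    have := (Nat.prime_two.dvd_iff_one_le_factorization Nat.card_pos.ne').mp h2
    omega
  | succ a ih =>
    obtain ⟨N', hN'⟩ := ih
    obtain ⟨NL, hNL⟩ := landau_bound.{u} (2 ^ (2 * (a + 1)) + 4)
    obtain ⟨F, hF⟩ := vact_bound.{u} (2 * N') (a + 1)
    refine ⟨max NL F, fun G _ _ M r hM hf hG hE => ?_⟩
    classical
    haveI : Fact (Nat.Prime 2) := ⟨Nat.prime_two⟩
    haveI hMp : M.IsPrime := hM.2.1.isPrime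
    cases r with
    | zero =>
      apply le_max_of_le_left
      apply hNL G
      rw [← card_irr_eq_card_conjClasses]
      haveI : Fintype G := Fintype.ofFinite G
      haveI : Fintype (IrrCharacter G) := Fintype.ofFinite _
      have hall : ∀ χ : IrrCharacter G, χ ∈ principalBlock M G := by
        intro χ
        by_cases h : blockOf M χ.1 = principalBlock M G
        · rw [← h]; exact self_mem_blockOf χ
        · exact absurd (hG _ ⟨χ, rfl⟩ h) (Nat.not_lt_zero _)
      have h1 := brauer_feit hM (principalBlock_isBlock (M := M) (G := G))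
      have h2 : Nat.card (principalBlock M G) = Nat.card (IrrCharacter G) := by
        apply Nat.card_congr
        exact Equiv.subtypeUnivEquiv hall
      rw [h2] at h1
      have h3 : blockDefect 2 (principalBlock M G) ≤ a + 1 := by
        rw [blockDefect_eq]
        omega
      have h4 : (2 : ℕ) ^ (2 * blockDefect 2 (principalBlock M G)) ≤ 2 ^ (2 * (a + 1)) :=
        Nat.pow_le_pow_right (by norm_num) (by omega)
      omega
    | succ r =>
      apply le_max_of_le_right
      obtain ⟨E, hEc, hE2, hEcard⟩ := hE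
      -- two involutions
      have hE4 : 4 ≤ Nat.card E := by
        rw [hEcard, pow_succ, pow_succ]
        have := Nat.one_le_two_pow (n := r)
        omega
      haveI : Finite E := inferInstance
      haveI : Fintype E := Fintype.ofFinite E
      obtain ⟨s₁, s₂, h12, h11, h21⟩ : ∃ s₁ s₂ : E, s₁ ≠ s₂ ∧ s₁ ≠ 1 ∧ s₂ ≠ 1 := by
        have h3 : 2 < Fintype.card E := by
          rw [← Nat.card_eq_fintype_card]
          omega
        obtain ⟨x, y, z, hxy, hxz, hyz⟩ := Fintype.two_lt_card_iff.mp h3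
        by_cases hx : x = 1
        · exact ⟨y, z, hyz, fun h => hxy (hx.trans h.symm), fun h => hxz (hx.trans h.symm)⟩
        · by_cases hy : y = 1
          · exact ⟨x, z, hxz, hx, fun h => hyz (hy.trans h.symm)⟩
          · exact ⟨x, y, hxy, hx, hy⟩
      have h1E : (s₁ : G) ∈ E := s₁.2
      have h2E : (s₂ : G) ∈ E := s₂.2
      have h1ne : (s₁ : G) ≠ 1 := fun h => h11 (Subtype.ext h)
      have h2ne : (s₂ : G) ≠ 1 := fun h => h21 (Subtype.ext h)
      have hcomm : (s₁ : G) * s₂ = s₂ * s₁ := by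
        have := hEc.is_comm.comm s₁ s₂
        exact congrArg Subtype.val this
      have h3ne : (s₁ : G) * s₂ ≠ 1 := by
        intro h
        have h4 : (s₁ : G) = s₂ := by
          have h5 := hE2 _ h2E
          calc (s₁ : G) = s₁ * (s₂ * s₂) := by rw [h5, mul_one]
            _ = (s₁ * s₂) * s₂ := by group
            _ = s₂ := by rw [h, one_mul]
        exact h12 (Subtype.ext h4)
      let V := conjVAct (s₁ : G) s₂ (hE2 _ h1E) (hE2 _ h2E) hcomm
      have hB : ∀ t ∈ E, t ≠ 1 → ∀ f : G →* G, (∀ x, f x = t * x * t⁻¹) →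
          Nat.card (fixS f) ≤ 2 * N' := by
        intro t ht ht1 f hf₀
        exact (Subgroup.card_le_of_le (fix_conj_le t f hf₀)).trans
          (cent_card_le hN' hM hf hG E hEc hE2 hEcard t ht ht1)
      have hV : V.Bd (2 * N') := by
        refine ⟨hB _ h1E h1ne _ fun x => rfl, hB _ h2E h2ne _ fun x => rfl,
          hB _ (Subgroup.mul_mem _ h1E h2E) h3ne _ fun x => ?_⟩
        show (s₁ : G) * ((s₂ : G) * x * (s₂ : G)⁻¹) * (s₁ : G)⁻¹ = _
        group
      exact hF G V hV hf

end Cfsg.Agent.H22
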