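import Cfsg.Agent.Lib.H22.KnorrStab
import Cfsg.Agent.Lib.H22.TCase
import Cfsg.Agent.Lib.H22.Inertial

/-! # Brauer pairs carrying a weight -/

set_option autoImplicit false
set_option linter.unusedSectionVars false
set_option linter.style.haveILetI false
set_option linter.unusedSimpArgs false
set_option linter.unusedVariables false

namespace Cfsg.Agent.H22

open Cfsg Cfsg.Agent.H21 Module
open scoped ComplexConjugate

universe u

/-- Sums along a surjective homomorphism. -/
theorem sum_comp_surjective {K L : Type*} [Group K] [Group L] [Finite K] [Finite L] (ρ : K →* L)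
    (hρ : Function.Surjective ρ) (F : L → ℂ) :
    ∑ k : K, F (ρ k) = (Nat.card ρ.ker : ℂ) * ∑ l : L, F l := by
  classical
  have h1 : ∑ k : K, F (ρ k) = ∑ l : L, ∑ k ∈ Finset.univ.filter (fun k => ρ k = l), F (ρ k) :=
    (Finset.sum_fiberwise _ _ _).symm
  rw [h1, Finset.mul_sum]
  refine Finset.sum_congr rfl fun l _ => ?_
  obtain ⟨k₀, rfl⟩ := hρ l
  have h2 : ∑ k ∈ Finset.univ.filter (fun k => ρ k = ρ k₀), F (ρ k) =
      ∑ k ∈ Finset.univ.filter (fun k => ρ k = ρ k₀), F (ρ k₀) :=
    Finset.sum_congr rfl fun k hk => by rw [(Finset.mem_filter.mp hk).2]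
  rw [h2, Finset.sum_const, nsmul_eq_mul]
  congr 2
  have h3 : Nat.card ρ.ker = Nat.card {k : K // ρ k = ρ k₀} := by
    refine Nat.card_congr ⟨fun z => ⟨k₀ * z.1, by
      rw [map_mul, MonoidHom.mem_ker.mp z.2, mul_one]⟩, fun z => ⟨k₀⁻¹ * z.1, by
      rw [MonoidHom.mem_ker, map_mul, z.2, map_inv, inv_mul_cancel]⟩, ?_, ?_⟩
    · intro z
      apply Subtype.ext
      simp
    · intro z
      apply Subtype.ext
      simp
  rw [h3, Nat.card_eq_fintype_card, Fintype.card_subtype]

variable {G : Type u} [Group G] [Finite G] {p : ℕ} [hp : Fact p.Prime] {M : Ideal AlgInt}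

/-- The degree exponent of a block with trivial defect. -/
theorem factorization_of_defect_zero (hM : IsPModular p M) {K : Type*} [Group K] [Finite K]
    {c : Set (IrrCharacter K)} (hc : IsPBlock M c) {D : Subgroup K} (hD : IsDefectGroup p M c D)
    (hD1 : D = ⊥) {θ : IrrCharacter K} (hθ : θ ∈ c) :
    (charDegree θ.1).factorization p = (Nat.card K).factorization p := by
  classical
  haveI : M.IsPrime := hM.2.1.isPrime
  have h1 := card_defect hM hc hD
  rw [hD1, Subgroup.card_bot] at h1
  have h2 : blockDefect p c = 0 := by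
    by_contra hne
    have := Nat.one_lt_pow hne hp.out.one_lt
    omega
  have h3 := minExp_eq_of_defect (p := p) hc h2
  have h4 := minExp_le (p := p) hθ
  have h0 : charDegree θ.1 ≠ 0 := (irr_charDegree_pos θ.2).ne'
  have h5 := (Nat.factorization_le_iff_dvd h0 Nat.card_pos.ne').2 (H22.charDegree_dvd_card θ) p
  omega

/-- Defect groups of the block of a character of `p`-defect zero. -/
theorem defect_bot_of_zero (hM : IsPModular p M) {K : Type*} [Group K] [Finite K]
    (χ : IrrCharacter K) (h : (charDegree χ.1).factorization p = (Nat.card K).factorization p)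
    {D : Subgroup K} (hD : IsDefectGroup p M (blockOf M χ.1) D) : D = ⊥ := by
  classical
  haveI : M.IsPrime := hM.2.1.isPrime
  have hnot : ¬ p ∣ Nat.card K / charDegree χ.1 := by
    rw [not_dvd_codegree_iff]
    exact h.ge
  have hb : IsPBlock M (blockOf M χ.1) := isBlock_blockOf χ
  have h1 := card_defect hM hb hD
  have h2 : minExp p (blockOf M χ.1) = (charDegree χ.1).factorization p := by
    obtain ⟨χ₁, h3, h4⟩ := exists_min_height (p := p) hb
    have : χ₁ = χ := eq_of_mem_block_of_defect_zero hM χ hnot h3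
    rw [← h4, this]
  have h3 : blockDefect p (blockOf M χ.1) = 0 := by
    rw [blockDefect_eq, h2, h]
    simp
  rw [h3, pow_zero] at h1
  exact Subgroup.card_eq_one.mp h1

/-- `S4694`. -/
theorem weight_main (hM : IsPModular p M) {B : Set (IrrCharacter G)} {Q : Subgroup G}
    {e : Set (IrrCharacter (Subgroup.centralizer (Q : Set G)))} (hQe : IsBrauerPairOf p M B Q e)
    {T : Subgroup G}
    (hT : ∀ y : G, y ∈ T ↔ y ∈ Subgroup.normalizer (Q : Set G) ∧
      StabilizesBlock (Subgroup.centralizer (Q : Set G)) e y)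
    {F' : Set (IrrCharacter T)}
    (hF'e : ∀ t : T, blockCoeff F' t = subgroupBlockCoeff (Subgroup.centralizer (Q : Set G)) e (t : G))
    {χ : IrrCharacter T} (hχ : χ ∈ F')
    (hχQ : ∀ q : G, q ∈ Q → ∀ t : T, ∀ t' : T, (t' : G) = q * (t : G) → χ.1 t' = χ.1 t)
    (hdeg : (charDegree χ.1).factorization p + (Nat.card Q).factorization p =
      (Nat.card T).factorization p) :
    IsDefectGroup p M e ((Q ⊓ Subgroup.centralizer (Q : Set G)).subgroupOf
        (Subgroup.centralizer (Q : Set G))) ∧
      ∀ R : Subgroup G, R ≤ T → IsPGroup p R → (∀ t ∈ T, t ∈ Subgroup.normalizer (R : Set G)) → R ≤ Q := by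
  classical
  haveI : M.IsPrime := hM.2.1.isPrime
  have hQp : IsPGroup p Q := hQe.1.1
  have he : IsPBlock M e := hQe.1.2
  have hCT : Subgroup.centralizer (Q : Set G) ≤ T := fun c hc =>
    (hT c).2 ⟨Subgroup.centralizer_le_normalizer _ hc, stabilizes_of_mem e hc⟩
  have hQT : Q ≤ T := fun q hq =>
    (hT q).2 ⟨Subgroup.le_normalizer hq, stabilizes_of_centralizer e (by
      rw [Subgroup.mem_centralizer_iff]
      intro c hc
      exact ((Subgroup.mem_centralizer_iff.1 hc) q hq).symm)⟩
  have hTN : T ≤ Subgroup.normalizer (Q : Set G) := fun t ht => ((hT t).1 ht).1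
  haveI hQn : (Q.subgroupOf T).Normal :=
    (Subgroup.normal_subgroupOf_iff_le_normalizer hQT).mpr hTN
  set Q' := Q.subgroupOf T with hQ'
  have hQ'p : IsPGroup p Q' := hQp.comap_of_injective _ (Subgroup.subtype_injective T)
  have hcardQ' : Nat.card Q' = Nat.card Q :=
    Nat.card_congr (Subgroup.subgroupOfEquivOfLe hQT).toEquiv
  have hk : ∀ n ∈ Q', χ.1 n = χ.1 1 := by
    intro n hn
    refine hχQ n (Subgroup.mem_subgroupOf.mp hn) 1 n ?_
    simp
  obtain ⟨tf, htf, hfac⟩ := exists_descend Q' χ.2 hk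
  let χb : IrrCharacter (T ⧸ Q') := ⟨tf, htf⟩
  have hχb : ∀ t : T, χb.1 (t : T ⧸ Q') = χ.1 t := fun t => congrFun hfac t
  have hone : χb.1 1 = χ.1 1 := by
    have := hχb 1
    simpa using this
  have hdegb : charDegree χb.1 = charDegree χ.1 := by
    apply Nat.cast_injective (R := ℂ)
    rw [← one_eq_charDegree (Cfsg.Agent.H21.isCharacter_of_irr χb.2),
      ← one_eq_charDegree (Cfsg.Agent.H21.isCharacter_of_irr χ.2), hone]
  have hcardT : Nat.card T = Nat.card (T ⧸ Q') * Nat.card Q' :=
    Subgroup.card_eq_card_quotient_mul_card_subgroup Q'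
  have hQ0 : Nat.card Q' ≠ 0 := Nat.card_pos.ne'
  have hb0 : Nat.card (T ⧸ Q') ≠ 0 := Nat.card_pos.ne'
  have hdegZ : (charDegree χb.1).factorization p = (Nat.card (T ⧸ Q')).factorization p := by
    have h1 : (Nat.card T).factorization p = (Nat.card (T ⧸ Q')).factorization p +
        (Nat.card Q').factorization p := by
      rw [hcardT, Nat.factorization_mul hb0 hQ0]
      rfl
    rw [hdegb]
    rw [hcardQ'] at h1
    omega
  set Bb : Set (IrrCharacter (T ⧸ Q')) := blockOf M χb.1 with hBb
  have hBbB : IsPBlock M Bb := isBlock_blockOf χb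
  obtain ⟨Db, hDb⟩ := isDefectGroup_exists (p := p) hBbB
  have hDb1 : Db = ⊥ := defect_bot_of_zero hM χb hdegZ hDb
  constructor
  · -- the defect group of `e`
    haveI hNn : ((Subgroup.centralizer (Q : Set G)).subgroupOf T).Normal :=
      normal_centralizer_subgroupOf hTN
    set N' := (Subgroup.centralizer (Q : Set G)).subgroupOf T with hN'
    set N₁ : Subgroup (T ⧸ Q') := N'.map (QuotientGroup.mk' Q') with hN₁
    haveI hN₁n : N₁.Normal := Subgroup.Normal.map hNn _ (QuotientGroup.mk'_surjective Q')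
    obtain ⟨cb, hcb, -, ⟨χ₂, hχ₂, θb, hθb, hne⟩, hcbD⟩ := knorr_given hM N₁ Bb hBbB Db hDb
    have hχ₂b : χ₂ = χb := eq_of_mem_block_of_defect_zero hM χb
      ((not_dvd_codegree_iff χb).mpr hdegZ.ge) hχ₂
    subst hχ₂b
    have hcbD1 : (Db ⊓ N₁).subgroupOf N₁ = ⊥ := by
      rw [hDb1, bot_inf_eq]
      ext x
      simp [Subgroup.mem_subgroupOf]
    have hθbdeg := factorization_of_defect_zero hM hcb hcbD hcbD1 hθb
    -- the map
    let ρ : N' →* N₁ := (QuotientGroup.mk' Q').subgroupMap N'
    have hρ : Function.Surjective ρ := MonoidHom.subgroupMap_surjective _ _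
    let θ' : IrrCharacter N' := ⟨θb.1 ∘ ρ, isIrrCharacter_comp_of_surjective ρ hρ θb.2⟩
    let φ : N' ≃* Subgroup.centralizer (Q : Set G) := Subgroup.subgroupOfEquivOfLe hCT
    let θ : IrrCharacter (Subgroup.centralizer (Q : Set G)) := irrMap φ θ'
    have hne' : ∑ n : N', conj (θ'.1 n) * χ.1 n ≠ 0 := by
      have h1 : ∑ n : N₁, conj (θb.1 n) * χb.1 n ≠ 0 := (inner_ne_iff _ _).mp hne
      have h2 := sum_comp_surjective ρ hρ (fun n => conj (θb.1 n) * χb.1 n)
      have h3 : ∑ n : N', conj (θ'.1 n) * χ.1 n = ∑ n : N', (fun n => conj (θb.1 n) * χb.1 n) (ρ n) := by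
        refine Finset.sum_congr rfl fun n _ => ?_
        show conj (θb.1 (ρ n)) * χ.1 n = conj (θb.1 (ρ n)) * χb.1 ((n : T) : T ⧸ Q')
        rw [hχb]
      rw [h3, h2]
      refine mul_ne_zero ?_ h1
      exact_mod_cast (Nat.card_pos (α := ρ.ker)).ne'
    have hθ'mem : θ' ∈ irrMap (Subgroup.subgroupOfEquivOfLe hCT).symm '' e :=
      constituent_mem (fun t => by rw [sbc_subgroupOf]; exact hF'e t) hχ hne'
    have hθmem : θ ∈ e := by
      obtain ⟨ξ, hξ, hξeq⟩ := hθ'mem
      have : θ = ξ := by
        show irrMap φ θ' = ξ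
        rw [← hξeq]
        exact irrMap_irrMap_symm _ _
      rw [this]
      exact hξ
    set Z : Subgroup (Subgroup.centralizer (Q : Set G)) :=
      (Q ⊓ Subgroup.centralizer (Q : Set G)).subgroupOf (Subgroup.centralizer (Q : Set G)) with hZ
    have hZc : ∀ z ∈ Z, ∀ g, z * g = g * z := by
      intro z hz g
      apply Subtype.ext
      have hzQ : (z : G) ∈ Q := (Subgroup.mem_subgroupOf.mp hz).1
      exact (Subgroup.mem_centralizer_iff.1 g.2) z hzQ
    haveI hZn : Z.Normal := by
      constructor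
      intro n hn g
      rw [← hZc n hn g, mul_assoc, mul_inv_cancel, mul_one]
      exact hn
    have hZp : IsPGroup p Z := by
      have h1 : IsPGroup p ↥(Q ⊓ Subgroup.centralizer (Q : Set G)) := hQp.to_le inf_le_left
      exact h1.comap_of_injective _ (Subgroup.subtype_injective _)
    -- the kernel of `ρ`
    have hρker : ∀ n : N', ρ n = 1 ↔ ((n : T) : G) ∈ Q := by
      intro n
      constructor
      · intro h
        have h1 := congrArg Subtype.val h
        have h2 : (((n : T) : T ⧸ Q')) = 1 := h1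
        rw [QuotientGroup.eq_one_iff] at h2
        exact Subgroup.mem_subgroupOf.mp h2
      · intro h
        apply Subtype.ext
        show ((n : T) : T ⧸ Q') = 1
        rw [QuotientGroup.eq_one_iff]
        exact Subgroup.mem_subgroupOf.mpr h
    have hker : ∀ z ∈ Z, θ.1 z = θ.1 1 := by
      intro z hz
      show θb.1 (ρ (φ.symm z)) = θb.1 (ρ (φ.symm 1))
      have h1 : ρ (φ.symm z) = 1 := (hρker _).mpr (Subgroup.mem_subgroupOf.mp hz).1
      rw [h1, map_one, map_one]
    have hkercard : Nat.card ρ.ker = Nat.card Z := by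
      refine Nat.card_congr ⟨fun a => ⟨φ a.1, ?_⟩, fun a => ⟨φ.symm a.1, ?_⟩, ?_, ?_⟩
      · refine Subgroup.mem_subgroupOf.mpr ⟨?_, (φ a.1).2⟩
        exact (hρker a.1).mp (MonoidHom.mem_ker.mp a.2)
      · refine MonoidHom.mem_ker.mpr ((hρker _).mpr ?_)
        exact (Subgroup.mem_subgroupOf.mp a.2).1
      · intro a
        apply Subtype.ext
        exact φ.symm_apply_apply a.1
      · intro a
        apply Subtype.ext
        exact φ.apply_symm_apply a.1
    have hcardN : Nat.card (Subgroup.centralizer (Q : Set G)) = Nat.card N₁ * Nat.card Z := by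
      have h1 : Nat.card N' = Nat.card (Subgroup.centralizer (Q : Set G)) := Nat.card_congr φ.toEquiv
      have h2 : ρ.ker.index = Nat.card N₁ := by
        rw [Subgroup.index_ker, MonoidHom.range_eq_top.mpr hρ, Subgroup.card_top]
      have h3 := Subgroup.card_mul_index ρ.ker
      rw [h2, hkercard, h1] at h3
      rw [← h3, mul_comm]
    have hθdeg : (charDegree θ.1).factorization p + (Nat.card Z).factorization p =
        (Nat.card (Subgroup.centralizer (Q : Set G))).factorization p := by
      have h1 : θ.1 1 = θb.1 1 := by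
        show θb.1 (ρ (φ.symm 1)) = θb.1 1
        rw [map_one, map_one]
      have h2 : charDegree θ.1 = charDegree θb.1 := by
        apply Nat.cast_injective (R := ℂ)
        rw [← one_eq_charDegree (Cfsg.Agent.H21.isCharacter_of_irr θ.2),
          ← one_eq_charDegree (Cfsg.Agent.H21.isCharacter_of_irr θb.2), h1]
      rw [h2, hθbdeg, hcardN, Nat.factorization_mul Nat.card_pos.ne' Nat.card_pos.ne']
      rfl
    obtain ⟨D', hD'⟩ := isDefectGroup_exists (p := p) he
    have h1 : D' ≤ Z := defect_le_of_char hM Z hZc hZp he hθmem hker hθdeg hD'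
    have h2 : Z ≤ D' := normal_le_defect hM hZp he hD'
    have h3 : D' = Z := le_antisymm h1 h2
    rw [← h3]
    exact hD'
  · intro R hRT hRp hRN
    haveI hRn : (R.subgroupOf T).Normal :=
      (Subgroup.normal_subgroupOf_iff_le_normalizer hRT).mpr (fun t ht => hRN t ht)
    set R₁ : Subgroup (T ⧸ Q') := (R.subgroupOf T).map (QuotientGroup.mk' Q') with hR₁
    haveI hR₁n : R₁.Normal := Subgroup.Normal.map hRn _ (QuotientGroup.mk'_surjective Q')
    have hR₁p : IsPGroup p R₁ :=
      (hRp.comap_of_injective _ (Subgroup.subtype_injective T)).map _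
    have h1 : R₁ ≤ Db := normal_le_defect hM hR₁p hBbB hDb
    rw [hDb1] at h1
    intro r hr
    have h2 : ((⟨r, hRT hr⟩ : T) : T ⧸ Q') ∈ R₁ :=
      ⟨⟨r, hRT hr⟩, Subgroup.mem_subgroupOf.mpr hr, rfl⟩
    have h3 := h1 h2
    rw [Subgroup.mem_bot, QuotientGroup.eq_one_iff] at h3
    exact Subgroup.mem_subgroupOf.mp h3

end Cfsg.Agent.H22
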