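import Cfsg.Agent.Lib.H22.ColumnInner
import Cfsg.Agent.Lib.H21.BlockBasics
import Cfsg.Agent.Lib.H21.InducedBlock

/-! # Glauberman's relations for the principal `2`-block -/

set_option autoImplicit false
set_option linter.unusedSectionVars false
set_option linter.style.haveILetI false
set_option linter.unusedSimpArgs false

namespace Cfsg.Agent.H22

open Cfsg Cfsg.Agent.H21 Module
open scoped ComplexConjugate Pointwise

universe u

/-- The elementary moment argument. -/
theorem moment_lemma {ι : Type*} (S : Finset ι) (x d c : ι → ℝ) (hd : ∀ i ∈ S, 0 < d i)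
    (hc : ∀ i ∈ S, c i ≤ d i) (i₀ : ι) (h₀ : i₀ ∈ S) (hx₀ : 0 < x i₀) (hc₀ : c i₀ = d i₀)
    (E0 : ∑ i ∈ S, x i * d i = 0) (E1 : ∑ i ∈ S, x i * c i = 0)
    (E2 : ∑ i ∈ S, x i * (c i ^ 2 / d i) = 0)
    (hn : (∀ i ∈ S, ∀ j ∈ S, 0 < x i → 0 < x j → i = j) ∨
      (∀ i ∈ S, ∀ j ∈ S, x i < 0 → x j < 0 → i = j)) :
    ∃ i ∈ S, x i < 0 ∧ c i = d i := by
  classical
  -- a negative term exists
  have hneg : ∃ i ∈ S, x i < 0 := by
    by_contra hcon
    push Not at hcon
    have h1 : ∀ i ∈ S, 0 ≤ x i * d i := fun i hi => mul_nonneg (hcon i hi) (hd i hi).le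
    have h2 := (Finset.sum_eq_zero_iff_of_nonneg h1).1 E0 i₀ h₀
    have := mul_pos hx₀ (hd i₀ h₀)
    linarith
  rcases hn with hn | hn
  · obtain ⟨j, hj, hjx⟩ := hneg
    refine ⟨j, hj, hjx, ?_⟩
    have h1 : ∑ i ∈ S, x i * (c i - d i) = 0 := by
      simp only [mul_sub, Finset.sum_sub_distrib, E0, E1, sub_zero]
    have h2 : ∀ i ∈ S, 0 ≤ x i * (c i - d i) := by
      intro i hi
      rcases lt_trichotomy (x i) 0 with h | h | h
      · exact mul_nonneg_of_nonpos_of_nonpos h.le (by linarith [hc i hi])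
      · simp [h]
      · have := hn i hi i₀ h₀ h hx₀
        subst this
        simp [hc₀]
    have h3 := (Finset.sum_eq_zero_iff_of_nonneg h2).1 h1 j hj
    have h4 : c j - d j = 0 := by
      rcases mul_eq_zero.1 h3 with h | h
      · exact absurd h hjx.ne
      · exact h
    linarith
  · obtain ⟨j, hj, hjx⟩ := hneg
    refine ⟨j, hj, hjx, ?_⟩
    set r : ℝ := c j / d j with hr
    have hdj := hd j hj
    have hcj : c j = r * d j := by rw [hr]; field_simp
    have h1 : ∑ i ∈ S, x i * d i * (c i / d i - r) ^ 2 = 0 := by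
      have h2 : ∀ i ∈ S, x i * d i * (c i / d i - r) ^ 2 =
          x i * (c i ^ 2 / d i) - 2 * r * (x i * c i) + r ^ 2 * (x i * d i) := by
        intro i hi
        have := (hd i hi).ne'
        field_simp
        ring
      rw [Finset.sum_congr rfl h2, Finset.sum_add_distrib, Finset.sum_sub_distrib,
        ← Finset.mul_sum, ← Finset.mul_sum, E0, E1, E2]
      ring
    have h2 : ∀ i ∈ S, 0 ≤ x i * d i * (c i / d i - r) ^ 2 := by
      intro i hi
      rcases lt_trichotomy (x i) 0 with h | h | h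
      · have := hn i hi j hj h hjx
        subst this
        simp [hr]
      · simp [h]
      · exact mul_nonneg (mul_nonneg h.le (hd i hi).le) (sq_nonneg _)
    have h3 := (Finset.sum_eq_zero_iff_of_nonneg h2).1 h1 i₀ h₀
    have h4 : c i₀ / d i₀ - r = 0 := by
      rcases mul_eq_zero.1 h3 with h | h
      · exact absurd h (mul_pos hx₀ (hd i₀ h₀)).ne'
      · exact pow_eq_zero_iff (two_ne_zero) |>.1 h
    have h5 : c i₀ / d i₀ = 1 := by
      rw [hc₀]; exact div_self (hd i₀ h₀).ne'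
    have h6 : r = 1 := by linarith
    rw [hcj, h6, one_mul]

section

variable {G : Type u} [Group G] [Finite G] {p : ℕ} [hp : Fact p.Prime] {M : Ideal AlgInt}
  [hMp : M.IsPrime]

/-- The class function attached to the square of the class of `t`. -/
noncomputable def tsq (t : G) : G → ℂ := fun g => ∑ χ : IrrCharacter G, ((χ.1 t) ^ 2 / χ.1 1) • χ.1 g

theorem classInner_tsq (t : G) (ψ : IrrCharacter G) :
    classInner (tsq t) ψ.1 = (ψ.1 t) ^ 2 / ψ.1 1 := by
  classical
  have h : tsq t = ∑ χ : IrrCharacter G, ((χ.1 t) ^ 2 / χ.1 1) • χ.1 := by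
    funext g
    simp [tsq, Finset.sum_apply]
  rw [h, classInner_sum_left]
  simp only [classInner_smul_left, classInner_irr]
  simp

theorem tsq_eq_zero {t : G} (ht : t * t = 1) (g : G)
    (h : ∀ k : G, IsConj k t → ¬ IsConj (k * g) t) : tsq t g = 0 := by
  classical
  have htinv : t⁻¹ = t := inv_eq_of_mul_eq_one_left ht
  set n : ℂ := ((Subgroup.centralizer ({t} : Set G)).index : ℂ) with hn
  have hn0 : n ≠ 0 := by
    rw [hn]
    exact_mod_cast Subgroup.index_ne_zero_of_finite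
  have h1 : ∀ χ : IrrCharacter G, ((χ.1 t) ^ 2 / χ.1 1) • χ.1 g =
      n⁻¹ * ∑ k, classIndicator t k * (χ.1 (k * g) * conj (χ.1 t)) := by
    intro χ
    have h2 := sum_class_mul_char (classIndicator t) (classIndicator_isClass t) χ g
    rw [om_classIndicator] at h2
    have h3 : conj (χ.1 t) = χ.1 t := by
      rw [← isCharacter_inv (isCharacter_of_irr χ.2), htinv]
    have h4 : ∑ k, classIndicator t k * (χ.1 (k * g) * conj (χ.1 t)) =
        (∑ k, classIndicator t k * χ.1 (k * g)) * χ.1 t := by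
      rw [Finset.sum_mul, h3]
      exact Finset.sum_congr rfl fun k _ => by ring
    rw [h4, h2, smul_eq_mul]
    show _ = n⁻¹ * (centralChar χ.1 t * χ.1 g * χ.1 t)
    unfold centralChar
    rw [← hn]
    field_simp
  unfold tsq
  simp only [h1]
  rw [← Finset.mul_sum]
  have h5 : ∑ χ : IrrCharacter G, ∑ k, classIndicator t k * (χ.1 (k * g) * conj (χ.1 t)) = 0 := by
    rw [Finset.sum_comm]
    refine Finset.sum_eq_zero fun k _ => ?_
    rw [← Finset.mul_sum]
    by_cases hk : IsConj k t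
    · rw [column_orthogonality_of_not_isConj (h k hk), mul_zero]
    · have : classIndicator t k = 0 := if_neg hk
      rw [this, zero_mul]
  rw [h5, mul_zero]

theorem tsq_vanish {t : G} (ht : t * t = 1) (x : G)
    (hinv : ∀ g : G, (g * t * g⁻¹) * x * (g * t * g⁻¹)⁻¹ ≠ x⁻¹) (u z : G)
    (huz : IsPPart p u z) (hxz : IsConj x z) : tsq t u = 0 := by
  classical
  apply tsq_eq_zero ht
  intro k hk hk'
  have htinv : t⁻¹ = t := inv_eq_of_mul_eq_one_left ht
  obtain ⟨d, hd⟩ := isConj_iff.1 hk.symm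
  have hk1 : k * k = 1 := by
    rw [← hd]
    calc d * t * d⁻¹ * (d * t * d⁻¹) = d * (t * t) * d⁻¹ := by group
      _ = 1 := by rw [ht]; group
  have hkinv : k⁻¹ = k := inv_eq_of_mul_eq_one_left hk1
  obtain ⟨d', hd'⟩ := isConj_iff.1 hk'.symm
  have hku : k * u * (k * u) = 1 := by
    rw [← hd']
    calc d' * t * d'⁻¹ * (d' * t * d'⁻¹) = d' * (t * t) * d'⁻¹ := by group
      _ = 1 := by rw [ht]; group
  have h1 : k * u * k⁻¹ = u⁻¹ := by
    rw [hkinv]
    exact eq_inv_of_mul_eq_one_left (by rw [← hku]; group)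
  have h2 : IsPPart p (k * u * k⁻¹) (k * z * k⁻¹) := isPPart_conj huz k
  have h3 : IsPPart p u⁻¹ z⁻¹ := by
    obtain ⟨y, hxy, hc, ⟨l, hl⟩, hy⟩ := huz
    refine ⟨y⁻¹, ?_, hc.inv_inv, ⟨l, by rwa [orderOf_inv]⟩, by rwa [orderOf_inv]⟩
    rw [← hxy, mul_inv_rev, hc.symm.inv_inv.eq]
  rw [h1] at h2
  have h4 : k * z * k⁻¹ = z⁻¹ := pPart_unique h2 h3
  obtain ⟨c, hc⟩ := isConj_iff.1 hxz
  apply hinv (c⁻¹ * d)
  have h5 : (c⁻¹ * d) * t * (c⁻¹ * d)⁻¹ = c⁻¹ * k * c := by
    rw [← hd]; group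
  rw [h5]
  have h6 : c⁻¹ * k * c * x * (c⁻¹ * k * c)⁻¹ = c⁻¹ * (k * (c * x * c⁻¹) * k⁻¹) * c := by group
  rw [h6, hc, h4, ← hc]
  group

theorem block_tsq_zero (hM : IsPModular p M) {t : G} (ht : t * t = 1) (x : G)
    (hinv : ∀ g : G, (g * t * g⁻¹) * x * (g * t * g⁻¹)⁻¹ ≠ x⁻¹) {B : Set (IrrCharacter G)}
    (hB : IsPBlock M B) {k : ℕ} (hx : orderOf x = p ^ k) :
    ∑ χ : IrrCharacter G, eB B χ * (((χ.1 t) ^ 2 / χ.1 1) * χ.1 x) = 0 := by
  classical
  have h1 := blockPart_vanish_section (ϑ := tsq t) (x := x) hM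
    (fun u z huz hxz => tsq_vanish ht x hinv u z huz hxz) hB (u := x) (z := x)
    (⟨1, mul_one _, Commute.one_right _, ⟨k, hx⟩, by simpa using hp.out.one_lt.ne'⟩) (IsConj.refl x)
  rw [blockPart_eq] at h1
  simpa only [classInner_tsq] using h1

end

end Cfsg.Agent.H22
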